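import Cfsg.Agent.H2.Basic
import Cfsg.Agent.H23.PGroup

set_option autoImplicit false

namespace Cfsg.Agent.H10.AB
open Subgroup

theorem card_mul_rel {G : Type*} [Group G] {H K : Subgroup G} (h : H ≤ K) :
    Nat.card H * H.relIndex K = Nat.card K := by
  rw [← Subgroup.relIndex_bot_left, ← Subgroup.relIndex_bot_left K]
  exact Subgroup.relIndex_mul_relIndex ⊥ H K bot_le h

theorem exists_next {G : Type*} [Group G] [Finite G] {p : ℕ} [Fact p.Prime] (hG : IsPGroup p G)
    (A B : Subgroup G) [A.Normal] [B.Normal] (hBA : B < A) :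
    ∃ B' : Subgroup G, B'.Normal ∧ B < B' ∧ B' ≤ A ∧ Nat.card B' = Nat.card B * p ∧
      ∃ x ∈ B', (∀ g : G, g * x * g⁻¹ * x⁻¹ ∈ B) ∧ B' ≤ B ⊔ zpowers x := by
  have hp : p.Prime := Fact.out
  have hQ : IsPGroup p (G ⧸ B) := hG.to_quotient B
  have hA1 : A.map (QuotientGroup.mk' B) ≠ ⊥ := by
    intro h
    rw [Subgroup.map_eq_bot_iff, QuotientGroup.ker_mk'] at h
    exact absurd h (not_le_of_gt hBA)
  have hAn : (A.map (QuotientGroup.mk' B)).Normal :=
    Subgroup.Normal.map inferInstance _ (QuotientGroup.mk'_surjective B)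
  have h1 := H2.inf_center_ne_bot_of_normal hQ _ hA1
  set K := A.map (QuotientGroup.mk' B) ⊓ center (G ⧸ B) with hK
  have hKn : Nontrivial K := (Subgroup.nontrivial_iff_ne_bot K).2 h1
  have hKp : IsPGroup p K := hQ.to_subgroup K
  have hdvd : p ∣ Nat.card K := by
    obtain ⟨n, hn0, hn⟩ := (IsPGroup.nontrivial_iff_card hKp).1 hKn
    rw [hn]; exact dvd_pow_self p hn0.ne'
  obtain ⟨⟨y, hyK⟩, hy⟩ := exists_prime_orderOf_dvd_card' p hdvd
  have hyo : orderOf y = p := by rw [← Subgroup.orderOf_coe] at hy; exact hy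
  obtain ⟨hyA, hyZ⟩ := Subgroup.mem_inf.1 hyK
  obtain ⟨x, hxA, hxy⟩ := Subgroup.mem_map.1 hyA
  have hzn : (zpowers y).Normal := by
    constructor
    intro n hn g
    obtain ⟨k, rfl⟩ := Subgroup.mem_zpowers_iff.1 hn
    have : g * y ^ k * g⁻¹ = y ^ k := by
      have := (Subgroup.mem_center_iff.1 (zpow_mem hyZ k) g)
      rw [this]; group
    rw [this]; exact zpow_mem (mem_zpowers y) k
  have hker : (QuotientGroup.mk' B).ker = B := QuotientGroup.ker_mk' B
  have hBle : B ≤ (zpowers y).comap (QuotientGroup.mk' B) := by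
    intro b hb
    rw [Subgroup.mem_comap]
    have : QuotientGroup.mk' B b = 1 := by rw [← MonoidHom.mem_ker, hker]; exact hb
    rw [this]; exact one_mem _
  have hsup : (zpowers y).comap (QuotientGroup.mk' B) ≤ B ⊔ zpowers x := by
    intro z hz
    obtain ⟨k, hk⟩ := Subgroup.mem_zpowers_iff.1 (Subgroup.mem_comap.1 hz)
    have : z * (x ^ k)⁻¹ ∈ B := by
      rw [← hker, MonoidHom.mem_ker, map_mul, map_inv, map_zpow, hxy, hk, mul_inv_cancel]
    have h2 : z = (z * (x ^ k)⁻¹) * x ^ k := by group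
    rw [h2]
    exact mul_mem (mem_sup_left this) (mem_sup_right (zpow_mem (mem_zpowers x) k))
  have hxB' : x ∈ (zpowers y).comap (QuotientGroup.mk' B) := by
    rw [Subgroup.mem_comap, hxy]; exact mem_zpowers y
  have hcard : Nat.card ((zpowers y).comap (QuotientGroup.mk' B)) = Nat.card B * p := by
    have h3 : B.relIndex ((zpowers y).comap (QuotientGroup.mk' B)) = p := by
      have := Subgroup.relIndex_ker ((zpowers y).comap (QuotientGroup.mk' B)) (QuotientGroup.mk' B)
      rw [hker, Subgroup.map_comap_eq_self_of_surjective (QuotientGroup.mk'_surjective B)] at this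
      rw [this, Nat.card_zpowers, hyo]
    rw [← h3, card_mul_rel hBle] 
  refine ⟨(zpowers y).comap (QuotientGroup.mk' B), Subgroup.Normal.comap hzn _, ?_, ?_, hcard, x, hxB', ?_, hsup⟩
  · refine lt_of_le_of_ne hBle ?_
    intro h
    rw [← h] at hcard
    have : 0 < Nat.card B := Nat.card_pos
    have := hp.two_le
    nlinarith
  · refine hsup.trans (sup_le hBA.le ?_)
    rw [zpowers_le]; exact hxA
  · intro g
    rw [← hker, MonoidHom.mem_ker]
    simp only [map_mul, map_inv, hxy]
    rw [Subgroup.mem_center_iff.1 hyZ (QuotientGroup.mk' B g)]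
    group

theorem card_centralizer_le {G : Type*} [Group G] [Finite G] (B B' : Subgroup G) (hBB : B ≤ B') (x : G)
    (hx : ∀ g : G, g * x * g⁻¹ * x⁻¹ ∈ B) (hx' : x ∈ B') (hB : B' ≤ B ⊔ zpowers x) :
    Nat.card (centralizer (B : Set G)) ≤ Nat.card (centralizer (B' : Set G)) * Nat.card B := by
  have hle : centralizer (B' : Set G) ≤ centralizer (B : Set G) := Subgroup.centralizer_le hBB
  rw [← card_mul_rel hle]
  refine Nat.mul_le_mul_left _ ?_
  rw [Subgroup.relIndex, Subgroup.index]
  let f : (↥(centralizer (B : Set G)) ⧸ (centralizer (B' : Set G)).subgroupOf (centralizer (B : Set G))) → B :=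
    fun q => ⟨(q.out : G) * x * (q.out : G)⁻¹ * x⁻¹, hx _⟩
  refine Nat.card_le_card_of_injective f ?_
  intro q q' h
  have h1 : (q.out : G) * x * (q.out : G)⁻¹ * x⁻¹ = (q'.out : G) * x * (q'.out : G)⁻¹ * x⁻¹ :=
    congrArg Subtype.val h
  have h2 : (q.out : G) * x * (q.out : G)⁻¹ = (q'.out : G) * x * (q'.out : G)⁻¹ := mul_right_cancel h1
  rw [← QuotientGroup.out_eq' q, ← QuotientGroup.out_eq' q', QuotientGroup.eq, Subgroup.mem_subgroupOf]
  have h3 : B' ≤ centralizer ({((q.out)⁻¹ * q'.out : ↥(centralizer (B : Set G))).1} : Set G) := by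
    refine hB.trans (sup_le ?_ ?_)
    · intro b hb
      rw [Subgroup.mem_centralizer_singleton_iff]
      have := Subgroup.mem_centralizer_iff.1 ((q.out)⁻¹ * q'.out : ↥(centralizer (B : Set G))).2 b hb
      first | exact this | exact this.symm
    · rw [zpowers_le, Subgroup.mem_centralizer_singleton_iff]
      have h4 : (q'.out : G)⁻¹ * ((q.out : G) * x * (q.out : G)⁻¹) * q'.out = x := by rw [h2]; group
      show x * ((q.out : G)⁻¹ * q'.out) = ((q.out : G)⁻¹ * q'.out) * x
      have h5 : (q.out : G) * x * (q.out : G)⁻¹ * q'.out = q'.out * x := by rw [h2]; group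
      calc x * ((q.out : G)⁻¹ * q'.out) = (q.out : G)⁻¹ * ((q.out : G) * x * (q.out : G)⁻¹ * q'.out) := by group
        _ = ((q.out : G)⁻¹ * q'.out) * x := by rw [h5]; group
  rw [Subgroup.mem_centralizer_iff]
  intro b hb
  have := Subgroup.mem_centralizer_singleton_iff.1 (h3 hb)
  first | exact this | exact this.symm

theorem main {G : Type*} [Group G] [Finite G] {p : ℕ} [Fact p.Prime] (hG : IsPGroup p G)
    (A : Subgroup G) [A.Normal] (a : ℕ) (ha : Nat.card A = p ^ a) (k : ℕ) :
    ∀ (b : ℕ) (B : Subgroup G), b + k = a → B.Normal → B ≤ A → Nat.card B = p ^ b →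
      Nat.card (centralizer (B : Set G)) * p ^ (∑ i ∈ Finset.range b, i) ≤
        Nat.card (centralizer (A : Set G)) * p ^ (∑ i ∈ Finset.range a, i) := by
  have hp : p.Prime := Fact.out
  induction k with
  | zero =>
    intro b B hb hBn hBA hBc
    have hba : b = a := by omega
    subst hba
    have : B = A := Subgroup.eq_of_le_of_card_ge hBA (by rw [ha, hBc])
    rw [this]
  | succ k ih =>
    intro b B hb hBn hBA hBc
    have hlt : B < A := by
      refine lt_of_le_of_ne hBA ?_
      rintro rfl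
      rw [hBc] at ha
      have := Nat.pow_right_injective hp.two_le ha
      omega
    obtain ⟨B', hB'n, hBB', hB'A, hB'c, x, hxB', hx, hB'⟩ := exists_next hG A B hlt
    have h1 := card_centralizer_le B B' hBB'.le x hx hxB' hB'
    have h2 := ih (b + 1) B' (by omega) hB'n hB'A (by rw [hB'c, hBc, pow_succ])
    refine le_trans ?_ h2
    rw [Finset.sum_range_succ, pow_add]
    calc Nat.card (centralizer (B : Set G)) * p ^ (∑ i ∈ Finset.range b, i)
        ≤ (Nat.card (centralizer (B' : Set G)) * Nat.card B) * p ^ (∑ i ∈ Finset.range b, i) :=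
          Nat.mul_le_mul_right _ h1
      _ = _ := by rw [hBc]; ring

end Cfsg.Agent.H10.AB
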