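import Cfsg.Agent.H10.AB1
import Cfsg.Agent.H1.Hall

set_option autoImplicit false

namespace Cfsg.Agent.H10.AB
open Subgroup

theorem card_centralizer_le' {G : Type*} [Group G] [Finite G] (Z B B' : Subgroup G) (hBB : B ≤ B') (x : G)
    (hx : ∀ g : G, g * x * g⁻¹ * x⁻¹ ∈ Z) (hB : B' ≤ B ⊔ zpowers x) :
    Nat.card (centralizer (B : Set G)) ≤ Nat.card (centralizer (B' : Set G)) * Nat.card Z := by
  have hle : centralizer (B' : Set G) ≤ centralizer (B : Set G) := Subgroup.centralizer_le hBB
  rw [← card_mul_rel hle]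
  refine Nat.mul_le_mul_left _ ?_
  rw [Subgroup.relIndex, Subgroup.index]
  let f : (↥(centralizer (B : Set G)) ⧸ (centralizer (B' : Set G)).subgroupOf (centralizer (B : Set G))) → Z :=
    fun q => ⟨(q.out : G) * x * (q.out : G)⁻¹ * x⁻¹, hx _⟩
  refine Nat.card_le_card_of_injective f ?_
  intro q q' h
  have h1 : (q.out : G) * x * (q.out : G)⁻¹ * x⁻¹ = (q'.out : G) * x * (q'.out : G)⁻¹ * x⁻¹ :=
    congrArg Subtype.val h
  have h2 : (q.out : G) * x * (q.out : G)⁻¹ = (q'.out : G) * x * (q'.out : G)⁻¹ := mul_right_cancel h1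
  rw [← QuotientGroup.out_eq' q, ← QuotientGroup.out_eq' q', QuotientGroup.eq, Subgroup.mem_subgroupOf]
  have h3 : B' ≤ centralizer ({((q.out)⁻¹ * q'.out : ↥(centralizer (B : Set G))).1} : Set G) := by
    refine hB.trans (sup_le ?_ ?_)
    · intro b hb
      rw [Subgroup.mem_centralizer_singleton_iff]
      have := Subgroup.mem_centralizer_iff.1 ((q.out)⁻¹ * q'.out : ↥(centralizer (B : Set G))).2 b hb
      first | exact this | exact this.symm
    · rw [zpowers_le, Subgroup.mem_centralizer_singleton_iff]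
      have h4 : (q'.out : G)⁻¹ * ((q.out : G) * x * (q.out : G)⁻¹) * q'.out = x := by rw [h2]; group
      show x * ((q.out : G)⁻¹ * q'.out) = ((q.out : G)⁻¹ * q'.out) * x
      have h5 : (q.out : G) * x * (q.out : G)⁻¹ * q'.out = q'.out * x := by rw [h2]; group
      calc x * ((q.out : G)⁻¹ * q'.out) = (q.out : G)⁻¹ * ((q.out : G) * x * (q.out : G)⁻¹ * q'.out) := by group
        _ = ((q.out : G)⁻¹ * q'.out) * x := by rw [h5]; group
  rw [Subgroup.mem_centralizer_iff]
  intro b hb
  have := Subgroup.mem_centralizer_singleton_iff.1 (h3 hb)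
  first | exact this | exact this.symm

theorem normal_between {G : Type*} [Group G] {Z E B : Subgroup G} 
    (h : ∀ g : G, ∀ x ∈ E, g * x * g⁻¹ * x⁻¹ ∈ Z) (hZB : Z ≤ B) (hBE : B ≤ E) : B.Normal := by
  constructor
  intro x hx g
  have := mul_mem (hZB (h g x (hBE hx))) hx
  rwa [inv_mul_cancel_right] at this

theorem extra {G : Type*} [Group G] [Finite G] {p : ℕ} [Fact p.Prime] (hG : IsPGroup p G)
    (Z E : Subgroup G) (hZc : Nat.card Z = p)
    (h : ∀ g : G, ∀ x ∈ E, g * x * g⁻¹ * x⁻¹ ∈ Z) (hZE : Z ≤ E) (k : ℕ) :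
    ∀ (B : Subgroup G), Z ≤ B → B ≤ E → Nat.card B * p ^ k = Nat.card E →
      Nat.card (centralizer (B : Set G)) ≤
        Nat.card (centralizer (E : Set G)) * p ^ k := by
  have hp : p.Prime := Fact.out
  have hEn : E.Normal := normal_between h hZE le_rfl
  induction k with
  | zero =>
    intro B hZB hBE hBc
    have : B = E := Subgroup.eq_of_le_of_card_ge hBE (by rw [← hBc]; simp)
    rw [this]; simp
  | succ k ih =>
    intro B hZB hBE hBc
    have hlt : B < E := by
      refine lt_of_le_of_ne hBE ?_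
      rintro rfl
      have h1 : 0 < Nat.card B := Nat.card_pos
      have h2 : 1 < p ^ (k + 1) := Nat.one_lt_pow (by omega) hp.one_lt
      nlinarith
    have hBn : B.Normal := normal_between h hZB hBE
    obtain ⟨B', hB'n, hBB', hB'E, hB'c, x, hxB', hx, hB'⟩ := exists_next hG E B hlt
    have h1 := card_centralizer_le' Z B B' hBB'.le x (fun g => h g x (hB'E hxB')) hB'
    have h2 := ih B' (hZB.trans hBB'.le) hB'E (by rw [hB'c, ← hBc, pow_succ]; ring)
    rw [hZc] at h1
    calc Nat.card (centralizer (B : Set G)) ≤ Nat.card (centralizer (B' : Set G)) * p := h1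
      _ ≤ (Nat.card (centralizer (E : Set G)) * p ^ k) * p := Nat.mul_le_mul_right _ h2
      _ = _ := by rw [pow_succ]; ring

end Cfsg.Agent.H10.AB
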