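import Cfsg.Agent.H10.Sig2
import Cfsg.Agent.H10.TW1

set_option autoImplicit false
open Cfsg

/-!
# H10.Alp1: Alperin's fusion theorem with tame intersections (S0116)
-/

namespace Cfsg.Agent.H10.Alp

open Subgroup
open scoped Pointwise

variable {G : Type*} [Group G] {p : ℕ}

theorem mem_smul_iff (R : Sylow p G) (g z : G) :
    z ∈ ((g • R : Sylow p G) : Subgroup G) ↔ g⁻¹ * z * g ∈ (R : Subgroup G) := by
  rw [Sylow.coe_subgroup_smul, mem_pointwise_smul_iff_inv_smul_mem]
  have : (MulAut.conj g)⁻¹ • z = g⁻¹ * z * g := by simp [← map_inv]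
  rw [this]

/-- right conjugation -/
def rc (y : G) (A : Set G) : Set G := (fun a => y⁻¹ * a * y) '' A

theorem mem_rc {y z : G} {A : Set G} : z ∈ rc y A ↔ y * z * y⁻¹ ∈ A := by
  constructor
  · rintro ⟨a, ha, rfl⟩
    have : y * (y⁻¹ * a * y) * y⁻¹ = a := by group
    rwa [this]
  · intro h
    exact ⟨_, h, by group⟩

theorem rc_mono {y : G} {A B : Set G} (h : A ⊆ B) : rc y A ⊆ rc y B := Set.image_mono h

theorem rc_one (A : Set G) : rc 1 A = A := by
  ext z; rw [mem_rc]; simp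

theorem rc_mul (x y : G) (A : Set G) : rc (x * y) A = rc y (rc x A) := by
  ext z; rw [mem_rc, mem_rc, mem_rc]
  have : x * y * z * (x * y)⁻¹ = x * (y * z * y⁻¹) * x⁻¹ := by group
  rw [this]

/-- tame intersection -/
def Tame (P Q : Sylow p G) : Prop :=
  ¬ p ∣ ((P : Subgroup G) ⊓ normalizer ((((P : Subgroup G) ⊓ (Q : Subgroup G)) : Subgroup G) : Set G)).relIndex
    (normalizer ((((P : Subgroup G) ⊓ (Q : Subgroup G)) : Subgroup G) : Set G)) ∧
  ¬ p ∣ ((Q : Subgroup G) ⊓ normalizer ((((P : Subgroup G) ⊓ (Q : Subgroup G)) : Subgroup G) : Set G)).relIndex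
    (normalizer ((((P : Subgroup G) ⊓ (Q : Subgroup G)) : Subgroup G) : Set G))

inductive TC (P : Sylow p G) : Set G → G → Prop
  | nil (A : Set G) : TC P A 1
  | cons (A : Set G) (Q : Sylow p G) (y g : G) (ht : Tame P Q)
      (hy : y ∈ normalizer ((((P : Subgroup G) ⊓ (Q : Subgroup G)) : Subgroup G) : Set G))
      (hA : A ⊆ ((((P : Subgroup G) ⊓ (Q : Subgroup G)) : Subgroup G) : Set G))
      (h : TC P (rc y A) g) : TC P A (y * g)

theorem TC.trans {P : Sylow p G} {A : Set G} {g h : G} (H : TC P A g) (H' : TC P (rc g A) h) :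
    TC P A (g * h) := by
  induction H with
  | nil A => rw [rc_one] at H'; rwa [one_mul]
  | cons A Q y g ht hy hA _ ih =>
    rw [rc_mul] at H'
    rw [mul_assoc]
    exact TC.cons A Q y _ ht hy hA (ih H')

theorem TC.mono {P : Sylow p G} {A B : Set G} {g : G} (H : TC P A g) (h : B ⊆ A) : TC P B g := by
  induction H generalizing B with
  | nil A => exact TC.nil B
  | cons A Q y g ht hy hA _ ih => exact TC.cons B Q y g ht hy (h.trans hA) (ih (rc_mono h))

theorem exists_fin {P : Sylow p G} {A : Set G} {g : G} (H : TC P A g) :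
    ∃ (n : ℕ) (Q : Fin n → Sylow p G) (x : Fin n → G), (List.ofFn x).prod = g ∧
      (∀ i : Fin n, x i ∈ normalizer ((((P : Subgroup G) ⊓ (Q i : Subgroup G)) : Subgroup G) : Set G) ∧
        Tame P (Q i)) ∧
      (∀ h : 0 < n, A ⊆ (((P : Subgroup G) ⊓ (Q ⟨0, h⟩ : Subgroup G) : Subgroup G) : Set G)) ∧
      ∀ i : Fin n, ∀ h : i.val + 1 < n, rc (((List.ofFn x).take (i.val + 1)).prod) A ⊆
        (((P : Subgroup G) ⊓ (Q ⟨i.val + 1, h⟩ : Subgroup G) : Subgroup G) : Set G) := by
  induction H with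
  | nil A =>
    exact ⟨0, Fin.elim0, Fin.elim0, by simp, fun i => i.elim0, fun h => absurd h (lt_irrefl 0),
      fun i => i.elim0⟩
  | cons A Q y g ht hy hA _ ih =>
    obtain ⟨n, Q', x, h1, h2, h3, h4⟩ := ih
    refine ⟨n + 1, Fin.cons Q Q', Fin.cons y x, ?_, ?_, ?_, ?_⟩
    · rw [List.ofFn_cons, List.prod_cons, h1]
    · intro i
      refine Fin.cases ?_ ?_ i
      · exact ⟨hy, ht⟩
      · intro j
        simpa using h2 j
    · intro _
      exact hA
    · intro i h
      rw [List.ofFn_cons]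
      obtain ⟨i, hi⟩ := i
      rcases i with _ | j
      · have hn : 0 < n := by simpa using h
        have e : (List.take ((⟨0, hi⟩ : Fin (n + 1)).val + 1) (y :: List.ofFn x)).prod = y := by
          simp
        rw [e]
        exact h3 hn
      · have hn : j + 1 < n := by simpa using h
        have hj : j < n := by omega
        have e : (List.take ((⟨j + 1, hi⟩ : Fin (n + 1)).val + 1) (y :: List.ofFn x)).prod =
            y * (List.take (j + 1) (List.ofFn x)).prod := by
          rw [List.take_succ_cons, List.prod_cons]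
        rw [e, rc_mul]
        exact h4 ⟨j, hj⟩ hn

variable [Finite G] [hp : Fact p.Prime]

/-- a Sylow subgroup of `G` containing a given `p`-subgroup of `N` and a Sylow subgroup of `N` -/
theorem exists_sylow_ext (N U : Subgroup G) (hU : IsPGroup p U) (hUN : U ≤ N) :
    ∃ S : Sylow p G, U ≤ (S : Subgroup G) ∧ ¬ p ∣ ((S : Subgroup G) ⊓ N).relIndex N := by
  have h1 : IsPGroup p (U.subgroupOf N) := hU.comap_of_injective N.subtype N.subtype_injective
  obtain ⟨T, hT⟩ := h1.exists_le_sylow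
  have h2 : IsPGroup p ((T : Subgroup N).map N.subtype) := T.isPGroup'.map _
  obtain ⟨S, hS⟩ := h2.exists_le_sylow
  refine ⟨S, ?_, ?_⟩
  · intro u hu
    apply hS
    exact ⟨⟨u, hUN hu⟩, hT hu, rfl⟩
  · intro hd
    apply T.not_dvd_index
    have h3 : (T : Subgroup N) ≤ ((S : Subgroup G) ⊓ N).subgroupOf N := by
      intro t ht
      rw [mem_subgroupOf]
      exact mem_inf.2 ⟨hS ⟨t, ht, rfl⟩, t.2⟩
    exact hd.trans (index_dvd_of_le h3)

/-- conjugating Sylow subgroups of `N` cut out by Sylow subgroups of `G` -/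
theorem exists_conj_cut (N : Subgroup G) (S P : Sylow p G)
    (hS : ¬ p ∣ ((S : Subgroup G) ⊓ N).relIndex N) (hP : ¬ p ∣ ((P : Subgroup G) ⊓ N).relIndex N) :
    ∃ y ∈ N, ∀ z ∈ (S : Subgroup G) ⊓ N, y⁻¹ * z * y ∈ (P : Subgroup G) := by
  have hSp : IsPGroup p (((S : Subgroup G) ⊓ N).subgroupOf N) :=
    (S.isPGroup'.to_le inf_le_left).comap_of_injective N.subtype N.subtype_injective
  have hPp : IsPGroup p (((P : Subgroup G) ⊓ N).subgroupOf N) :=
    (P.isPGroup'.to_le inf_le_left).comap_of_injective N.subtype N.subtype_injective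
  let S' : Sylow p N := IsPGroup.toSylow hSp hS
  let P' : Sylow p N := IsPGroup.toSylow hPp hP
  obtain ⟨y, hy⟩ := MulAction.exists_smul_eq N P' S'
  refine ⟨y, y.2, fun z hz => ?_⟩
  have h1 : (⟨z, (mem_inf.1 hz).2⟩ : N) ∈ ((y • P' : Sylow p N) : Subgroup N) := by
    rw [hy]
    exact hz
  rw [mem_smul_iff] at h1
  exact (mem_inf.1 (show ((y⁻¹ * (⟨z, (mem_inf.1 hz).2⟩ : N) * y : N) : G) ∈ (P : Subgroup G) ⊓ N from h1)).1

end Cfsg.Agent.H10.Alp
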