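import Cfsg.Agent.H10.Alp1

set_option autoImplicit false
open Cfsg

namespace Cfsg.Agent.H10.Alp

open Subgroup
open scoped Pointwise

variable {G : Type*} [Group G] {p : ℕ}

/-- `x⁻¹ D x` -/
def cj (x : G) (D : Subgroup G) : Subgroup G := D.map (MulAut.conj x⁻¹).toMonoidHom

theorem mem_cj {x z : G} {D : Subgroup G} : z ∈ cj x D ↔ x * z * x⁻¹ ∈ D := by
  constructor
  · rintro ⟨d, hd, rfl⟩
    have : x * ((MulAut.conj x⁻¹).toMonoidHom d) * x⁻¹ = d := by
      change x * (x⁻¹ * d * x⁻¹⁻¹) * x⁻¹ = d
      group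
    rwa [this]
  · intro h
    refine ⟨_, h, ?_⟩
    change x⁻¹ * (x * z * x⁻¹) * x⁻¹⁻¹ = z
    group

theorem card_cj (x : G) (D : Subgroup G) : Nat.card (cj x D) = Nat.card D := card_map_equiv _ _

theorem rc_coe (x : G) (D : Subgroup G) : rc x (D : Set G) = (cj x D : Set G) := by
  ext z; rw [mem_rc, SetLike.mem_coe, SetLike.mem_coe, mem_cj]

theorem cj_mono {x : G} {D E : Subgroup G} (h : D ≤ E) : cj x D ≤ cj x E := Subgroup.map_mono h

theorem normalizer_cj (x : G) (D : Subgroup G) :
    normalizer (cj x D : Set G) = cj x (normalizer (D : Set G)) := by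
  ext n
  rw [mem_cj, mem_normalizer_iff, mem_normalizer_iff]
  constructor
  · intro h d
    have h1 := h (x⁻¹ * d * x)
    rw [mem_cj, mem_cj] at h1
    have e1 : x * (x⁻¹ * d * x) * x⁻¹ = d := by group
    have e2 : x * (n * (x⁻¹ * d * x) * n⁻¹) * x⁻¹ = x * n * x⁻¹ * d * (x * n * x⁻¹)⁻¹ := by group
    rwa [e1, e2] at h1
  · intro h d
    rw [mem_cj, mem_cj]
    have h1 := h (x * d * x⁻¹)
    have e2 : x * (n * d * n⁻¹) * x⁻¹ = x * n * x⁻¹ * (x * d * x⁻¹) * (x * n * x⁻¹)⁻¹ := by group
    rw [e2]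
    exact h1

theorem relIndex_cj (x : G) (D E : Subgroup G) : (cj x D).relIndex (cj x E) = D.relIndex E :=
  relIndex_map_map_of_injective D E (MulAut.conj x⁻¹).injective

theorem cj_sylow (x : G) (R : Sylow p G) : ((x⁻¹ • R : Sylow p G) : Subgroup G) = cj x (R : Subgroup G) := by
  ext z
  rw [mem_smul_iff, mem_cj, inv_inv]

theorem cj_inf (x : G) (D E : Subgroup G) : cj x (D ⊓ E) = cj x D ⊓ cj x E := by
  ext z; simp only [mem_cj, mem_inf]

theorem cj_eq_self {y : G} {D : Subgroup G} (h : y ∈ normalizer (D : Set G)) : cj y D = D := by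
  ext z
  rw [mem_cj]
  exact ((mem_normalizer_iff.1 h) z).symm

variable [Finite G] [hp : Fact p.Prime]

theorem lt_of_card_lt {D E : Subgroup G} (h : D ≤ E) (hne : D ≠ E) : Nat.card D < Nat.card E := by
  by_contra hcon
  push Not at hcon
  exact hne (Subgroup.eq_of_le_of_card_ge h hcon)

theorem claim (P : Sylow p G) : ∀ (n : ℕ) (R : Sylow p G),
    Nat.card (P : Subgroup G) - Nat.card ↥((P : Subgroup G) ⊓ (R : Subgroup G)) ≤ n →
    ∃ g : G, g⁻¹ • R = P ∧ TC P (((P : Subgroup G) ⊓ (R : Subgroup G) : Subgroup G) : Set G) g := by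
  intro n
  induction n using Nat.strong_induction_on with
  | _ n ih =>
    intro R hn
    set D : Subgroup G := (P : Subgroup G) ⊓ (R : Subgroup G) with hD
    have hcardR : ∀ R' : Sylow p G, Nat.card (R' : Subgroup G) = Nat.card (P : Subgroup G) := by
      intro R'
      obtain ⟨g, hg⟩ := MulAction.exists_smul_eq G P R'
      rw [← hg, ← inv_inv g, cj_sylow, card_cj]
    by_cases hDP : D = (P : Subgroup G)
    · refine ⟨1, ?_, TC.nil _⟩
      rw [inv_one, one_smul]
      apply Sylow.ext
      symm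
      apply Subgroup.eq_of_le_of_card_ge (inf_eq_left.1 hDP)
      rw [hcardR]
    · have hDlt : D < (P : Subgroup G) := lt_of_le_of_ne inf_le_left hDP
      have hcD : Nat.card D < Nat.card (P : Subgroup G) := lt_of_card_lt inf_le_left hDP
      -- IH in a convenient form
      have IH : ∀ R' : Sylow p G, Nat.card D < Nat.card ↥((P : Subgroup G) ⊓ (R' : Subgroup G)) →
          ∃ g : G, g⁻¹ • R' = P ∧ TC P (((P : Subgroup G) ⊓ (R' : Subgroup G) : Subgroup G) : Set G) g := by
        intro R' hR'
        exact ih (Nat.card (P : Subgroup G) - Nat.card ↥((P : Subgroup G) ⊓ (R' : Subgroup G)))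
          (by omega) R' le_rfl
      have hgrow : ∀ (Q : Sylow p G) (E : Subgroup G), E < (Q : Subgroup G) →
          Nat.card E < Nat.card ↥(normalizer (E : Set G) ⊓ (Q : Subgroup G)) := by
        intro Q E hE
        have h1 := lt_inf_normalizer Q.isPGroup' hE
        exact lt_of_card_lt h1.le h1.ne
      -- step 1
      obtain ⟨S, hS1, hS2⟩ := exists_sylow_ext (p := p) (normalizer (D : Set G))
        (normalizer (D : Set G) ⊓ (P : Subgroup G)) (P.isPGroup'.to_le inf_le_right) inf_le_left
      have hDS : D ≤ (S : Subgroup G) := le_trans (le_inf le_normalizer inf_le_left) hS1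
      obtain ⟨x, hx, hxT⟩ := IH S (lt_of_lt_of_le (hgrow P D hDlt)
        (Nat.le_of_dvd Nat.card_pos (card_dvd_of_le (le_inf inf_le_right hS1))))
      have hxT' : TC P (D : Set G) x := hxT.mono (le_inf inf_le_left hDS)
      have hxP : cj x (S : Subgroup G) = (P : Subgroup G) := by rw [← cj_sylow, hx]
      set D₁ := cj x D with hD₁
      set R₁ : Sylow p G := x⁻¹ • R with hR₁
      have hR₁c : (R₁ : Subgroup G) = cj x (R : Subgroup G) := cj_sylow x R
      have hD₁P : D₁ ≤ (P : Subgroup G) := by rw [← hxP]; exact cj_mono hDS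
      have hD₁R : D₁ ≤ (R₁ : Subgroup G) := by rw [hR₁c]; exact cj_mono inf_le_right
      have hcD₁ : Nat.card D₁ = Nat.card D := card_cj x D
      have hPN : ¬ p ∣ ((P : Subgroup G) ⊓ normalizer (D₁ : Set G)).relIndex (normalizer (D₁ : Set G)) := by
        rw [hD₁, normalizer_cj, ← hxP, ← cj_inf, relIndex_cj]
        exact hS2
      -- finishing from an element `y` carrying `R₁`
      have fin : ∀ (y : G), TC P (D₁ : Set G) y →
          Nat.card D < Nat.card ↥((P : Subgroup G) ⊓ ((y⁻¹ • R₁ : Sylow p G) : Subgroup G)) →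
          cj y D₁ ≤ (P : Subgroup G) → ∃ g : G, g⁻¹ • R = P ∧ TC P (D : Set G) g := by
        intro y hy hc hle
        obtain ⟨v, hv, hvT⟩ := IH (y⁻¹ • R₁) hc
        refine ⟨x * (y * v), ?_, ?_⟩
        · rw [mul_inv_rev, mul_inv_rev, mul_smul, mul_smul, ← hR₁, hv]
        · refine hxT'.trans ?_
          rw [rc_coe, ← hD₁]
          refine hy.trans ?_
          rw [rc_coe]
          apply hvT.mono
          refine le_inf hle ?_
          rw [cj_sylow]
          exact cj_mono hD₁R
      by_cases h1 : (P : Subgroup G) ⊓ (R₁ : Subgroup G) = D₁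
      · have hD₁lt : D₁ < (R₁ : Subgroup G) := by
          refine lt_of_le_of_ne hD₁R ?_
          intro h2
          have := hcardR R₁
          rw [← h2, hcD₁] at this
          omega
        set U := normalizer (D₁ : Set G) ⊓ (R₁ : Subgroup G) with hU
        have hUc : Nat.card D < Nat.card U := by rw [← hcD₁]; exact hgrow R₁ D₁ hD₁lt
        obtain ⟨S₁, hS₁1, hS₁2⟩ := exists_sylow_ext (p := p) (normalizer (D₁ : Set G)) U
          (R₁.isPGroup'.to_le inf_le_right) inf_le_left
        have hD₁U : D₁ ≤ U := le_inf le_normalizer hD₁R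
        by_cases h2 : (P : Subgroup G) ⊓ (S₁ : Subgroup G) = D₁
        · obtain ⟨y, hyN, hy⟩ := exists_conj_cut (normalizer (D₁ : Set G)) S₁ P hS₁2 hPN
          apply fin y
          · have ht : Tame P S₁ := by
              unfold Tame
              rw [h2]
              exact ⟨hPN, hS₁2⟩
            have := TC.cons (P := P) (D₁ : Set G) S₁ y 1 ht (by rw [h2]; exact hyN)
              (by rw [h2]) (TC.nil _)
            rwa [mul_one] at this
          · refine lt_of_lt_of_le hUc ?_
            rw [← card_cj y U]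
            apply Nat.le_of_dvd Nat.card_pos
            apply card_dvd_of_le
            refine le_inf ?_ ?_
            · intro z hz
              rw [mem_cj] at hz
              have := hy _ (mem_inf.2 ⟨hS₁1 hz, (mem_inf.1 hz).1⟩)
              have e : y⁻¹ * (y * z * y⁻¹) * y = z := by group
              rwa [e] at this
            · rw [cj_sylow]
              exact cj_mono inf_le_right
          · rw [cj_eq_self hyN]; exact hD₁P
        · have h3 : D₁ ≤ (P : Subgroup G) ⊓ (S₁ : Subgroup G) := le_inf hD₁P (hD₁U.trans hS₁1)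
          obtain ⟨w, hw, hwT⟩ := IH S₁ (by rw [← hcD₁]; exact lt_of_card_lt h3 (Ne.symm h2))
          have hwP : cj w (S₁ : Subgroup G) = (P : Subgroup G) := by rw [← cj_sylow, hw]
          apply fin w (hwT.mono h3)
          · refine lt_of_lt_of_le hUc ?_
            rw [← card_cj w U]
            apply Nat.le_of_dvd Nat.card_pos
            apply card_dvd_of_le
            refine le_inf ?_ ?_
            · rw [← hwP]; exact cj_mono hS₁1
            · rw [cj_sylow]; exact cj_mono inf_le_right
          · rw [← hwP]; exact cj_mono (hD₁U.trans hS₁1)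
      · have h3 : D₁ ≤ (P : Subgroup G) ⊓ (R₁ : Subgroup G) := le_inf hD₁P hD₁R
        apply fin 1 (TC.nil _)
        · rw [inv_one, one_smul, ← hcD₁]
          exact lt_of_card_lt h3 (Ne.symm h1)
        · rw [cj_eq_self (one_mem _)]; exact hD₁P

theorem main (P : Sylow p G) (A : Set G) (g : G) (hA : A ⊆ ((P : Subgroup G) : Set G))
    (hAg : rc g A ⊆ ((P : Subgroup G) : Set G)) : TC P A g := by
  obtain ⟨x, hx, hxT⟩ := claim P _ (g • P) le_rfl
  have hAR : A ⊆ (((P : Subgroup G) ⊓ ((g • P : Sylow p G) : Subgroup G) : Subgroup G) : Set G) := by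
    intro a ha
    refine mem_inf.2 ⟨hA ha, ?_⟩
    rw [mem_smul_iff]
    exact hAg ⟨a, ha, rfl⟩
  have h1 := hxT.mono hAR
  have h2 : (x⁻¹ * g) • P = P := by rw [mul_smul, hx]
  have h3 : x⁻¹ * g ∈ normalizer ((P : Subgroup G) : Set G) := Sylow.smul_eq_iff_mem_normalizer.1 h2
  have hPP : (P : Subgroup G) ⊓ (P : Subgroup G) = (P : Subgroup G) := inf_idem _
  have ht : Tame P P := by
    have h4 : ¬ p ∣ ((P : Subgroup G) ⊓ normalizer ((((P : Subgroup G) ⊓ (P : Subgroup G)) : Subgroup G) : Set G)).relIndex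
        (normalizer ((((P : Subgroup G) ⊓ (P : Subgroup G)) : Subgroup G) : Set G)) := by
      rw [hPP, inf_eq_left.2 le_normalizer]
      intro hd
      exact P.not_dvd_index (hd.trans (relIndex_dvd_index_of_le le_normalizer))
    exact ⟨h4, h4⟩
  have h5 : TC P (rc x A) (x⁻¹ * g) := by
    have := TC.cons (P := P) (rc x A) P (x⁻¹ * g) 1 ht (by rw [hPP]; exact h3) (by
      rw [hPP]
      intro z hz
      rw [mem_rc] at hz
      have h6 := (mem_inf.1 (hAR hz)).2
      have h7 : z ∈ ((x⁻¹ • (g • P) : Sylow p G) : Subgroup G) := by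
        rw [mem_smul_iff, inv_inv]; exact h6
      rw [hx] at h7
      exact h7) (TC.nil _)
    rwa [mul_one] at this
  have := h1.trans h5
  rwa [mul_inv_cancel_left] at this

end Cfsg.Agent.H10.Alp
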