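import Mathlib
import Cfsg.Agent.H23.Coprime5

set_option autoImplicit false
set_option linter.all false

/-!
# H10.CG1: Goldschmidt's generation lemma
-/

namespace Cfsg.Agent.H10

open Subgroup Cfsg.Agent.H23
open scoped commutatorElement

variable {X : Type*} [Group X]

/-- the subgroup generated by the `C_Y(B) ∩ [C_Y(B₀), A]` -/
def WW (Y A B : Subgroup X) : Subgroup X :=
  ⨆ B₀ ∈ cocyclic B, Y ⊓ centralizer (B : Set X) ⊓ ⁅Y ⊓ centralizer (B₀ : Set X), A⁆

theorem term_le_WW {Y A B B₀ : Subgroup X} (h : B₀ ∈ cocyclic B) :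
    Y ⊓ centralizer (B : Set X) ⊓ ⁅Y ⊓ centralizer (B₀ : Set X), A⁆ ≤ WW Y A B :=
  le_iSup₂ (f := fun B₀ (_ : B₀ ∈ cocyclic B) => Y ⊓ centralizer (B : Set X) ⊓ ⁅Y ⊓ centralizer (B₀ : Set X), A⁆) B₀ h

theorem self_mem_cocyclic (B : Subgroup X) : B ∈ cocyclic B :=
  ⟨le_rfl, 1, one_mem _, by rw [zpowers_one_eq_bot, sup_bot_eq]⟩

theorem le_normalizer_iSup' {ι : Sort*} (C : ι → Subgroup X) {A : Subgroup X}
    (h : ∀ i, A ≤ normalizer (C i : Set X)) : A ≤ normalizer ((⨆ i, C i : Subgroup X) : Set X) := by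
  rw [← commutator_le_iff_normalizer]
  apply commutator_iSup_le
  · intro i
    exact (le_iSup C i).trans le_normalizer
  · intro i
    exact (commutator_le_of_le_normalizer (h i)).trans (le_iSup C i)

theorem le_normalizer_inf' {A H K : Subgroup X} (h1 : A ≤ normalizer (H : Set X)) (h2 : A ≤ normalizer (K : Set X)) :
    A ≤ normalizer ((H ⊓ K : Subgroup X) : Set X) := by
  intro a ha
  rw [mem_normalizer_iff]
  intro x
  rw [mem_inf, mem_inf, mem_normalizer_iff.1 (h1 ha) x, mem_normalizer_iff.1 (h2 ha) x]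

theorem le_normalizer_centralizer_of_comm {A B : Subgroup X} (hA : IsMulCommutative A) (hBA : B ≤ A) :
    A ≤ normalizer (centralizer (B : Set X) : Set X) := by
  have h1 : A ≤ centralizer (B : Set X) := by
    intro a ha
    rw [mem_centralizer_iff]
    intro b hb
    exact congrArg Subtype.val (hA.is_comm.comm (⟨b, hBA hb⟩ : A) ⟨a, ha⟩)
  exact h1.trans le_normalizer

theorem A_norm_WW {Y A B : Subgroup X} (hA : IsMulCommutative A) (hn : A ≤ normalizer (Y : Set X)) (hBA : B ≤ A) :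
    A ≤ normalizer (WW Y A B : Set X) := by
  apply le_normalizer_iSup'
  intro B₀
  apply le_normalizer_iSup'
  intro _
  exact le_normalizer_inf' (le_normalizer_inf' hn (le_normalizer_centralizer_of_comm hA hBA)) (normalizer_commutator_ge_right _ _)

/-- lifting fixed points -/
theorem lift_fixed [Finite X] {B Z N : Subgroup X} [N.Normal] (hZ : B ≤ normalizer (Z : Set X))
    (hcop : (Nat.card B).Coprime (Nat.card Z)) (hs : Group.IsSolvable B ∨ Group.IsSolvable Z)
    {x : X} (hx : x ∈ Z) (hc : (QuotientGroup.mk' N x) ∈ centralizer ((B.map (QuotientGroup.mk' N) : Subgroup (X ⧸ N)) : Set (X ⧸ N))) :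
    ∃ c ∈ Z ⊓ centralizer (B : Set X), ∃ n ∈ N, x = c * n := by
  have hn : B ≤ normalizer ((Z ⊓ N : Subgroup X) : Set X) :=
    le_normalizer_inf' hZ (by rw [normalizer_eq_top]; exact le_top)
  obtain ⟨c, hc', n, hn', hx'⟩ := mem_sup_of_commutator_mem (A := B) (N := Z ⊓ N) hn
    (Nat.Coprime.coprime_dvd_right (card_dvd_of_le inf_le_left) hcop)
    (hs.imp id fun h => H1.isSolvable_of_le inf_le_left h) (g := x) (fun a ha => by
      rw [mem_inf]
      constructor
      · have : ⁅x⁻¹, a⁆ = x⁻¹ * (a * x * a⁻¹) := by rw [commutatorElement_def]; group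
        rw [this]
        exact mul_mem (inv_mem hx) ((mem_normalizer_iff.1 (hZ ha) x).1 hx)
      · rw [← QuotientGroup.eq_one_iff]
        show (QuotientGroup.mk' N) ⁅x⁻¹, a⁆ = 1
        rw [map_commutatorElement, commutatorElement_eq_one_iff_mul_comm, map_inv]
        have h1 := mem_centralizer_iff.mp hc _ (mem_map_of_mem (QuotientGroup.mk' N) ha)
        rw [inv_mul_eq_iff_eq_mul, ← mul_assoc, ← h1, mul_inv_cancel_right])
  refine ⟨c, mem_inf.2 ⟨?_, hc'⟩, n, (mem_inf.1 hn').2, hx'⟩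
  have : c = x * n⁻¹ := by rw [hx']; group
  rw [this]
  exact mul_mem hx (inv_mem (mem_inf.1 hn').1)

/-- images of the generating subgroups -/
theorem WW_map_le [Finite X] {Y A B N : Subgroup X} [N.Normal] (hA : IsMulCommutative A) (hn : A ≤ normalizer (Y : Set X)) (hBA : B ≤ A)
    (hcop : (Nat.card A).Coprime (Nat.card Y)) (hNY : N ≤ Y) :
    WW (Y.map (QuotientGroup.mk' N)) (A.map (QuotientGroup.mk' N)) (B.map (QuotientGroup.mk' N)) ≤ (WW Y A B).map (QuotientGroup.mk' N) := by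
  have hAs : Group.IsSolvable A := by
    letI : CommGroup A := { (inferInstance : Group A) with mul_comm := hA.is_comm.comm }
    infer_instance
  apply iSup₂_le
  intro C hC
  obtain ⟨hCB, xb, hxb, hgen⟩ := hC
  obtain ⟨b, hb, rfl⟩ := hxb
  set B₀ : Subgroup X := B ⊓ C.comap (QuotientGroup.mk' N) with hB₀
  have hmap : B₀.map (QuotientGroup.mk' N) = C := by
    apply le_antisymm
    · rintro _ ⟨y, hy, rfl⟩
      exact (mem_inf.1 hy).2
    · intro y hy
      obtain ⟨z, hz, rfl⟩ := hCB hy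
      exact ⟨z, mem_inf.2 ⟨hz, hy⟩, rfl⟩
  have hBc : ∀ x ∈ B, ∀ y ∈ B, x * y = y * x := fun x hx y hy =>
    congrArg Subtype.val (hA.is_comm.comm (⟨x, hBA hx⟩ : A) ⟨y, hBA hy⟩)
  have hcoc : B₀ ∈ cocyclic B := by
    refine ⟨inf_le_left, b, hb, ?_⟩
    apply le_antisymm (sup_le inf_le_left (zpowers_le.2 hb))
    intro c hc
    have h1 : (QuotientGroup.mk' N) c ∈ C ⊔ zpowers ((QuotientGroup.mk' N) b) := by rw [hgen]; exact mem_map_of_mem _ hc
    have h2 : C ≤ normalizer (zpowers ((QuotientGroup.mk' N) b) : Set (X ⧸ N)) := by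
      intro x hx
      obtain ⟨z, hz, rfl⟩ := hCB hx
      apply centralizer_le_normalizer
      rw [mem_centralizer_iff]
      rintro _ ⟨k, rfl⟩
      have h3 : b ^ k * z = z * b ^ k := hBc _ (zpow_mem hb k) _ hz
      show (QuotientGroup.mk' N) b ^ k * (QuotientGroup.mk' N) z = (QuotientGroup.mk' N) z * (QuotientGroup.mk' N) b ^ k
      rw [← map_zpow, ← map_mul, ← map_mul, h3]
    rw [sup_comm] at h1
    obtain ⟨y, hy, x, hx, hxy⟩ := (mem_sup_iff_of_le_normalizer h2).1 h1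
    obtain ⟨k, rfl⟩ := mem_zpowers_iff.1 hy
    have hcm : (QuotientGroup.mk' N) b ^ k * x = x * (QuotientGroup.mk' N) b ^ k := by
      obtain ⟨z, hz, rfl⟩ := hCB hx
      have h3 : b ^ k * z = z * b ^ k := hBc _ (zpow_mem hb k) _ hz
      rw [← map_zpow, ← map_mul, ← map_mul, h3]
    have h4 : c * (b ^ k)⁻¹ ∈ B₀ := by
      rw [hB₀, mem_inf]
      refine ⟨mul_mem hc (inv_mem (zpow_mem hb k)), ?_⟩
      rw [mem_comap, map_mul, map_inv, map_zpow]
      have : (QuotientGroup.mk' N) c * ((QuotientGroup.mk' N) b ^ k)⁻¹ = x := by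
        rw [← hxy, hcm, mul_inv_cancel_right]
      rw [this]; exact hx
    have h5 : c = (c * (b ^ k)⁻¹) * b ^ k := by group
    rw [h5]
    exact mul_mem (mem_sup_left h4) (mem_sup_right (zpow_mem (mem_zpowers b) k))
  have hB₀A : B₀ ≤ A := inf_le_left.trans hBA
  have h6 : Y.map (QuotientGroup.mk' N) ⊓ centralizer (C : Set (X ⧸ N)) = (Y ⊓ centralizer (B₀ : Set X)).map (QuotientGroup.mk' N) := by
    rw [map_inf_centralizer (A := B₀) (N := N) (G := Y) ?_ (Or.inl (H1.isSolvable_of_le hB₀A hAs)) hNY, hmap]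
    exact (Nat.Coprime.coprime_dvd_left (card_dvd_of_le hB₀A) hcop).coprime_dvd_right (card_dvd_of_le hNY)
  rw [h6, ← map_commutator]
  intro x hx
  obtain ⟨hx1, hx2⟩ := mem_inf.1 hx
  obtain ⟨z, hz, rfl⟩ := hx2
  have hYB : ⁅Y ⊓ centralizer (B₀ : Set X), A⁆ ≤ Y := (commutator_mono inf_le_left le_rfl).trans (commutator_le_of_le_normalizer hn)
  obtain ⟨c, hc, n, hn', hcn⟩ := lift_fixed (B := B) (Z := ⁅Y ⊓ centralizer (B₀ : Set X), A⁆) (N := N)
    (hBA.trans (normalizer_commutator_ge_right _ _))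
    ((Nat.Coprime.coprime_dvd_left (card_dvd_of_le hBA) hcop).coprime_dvd_right (card_dvd_of_le hYB))
    (Or.inl (H1.isSolvable_of_le hBA hAs)) hz (mem_inf.1 hx1).2
  refine ⟨c, term_le_WW hcoc (mem_inf.2 ⟨mem_inf.2 ⟨hYB (mem_inf.1 hc).1, (mem_inf.1 hc).2⟩, (mem_inf.1 hc).1⟩), ?_⟩
  rw [hcn, map_mul, show (QuotientGroup.mk' N) n = 1 from (QuotientGroup.eq_one_iff n).mpr hn', mul_one]

end Cfsg.Agent.H10
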