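import Mathlib
import Cfsg.Agent.H10.CG1

set_option autoImplicit false
set_option linter.all false

namespace Cfsg.Agent.H10

open Subgroup Cfsg.Agent.H23
open scoped commutatorElement

variable {X : Type*} [Group X]

theorem solvable_of_comm {A : Subgroup X} (hA : IsMulCommutative A) : Group.IsSolvable A := by
  letI : CommGroup A := { (inferInstance : Group A) with mul_comm := hA.is_comm.comm }
  infer_instance

/-- a cocyclic subgroup of `A` meets `B` in a cocyclic subgroup -/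
theorem cocyclic_inf {A B A₀ : Subgroup X} (hA : IsMulCommutative A) (hBA : B ≤ A) (h : A₀ ∈ cocyclic A) :
    A₀ ⊓ B ∈ cocyclic B := by
  obtain ⟨hA₀, a, ha, hgen⟩ := h
  letI : CommGroup A := { (inferInstance : Group A) with mul_comm := hA.is_comm.comm }
  haveI hn : (A₀.subgroupOf A).Normal := inferInstance
  haveI hcyc : IsCyclic (A ⧸ A₀.subgroupOf A) := by
    refine ⟨⟨QuotientGroup.mk' _ (⟨a, ha⟩ : A), ?_⟩⟩
    intro y
    obtain ⟨x, rfl⟩ := QuotientGroup.mk'_surjective (A₀.subgroupOf A) y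
    have h1 : (x : X) ∈ zpowers a ⊔ A₀ := by rw [sup_comm, hgen]; exact x.2
    have h2 : A₀ ≤ normalizer (zpowers a : Set X) := by
      intro z hz
      apply centralizer_le_normalizer
      rw [mem_centralizer_iff]
      rintro _ ⟨k, rfl⟩
      exact congrArg Subtype.val (hA.is_comm.comm (⟨a ^ k, zpow_mem ha k⟩ : A) ⟨z, hA₀ hz⟩)
    obtain ⟨_, ⟨k, rfl⟩, z, hz, hzx⟩ := (mem_sup_iff_of_le_normalizer h2).1 h1
    refine ⟨k, ?_⟩
    show (QuotientGroup.mk' (A₀.subgroupOf A) (⟨a, ha⟩ : A)) ^ k = _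
    rw [← map_zpow]
    show QuotientGroup.mk _ = QuotientGroup.mk _
    rw [QuotientGroup.eq]
    show (((⟨a, ha⟩ : A) ^ k)⁻¹ * x : A) ∈ A₀.subgroupOf A
    rw [mem_subgroupOf]
    have : ((((⟨a, ha⟩ : A) ^ k)⁻¹ * x : A) : X) = (a ^ k)⁻¹ * (x : X) := rfl
    rw [this, ← hzx]
    show (a ^ k)⁻¹ * (a ^ k * z) ∈ A₀
    rw [inv_mul_cancel_left]; exact hz
  let f : B →* A ⧸ A₀.subgroupOf A := (QuotientGroup.mk' (A₀.subgroupOf A)).comp (Subgroup.inclusion hBA)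
  obtain ⟨⟨_, b, rfl⟩, hb⟩ := (inferInstance : IsCyclic f.range).exists_generator
  refine ⟨inf_le_right, b, b.2, ?_⟩
  apply le_antisymm (sup_le inf_le_right (zpowers_le.2 b.2))
  intro x hx
  obtain ⟨k, hk⟩ := hb ⟨f ⟨x, hx⟩, ⟨_, rfl⟩⟩
  have hk' : f b ^ k = f ⟨x, hx⟩ := congrArg Subtype.val hk
  have h3 : f (⟨x, hx⟩ * (b ^ k)⁻¹) = 1 := by
    rw [map_mul, map_inv, map_zpow, hk', mul_inv_cancel]
  have h4 : x * ((b : X) ^ k)⁻¹ ∈ A₀ := by
    have h5 : Subgroup.inclusion hBA ((⟨x, hx⟩ : B) * (b ^ k)⁻¹) ∈ A₀.subgroupOf A := by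
      rw [← QuotientGroup.eq_one_iff]
      exact h3
    exact h5
  have h6 : x = (x * ((b : X) ^ k)⁻¹) * (b : X) ^ k := by group
  rw [h6]
  exact mul_mem (mem_sup_left (mem_inf.2 ⟨h4, mul_mem hx (inv_mem (zpow_mem b.2 k))⟩)) (mem_sup_right (zpow_mem (mem_zpowers _) k))

/-- claim 1 -/
theorem iSup_mixed [Finite X] {A B Y : Subgroup X} (hA : IsMulCommutative A) (hn : A ≤ normalizer (Y : Set X))
    (hBA : B ≤ A) (hcop : (Nat.card A).Coprime (Nat.card Y)) :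
    (⨆ B₀ ∈ cocyclic B, ⁅Y ⊓ centralizer (B₀ : Set X), A⁆ : Subgroup X) = ⁅Y, A⁆ := by
  apply le_antisymm (iSup₂_le fun B₀ _ => commutator_mono inf_le_left le_rfl)
  rw [← iSup_cocyclic_commutator hA hn hcop]
  refine iSup₂_le fun A₀ hA₀ => ?_
  refine le_trans ?_ (le_iSup₂ (f := fun B₀ (_ : B₀ ∈ cocyclic B) => (⁅Y ⊓ centralizer (B₀ : Set X), A⁆ : Subgroup X)) (A₀ ⊓ B) (cocyclic_inf hA hBA hA₀))
  exact commutator_mono (inf_le_inf_left _ (centralizer_le (inf_le_left : A₀ ⊓ B ≤ A₀))) le_rfl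

theorem comm_mul_central {u u' v : X} (h : ⁅u', v⁆ * u = u * ⁅u', v⁆) : ⁅u * u', v⁆ = ⁅u', v⁆ * ⁅u, v⁆ := by
  rw [commutatorElement_mul_left_eq_conj_mul, ← h, mul_inv_cancel_right]

/-- pairing lemma -/
theorem pair_lemma [Finite X] {A B₀ Y M L L₁ : Subgroup X} (hA : IsMulCommutative A) (hn : A ≤ normalizer (Y : Set X))
    (hBA : B₀ ≤ A) (hcop : (Nat.card A).Coprime (Nat.card Y)) (hMY : M ≤ Y) (hMn : A ≤ normalizer (M : Set X))
    (hLY : ∀ l ∈ L, ∀ y ∈ Y, l * y = y * l) (hLA : ⁅L, A⁆ ≤ L₁)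
    (hL1 : L ⊓ ⁅Y ⊓ centralizer (B₀ : Set X), A⁆ ≤ L₁)
    {v : X} (hv : v ∈ ⁅Y ⊓ centralizer (B₀ : Set X), A⁆) (hvL : ∀ u ∈ M, ⁅u, v⁆ ∈ L) : ∀ u ∈ M, ⁅u, v⁆ ∈ L₁ := by
  have hs := H1.isSolvable_of_le hBA (solvable_of_comm hA)
  have hvC : v ∈ Y ⊓ centralizer (B₀ : Set X) := by
    have h1 : A ≤ normalizer ((Y ⊓ centralizer (B₀ : Set X) : Subgroup X) : Set X) :=
      le_normalizer_inf' hn (le_normalizer_centralizer_of_comm hA hBA)
    exact commutator_le_of_le_normalizer h1 hv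
  let S : Subgroup X :=
    { carrier := {u | u ∈ M ∧ ⁅u, v⁆ ∈ L₁}
      one_mem' := ⟨one_mem _, by rw [commutatorElement_one_left]; exact one_mem _⟩
      mul_mem' := by
        rintro a b ⟨ha, ha'⟩ ⟨hb, hb'⟩
        refine ⟨mul_mem ha hb, ?_⟩
        rw [comm_mul_central (hLY _ (hvL b hb) _ (hMY ha))]
        exact mul_mem hb' ha'
      inv_mem' := by
        rintro a ⟨ha, ha'⟩
        refine ⟨inv_mem ha, ?_⟩
        have h1 := comm_mul_central (u := a) (u' := a⁻¹) (v := v) (hLY _ (hvL _ (inv_mem ha)) _ (hMY ha))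
        rw [mul_inv_cancel, commutatorElement_one_left] at h1
        rw [eq_inv_of_mul_eq_one_left h1.symm]
        exact inv_mem ha' }
  have hle : M ≤ S := by
    rw [← commutator_sup_centralizer (A := B₀) (G := M) (hBA.trans hMn)
      ((Nat.Coprime.coprime_dvd_left (card_dvd_of_le hBA) hcop).coprime_dvd_right (card_dvd_of_le hMY)) (Or.inl hs)]
    apply sup_le
    · rw [commutator_le]
      intro m hm b hb
      have hbm : b * m⁻¹ * b⁻¹ ∈ M := (mem_normalizer_iff.1 (hMn (hBA hb)) _).1 (inv_mem hm)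
      have h1 : ⁅m, b⁆ = m * (b * m⁻¹ * b⁻¹) := by rw [commutatorElement_def]; group
      refine ⟨by rw [h1]; exact mul_mem hm hbm, ?_⟩
      rw [h1, comm_mul_central (hLY _ (hvL _ hbm) _ (hMY hm))]
      have h2 : ⁅b * m⁻¹ * b⁻¹, v⁆ = b * ⁅m⁻¹, v⁆ * b⁻¹ := by
        have h3 : b * v * b⁻¹ = v := by
          have := mem_centralizer_iff.1 (mem_inf.1 hvC).2 b hb
          rw [this, mul_inv_cancel_right]
        rw [conjugate_commutatorElement, h3]
      have h4 : ⁅m⁻¹, v⁆ = ⁅m, v⁆⁻¹ := by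
        have h5 := comm_mul_central (u := m) (u' := m⁻¹) (v := v) (hLY _ (hvL _ (inv_mem hm)) _ (hMY hm))
        rw [mul_inv_cancel, commutatorElement_one_left] at h5
        exact eq_inv_of_mul_eq_one_left h5.symm
      rw [h2, h4]
      have h6 : b * ⁅m, v⁆⁻¹ * b⁻¹ * ⁅m, v⁆ = ⁅b, ⁅m, v⁆⁻¹⁆ := by
        generalize ⁅m, v⁆ = z
        rw [commutatorElement_def, inv_inv]
      rw [h6]
      apply hLA
      rw [commutator_comm]
      exact commutator_mem_commutator (hBA hb) (inv_mem (hvL m hm))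
    · intro u hu
      obtain ⟨hu1, hu2⟩ := mem_inf.1 hu
      refine ⟨hu1, hL1 (mem_inf.2 ⟨hvL u hu1, ?_⟩)⟩
      have h7 : u ∈ normalizer ((⁅Y ⊓ centralizer (B₀ : Set X), A⁆ : Subgroup X) : Set X) :=
        normalizer_commutator_ge_left _ _ (mem_inf.2 ⟨hMY hu1, hu2⟩)
      rw [commutatorElement_def]
      exact mul_mem ((mem_normalizer_iff.1 h7 v).1 hv) (inv_mem hv)
  intro u hu
  exact (hle hu).2

/-- the subgroup `L₁` -/
theorem L1_lemma [Finite X] {A B Y L : Subgroup X} (hA : IsMulCommutative A) (hn : A ≤ normalizer (Y : Set X))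
    (hBA : B ≤ A) (hcop : (Nat.card A).Coprime (Nat.card Y)) (hLY : L ≤ Y) (hLn : A ≤ normalizer (L : Set X))
    (hLab : IsMulCommutative L) (hstar : ¬ (L ⊓ centralizer (A : Set X) ≤ WW Y A B)) :
    ∃ L₁ : Subgroup X, L₁ ≤ L ∧ ⁅L, A⁆ ≤ L₁ ∧ ¬ (L ≤ L₁) ∧ A ≤ normalizer (L₁ : Set X) ∧
      ∀ B₀ ∈ cocyclic B, L ⊓ ⁅Y ⊓ centralizer (B₀ : Set X), A⁆ ≤ L₁ := by
  have hAs := solvable_of_comm hA
  have hW := A_norm_WW (B := B) hA hn hBA
  have hcopL : (Nat.card A).Coprime (Nat.card L) := hcop.coprime_dvd_right (card_dvd_of_le hLY)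
  have hLcomm : ∀ x ∈ L, ∀ y ∈ L, x * y = y * x := fun x hx y hy => congrArg Subtype.val (hLab.is_comm.comm (⟨x, hx⟩ : L) ⟨y, hy⟩)
  refine ⟨⁅L, A⁆ ⊔ (L ⊓ WW Y A B), sup_le (commutator_le_of_le_normalizer hLn) inf_le_left, le_sup_left, ?_, ?_, ?_⟩
  · intro hle
    apply hstar
    intro c hc
    set M₂ := L ⊓ WW Y A B with hM₂
    have hM₂n : A ≤ normalizer (M₂ : Set X) := le_normalizer_inf' hLn hW
    have hM₂L : M₂ ≤ L := inf_le_left
    have h1 := commutator_sup_centralizer (A := A) (G := M₂) hM₂n (hcopL.coprime_dvd_right (card_dvd_of_le hM₂L)) (Or.inl hAs)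
    have h2 : L ≤ ⁅L, A⁆ ⊔ (M₂ ⊓ centralizer (A : Set X)) := by
      have h11 : M₂ ≤ ⁅L, A⁆ ⊔ (M₂ ⊓ centralizer (A : Set X)) :=
        h1.symm.le.trans (sup_le ((commutator_mono hM₂L le_rfl).trans le_sup_left) le_sup_right)
      exact hle.trans (sup_le le_sup_left h11)
    have h3 : M₂ ⊓ centralizer (A : Set X) ≤ normalizer ((⁅L, A⁆ : Subgroup X) : Set X) := by
      refine le_trans ?_ (normalizer_commutator_ge_left L A)
      intro x hx
      exact hM₂L (mem_inf.1 hx).1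
    obtain ⟨g, hg, d, hd, hgd⟩ := (mem_sup_iff_of_le_normalizer h3).1 (h2 (mem_inf.1 hc).1)
    have h4 := commutator_inf_centralizer_of_abelian hLn hcopL hLab
    have h5 : g ∈ ⁅L, A⁆ ⊓ centralizer (A : Set X) := by
      refine mem_inf.2 ⟨hg, ?_⟩
      have : g = c * d⁻¹ := by rw [← hgd]; group
      rw [this]
      exact mul_mem (mem_inf.1 hc).2 (inv_mem (mem_inf.1 hd).2)
    rw [h4, mem_bot] at h5
    rw [← hgd, h5, one_mul]
    exact (mem_inf.1 (mem_inf.1 hd).1).2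
  · rw [← commutator_le_iff_normalizer]
    have h6 : ⁅L, A⁆ ⊔ (L ⊓ WW Y A B) ≤ L := sup_le (commutator_le_of_le_normalizer hLn) inf_le_left
    exact (commutator_mono h6 le_rfl).trans le_sup_left
  · intro B₀ hB₀
    have hB₀A : B₀ ≤ A := hB₀.1.trans hBA
    set M₃ := L ⊓ ⁅Y ⊓ centralizer (B₀ : Set X), A⁆ with hM₃
    have hM₃n : A ≤ normalizer (M₃ : Set X) := le_normalizer_inf' hLn (normalizer_commutator_ge_right _ _)
    have hM₃L : M₃ ≤ L := inf_le_left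
    have h1 := commutator_sup_centralizer (A := A) (G := M₃) hM₃n (hcopL.coprime_dvd_right (card_dvd_of_le hM₃L)) (Or.inl hAs)
    refine h1.symm.le.trans (sup_le ((commutator_mono hM₃L le_rfl).trans le_sup_left) ?_)
    refine le_trans ?_ le_sup_right
    intro x hx
    obtain ⟨hx1, hx2⟩ := mem_inf.1 hx
    obtain ⟨hx3, hx4⟩ := mem_inf.1 hx1
    refine mem_inf.2 ⟨hx3, term_le_WW hB₀ (mem_inf.2 ⟨mem_inf.2 ⟨hLY hx3, ?_⟩, hx4⟩)⟩
    exact centralizer_le (show (B : Set X) ⊆ (A : Set X) from hBA) hx2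

end Cfsg.Agent.H10
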