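import Mathlib
import Cfsg.Agent.H10.CG2

set_option autoImplicit false
set_option linter.all false

universe u

namespace Cfsg.Agent.H10

open Subgroup Cfsg.Agent.H23
open scoped commutatorElement

theorem comm_lt_of_solvable {X : Type*} [Group X] {M : Subgroup X} (hs : Group.IsSolvable M) (h : M ≠ ⊥) : ⁅M, M⁆ ≠ M := by
  intro he
  haveI := hs
  haveI : Nontrivial M := (Subgroup.nontrivial_iff_ne_bot M).2 h
  have h1 : commutator M = ⊤ := by
    apply Subgroup.map_injective M.subtype_injective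
    rw [Subgroup.map_subtype_commutator, he, ← MonoidHom.range_eq_map, Subgroup.range_subtype]
  have h2 := Group.IsSolvable.commutator_lt_top_of_nontrivial M
  rw [h1] at h2
  exact lt_irrefl _ h2

theorem comm_mul_right' {X : Type*} [Group X] (u v v' : X) : ⁅u, v * v'⁆ = ⁅u, v⁆ * (v * ⁅u, v'⁆ * v⁻¹) := by
  rw [commutatorElement_mul_right_eq_mul_conj]
  group

/-- central case -/
theorem case_a {X : Type*} [Group X] [Finite X] {A B Y M : Subgroup X} (hMn : M.Normal) (hYn : Y.Normal)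
    (hMY : M ≤ Y) (hA : IsMulCommutative A) (hBA : B ≤ A) (hcop : (Nat.card A).Coprime (Nat.card Y)) (hYA : ⁅Y, A⁆ = Y)
    (hcen : ⁅⁅M, Y⁆, Y⁆ = ⊥) (hstar : ¬ (⁅M, Y⁆ ⊓ centralizer (A : Set X) ≤ WW Y A B)) : False := by
  have hn : A ≤ normalizer (Y : Set X) := by rw [normalizer_eq_top]; exact le_top
  have hLY : ⁅M, Y⁆ ≤ Y := commutator_le_right _ _
  have hLc : ∀ l ∈ ⁅M, Y⁆, ∀ y ∈ Y, l * y = y * l := by
    intro l hl y hy
    rw [commutator_eq_bot_iff_le_centralizer] at hcen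
    exact (mem_centralizer_iff.1 (hcen hl) y hy).symm
  have hLab : IsMulCommutative (⁅M, Y⁆ : Subgroup X) := ⟨⟨fun a b => Subtype.ext (hLc a a.2 b (hLY b.2))⟩⟩
  obtain ⟨L₁, h1, h2, h3, -, h5⟩ := L1_lemma hA hn hBA hcop hLY (by rw [normalizer_eq_top]; exact le_top) hLab hstar
  apply h3
  rw [commutator_le]
  let T : Subgroup X :=
    { carrier := {v | v ∈ Y ∧ ∀ u ∈ M, ⁅u, v⁆ ∈ L₁}
      one_mem' := ⟨one_mem _, fun u _ => by rw [commutatorElement_one_right]; exact one_mem _⟩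
      mul_mem' := by
        rintro v v' ⟨hv, hv1⟩ ⟨hv', hv1'⟩
        refine ⟨mul_mem hv hv', fun u hu => ?_⟩
        rw [comm_mul_right']
        have h6 : v * ⁅u, v'⁆ * v⁻¹ = ⁅u, v'⁆ := by
          rw [← hLc _ (commutator_mem_commutator hu hv') _ hv, mul_inv_cancel_right]
        rw [h6]
        exact mul_mem (hv1 u hu) (hv1' u hu)
      inv_mem' := by
        rintro v ⟨hv, hv1⟩
        refine ⟨inv_mem hv, fun u hu => ?_⟩
        have h7 : ⁅u, v * v⁻¹⁆ = ⁅u, v⁆ * ⁅u, v⁻¹⁆ := by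
          rw [comm_mul_right']
          rw [← hLc _ (commutator_mem_commutator hu (inv_mem hv)) _ hv, mul_inv_cancel_right]
        rw [mul_inv_cancel, commutatorElement_one_right] at h7
        rw [eq_inv_of_mul_eq_one_right h7.symm]
        exact inv_mem (hv1 u hu) }
  have hT : Y ≤ T := by
    have h8 := iSup_mixed hA hn hBA hcop
    rw [hYA] at h8
    refine h8.symm.le.trans (iSup₂_le fun B₀ hB₀ => ?_)
    intro v hv
    have hvY : v ∈ Y := (commutator_mono inf_le_left le_rfl).trans (commutator_le_of_le_normalizer hn) hv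
    refine ⟨hvY, pair_lemma hA hn (hB₀.1.trans hBA) hcop hMY (by rw [normalizer_eq_top]; exact le_top) hLc h2 (h5 B₀ hB₀) hv ?_⟩
    intro u hu
    exact commutator_mem_commutator hu hvY
  intro u hu v hv
  exact (hT hv).2 u hu

/-- abelian case -/
theorem case_b {X : Type*} [Group X] [Finite X] {A B Y M : Subgroup X} (hMn : M.Normal) (hYn : Y.Normal)
    (hMY : M ≤ Y) (hA : IsMulCommutative A) (hBA : B ≤ A) (hcop : (Nat.card A).Coprime (Nat.card Y)) (hYA : ⁅Y, A⁆ = Y)
    (heq : ⁅M, Y⁆ = M) (hMab : IsMulCommutative M) (hstar : ¬ (M ⊓ centralizer (A : Set X) ≤ WW Y A B)) : False := by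
  have hn : A ≤ normalizer (Y : Set X) := by rw [normalizer_eq_top]; exact le_top
  have hMn' : ∀ H : Subgroup X, H ≤ normalizer (M : Set X) := fun H => by rw [normalizer_eq_top]; exact le_top
  have hMc : ∀ x ∈ M, ∀ y ∈ M, x * y = y * x := fun x hx y hy => congrArg Subtype.val (hMab.is_comm.comm (⟨x, hx⟩ : M) ⟨y, hy⟩)
  obtain ⟨L₁, h1, h2, h3, -, h5⟩ := L1_lemma hA hn hBA hcop hMY (hMn' A) hMab hstar
  apply h3
  -- elements of `Y_{B₀}`
  have key : ∀ B₀ ∈ cocyclic B, ∀ v ∈ ⁅Y ⊓ centralizer (B₀ : Set X), A⁆, ∀ u ∈ M, ⁅u, v⁆ ∈ L₁ := by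
    intro B₀ hB₀ v hv
    have hB₀A := hB₀.1.trans hBA
    have hvC : v ∈ Y ⊓ centralizer (B₀ : Set X) := by
      have h1 : A ≤ normalizer ((Y ⊓ centralizer (B₀ : Set X) : Subgroup X) : Set X) :=
        le_normalizer_inf' hn (le_normalizer_centralizer_of_comm hA hB₀A)
      exact commutator_le_of_le_normalizer h1 hv
    let S : Subgroup X :=
      { carrier := {u | u ∈ M ∧ ⁅u, v⁆ ∈ L₁}
        one_mem' := ⟨one_mem _, by rw [commutatorElement_one_left]; exact one_mem _⟩
        mul_mem' := by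
          rintro a b ⟨ha, ha'⟩ ⟨hb, hb'⟩
          refine ⟨mul_mem ha hb, ?_⟩
          rw [comm_mul_central (hMc _ ?_ _ ha)]
          · exact mul_mem hb' ha'
          · exact h1 hb'
        inv_mem' := by
          rintro a ⟨ha, ha'⟩
          refine ⟨inv_mem ha, ?_⟩
          have h9 : ⁅a⁻¹, v⁆ ∈ M := commutator_le_left M ⊤ (commutator_mem_commutator (inv_mem ha) (mem_top v))
          have h1 := comm_mul_central (u := a) (u' := a⁻¹) (v := v) (hMc _ h9 _ ha)
          rw [mul_inv_cancel, commutatorElement_one_left] at h1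
          rw [eq_inv_of_mul_eq_one_left h1.symm]
          exact inv_mem ha' }
    have hle : M ≤ S := by
      have h6 := commutator_sup_centralizer (A := B₀) (G := M) (hMn' _)
        ((Nat.Coprime.coprime_dvd_left (card_dvd_of_le hB₀A) hcop).coprime_dvd_right (card_dvd_of_le hMY))
        (Or.inl (H1.isSolvable_of_le hB₀A (solvable_of_comm hA)))
      refine h6.symm.le.trans (sup_le ?_ ?_)
      · have h7 : ⁅M, B₀⁆ ≤ M := commutator_le_of_le_normalizer (hMn' _)
        intro u hu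
        refine ⟨h7 hu, ?_⟩
        have h8 : ⁅M, B₀⁆ ≤ L₁ := (commutator_mono le_rfl hB₀A).trans h2
        apply h8
        have h9 : v ∈ normalizer ((⁅M, B₀⁆ : Subgroup X) : Set X) := by
          have h10 : v ∈ normalizer (B₀ : Set X) := centralizer_le_normalizer _ (mem_inf.1 hvC).2
          rw [H1.mem_normalizer_iff_conj_smul] at h10 ⊢
          rw [conj_smul_commutator, h10]
          congr 1
          exact H1.mem_normalizer_iff_conj_smul.1 (hMn' ⊤ (mem_top v))
        rw [commutatorElement_def, mul_assoc, mul_assoc, ← mul_assoc v]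
        exact mul_mem hu ((mem_normalizer_iff.1 h9 _).1 (inv_mem hu))
      · intro u hu
        obtain ⟨hu1, hu2⟩ := mem_inf.1 hu
        refine ⟨hu1, h5 B₀ hB₀ (mem_inf.2 ⟨?_, ?_⟩)⟩
        · exact commutator_le_left M ⊤ (commutator_mem_commutator hu1 (mem_top v))
        · have h7 : u ∈ normalizer ((⁅Y ⊓ centralizer (B₀ : Set X), A⁆ : Subgroup X) : Set X) :=
            normalizer_commutator_ge_left _ _ (mem_inf.2 ⟨hMY hu1, hu2⟩)
          rw [commutatorElement_def]
          exact mul_mem ((mem_normalizer_iff.1 h7 v).1 hv) (inv_mem hv)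
    intro u hu
    exact (hle hu).2
  have conjL : ∀ v, (∀ u ∈ M, ⁅u, v⁆ ∈ L₁) → ∀ z ∈ L₁, v * z * v⁻¹ ∈ L₁ := by
    intro v hv z hz
    have h6 : v * z * v⁻¹ = ⁅z, v⁆⁻¹ * z := by rw [commutatorElement_def]; group
    rw [h6]
    exact mul_mem (inv_mem (hv z (h1 hz))) hz
  let T : Subgroup X :=
    { carrier := {v | v ∈ Y ∧ (∀ u ∈ M, ⁅u, v⁆ ∈ L₁) ∧ (∀ u ∈ M, ⁅u, v⁻¹⁆ ∈ L₁)}
      one_mem' := ⟨one_mem _, fun u _ => by rw [commutatorElement_one_right]; exact one_mem _, fun u _ => by rw [inv_one, commutatorElement_one_right]; exact one_mem _⟩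
      mul_mem' := by
        rintro v v' ⟨hv, hv1, hv2⟩ ⟨hv', hv1', hv2'⟩
        refine ⟨mul_mem hv hv', fun u hu => ?_, fun u hu => ?_⟩
        · rw [comm_mul_right']
          exact mul_mem (hv1 u hu) (conjL v hv1 _ (hv1' u hu))
        · rw [mul_inv_rev, comm_mul_right']
          exact mul_mem (hv2' u hu) (conjL _ hv2' _ (hv2 u hu))
      inv_mem' := by
        rintro v ⟨hv, hv1, hv2⟩
        exact ⟨inv_mem hv, hv2, by rw [inv_inv]; exact hv1⟩ }
  have hT : Y ≤ T := by
    have h8 := iSup_mixed hA hn hBA hcop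
    rw [hYA] at h8
    refine h8.symm.le.trans (iSup₂_le fun B₀ hB₀ => ?_)
    intro v hv
    have hvY : v ∈ Y := (commutator_mono inf_le_left le_rfl).trans (commutator_le_of_le_normalizer hn) hv
    exact ⟨hvY, key B₀ hB₀ v hv, key B₀ hB₀ v⁻¹ (inv_mem hv)⟩
  rw [← heq, commutator_le]
  intro u hu v hv
  exact (hT hv).2.1 u hu

/-- nonabelian case -/
theorem case_c {X : Type*} [Group X] [Finite X] {A B Y M : Subgroup X} (hMn : M.Normal) (hYn : Y.Normal)
    (htop : Y ⊔ A = ⊤)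
    (hMY : M ≤ Y) (hA : IsMulCommutative A) (hBA : B ≤ A) (hcop : (Nat.card A).Coprime (Nat.card Y)) (hYA : ⁅Y, A⁆ = Y)
    (heq : ⁅M, Y⁆ = M) (hcen : ⁅⁅M, M⁆, Y⁆ = ⊥) (hmin : ∀ R : Subgroup X, R.Normal → R ≤ M → R ≠ M → ⁅R, Y⁆ = ⊥)
    (hMne : M ≠ ⊥)
    (hstar : ¬ (⁅M, M⁆ ⊓ centralizer (A : Set X) ≤ WW Y A B)) : False := by
  have hn : A ≤ normalizer (Y : Set X) := by rw [normalizer_eq_top]; exact le_top
  have hMn' : ∀ H : Subgroup X, H ≤ normalizer (M : Set X) := fun H => by rw [normalizer_eq_top]; exact le_top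
  have hLM : ⁅M, M⁆ ≤ M := commutator_le_right _ _
  have hLY : ⁅M, M⁆ ≤ Y := hLM.trans hMY
  have hLc : ∀ l ∈ ⁅M, M⁆, ∀ y ∈ Y, l * y = y * l := by
    intro l hl y hy
    rw [commutator_eq_bot_iff_le_centralizer] at hcen
    exact (mem_centralizer_iff.1 (hcen hl) y hy).symm
  have hLab : IsMulCommutative (⁅M, M⁆ : Subgroup X) := ⟨⟨fun a b => Subtype.ext (hLc a a.2 b (hLY b.2))⟩⟩
  obtain ⟨L₁, h1, h2, h3, h4, h5⟩ := L1_lemma hA hn hBA hcop hLY (by rw [normalizer_eq_top]; exact le_top) hLab hstar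
  have hL₁n : L₁.Normal := by
    rw [← normalizer_eq_top_iff, eq_top_iff, ← htop]
    apply sup_le _ h4
    intro y hy
    rw [mem_normalizer_iff]
    intro z
    constructor
    · intro hz
      rw [← hLc z (h1 hz) y hy, mul_inv_cancel_right]; exact hz
    · intro hz
      have h6 := hLc _ (h1 hz) y hy
      have h7 : z = y * z * y⁻¹ := by
        have : y * z = y * (y * z * y⁻¹) := by
          rw [← h6, inv_mul_cancel_right]
        exact mul_left_cancel this
      rw [h7]; exact hz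
  let R : Subgroup X :=
    { carrier := {v | v ∈ M ∧ ∀ u ∈ M, ⁅u, v⁆ ∈ L₁}
      one_mem' := ⟨one_mem _, fun u _ => by rw [commutatorElement_one_right]; exact one_mem _⟩
      mul_mem' := by
        rintro v v' ⟨hv, hv1⟩ ⟨hv', hv1'⟩
        refine ⟨mul_mem hv hv', fun u hu => ?_⟩
        rw [comm_mul_right']
        exact mul_mem (hv1 u hu) (hL₁n.conj_mem _ (hv1' u hu) v)
      inv_mem' := by
        rintro v ⟨hv, hv1⟩
        refine ⟨inv_mem hv, fun u hu => ?_⟩
        have h7 : ⁅u, v⁻¹⁆ = v⁻¹ * ⁅u, v⁆⁻¹ * (v⁻¹)⁻¹ := by rw [commutatorElement_def, commutatorElement_def]; group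
        rw [h7]
        exact hL₁n.conj_mem _ (inv_mem (hv1 u hu)) _ }
  have hRM : R ≤ M := fun v hv => hv.1
  have hRn : R.Normal := by
    refine ⟨fun v hv g => ⟨hMn.conj_mem v hv.1 g, fun u hu => ?_⟩⟩
    have h6 : ⁅u, g * v * g⁻¹⁆ = g * ⁅g⁻¹ * u * g, v⁆ * g⁻¹ := by
      rw [commutatorElement_def, commutatorElement_def]; group
    rw [h6]
    apply hL₁n.conj_mem
    apply hv.2
    have := hMn.conj_mem u hu g⁻¹
    rwa [inv_inv] at this
  have hRne : R ≠ M := by
    intro e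
    apply h3
    rw [commutator_le]
    intro u hu v hv
    rw [← e] at hv
    exact hv.2 u hu
  have hRY := hmin R hRn hRM hRne
  have h8 : ∀ B₀ ∈ cocyclic B, M ⊓ ⁅Y ⊓ centralizer (B₀ : Set X), A⁆ ≤ R := by
    intro B₀ hB₀ v hv
    refine ⟨(mem_inf.1 hv).1, pair_lemma hA hn (hB₀.1.trans hBA) hcop hMY (hMn' A) hLc h2 (h5 B₀ hB₀) (mem_inf.1 hv).2 ?_⟩
    intro u hu
    exact commutator_mem_commutator hu (mem_inf.1 hv).1
  have hBab : IsMulCommutative B := ⟨⟨fun a b => Subtype.ext (show (a : X) * b = b * a from congrArg Subtype.val (hA.is_comm.comm (⟨a, hBA a.2⟩ : A) ⟨b, hBA b.2⟩))⟩⟩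
  have hMA : ⁅M, A⁆ ≤ R := by
    have h9 := iSup_cocyclic_centralizer (A := B) (G := M) hBab (hMn' B)
      ((Nat.Coprime.coprime_dvd_left (card_dvd_of_le hBA) hcop).coprime_dvd_right (card_dvd_of_le hMY))
    rw [← h9]
    apply commutator_iSup_le
    · intro i; rw [normalizer_eq_top]; exact le_top
    intro B₀
    apply commutator_iSup_le
    · intro i; rw [normalizer_eq_top]; exact le_top
    intro hB₀
    refine le_trans (le_inf ?_ ?_) (h8 B₀ hB₀)
    · exact (commutator_mono inf_le_left le_rfl).trans (commutator_le_of_le_normalizer (hMn' A))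
    · exact commutator_mono (inf_le_inf_right _ hMY) le_rfl
  -- conclude
  have h10 : ⁅M, Y⁆ ≤ R := by
    have h11 : A.map (QuotientGroup.mk' R) ≤ centralizer ((M.map (QuotientGroup.mk' R) : Subgroup (X ⧸ R)) : Set (X ⧸ R)) := by
      rw [← commutator_eq_bot_iff_le_centralizer, commutator_comm, ← map_commutator, Subgroup.map_eq_bot_iff, QuotientGroup.ker_mk']
      exact hMA
    haveI : (M.map (QuotientGroup.mk' R)).Normal := hMn.map _ (QuotientGroup.mk'_surjective _)
    have h12 : Y.map (QuotientGroup.mk' R) ≤ centralizer ((M.map (QuotientGroup.mk' R) : Subgroup (X ⧸ R)) : Set (X ⧸ R)) := by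
      conv_lhs => rw [← hYA, map_commutator]
      exact (commutator_mono le_top h11).trans (commutator_le_right _ _)
    rw [← commutator_eq_bot_iff_le_centralizer, commutator_comm, ← map_commutator, Subgroup.map_eq_bot_iff, QuotientGroup.ker_mk'] at h12
    exact h12
  rw [heq] at h10
  exact hRne (le_antisymm hRM h10)

end Cfsg.Agent.H10
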