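import Mathlib
import Cfsg.Agent.H10.CG3

set_option autoImplicit false
set_option linter.all false

universe u

namespace Cfsg.Agent.H10

open Subgroup Cfsg.Agent.H23
open scoped commutatorElement

theorem WW_le_left {X : Type*} [Group X] {Y A B : Subgroup X} : WW Y A B ≤ Y ⊓ centralizer (B : Set X) :=
  iSup₂_le fun B₀ _ => inf_le_left

theorem gold_gen (n : ℕ) : ∀ {X : Type u} [Group X] [Finite X] {A B Y : Subgroup X}, Nat.card Y = n → Y.Normal → Y ⊔ A = ⊤ →
    IsMulCommutative A → B ≤ A → (Nat.card A).Coprime (Nat.card Y) → Group.IsSolvable Y → ⁅Y, A⁆ = Y →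
    Y ⊓ centralizer (B : Set X) ≤ WW Y A B := by
  induction n using Nat.strong_induction_on with
  | _ n ih =>
  intro X _ _ A B Y hcard hYn htop hA hBA hcop hs hYA
  by_contra hneg
  have hAs := solvable_of_comm hA
  have hn : A ≤ normalizer (Y : Set X) := by rw [normalizer_eq_top]; exact le_top
  have star : ∀ N : Subgroup X, N.Normal → N ≤ Y → N ≠ ⊥ → ¬ (N ⊓ centralizer (A : Set X) ≤ WW Y A B) := by
    intro N hN hNY hNb hle
    apply hneg
    have hNB : N ⊓ centralizer (B : Set X) ≤ WW Y A B := by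
      set M := N ⊓ centralizer (B : Set X) with hM
      have hMn : A ≤ normalizer (M : Set X) :=
        le_normalizer_inf' (by rw [normalizer_eq_top]; exact le_top) (le_normalizer_centralizer_of_comm hA hBA)
      have hMN : M ≤ N := inf_le_left
      have h1 := commutator_sup_centralizer (A := A) (G := M) hMn (hcop.coprime_dvd_right (card_dvd_of_le (hMN.trans hNY))) (Or.inl hAs)
      refine h1.symm.le.trans (sup_le ?_ ?_)
      · refine le_trans ?_ (term_le_WW (self_mem_cocyclic B))
        have hMYB : M ≤ Y ⊓ centralizer (B : Set X) := inf_le_inf_right _ hNY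
        exact le_inf ((commutator_le_of_le_normalizer hMn).trans hMYB) (commutator_mono hMYB le_rfl)
      · exact (inf_le_inf_right _ hMN).trans hle
    have hlt : Nat.card (Y.map (QuotientGroup.mk' N)) < n := by
      have h1 := H1.card_map_mk'_mul N Y
      have h2 : Y ⊓ N = N := inf_eq_right.2 hNY
      rw [h2, hcard] at h1
      have h3 : 1 < Nat.card N := by
        rw [Subgroup.one_lt_card_iff_ne_bot]; exact hNb
      have h4 : 0 < Nat.card (Y.map (QuotientGroup.mk' N)) := Nat.card_pos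
      nlinarith
    have IH := ih _ hlt (X := X ⧸ N) (A := A.map (QuotientGroup.mk' N)) (B := B.map (QuotientGroup.mk' N)) (Y := Y.map (QuotientGroup.mk' N)) rfl
      (hYn.map _ (QuotientGroup.mk'_surjective _))
      (by rw [← Subgroup.map_sup, htop, Subgroup.map_top_of_surjective _ (QuotientGroup.mk'_surjective _)])
      (Subgroup.map_isMulCommutative A _) (Subgroup.map_mono hBA)
      ((hcop.coprime_dvd_left (Subgroup.card_map_dvd _ _)).coprime_dvd_right (Subgroup.card_map_dvd _ _))
      (H1.isSolvable_map _ hs) (by rw [← Subgroup.map_commutator, hYA])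
    intro y hy
    have h5 : (QuotientGroup.mk' N) y ∈ (WW Y A B).map (QuotientGroup.mk' N) := by
      apply WW_map_le hA hn hBA hcop hNY
      apply IH
      refine mem_inf.2 ⟨mem_map_of_mem _ (mem_inf.1 hy).1, ?_⟩
      rw [mem_centralizer_iff]
      rintro _ ⟨b, hb, rfl⟩
      rw [← map_mul, ← map_mul, mem_centralizer_iff.1 (mem_inf.1 hy).2 b hb]
    obtain ⟨w, hw, hwy⟩ := h5
    have h6 : w⁻¹ * y ∈ N := by
      rw [← QuotientGroup.eq_one_iff]
      show (QuotientGroup.mk' N) (w⁻¹ * y) = 1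
      rw [map_mul, map_inv, hwy, inv_mul_cancel]
    have h7 : w⁻¹ * y ∈ WW Y A B := hNB (mem_inf.2 ⟨h6, mul_mem (inv_mem (mem_inf.1 (WW_le_left hw)).2) (mem_inf.1 hy).2⟩)
    have h8 : y = w * (w⁻¹ * y) := by group
    rw [h8]
    exact mul_mem hw h7
  have hYb : Y ≠ ⊥ := by
    intro e
    apply hneg
    rw [e, bot_inf_eq]
    exact bot_le
  -- `Y` is not abelian
  have hnab : ⁅Y, Y⁆ ≠ ⊥ := by
    intro hYY
    rw [commutator_eq_bot_iff_le_centralizer] at hYY
    have hYab : IsMulCommutative Y := ⟨⟨fun a b => Subtype.ext (mem_centralizer_iff.1 (hYY b.2) a a.2)⟩⟩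
    apply star Y hYn le_rfl hYb
    have h1 := commutator_inf_centralizer_of_abelian hn hcop hYab
    rw [hYA] at h1
    rw [h1]
    exact bot_le
  -- a minimal noncentral normal subgroup
  obtain ⟨M, hM, hMmin⟩ := Set.Finite.exists_minimalFor (fun K : Subgroup X => Nat.card K)
    {K : Subgroup X | K.Normal ∧ K ≤ Y ∧ ⁅K, Y⁆ ≠ ⊥} (Set.toFinite _) ⟨Y, hYn, le_rfl, hnab⟩
  obtain ⟨hMn, hMY, hMc⟩ := hM
  have hmin : ∀ R : Subgroup X, R.Normal → R ≤ M → R ≠ M → ⁅R, Y⁆ = ⊥ := by
    intro R hR hRM hne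
    by_contra hRc
    have h1 := hMmin ⟨hR, hRM.trans hMY, hRc⟩ (card_le_of_le hRM)
    exact hne (eq_of_le_of_card_ge hRM h1)
  have hMb : M ≠ ⊥ := by
    rintro rfl
    apply hMc
    rw [commutator_bot_left]
  have hMs : Group.IsSolvable M := H1.isSolvable_of_le hMY hs
  haveI := hMn
  haveI := hYn
  by_cases heq : ⁅M, Y⁆ = M
  · have hlt := comm_lt_of_solvable hMs hMb
    have hcen : ⁅⁅M, M⁆, Y⁆ = ⊥ := hmin _ inferInstance (commutator_le_right _ _) hlt
    by_cases hMM : ⁅M, M⁆ = ⊥
    · rw [commutator_eq_bot_iff_le_centralizer] at hMM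
      have hMab : IsMulCommutative M := ⟨⟨fun a b => Subtype.ext (mem_centralizer_iff.1 (hMM b.2) a a.2)⟩⟩
      exact case_b hMn hYn hMY hA hBA hcop hYA heq hMab (star M hMn hMY hMb)
    · exact case_c hMn hYn htop hMY hA hBA hcop hYA heq hcen hmin hMb
        (star _ inferInstance ((commutator_le_right _ _).trans hMY) hMM)
  · exact case_a hMn hYn hMY hA hBA hcop hYA (hmin _ inferInstance (commutator_le_left _ _) heq)
      (star _ inferInstance (commutator_le_right _ _) hMc)

end Cfsg.Agent.H10
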