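import Cfsg.Agent.H21.ZF12

set_option autoImplicit false

namespace Cfsg.Agent.H10.FC

open Cfsg.Agent.H21.ZF

universe u v

variable {G : Type u} [Group G] [Finite G] {A : Type v} [Ring A] [Algebra ℚ A] [Nontrivial A] {ρ : G →* A}

theorem sum_zero (D : ZD ρ) {c : G} (hc : c ≠ 1) {m : ℕ} (hm : c ^ m = 1) :
    ∑ j ∈ Finset.range m, ρ c ^ j = 0 := by
  apply D.eq_zero_left hc
  have h := mul_neg_geom_sum (ρ c) m
  rw [← map_pow, hm, map_one, sub_self, sub_mul, one_mul, sub_eq_zero] at h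
  exact h.symm

theorem comm_of_norm (D : ZD ρ) {p : ℕ} (hp : p.Prime) {x y : G} (hx : orderOf x = p)
    (hn : x * y * x⁻¹ ∈ Subgroup.zpowers y) : x * y = y * x := by
  by_contra hne
  have hm : 0 < orderOf y := orderOf_pos y
  have h1 : ∀ i : ℕ, x ^ i * y * (x ^ i)⁻¹ ∈ Subgroup.zpowers y := by
    intro i
    induction i with
    | zero => simp
    | succ i ih =>
      obtain ⟨k, hk⟩ := ih
      have hk' : y ^ k = x ^ i * y * (x ^ i)⁻¹ := hk
      have e : x ^ (i + 1) * y * (x ^ (i + 1))⁻¹ = (x * y * x⁻¹) ^ k := by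
        rw [conj_zpow, hk', pow_succ']; group
      rw [e]
      exact Subgroup.zpow_mem _ hn k
  have h2 : ∀ i : ℕ, i < p → i ≠ 0 → y⁻¹ * (x ^ i * y * (x ^ i)⁻¹) ≠ 1 := by
    intro i hi hi0 h
    apply hne
    have hc : Commute (x ^ i) y := by
      have : x ^ i * y * (x ^ i)⁻¹ = y := (inv_mul_eq_one.1 h).symm
      change x ^ i * y = y * x ^ i
      exact mul_inv_eq_iff_eq_mul.1 this
    have hcop : Nat.Coprime i p := by
      rw [Nat.coprime_comm]
      exact (Nat.Prime.coprime_iff_not_dvd hp).2 (fun hd => by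
        have := Nat.le_of_dvd (Nat.pos_of_ne_zero hi0) hd; omega)
    have hb := Nat.gcd_eq_gcd_ab i p
    rw [hcop.gcd_eq_one] at hb
    have e : x = (x ^ i) ^ (Nat.gcdA i p) := by
      have hxp : x ^ p = 1 := by rw [← hx, pow_orderOf_eq_one]
      calc x = x ^ ((1 : ℕ) : ℤ) := by simp
        _ = x ^ ((i : ℤ) * Nat.gcdA i p + (p : ℤ) * Nat.gcdB i p) := by rw [← hb]
        _ = (x ^ i) ^ (Nat.gcdA i p) := by
          rw [zpow_add, zpow_mul, zpow_mul, zpow_natCast, zpow_natCast, hxp, one_zpow, mul_one]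
    have hc2 : Commute ((x ^ i) ^ (Nat.gcdA i p)) y := hc.zpow_left _
    rw [← e] at hc2
    exact hc2.eq
  -- double sum
  have h3 : ∑ j ∈ Finset.range (orderOf y), ∑ i ∈ Finset.range p, ρ ((y ^ j)⁻¹ * x ^ i * y ^ j) = 0 := by
    apply Finset.sum_eq_zero
    intro j _
    have ho : orderOf ((y ^ j)⁻¹ * x * y ^ j) = p := by
      rw [← hx]
      have := orderOf_injective (MulAut.conj ((y ^ j)⁻¹)).toMonoidHom (MulAut.conj _).injective x
      have e : (MulAut.conj ((y ^ j)⁻¹)).toMonoidHom x = (y ^ j)⁻¹ * x * y ^ j := by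
        change (y ^ j)⁻¹ * x * ((y ^ j)⁻¹)⁻¹ = _
        rw [inv_inv]
      rwa [e] at this
    have hne1 : (y ^ j)⁻¹ * x * y ^ j ≠ 1 := by
      intro h
      rw [h, orderOf_one] at ho
      exact hp.one_lt.ne ho
    have h4 := D.hN _ hne1
    rw [ho] at h4
    rw [← h4]
    apply Finset.sum_congr rfl
    intro i _
    rw [← map_pow]
    congr 1
    have := conj_pow (a := (y ^ j)⁻¹) (b := x) (i := i)
    rw [inv_inv] at this
    exact this.symm
  rw [Finset.sum_comm] at h3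
  have h5 : ∀ i ∈ Finset.range p, i ≠ 0 →
      ∑ j ∈ Finset.range (orderOf y), ρ ((y ^ j)⁻¹ * x ^ i * y ^ j) = 0 := by
    intro i hi hi0
    have hc1 := h2 i (Finset.mem_range.1 hi) hi0
    set w := x ^ i * y * (x ^ i)⁻¹ with hw
    obtain ⟨k, hk⟩ := h1 i
    have hk' : y ^ k = w := hk
    have hcomm : Commute y⁻¹ w := by
      rw [← hk']
      exact ((Commute.refl y).zpow_right k).inv_left
    have hcm : (y⁻¹ * w) ^ (orderOf y) = 1 := by
      rw [hcomm.mul_pow, inv_pow, pow_orderOf_eq_one, inv_one, one_mul, ← hk', ← zpow_natCast, ← zpow_mul,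
        mul_comm, zpow_mul, zpow_natCast, pow_orderOf_eq_one, one_zpow]
    have e : ∀ j ∈ Finset.range (orderOf y), ρ ((y ^ j)⁻¹ * x ^ i * y ^ j) = ρ (y⁻¹ * w) ^ j * ρ (x ^ i) := by
      intro j _
      rw [← map_pow, ← map_mul]
      congr 1
      rw [hcomm.mul_pow, hw, conj_pow, inv_pow]
      group
    rw [Finset.sum_congr rfl e, ← Finset.sum_mul, sum_zero D hc1 hcm, zero_mul]
  rw [Finset.sum_eq_single 0 h5 (fun h => absurd (Finset.mem_range.2 hp.pos) h)] at h3
  have e2 : ∀ j ∈ Finset.range (orderOf y), ρ ((y ^ j)⁻¹ * x ^ 0 * y ^ j) = 1 := by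
    intro j _
    rw [pow_zero, mul_one, inv_mul_cancel, map_one]
  rw [Finset.sum_congr rfl e2, Finset.sum_const, Finset.card_range, nsmul_eq_mul] at h3
  exact one_ne_zero (nsmul_inj (A := A) hm.ne' h3)

end Cfsg.Agent.H10.FC
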