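import Mathlib
import Cfsg.Agent.H2.CommClosure

set_option autoImplicit false

/-! Presentation of Z-groups -/

namespace Cfsg.Agent.H10.FC

open scoped commutatorElement

theorem pow_mod_eq {M : Type*} [Monoid M] {x : M} {n : ℕ} (h : x ^ n = 1) (a : ℕ) : x ^ (a % n) = x ^ a := by
  conv_rhs => rw [← Nat.mod_add_div a n, pow_add, pow_mul, h, one_pow, mul_one]

theorem exists_gens {K : Type*} [Group K] [Finite K] [hz : IsZGroup K] :
    ∃ x y : K, (∃ r : ℕ, 1 ≤ r ∧ x⁻¹ * y * x = y ^ r ∧ Nat.Coprime (r - 1) (orderOf y)) ∧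
      Nat.Coprime (orderOf x) (orderOf y) ∧ orderOf x * orderOf y = Nat.card K ∧
      Subgroup.closure {x, y} = ⊤ ∧ x * y * x⁻¹ ∈ Subgroup.zpowers y := by
  classical
  obtain ⟨H, hH⟩ := Subgroup.exists_right_complement'_of_coprime hz.coprime_commutator_index
  haveI h1 : IsCyclic (commutator K) := hz.isCyclic_commutator
  haveI h2 : IsCyclic H := by
    have e : Abelianization K ≃* H := hH.symm.QuotientMulEquiv
    exact isCyclic_of_surjective _ e.surjective
  obtain ⟨⟨y, hyC⟩, hy⟩ := h1.exists_generator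
  obtain ⟨⟨x, hxH⟩, hx⟩ := h2.exists_generator
  have hyz : Subgroup.zpowers y = commutator K := by
    apply le_antisymm
    · rw [Subgroup.zpowers_le]; exact hyC
    · intro g hg
      obtain ⟨k, hk⟩ := hy ⟨g, hg⟩
      exact ⟨k, congrArg Subtype.val hk⟩
  have hxz : Subgroup.zpowers x = H := by
    apply le_antisymm
    · rw [Subgroup.zpowers_le]; exact hxH
    · intro g hg
      obtain ⟨k, hk⟩ := hx ⟨g, hg⟩
      exact ⟨k, congrArg Subtype.val hk⟩
  have hoy : orderOf y = Nat.card (commutator K) := by rw [← hyz, Nat.card_zpowers]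
  have hox : orderOf x = Nat.card H := by rw [← hxz, Nat.card_zpowers]
  have hidx : Nat.card H = (commutator K).index := hH.symm.index_eq_card.symm
  have hcop : Nat.Coprime (orderOf x) (orderOf y) := by
    rw [hox, hoy, hidx]; exact hz.coprime_commutator_index.symm
  have hcard : orderOf x * orderOf y = Nat.card K := by
    rw [hox, hoy, hidx, mul_comm, Subgroup.card_mul_index]
  have htop : Subgroup.closure {x, y} = ⊤ := by
    rw [eq_top_iff, ← hH.sup_eq_top, sup_le_iff]
    constructor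
    · rw [← hyz, Subgroup.zpowers_le]; exact Subgroup.subset_closure (by simp)
    · rw [← hxz, Subgroup.zpowers_le]; exact Subgroup.subset_closure (by simp)
  have hnorm : ∀ g : K, g * y * g⁻¹ ∈ Subgroup.zpowers y := by
    intro g
    rw [hyz]
    exact (inferInstance : (commutator K).Normal).conj_mem _ hyC g
  refine ⟨x, y, ?_, hcop, hcard, htop, hnorm x⟩
  have hpow : ∃ r : ℕ, 1 ≤ r ∧ x⁻¹ * y * x = y ^ r := by
    have h3 := hnorm x⁻¹
    rw [inv_inv] at h3
    rw [← mem_powers_iff_mem_zpowers] at h3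
    obtain ⟨k, hk⟩ := h3
    have hk' : y ^ k = x⁻¹ * y * x := hk
    refine ⟨k + orderOf y, ?_, ?_⟩
    · have := orderOf_pos y; omega
    · rw [pow_add, pow_orderOf_eq_one, mul_one, hk']
  obtain ⟨r, hr1, hr⟩ := hpow
  refine ⟨r, hr1, hr, ?_⟩
  -- `D = ⟨y ^ (r - 1)⟩` contains the commutator subgroup
  set D := Subgroup.zpowers (y ^ (r - 1)) with hD
  have hDn : D.Normal := by
    refine ⟨fun d hd g => ?_⟩
    obtain ⟨k, hk⟩ := hd
    have hk' : (y ^ (r - 1)) ^ k = d := hk
    obtain ⟨l, hl⟩ := hnorm g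
    have hl' : y ^ l = g * y * g⁻¹ := hl
    refine ⟨k * l, ?_⟩
    change (y ^ (r - 1)) ^ (k * l) = _
    rw [← hk', ← conj_zpow, ← conj_pow, ← hl', ← zpow_natCast, ← zpow_natCast, ← zpow_mul, ← zpow_mul, ← zpow_mul]
    congr 1
    ring
  have hDmem : ∀ g : K, g ∈ Subgroup.normalizer (D : Set K) := fun g => by
    rw [Subgroup.normalizer_eq_top]; trivial
  have key : ⁅x, y⁆ ∈ D := by
    have e : ⁅x, y⁆ = x * (y ^ (r - 1))⁻¹ * x⁻¹ := by
      have e1 : (y ^ (r - 1))⁻¹ = y * (x⁻¹ * y * x)⁻¹ := by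
        rw [hr]
        have : y ^ r = y ^ (r - 1) * y := by rw [← pow_succ]; congr 1; omega
        rw [this]; group
      rw [e1, commutatorElement_def]; group
    rw [e]
    exact hDn.conj_mem _ (inv_mem (Subgroup.mem_zpowers _)) x
  have hcomm : commutator K ≤ D := by
    rw [commutator_def, ← htop]
    apply H2.commutator_closure_le (fun g _ => hDmem g) (fun g _ => hDmem g)
    intro a ha b hb
    rcases ha with rfl | ha <;> rcases hb with rfl | hb
    · rw [commutatorElement_self]; exact one_mem _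
    · rw [Set.mem_singleton_iff.1 hb]; exact key
    · rw [Set.mem_singleton_iff.1 ha, ← commutatorElement_inv]; exact inv_mem key
    · rw [Set.mem_singleton_iff.1 ha, Set.mem_singleton_iff.1 hb, commutatorElement_self]; exact one_mem _
  have h6 : orderOf y ∣ orderOf (y ^ (r - 1)) := by
    have h7 : y ∈ D := hcomm hyC
    rw [← Nat.card_zpowers, ← Nat.card_zpowers (y ^ (r - 1))]
    exact Subgroup.card_dvd_of_le (by rw [Subgroup.zpowers_le]; exact h7)
  rw [orderOf_pow] at h6
  have h8 : 0 < orderOf y := orderOf_pos y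
  have h9 := Nat.gcd_dvd_left (orderOf y) (r - 1)
  have h10 : 0 < Nat.gcd (orderOf y) (r - 1) := Nat.gcd_pos_of_pos_left _ h8
  have h11 : orderOf y ≤ orderOf y / Nat.gcd (orderOf y) (r - 1) :=
    Nat.le_of_dvd (Nat.div_pos (Nat.le_of_dvd h8 h9) h10) h6
  rw [Nat.coprime_comm]
  change Nat.gcd (orderOf y) (r - 1) = 1
  by_contra hne
  have h12 : 2 ≤ Nat.gcd (orderOf y) (r - 1) := by omega
  have := Nat.div_lt_self h8 h12
  omega

/-- the relators -/
def rels (n m r : ℕ) : Set (FreeGroup (Fin 2)) :=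
  {FreeGroup.of (0 : Fin 2) ^ n, FreeGroup.of (1 : Fin 2) ^ m,
    (FreeGroup.of (0 : Fin 2))⁻¹ * FreeGroup.of 1 * FreeGroup.of 0 * (FreeGroup.of (1 : Fin 2) ^ r)⁻¹}

theorem pres {K : Type*} [Group K] [Finite K] {x y : K} {r : ℕ} (hr : x⁻¹ * y * x = y ^ r)
    (hcard : orderOf x * orderOf y = Nat.card K) (htop : Subgroup.closure {x, y} = ⊤) :
    Nonempty (K ≃* PresentedGroup (rels (orderOf x) (orderOf y) r)) := by
  classical
  set n := orderOf x with hn
  set m := orderOf y with hm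
  have hn0 : 0 < n := orderOf_pos x
  have hm0 : 0 < m := orderOf_pos y
  let f : Fin 2 → K := ![x, y]
  have hrel : ∀ w ∈ rels n m r, FreeGroup.lift f w = 1 := by
    intro w hw
    rcases hw with rfl | rfl | hw
    · rw [map_pow, FreeGroup.lift_apply_of]
      change x ^ n = 1
      rw [hn, pow_orderOf_eq_one]
    · rw [map_pow, FreeGroup.lift_apply_of]
      change y ^ m = 1
      rw [hm, pow_orderOf_eq_one]
    · rw [Set.mem_singleton_iff.1 hw]
      simp only [map_mul, map_inv, map_pow, FreeGroup.lift_apply_of]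
      change x⁻¹ * y * x * (y ^ r)⁻¹ = 1
      rw [hr, mul_inv_cancel]
  let φ : PresentedGroup (rels n m r) →* K := PresentedGroup.toGroup hrel
  have hφ0 : φ (PresentedGroup.of 0) = x := PresentedGroup.toGroup.of hrel
  have hφ1 : φ (PresentedGroup.of 1) = y := PresentedGroup.toGroup.of hrel
  have hsurj : Function.Surjective φ := by
    rw [← MonoidHom.range_eq_top, eq_top_iff, ← htop, Subgroup.closure_le]
    rintro g (rfl | hg)
    · exact ⟨_, hφ0⟩
    · rw [Set.mem_singleton_iff.1 hg]; exact ⟨_, hφ1⟩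
  set X : PresentedGroup (rels n m r) := PresentedGroup.of 0 with hX
  set Y : PresentedGroup (rels n m r) := PresentedGroup.of 1 with hY
  have hXn : X ^ n = 1 := PresentedGroup.one_of_mem (rels := rels n m r)
    (x := FreeGroup.of (0 : Fin 2) ^ n) (Or.inl rfl)
  have hYm : Y ^ m = 1 := PresentedGroup.one_of_mem (rels := rels n m r)
    (x := FreeGroup.of (1 : Fin 2) ^ m) (Or.inr (Or.inl rfl))
  have hXY : X⁻¹ * Y * X = Y ^ r := by
    have h := PresentedGroup.one_of_mem (rels := rels n m r)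
      (x := (FreeGroup.of (0 : Fin 2))⁻¹ * FreeGroup.of 1 * FreeGroup.of 0 * (FreeGroup.of (1 : Fin 2) ^ r)⁻¹)
      (Or.inr (Or.inr rfl))
    exact mul_inv_eq_one.1 h
  have hYX : ∀ b : ℕ, Y ^ b * X = X * Y ^ (r * b) := by
    intro b
    rw [pow_mul, ← hXY]
    have := conj_pow (a := X⁻¹) (b := Y) (i := b)
    rw [inv_inv] at this
    rw [this]; group
  have hYXc : ∀ c b : ℕ, ∃ b', Y ^ b * X ^ c = X ^ c * Y ^ b' := by
    intro c
    induction c with
    | zero => intro b; exact ⟨b, by simp⟩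
    | succ c ih =>
      intro b
      obtain ⟨b', hb'⟩ := ih b
      refine ⟨r * b', ?_⟩
      rw [pow_succ, ← mul_assoc, hb', mul_assoc, hYX, ← mul_assoc]
  have hform : ∀ g : PresentedGroup (rels n m r), ∃ a b : ℕ, g = X ^ a * Y ^ b := by
    intro g
    have hg : g ∈ Subgroup.closure (Set.range (PresentedGroup.of : Fin 2 → PresentedGroup (rels n m r))) := by
      rw [PresentedGroup.closure_range_of]; trivial
    have hinv : ∀ a b : ℕ, ∃ a' b' : ℕ, (X ^ a * Y ^ b)⁻¹ = X ^ a' * Y ^ b' := by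
      intro a b
      have e1 : (Y ^ b)⁻¹ = Y ^ (b * (m - 1)) := by
        rw [inv_eq_iff_mul_eq_one, ← pow_add]
        have : b + b * (m - 1) = m * b := by
          obtain ⟨m', hm'⟩ := Nat.exists_eq_succ_of_ne_zero hm0.ne'
          rw [hm']; simp; ring
        rw [this, pow_mul, hYm, one_pow]
      have e2 : (X ^ a)⁻¹ = X ^ (a * (n - 1)) := by
        rw [inv_eq_iff_mul_eq_one, ← pow_add]
        have : a + a * (n - 1) = n * a := by
          obtain ⟨n', hn'⟩ := Nat.exists_eq_succ_of_ne_zero hn0.ne'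
          rw [hn']; simp; ring
        rw [this, pow_mul, hXn, one_pow]
      obtain ⟨b', hb'⟩ := hYXc (a * (n - 1)) (b * (m - 1))
      exact ⟨a * (n - 1), b', by rw [mul_inv_rev, e1, e2, hb']⟩
    induction hg using Subgroup.closure_induction with
    | mem g hg =>
      obtain ⟨i, rfl⟩ := hg
      fin_cases i
      · exact ⟨1, 0, by rw [pow_one, pow_zero, mul_one]; rfl⟩
      · exact ⟨0, 1, by rw [pow_one, pow_zero, one_mul]; rfl⟩
    | one => exact ⟨0, 0, by simp⟩
    | mul g h _ _ ihg ihh =>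
      obtain ⟨a, b, rfl⟩ := ihg
      obtain ⟨c, d, rfl⟩ := ihh
      obtain ⟨b', hb'⟩ := hYXc c b
      refine ⟨a + c, b' + d, ?_⟩
      rw [pow_add, pow_add]
      calc X ^ a * Y ^ b * (X ^ c * Y ^ d) = X ^ a * (Y ^ b * X ^ c) * Y ^ d := by group
        _ = X ^ a * (X ^ c * Y ^ b') * Y ^ d := by rw [hb']
        _ = X ^ a * X ^ c * (Y ^ b' * Y ^ d) := by simp only [mul_assoc]
    | inv g _ ihg =>
      obtain ⟨a, b, rfl⟩ := ihg
      exact hinv a b
  let ψ : Fin n × Fin m → PresentedGroup (rels n m r) := fun p => X ^ (p.1 : ℕ) * Y ^ (p.2 : ℕ)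
  have hψ : Function.Surjective ψ := by
    intro g
    obtain ⟨a, b, rfl⟩ := hform g
    refine ⟨(⟨a % n, Nat.mod_lt _ hn0⟩, ⟨b % m, Nat.mod_lt _ hm0⟩), ?_⟩
    change X ^ (a % n) * Y ^ (b % m) = _
    rw [pow_mod_eq hXn, pow_mod_eq hYm]
  haveI : Finite (PresentedGroup (rels n m r)) := Finite.of_surjective ψ hψ
  have hle : Nat.card (PresentedGroup (rels n m r)) ≤ Nat.card K := by
    rw [← hcard]
    have := Nat.card_le_card_of_surjective ψ hψ
    rwa [Nat.card_prod, Nat.card_fin, Nat.card_fin] at this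
  have hbij : Function.Bijective φ := by
    haveI := Fintype.ofFinite (PresentedGroup (rels n m r))
    haveI := Fintype.ofFinite K
    rw [Fintype.bijective_iff_surjective_and_card]
    refine ⟨hsurj, le_antisymm ?_ (Fintype.card_le_of_surjective φ hsurj)⟩
    rwa [Nat.card_eq_fintype_card, Nat.card_eq_fintype_card] at hle
  exact ⟨(MulEquiv.ofBijective φ hbij).symm⟩

end Cfsg.Agent.H10.FC
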