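import Cfsg.Agent.H10.AB2
import Cfsg.Agent.H2.GlaubRep
import Cfsg.Agent.S0130

set_option autoImplicit false

namespace Cfsg.Agent.H10.Jon
open Subgroup

theorem card_mono' {G : Type*} [Group G] [Finite G] {H K : Subgroup G} (h : H ≤ K) : Nat.card H ≤ Nat.card K :=
  Nat.card_le_card_of_injective (Subgroup.inclusion h) (Subgroup.inclusion_injective h)

theorem exists_normal_card {G : Type*} [Group G] [Finite G] {p : ℕ} [Fact p.Prime] (hG : IsPGroup p G)
    (A : Subgroup G) [A.Normal] (k : ℕ) (hk : p ^ k ≤ Nat.card A) :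
    ∃ B : Subgroup G, B.Normal ∧ B ≤ A ∧ Nat.card B = p ^ k := by
  have hp : p.Prime := Fact.out
  induction k with
  | zero => exact ⟨⊥, inferInstance, bot_le, by simp⟩
  | succ k ih =>
    obtain ⟨B, hBn, hBA, hBc⟩ := ih (le_trans (Nat.pow_le_pow_right hp.pos (Nat.le_succ k)) hk)
    have hlt : B < A := by
      refine lt_of_le_of_ne hBA ?_
      rintro rfl
      rw [hBc] at hk
      exact absurd hk (not_le_of_gt (Nat.pow_lt_pow_right hp.one_lt (Nat.lt_succ_self k)))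
    obtain ⟨B', hB'n, -, hB'A, hB'c, -⟩ := AB.exists_next hG A B hlt
    exact ⟨B', hB'n, hB'A, by rw [hB'c, hBc, pow_succ]⟩

/-- orbit bound -/
theorem card_le_mul {G : Type*} [Group G] [Finite G] (E Z : Subgroup G) (x : G)
    (hx : ∀ e ∈ E, e * x * e⁻¹ * x⁻¹ ∈ Z) :
    Nat.card E ≤ Nat.card (E ⊓ centralizer ({x} : Set G) : Subgroup G) * Nat.card Z := by
  have hle : E ⊓ centralizer ({x} : Set G) ≤ E := inf_le_left
  rw [← AB.card_mul_rel hle]
  refine Nat.mul_le_mul_left _ ?_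
  rw [Subgroup.relIndex, Subgroup.index]
  let f : (E ⧸ (E ⊓ centralizer ({x} : Set G)).subgroupOf E) → Z :=
    fun q => ⟨(q.out : G) * x * (q.out : G)⁻¹ * x⁻¹, hx _ q.out.2⟩
  refine Nat.card_le_card_of_injective f ?_
  intro q q' h
  have h1 : (q.out : G) * x * (q.out : G)⁻¹ * x⁻¹ = (q'.out : G) * x * (q'.out : G)⁻¹ * x⁻¹ :=
    congrArg Subtype.val h
  have h2 : (q.out : G) * x * (q.out : G)⁻¹ = (q'.out : G) * x * (q'.out : G)⁻¹ := mul_right_cancel h1
  rw [← QuotientGroup.out_eq' q, ← QuotientGroup.out_eq' q', QuotientGroup.eq, Subgroup.mem_subgroupOf]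
  refine Subgroup.mem_inf.2 ⟨((q.out)⁻¹ * q'.out : E).2, ?_⟩
  rw [Subgroup.mem_centralizer_singleton_iff]
  show ((q.out : G)⁻¹ * q'.out) * x = x * ((q.out : G)⁻¹ * q'.out)
  have h5 : (q.out : G) * x * (q.out : G)⁻¹ * q'.out = q'.out * x := by rw [h2]; group
  calc ((q.out : G)⁻¹ * q'.out) * x = (q.out : G)⁻¹ * (q'.out * x) := by group
    _ = (q.out : G)⁻¹ * ((q.out : G) * x * (q.out : G)⁻¹ * q'.out) := by rw [h5]
    _ = x * ((q.out : G)⁻¹ * q'.out) := by group

theorem pow_of_le_of_lt {p : ℕ} (hp : p.Prime) {n a : ℕ} (h : ∃ k, n = p ^ k) (h1 : p ^ a ≤ n) (h2 : n < p ^ (a + 1)) :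
    n = p ^ a := by
  obtain ⟨k, rfl⟩ := h
  have h3 : a ≤ k := (Nat.pow_le_pow_iff_right hp.one_lt).1 h1
  have h4 : k < a + 1 := (Nat.pow_lt_pow_iff_right hp.one_lt).1 h2
  rw [show k = a by omega]

/-- The situation: `A` is normal elementary abelian of order `p^3` containing all elements of order `p` of its
centralizer, `A₁ < A₂ < A` normal in `G`. -/
structure Sit {G : Type*} [Group G] (p : ℕ) (A A₁ A₂ : Subgroup G) (x a : G) : Prop where
  nA : A.Normal
  nA₁ : A₁.Normal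
  nA₂ : A₂.Normal
  cA₁ : Nat.card A₁ = p
  cA₂ : Nat.card A₂ = p ^ 2
  cA : Nat.card A = p ^ 3
  comm : ∀ u ∈ A, ∀ v ∈ A, u * v = v * u
  exp : ∀ u ∈ A, u ^ p = 1
  max : ∀ u ∈ centralizer (A : Set G), u ^ p = 1 → u ∈ A
  h12 : A₁ ≤ A₂
  h2 : A₂ ≤ A
  hx : x ∈ A₂
  hxc : ∀ g : G, g * x * g⁻¹ * x⁻¹ ∈ A₁
  hxg : A₂ ≤ A₁ ⊔ zpowers x
  ha : a ∈ A
  hac : ∀ g : G, g * a * g⁻¹ * a⁻¹ ∈ A₂
  hag : A ≤ A₂ ⊔ zpowers a

section
variable {G : Type*} [Group G] [Finite G] {p : ℕ} [Fact p.Prime] {A A₁ A₂ : Subgroup G} {x a : G}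

theorem Sit.le_centralizer (h : Sit p A A₁ A₂ x a) : A ≤ centralizer (A : Set G) := by
  intro u hu
  rw [mem_centralizer_iff]
  intro v hv
  exact h.comm v hv u hu

theorem Sit.inf_eq (h : Sit p A A₁ A₂ x a) {E : Subgroup G} (hEe : ∀ u ∈ E, u ^ p = 1) :
    E ⊓ centralizer (A : Set G) = E ⊓ A := by
  apply le_antisymm
  · intro u hu
    obtain ⟨h1, h2⟩ := mem_inf.1 hu
    exact mem_inf.2 ⟨h1, h.max u h2 (hEe u h1)⟩
  · exact inf_le_inf_left _ h.le_centralizer

/-- central of order p -/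
theorem Sit.A₁_central (hG : IsPGroup p G) (h : Sit p A A₁ A₂ x a) : A₁ ≤ center G := by
  have hp : p.Prime := Fact.out
  have := h.nA₁
  have hne : A₁ ≠ ⊥ := by
    intro h0
    have h1 := h.cA₁
    rw [h0, Subgroup.card_bot] at h1
    exact hp.one_lt.ne h1
  have h1 := H2.inf_center_ne_bot_of_normal hG A₁ hne
  have h2 : Nat.card (A₁ ⊓ Subgroup.center G : Subgroup G) ∣ p := by
    rw [← h.cA₁]; exact Subgroup.card_dvd_of_le inf_le_left
  rcases (Nat.dvd_prime hp).1 h2 with h3 | h3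
  · exact absurd (Subgroup.card_eq_one.1 h3) h1
  · have h4 : A₁ ⊓ Subgroup.center G = A₁ := Subgroup.eq_of_le_of_card_ge inf_le_left (by rw [h3, h.cA₁])
    rw [← h4]; exact inf_le_right

theorem card_isPow (hG : IsPGroup p G) (H : Subgroup G) : ∃ k, Nat.card H = p ^ k :=
  (IsPGroup.iff_card).1 (hG.to_subgroup H)

theorem Sit.inf_eq_A₂ (hG : IsPGroup p G) (h : Sit p A A₁ A₂ x a) {E : Subgroup G}
    (hEe : ∀ u ∈ E, u ^ p = 1) (hEc : ∀ u ∈ E, ∀ v ∈ E, u * v = v * u) (hE : Nat.card E = p ^ 4) :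
    E ⊓ A = A₂ := by
  have hp : p.Prime := Fact.out
  have hCA := h.inf_eq hEe
  -- the centralizer of `A₂` in `E`
  set E₂ : Subgroup G := E ⊓ centralizer (A₂ : Set G) with hE₂
  have hKE₂ : E ⊓ A ≤ E₂ := by
    rw [← hCA]
    exact inf_le_inf_left _ (centralizer_le h.h2)
  have hE₂a : E₂ ⊓ centralizer ({a} : Set G) ≤ E ⊓ A := by
    rw [← hCA]
    intro u hu
    obtain ⟨h1, h2⟩ := mem_inf.1 hu
    obtain ⟨h3, h4⟩ := mem_inf.1 h1
    refine mem_inf.2 ⟨h3, ?_⟩
    have h5 : A ≤ centralizer ({u} : Set G) := by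
      refine h.hag.trans (sup_le ?_ ?_)
      · intro v hv
        rw [mem_centralizer_singleton_iff]
        exact mem_centralizer_iff.1 h4 v hv
      · rw [zpowers_le, mem_centralizer_singleton_iff]
        exact (mem_centralizer_singleton_iff.1 h2).symm
    rw [mem_centralizer_iff]
    intro v hv
    exact mem_centralizer_singleton_iff.1 (h5 hv)
  have hEx : E ⊓ centralizer ({x} : Set G) ≤ E₂ := by
    intro u hu
    obtain ⟨h1, h2⟩ := mem_inf.1 hu
    refine mem_inf.2 ⟨h1, ?_⟩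
    have h5 : A₂ ≤ centralizer ({u} : Set G) := by
      refine h.hxg.trans (sup_le ?_ ?_)
      · intro v hv
        rw [mem_centralizer_singleton_iff]
        exact (mem_center_iff.1 (h.A₁_central hG hv) u).symm
      · rw [zpowers_le, mem_centralizer_singleton_iff]
        exact (mem_centralizer_singleton_iff.1 h2).symm
    rw [mem_centralizer_iff]
    intro v hv
    exact mem_centralizer_singleton_iff.1 (h5 hv)
  have hE₂c : p ^ 3 ≤ Nat.card E₂ := by
    have h1 := card_le_mul E A₁ x (fun e _ => h.hxc e)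
    have h2 : Nat.card (E ⊓ centralizer ({x} : Set G) : Subgroup G) ≤ Nat.card E₂ :=
      card_mono' hEx
    rw [hE, h.cA₁] at h1
    have h3 : p ^ 3 * p ≤ Nat.card E₂ * p := by
      calc p ^ 3 * p = p ^ 4 := by ring
        _ ≤ _ := h1
        _ ≤ _ := Nat.mul_le_mul_right _ h2
    exact Nat.le_of_mul_le_mul_right h3 hp.pos
  have hK2 : p ^ 2 ≤ Nat.card (E ⊓ A : Subgroup G) := by
    by_cases hEE : E ≤ centralizer (A₂ : Set G)
    · have h1 : E₂ = E := inf_eq_left.2 hEE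
      have h2 := card_le_mul E₂ A₂ a (fun e _ => h.hac e)
      rw [h1, hE, h.cA₂] at h2
      have h3 : Nat.card (E ⊓ centralizer ({a} : Set G) : Subgroup G) ≤ Nat.card (E ⊓ A : Subgroup G) := by
        apply card_mono'
        rw [h1] at hE₂a
        exact hE₂a
      have h4 : p ^ 2 * p ^ 2 ≤ Nat.card (E ⊓ A : Subgroup G) * p ^ 2 := by
        calc p ^ 2 * p ^ 2 = p ^ 4 := by ring
          _ ≤ _ := h2
          _ ≤ _ := Nat.mul_le_mul_right _ h3
      exact Nat.le_of_mul_le_mul_right h4 (pow_pos hp.pos 2)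
    · -- values lie in `A₂ ⊓ C(E)`, of order at most `p`
      have h1 : ∀ e ∈ E₂, e * a * e⁻¹ * a⁻¹ ∈ A₂ ⊓ centralizer (E : Set G) := by
        intro e he
        refine mem_inf.2 ⟨h.hac e, ?_⟩
        obtain ⟨heE, heC⟩ := mem_inf.1 he
        rw [mem_centralizer_iff]
        intro e' he'
        -- e' [e,a] e'⁻¹ = [e, a]
        have h2 : e' * e = e * e' := hEc e' he' e heE
        have h3 : (e' * a * e'⁻¹ * a⁻¹) ∈ A₂ := h.hac e'
        have h4 : (e' * a * e'⁻¹ * a⁻¹) * e = e * (e' * a * e'⁻¹ * a⁻¹) := mem_centralizer_iff.1 heC _ h3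
        have h5 : (e' * a * e'⁻¹ * a⁻¹) * a = a * (e' * a * e'⁻¹ * a⁻¹) := h.comm _ (h.h2 h3) a h.ha
        have h6 : ((e' * a * e'⁻¹ * a⁻¹)) * (e * a * e⁻¹ * a⁻¹) = (e * a * e⁻¹ * a⁻¹) * (e' * a * e'⁻¹ * a⁻¹) :=
          h.comm _ (h.h2 h3) _ (h.h2 (h.hac e))
        have h2' : e' * e⁻¹ = e⁻¹ * e' := by
          calc e' * e⁻¹ = e⁻¹ * (e * e') * e⁻¹ := by group
            _ = e⁻¹ * (e' * e) * e⁻¹ := by rw [h2]
            _ = e⁻¹ * e' := by group
        set c := e' * a * e'⁻¹ * a⁻¹ with hc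
        have h7 : e' * a = c * a * e' := by rw [hc]; group
        have h8 : e' * a⁻¹ = a⁻¹ * c⁻¹ * e' := by rw [hc]; group
        have h9 : c * e⁻¹ = e⁻¹ * c := by
          calc c * e⁻¹ = e⁻¹ * (e * c) * e⁻¹ := by group
            _ = e⁻¹ * (c * e) * e⁻¹ := by rw [h4]
            _ = e⁻¹ * c := by group
        have h10 : c⁻¹ * a⁻¹ = a⁻¹ * c⁻¹ := by
          rw [← mul_inv_rev, ← mul_inv_rev, h5]
        calc e' * (e * a * e⁻¹ * a⁻¹) = (e' * e) * a * e⁻¹ * a⁻¹ := by group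
          _ = e * (e' * a) * e⁻¹ * a⁻¹ := by rw [h2]; group
          _ = e * c * a * (e' * e⁻¹) * a⁻¹ := by rw [h7]; group
          _ = e * c * a * e⁻¹ * (e' * a⁻¹) := by rw [h2']; group
          _ = (e * c) * a * e⁻¹ * a⁻¹ * c⁻¹ * e' := by rw [h8]; group
          _ = c * (e * a * e⁻¹ * a⁻¹) * c⁻¹ * e' := by rw [← h4]; group
          _ = (e * a * e⁻¹ * a⁻¹) * c * c⁻¹ * e' := by rw [h6]
          _ = (e * a * e⁻¹ * a⁻¹) * e' := by group
      have h2 := card_le_mul E₂ (A₂ ⊓ centralizer (E : Set G)) a h1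
      have h3 : Nat.card (A₂ ⊓ centralizer (E : Set G) : Subgroup G) ≤ p := by
        obtain ⟨k, hk⟩ := card_isPow hG (A₂ ⊓ centralizer (E : Set G))
        have h4 : A₂ ⊓ centralizer (E : Set G) < A₂ := by
          refine lt_of_le_of_ne inf_le_left ?_
          intro h5
          apply hEE
          rw [Subgroup.le_centralizer_iff]
          rw [← h5]; exact inf_le_right
        have h5 : Nat.card (A₂ ⊓ centralizer (E : Set G) : Subgroup G) < p ^ 2 := by
          rw [← h.cA₂]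
          exact Set.Finite.card_lt_card (Set.toFinite _) h4
        rw [hk] at h5 ⊢
        have h6 : k < 2 := (Nat.pow_lt_pow_iff_right hp.one_lt).1 h5
        calc p ^ k ≤ p ^ 1 := Nat.pow_le_pow_right hp.pos (by omega)
          _ = p := pow_one p
      have h4 : p ^ 2 * p ≤ Nat.card (E ⊓ A : Subgroup G) * p := by
        calc p ^ 2 * p = p ^ 3 := by ring
          _ ≤ Nat.card E₂ := hE₂c
          _ ≤ _ := h2
          _ ≤ Nat.card (E ⊓ A : Subgroup G) * p :=
            Nat.mul_le_mul (card_mono' hE₂a) h3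
      exact Nat.le_of_mul_le_mul_right h4 hp.pos
  have hK3 : Nat.card (E ⊓ A : Subgroup G) < p ^ 3 := by
    by_contra hcon
    push Not at hcon
    have h1 : E ⊓ A = A := Subgroup.eq_of_le_of_card_ge inf_le_right (by rw [h.cA]; exact hcon)
    have h2 : A ≤ E := inf_eq_right.1 h1
    have h3 : E ≤ centralizer (A : Set G) := by
      intro u hu
      rw [mem_centralizer_iff]
      intro v hv
      exact hEc v (h2 hv) u hu
    have h4 : E = A := by
      rw [← h1, ← hCA]; exact (inf_eq_left.2 h3).symm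
    have h5 := h.cA
    rw [← h4, hE] at h5
    have := Nat.pow_right_injective hp.two_le h5
    omega
  have hK : Nat.card (E ⊓ A : Subgroup G) = p ^ 2 :=
    pow_of_le_of_lt hp (card_isPow hG _) hK2 hK3
  -- `A₂ ≤ E ⊓ A`
  have hsup : ∀ u ∈ A, u ∉ E ⊓ A → E ⊓ centralizer ({u} : Set G) ≤ E ⊓ A := by
    intro u hu hun
    have h1 : (E ⊓ A) ⊔ zpowers u = A := by
      have h2 : (E ⊓ A) ⊔ zpowers u ≤ A := sup_le inf_le_right (zpowers_le.2 hu)
      have h3 : E ⊓ A < (E ⊓ A) ⊔ zpowers u := by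
        refine lt_of_le_of_ne le_sup_left ?_
        intro h4
        apply hun
        rw [h4]
        exact mem_sup_right (mem_zpowers u)
      apply Subgroup.eq_of_le_of_card_ge h2
      obtain ⟨k, hk⟩ := card_isPow hG ((E ⊓ A) ⊔ zpowers u)
      have h4 : Nat.card (E ⊓ A : Subgroup G) < Nat.card ((E ⊓ A) ⊔ zpowers u : Subgroup G) :=
        Set.Finite.card_lt_card (Set.toFinite _) h3
      rw [hK, hk] at h4
      have h5 : 2 < k := (Nat.pow_lt_pow_iff_right hp.one_lt).1 h4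
      rw [h.cA, hk]
      exact Nat.pow_le_pow_right hp.pos h5
    rw [← hCA]
    intro v hv
    obtain ⟨h2, h3⟩ := mem_inf.1 hv
    refine mem_inf.2 ⟨h2, ?_⟩
    have h5 : A ≤ centralizer ({v} : Set G) := by
      rw [← h1]
      refine sup_le ?_ ?_
      · intro w hw
        rw [mem_centralizer_singleton_iff]
        exact hEc _ (mem_inf.1 hw).1 _ h2
      · rw [zpowers_le, mem_centralizer_singleton_iff]
        exact (mem_centralizer_singleton_iff.1 h3).symm
    rw [mem_centralizer_iff]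
    intro w hw
    exact mem_centralizer_singleton_iff.1 (h5 hw)
  have hA₁ : A₁ ≤ E ⊓ A := by
    intro u hu
    by_contra hun
    have h1 := hsup u (h.h2 (h.h12 hu)) hun
    have h2 : E ⊓ centralizer ({u} : Set G) = E := by
      rw [inf_eq_left]
      intro v hv
      rw [mem_centralizer_singleton_iff]
      exact mem_center_iff.1 (h.A₁_central hG hu) v
    rw [h2] at h1
    have h3 := card_mono' h1
    rw [hE, hK] at h3
    have := (Nat.pow_le_pow_iff_right hp.one_lt).1 h3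
    omega
  have hxK : x ∈ E ⊓ A := by
    by_contra hun
    have h1 := hsup x (h.h2 h.hx) hun
    have h2 := card_le_mul E A₁ x (fun e _ => h.hxc e)
    rw [hE, h.cA₁] at h2
    have h3 := card_mono' h1
    rw [hK] at h3
    have h4 : p ^ 4 ≤ p ^ 2 * p := h2.trans (Nat.mul_le_mul_right _ h3)
    rw [← pow_succ] at h4
    have := (Nat.pow_le_pow_iff_right hp.one_lt).1 h4
    omega
  have hle : A₂ ≤ E ⊓ A := h.hxg.trans (sup_le hA₁ (zpowers_le.2 hxK))
  exact (Subgroup.eq_of_le_of_card_ge hle (by rw [hK, h.cA₂])).symm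

end

end Cfsg.Agent.H10.Jon
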