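import Cfsg.Agent.H10.Jon1
import Cfsg.Agent.H10.Sig2

set_option autoImplicit false

namespace Cfsg.Agent.H10.Jon
open Subgroup
open scoped commutatorElement

section
variable {G : Type*} [Group G] [Finite G] {p : ℕ} [Fact p.Prime] {A A₁ A₂ : Subgroup G} {x a : G}

theorem Sit.cent_le (h : Sit p A A₁ A₂ x a) :
    Nat.card (centralizer (A₂ : Set G)) ≤ Nat.card (centralizer (A : Set G)) * p ^ 2 := by
  have := AB.card_centralizer_le A₂ A h.h2 a h.hac h.ha h.hag
  rwa [h.cA₂] at this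

/-- two such subgroups normalizing each other are equal. -/
theorem Sit.eq_of_norm (hp2 : p ≠ 2) (hG : IsPGroup p G) (h : Sit p A A₁ A₂ x a) {E F : Subgroup G}
    (hEe : ∀ u ∈ E, u ^ p = 1) (hEc : ∀ u ∈ E, ∀ v ∈ E, u * v = v * u) (hE : Nat.card E = p ^ 4)
    (hFe : ∀ u ∈ F, u ^ p = 1) (hFc : ∀ u ∈ F, ∀ v ∈ F, u * v = v * u) (hF : Nat.card F = p ^ 4)
    (hEF : E ≤ normalizer (F : Set G)) (hFE : F ≤ normalizer (E : Set G)) : E = F := by
  have hp : p.Prime := Fact.out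
  by_contra hne
  have hEA := h.inf_eq_A₂ hG hEe hEc hE
  have hFA := h.inf_eq_A₂ hG hFe hFc hF
  have hA₂E : A₂ ≤ E := by rw [← hEA]; exact inf_le_left
  have hA₂F : A₂ ≤ F := by rw [← hFA]; exact inf_le_left
  obtain ⟨I, hI⟩ : ∃ I : Subgroup G, I = E ⊓ F := ⟨_, rfl⟩
  -- commutators
  have hcomm : ∀ e ∈ E, ∀ f ∈ F, f * e * f⁻¹ * e⁻¹ ∈ I := by
    intro e he f hf
    rw [hI]
    refine mem_inf.2 ⟨?_, ?_⟩
    · exact mul_mem ((mem_normalizer_iff.1 (hFE hf) e).1 he) (inv_mem he)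
    · have h1 : e * f⁻¹ * e⁻¹ ∈ F := (mem_normalizer_iff.1 (hEF he) f⁻¹).1 (inv_mem hf)
      have h2 : f * e * f⁻¹ * e⁻¹ = f * (e * f⁻¹ * e⁻¹) := by group
      rw [h2]; exact mul_mem hf h1
  have hIE : ∀ i ∈ I, ∀ e ∈ E, i * e = e * i := fun i hi e he => hEc i (by rw [hI] at hi; exact (mem_inf.1 hi).1) e he
  have hIF : ∀ i ∈ I, ∀ f ∈ F, i * f = f * i := fun i hi f hf => hFc i (by rw [hI] at hi; exact (mem_inf.1 hi).2) f hf
  obtain ⟨T, hT⟩ : ∃ T : Subgroup G, T = E ⊔ F := ⟨_, rfl⟩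
  have hTmul : ∀ t ∈ T, ∃ e ∈ E, ∃ f ∈ F, e * f = t := by
    intro t ht
    rw [hT] at ht
    exact (H1.mem_sup_iff_of_le_normalizer hFE).1 ht
  have hTe : ∀ t ∈ T, t ^ p = 1 := by
    intro t ht
    obtain ⟨e, he, f, hf, rfl⟩ := hTmul t ht
    have hc := hcomm e he f hf
    have h1 : Commute e ⁅f, e⁆ := (hIE _ hc e he).symm
    have h2 : Commute f ⁅f, e⁆ := (hIF _ hc f hf).symm
    rw [H2.mul_pow_of_comm h1 h2, hEe e he, hFe f hf, one_mul, one_mul]
    have h3 : ⁅f, e⁆ ^ p = 1 := hEe _ (by rw [hI] at hc; exact (mem_inf.1 hc).1)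
    have h4 : p ∣ p * (p - 1) / 2 := by
      have h5 : 2 ∣ p - 1 := by
        have := hp.eq_two_or_odd'.resolve_left hp2
        obtain ⟨k, hk⟩ := this
        exact ⟨k, by omega⟩
      rw [Nat.mul_div_assoc _ h5]
      exact Dvd.intro _ rfl
    obtain ⟨k, hk⟩ := h4
    rw [hk, pow_mul, h3, one_pow]
  have hTcent : ∀ i ∈ I, ∀ t ∈ T, i * t = t * i := by
    intro i hi t ht
    obtain ⟨e, he, f, hf, rfl⟩ := hTmul t ht
    rw [← mul_assoc, hIE i hi e he, mul_assoc, hIF i hi f hf, mul_assoc]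
  have hTA₂ : T ≤ centralizer (A₂ : Set G) := by
    rw [hT]
    refine sup_le ?_ ?_
    · intro u hu
      rw [mem_centralizer_iff]
      intro v hv
      exact hEc v (hA₂E hv) u hu
    · intro u hu
      rw [mem_centralizer_iff]
      intro v hv
      exact hFc v (hA₂F hv) u hu
  -- counting
  have hcT : Nat.card T * Nat.card I = p ^ 4 * p ^ 4 := by
    rw [hT, hI, H1.card_sup_mul_card_inf_of_le_normalizer hFE, hF, hE]
  have hCn : (centralizer (A : Set G)).Normal := by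
    have := h.nA
    infer_instance
  have hcTC : Nat.card T ≤ Nat.card (T ⊓ centralizer (A : Set G) : Subgroup G) * p ^ 2 := by
    have h1 := H1.card_sup_mul_card_inf_of_le_normalizer (H := centralizer (A : Set G)) (K := T)
      (by rw [Subgroup.normalizer_eq_top]; exact le_top)
    have h2 : centralizer (A : Set G) ⊔ T ≤ centralizer (A₂ : Set G) := sup_le (centralizer_le h.h2) hTA₂
    have h3 := (card_mono' h2).trans h.cent_le
    have h4 : 0 < Nat.card (centralizer (A : Set G)) := Nat.card_pos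
    rw [inf_comm] at h1
    have h5 : Nat.card (centralizer (A : Set G)) * Nat.card T ≤
        Nat.card (centralizer (A : Set G)) * (Nat.card (T ⊓ centralizer (A : Set G) : Subgroup G) * p ^ 2) := by
      rw [← h1]
      calc _ ≤ (Nat.card (centralizer (A : Set G)) * p ^ 2) * Nat.card (T ⊓ centralizer (A : Set G) : Subgroup G) :=
            Nat.mul_le_mul_right _ h3
        _ = _ := by ring
    exact Nat.le_of_mul_le_mul_left h5 h4
  have hTCA : T ⊓ centralizer (A : Set G) ≤ A := by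
    intro t ht
    obtain ⟨h1, h2⟩ := mem_inf.1 ht
    exact h.max t h2 (hTe t h1)
  have hTCc : Nat.card (T ⊓ centralizer (A : Set G) : Subgroup G) ≤ p ^ 3 := by
    rw [← h.cA]; exact card_mono' hTCA
  have hI4 : Nat.card I < p ^ 4 := by
    rw [← hE, hI]
    have hlt : E ⊓ F < E := lt_of_le_of_ne inf_le_left (fun h1 => ?_)
    · exact Set.Finite.card_lt_card (Set.toFinite _) hlt
    apply hne
    exact Subgroup.eq_of_le_of_card_ge (inf_eq_left.1 h1) (by rw [hE, hF])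
  obtain ⟨i, hi⟩ := card_isPow hG I
  obtain ⟨t, ht⟩ := card_isPow hG T
  rw [hi] at hI4
  have hi4 : i < 4 := (Nat.pow_lt_pow_iff_right hp.one_lt).1 hI4
  have hti : t + i = 8 := by
    rw [ht, hi, ← pow_add, ← pow_add] at hcT
    exact Nat.pow_right_injective hp.two_le hcT
  have ht5 : t ≤ 5 := by
    have h1 : p ^ t ≤ p ^ 5 := by
      rw [← ht]
      calc Nat.card T ≤ _ := hcTC
        _ ≤ p ^ 3 * p ^ 2 := Nat.mul_le_mul_right _ hTCc
        _ = p ^ 5 := by ring
    exact (Nat.pow_le_pow_iff_right hp.one_lt).1 h1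
  have hi3 : i = 3 := by omega
  have ht5' : t = 5 := by omega
  have hTC3 : p ^ 3 ≤ Nat.card (T ⊓ centralizer (A : Set G) : Subgroup G) := by
    rw [ht, ht5'] at hcTC
    have : p ^ 3 * p ^ 2 ≤ Nat.card (T ⊓ centralizer (A : Set G) : Subgroup G) * p ^ 2 := by
      calc p ^ 3 * p ^ 2 = p ^ 5 := by ring
        _ ≤ _ := hcTC
    exact Nat.le_of_mul_le_mul_right this (pow_pos hp.pos 2)
  have hTCeq : T ⊓ centralizer (A : Set G) = A :=
    Subgroup.eq_of_le_of_card_ge hTCA (by rw [h.cA]; exact hTC3)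
  have hAT : A ≤ T := by rw [← hTCeq]; exact inf_le_left
  have hIC : I ≤ E ⊓ A := by
    rw [← h.inf_eq hEe]
    intro u hu
    refine mem_inf.2 ⟨by rw [hI] at hu; exact (mem_inf.1 hu).1, ?_⟩
    rw [mem_centralizer_iff]
    intro v hv
    exact (hTcent u hu v (hAT hv)).symm
  have h1 := card_mono' hIC
  rw [hEA, h.cA₂, hi, hi3] at h1
  have := (Nat.pow_le_pow_iff_right hp.one_lt).1 h1
  omega

theorem Sit.normal (hp2 : p ≠ 2) (hG : IsPGroup p G) (h : Sit p A A₁ A₂ x a) {E : Subgroup G}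
    (hEe : ∀ u ∈ E, u ^ p = 1) (hEc : ∀ u ∈ E, ∀ v ∈ E, u * v = v * u) (hE : Nat.card E = p ^ 4) : E.Normal := by
  rw [← Subgroup.normalizer_eq_top_iff]
  by_contra hne
  have hlt : normalizer (E : Set G) < ⊤ := lt_top_iff_ne_top.2 hne
  have h1 := lt_inf_normalizer (hG.to_subgroup ⊤) hlt
  obtain ⟨g, hg, hgN⟩ := SetLike.exists_of_lt h1
  have hgN' := (mem_inf.1 hg).1
  apply hgN
  obtain ⟨F, hF⟩ : ∃ F : Subgroup G, F = E.map (MulAut.conj g).toMonoidHom := ⟨_, rfl⟩
  have hmem : ∀ u, u ∈ F ↔ g⁻¹ * u * g ∈ E := by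
    intro u
    rw [hF, Subgroup.mem_map]
    constructor
    · rintro ⟨v, hv, rfl⟩
      have : g⁻¹ * ((MulAut.conj g).toMonoidHom v) * g = v := by
        show g⁻¹ * (g * v * g⁻¹) * g = v
        group
      rw [this]; exact hv
    · intro hu
      refine ⟨_, hu, ?_⟩
      show g * (g⁻¹ * u * g) * g⁻¹ = u
      group
  have hFe : ∀ u ∈ F, u ^ p = 1 := by
    intro u hu
    have h2 := hEe _ ((hmem u).1 hu)
    have h3 : (g⁻¹ * u * g) ^ p = g⁻¹ * u ^ p * g := by
      have := conj_pow (a := g⁻¹) (b := u) (i := p)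
      rwa [inv_inv] at this
    rw [h3] at h2
    calc u ^ p = g * (g⁻¹ * u ^ p * g) * g⁻¹ := by group
      _ = 1 := by rw [h2]; group
  have hFc : ∀ u ∈ F, ∀ v ∈ F, u * v = v * u := by
    intro u hu v hv
    have h2 := hEc _ ((hmem u).1 hu) _ ((hmem v).1 hv)
    calc u * v = g * ((g⁻¹ * u * g) * (g⁻¹ * v * g)) * g⁻¹ := by group
      _ = g * ((g⁻¹ * v * g) * (g⁻¹ * u * g)) * g⁻¹ := by rw [h2]
      _ = v * u := by group
  have hFcard : Nat.card F = p ^ 4 := by
    rw [hF, Subgroup.card_map_of_injective (MulAut.conj g).injective, hE]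
  -- E normalizes F: g⁻¹ E g normalizes E
  have hnorm : ∀ u, u ∈ normalizer (E : Set G) ↔ g * u * g⁻¹ ∈ normalizer (E : Set G) := fun u =>
    mem_normalizer_iff.1 hgN' u
  have hEF : E ≤ normalizer (F : Set G) := by
    intro e he
    have h2 : g⁻¹ * e * g ∈ normalizer (E : Set G) := by
      rw [hnorm]
      have : g * (g⁻¹ * e * g) * g⁻¹ = e := by group
      rw [this]; exact le_normalizer he
    rw [mem_normalizer_iff]
    intro u
    show u ∈ F ↔ e * u * e⁻¹ ∈ F
    rw [hmem, hmem, mem_normalizer_iff.1 h2]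
    have : g⁻¹ * e * g * (g⁻¹ * u * g) * (g⁻¹ * e * g)⁻¹ = g⁻¹ * (e * u * e⁻¹) * g := by group
    rw [this]
  have hFE : F ≤ normalizer (E : Set G) := by
    intro u hu
    have h2 := (hmem u).1 hu
    have h3 : g * (g⁻¹ * u * g) * g⁻¹ ∈ normalizer (E : Set G) := by
      rw [← hnorm]; exact le_normalizer h2
    have h4 : g * (g⁻¹ * u * g) * g⁻¹ = u := by group
    rwa [h4] at h3
  have heq := h.eq_of_norm hp2 hG hEe hEc hE hFe hFc hFcard hEF hFE
  rw [mem_normalizer_iff]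
  intro u
  show u ∈ E ↔ g * u * g⁻¹ ∈ E
  have h5 : g * u * g⁻¹ ∈ E ↔ g * u * g⁻¹ ∈ F := by rw [← heq]
  rw [h5, hmem]
  have : g⁻¹ * (g * u * g⁻¹) * g = u := by group
  rw [this]

end

theorem main {G : Type*} [Group G] [Finite G] {p : ℕ} [Fact p.Prime] (hp2 : p ≠ 2) (hG : IsPGroup p G) (E : Subgroup G)
    (hEe : ∀ u ∈ E, u ^ p = 1) (hEc : ∀ u ∈ E, ∀ v ∈ E, u * v = v * u) (hE : Nat.card E = p ^ 4) :
    ∃ B : Subgroup G, B.Normal ∧ (∀ u ∈ B, u ^ p = 1) ∧ (∀ u ∈ B, ∀ v ∈ B, u * v = v * u) ∧ Nat.card B = p ^ 4 := by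
  have hp : p.Prime := Fact.out
  obtain ⟨A, -, hAmax⟩ := (Set.toFinite {A : Subgroup G | A.Normal ∧ (∀ u ∈ A, u ^ p = 1) ∧
    (∀ u ∈ A, ∀ v ∈ A, u * v = v * u)}).exists_le_maximal
    (show (⊥ : Subgroup G) ∈ _ from ⟨inferInstance, by
      intro u hu
      rw [Subgroup.mem_bot.1 hu, one_pow], by
      intro u hu v hv
      rw [Subgroup.mem_bot.1 hu, Subgroup.mem_bot.1 hv]⟩)
  obtain ⟨hAn, hAe, hAc⟩ := hAmax.prop
  have hmax : ∀ u ∈ centralizer (A : Set G), u ^ p = 1 → u ∈ A := by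
    intro u hu hup
    have hAcomm : IsMulCommutative A := ⟨⟨fun a b => Subtype.ext (hAc a a.2 b b.2)⟩⟩
    refine S0130.result hG 1 (by rw [pow_one]; exact hp2) A hAcomm (by intro a ha; rw [pow_one]; exact hAe a ha) ?_ u hu
      (by rw [pow_one]; exact hup)
    intro B hBn hBc hBe hAB
    refine le_antisymm (hAmax.le_of_ge ⟨hBn, ?_, ?_⟩ hAB) hAB
    · intro b hb
      have := hBe b hb
      rwa [pow_one] at this
    · intro b hb c hc
      exact congrArg Subtype.val (hBc.is_comm.comm (⟨b, hb⟩ : B) ⟨c, hc⟩)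
  by_cases h4 : p ^ 4 ≤ Nat.card A
  · obtain ⟨B, hBn, hBA, hBc⟩ := exists_normal_card hG A 4 h4
    exact ⟨B, hBn, fun u hu => hAe u (hBA hu), fun u hu v hv => hAc u (hBA hu) v (hBA hv), hBc⟩
  push Not at h4
  obtain ⟨r, hr⟩ := card_isPow hG A
  rw [hr] at h4
  have hr4 : r < 4 := (Nat.pow_lt_pow_iff_right hp.one_lt).1 h4
  have hEC : E ⊓ centralizer (A : Set G) ≤ A := by
    intro u hu
    obtain ⟨h1, h2⟩ := mem_inf.1 hu
    exact hmax u h2 (hEe u h1)
  by_cases hr3 : r = 3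
  · subst hr3
    obtain ⟨A₁, hA₁n, hA₁A, hA₁c⟩ := exists_normal_card hG A 1 (by rw [hr]; exact Nat.pow_le_pow_right hp.pos (by norm_num))
    rw [pow_one] at hA₁c
    have hlt1 : A₁ < A := by
      refine lt_of_le_of_ne hA₁A ?_
      rintro rfl
      rw [hA₁c] at hr
      have h5 : p ^ 1 = p ^ 3 := by rw [pow_one]; exact hr
      have := Nat.pow_right_injective hp.two_le h5
      omega
    obtain ⟨A₂, hA₂n, hA₁₂, hA₂A, hA₂c, x, hx, hxc, hxg⟩ := AB.exists_next hG A A₁ hlt1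
    rw [hA₁c] at hA₂c
    have hlt2 : A₂ < A := by
      refine lt_of_le_of_ne hA₂A ?_
      rintro rfl
      rw [hA₂c] at hr
      have h5 : p ^ 2 = p ^ 3 := by rw [← hr]; ring
      have := Nat.pow_right_injective hp.two_le h5
      omega
    obtain ⟨A₃, hA₃n, hA₂₃, hA₃A, hA₃c, a, ha, hac, hag⟩ := AB.exists_next hG A A₂ hlt2
    have hA₃ : A₃ = A := by
      apply Subgroup.eq_of_le_of_card_ge hA₃A
      rw [hr, hA₃c, hA₂c]
      apply le_of_eq; ring
    subst hA₃
    have hS : Sit p A₃ A₁ A₂ x a :=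
      { nA := hAn, nA₁ := hA₁n, nA₂ := hA₂n, cA₁ := hA₁c, cA₂ := by rw [hA₂c]; ring, cA := hr, comm := hAc, exp := hAe
        max := hmax, h12 := hA₁₂.le, h2 := hA₂A, hx := hx, hxc := hxc, hxg := hxg, ha := ha, hac := hac, hag := hag }
    exact ⟨E, hS.normal hp2 hG hEe hEc hE, hEe, hEc, hE⟩
  · exfalso
    have hr2 : r ≤ 2 := by omega
    have h5 := AB.main hG A r hr r 0 ⊥ (by omega) inferInstance bot_le (by simp)
    simp only [Finset.range_zero, Finset.sum_empty, pow_zero, mul_one] at h5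
    have h6 : ∑ i ∈ Finset.range r, i ≤ 1 := by
      have : r = 0 ∨ r = 1 ∨ r = 2 := by omega
      rcases this with rfl | rfl | rfl <;> decide
    have h1 : Nat.card (Subgroup.centralizer ((⊥ : Subgroup G) : Set G)) = Nat.card G := by
      rw [show Subgroup.centralizer ((⊥ : Subgroup G) : Set G) = ⊤ from ?_]
      · exact Subgroup.card_top
      · rw [eq_top_iff]
        intro x _
        rw [Subgroup.mem_centralizer_iff]
        intro y hy
        rw [SetLike.mem_coe, Subgroup.mem_bot] at hy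
        rw [hy]; simp
    rw [h1] at h5
    have h7 : Nat.card G ≤ Nat.card (centralizer (A : Set G)) * p := by
      refine h5.trans (Nat.mul_le_mul_left _ ?_)
      calc p ^ (∑ i ∈ Finset.range r, i) ≤ p ^ 1 := Nat.pow_le_pow_right hp.pos h6
        _ = p := pow_one p
    have h8 := H1.card_sup_mul_card_inf_of_le_normalizer (H := centralizer (A : Set G)) (K := E)
      (by rw [Subgroup.normalizer_eq_top]; exact le_top)
    have h9 : Nat.card (centralizer (A : Set G) ⊔ E : Subgroup G) ≤ Nat.card (centralizer (A : Set G)) * p :=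
      (Subgroup.card_le_card_group _).trans h7
    have h10 : Nat.card (centralizer (A : Set G)) * p ^ 4 ≤
        Nat.card (centralizer (A : Set G)) * (p * p ^ 2) := by
      rw [← hE, ← h8]
      calc _ ≤ (Nat.card (centralizer (A : Set G)) * p) * Nat.card (centralizer (A : Set G) ⊓ E : Subgroup G) :=
            Nat.mul_le_mul_right _ h9
        _ ≤ (Nat.card (centralizer (A : Set G)) * p) * p ^ 2 := by
            apply Nat.mul_le_mul_left
            rw [inf_comm]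
            refine (card_mono' hEC).trans ?_
            rw [hr]; exact Nat.pow_le_pow_right hp.pos hr2
        _ = _ := by ring
    have h11 : p ^ 4 ≤ p ^ 3 := by
      have := Nat.le_of_mul_le_mul_left h10 Nat.card_pos
      calc p ^ 4 ≤ p * p ^ 2 := this
        _ = p ^ 3 := by ring
    have := (Nat.pow_le_pow_iff_right hp.one_lt).1 h11
    omega

end Cfsg.Agent.H10.Jon
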