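import Mathlib
import Cfsg.Agent.H21.RG3

set_option autoImplicit false
set_option linter.all false

/-!
# H10.KA1: linear groups transitive on non-zero vectors up to sign
(adapted from `Cfsg.Agent.H21.RG1`)
-/

universe u v w

namespace Cfsg.Agent.H10

open Cfsg.Agent.H21.RG

variable {q : ℕ} [hq : Fact q.Prime] {V : Type v} [AddCommGroup V] [Module (ZMod q) V] [Finite V] [Nontrivial V]
  {G : Type u} [Group G] [Finite G]

/-- `G × {±1}` is transitive on the non-zero vectors -/
structure PMAct (ρ : G →* Module.End (ZMod q) V) : Prop where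
  trans : ∀ v w : V, v ≠ 0 → w ≠ 0 → ∃ g : G, ρ g v = w ∨ ρ g v = -w

variable {ρ : G →* Module.End (ZMod q) V} (R : PMAct ρ)

omit [Finite V] [Nontrivial V] [Finite G] in
theorem cyc_neg (A : Subgroup G) (v : V) : cyc ρ A (-v) = cyc ρ A v := by
  ext w
  constructor
  · rintro ⟨x, hx, rfl⟩
    exact ⟨-x, neg_mem hx, by rw [LinearMap.neg_apply, map_neg]⟩
  · rintro ⟨x, hx, rfl⟩
    exact ⟨-x, neg_mem hx, by rw [LinearMap.neg_apply, map_neg, neg_neg]⟩

omit [Nontrivial V] [Finite G] in
include R in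
theorem cyc_eq' (A : Subgroup G) (hA : A.Normal) {v w : V} (hw : w ≠ 0) (h : w ∈ cyc ρ A v) :
    cyc ρ A w = cyc ρ A v := by
  obtain ⟨x, hx, rfl⟩ := h
  have hv : v ≠ 0 := by rintro rfl; exact hw (map_zero _)
  have hsub : cyc ρ A (x v) ⊆ cyc ρ A v := by
    rintro _ ⟨y, hy, rfl⟩
    exact ⟨y * x, mul_mem hy hx, rfl⟩
  obtain ⟨g, hg⟩ := R.trans v (x v) hv hw
  apply Set.eq_of_subset_of_ncard_le hsub
  apply Set.ncard_le_ncard_of_injOn (fun u => ρ g u)
  · rintro _ ⟨y, hy, rfl⟩
    have h1 : ρ g (y v) ∈ cyc ρ A (ρ g v) := by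
      refine ⟨ρ g * y * ρ g⁻¹, env_conj A hA g hy, ?_⟩
      show ρ g (y v) = ρ g (y (ρ g⁻¹ (ρ g v)))
      rw [inv_apply]
    rcases hg with hg | hg
    · rw [hg] at h1; exact h1
    · rw [hg, cyc_neg] at h1; exact h1
  · intro a _ b _ hab
    have := congrArg (ρ g⁻¹) hab
    simpa only [inv_apply] using this

omit [Nontrivial V] [Finite G] in
include R in
theorem env_inj' (A : Subgroup G) (hA : A.Normal) (hAc : ∀ a ∈ A, ∀ b ∈ A, a * b = b * a)
    {x : Module.End (ZMod q) V} (hx : x ∈ env ρ A) {v : V} (hv : v ≠ 0) (h : x v = 0) : x = 0 := by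
  ext u
  rw [LinearMap.zero_apply]
  by_contra hu
  have hself : ∀ w : V, w ∈ cyc ρ A w := fun w => ⟨1, one_mem _, rfl⟩
  have h1 : cyc ρ A (x u) = cyc ρ A u := cyc_eq' R A hA hu ⟨x, hx, rfl⟩
  have h2 : x (u + v) = x u := by rw [map_add, h, add_zero]
  have h3 : cyc ρ A (x u) = cyc ρ A (u + v) := cyc_eq' R A hA hu ⟨x, hx, h2.symm⟩
  have h4 : u + v ∈ cyc ρ A u := by rw [← h1, h3]; exact hself _
  have h5 : v ∈ cyc ρ A u := by
    obtain ⟨y, hy, hyu⟩ := h4
    refine ⟨y - 1, sub_mem hy (one_mem _), ?_⟩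
    rw [LinearMap.sub_apply, ← hyu, Module.End.one_apply]; abel
  have h6 := cyc_eq' R A hA hv h5
  have h7 : u ∈ cyc ρ A v := by rw [h6]; exact hself _
  obtain ⟨y, hy, rfl⟩ := h7
  apply hu
  rw [← Module.End.mul_apply, env_comm A hAc hx hy, Module.End.mul_apply, h, map_zero]

omit [Finite G] in
include R in
/-- normal abelian subgroups generate fields -/
theorem exists_field' (A : Subgroup G) (hA : A.Normal) (hAc : ∀ a ∈ A, ∀ b ∈ A, a * b = b * a) :
    ∃ m, m ≠ 0 ∧ ∃ ι : GaloisField q m →+* Module.End (ZMod q) V, ∀ x, x ∈ env ρ A ↔ ∃ y, ι y = x := by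
  classical
  haveI : Finite (Module.End (ZMod q) V) := Module.finite_of_finite (ZMod q)
  have hF : IsField (env ρ A) := by
    refine ⟨?_, ?_, ?_⟩
    · obtain ⟨v, hv⟩ := exists_ne (0 : V)
      refine ⟨0, 1, fun h => hv ?_⟩
      have := congrArg (fun x : env ρ A => (x : Module.End (ZMod q) V) v) h
      exact this.symm
    · rintro ⟨a, ha⟩ ⟨b, hb⟩
      exact Subtype.ext (env_comm A hAc ha hb)
    · rintro ⟨a, ha⟩ ha0
      have ha0' : a ≠ 0 := fun h => ha0 (Subtype.ext h)
      have hinj : Function.Injective (fun b : env ρ A => (⟨a, ha⟩ : env ρ A) * b) := by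
        intro b c hbc
        have h1 : a * (b : Module.End (ZMod q) V) = a * c := congrArg Subtype.val hbc
        apply Subtype.ext
        apply LinearMap.ext
        intro v
        have h2 : a ((b : Module.End (ZMod q) V) v - (c : Module.End (ZMod q) V) v) = 0 := by
          rw [map_sub, ← Module.End.mul_apply, ← Module.End.mul_apply, h1, sub_self]
        by_contra hne
        exact ha0' (env_inj' R A hA hAc ha (sub_ne_zero.2 hne) h2)
      have hsurj := Finite.injective_iff_surjective.1 hinj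
      exact hsurj 1
  letI : Field (env ρ A) := hF.toField
  haveI : Fintype (env ρ A) := Fintype.ofFinite _
  obtain ⟨p, hp1⟩ := CharP.exists (env ρ A)
  obtain ⟨⟨n, hn⟩, hp, hcard⟩ := FiniteField.card (env ρ A) p
  haveI : Fact p.Prime := ⟨hp⟩
  have hpq : p = q := by
    have h1 : ((q : ℕ) : env ρ A) = 0 := by
      apply Subtype.ext
      apply LinearMap.ext
      intro v
      have h2 : ((q : ℕ) : ZMod q) • v = 0 := by rw [CharP.cast_eq_zero, zero_smul]
      rw [Nat.cast_smul_eq_nsmul] at h2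
      have h3 : (((q : ℕ) : env ρ A) : Module.End (ZMod q) V) = ((q : ℕ) : Module.End (ZMod q) V) := rfl
      rw [h3]
      simpa using h2
    rw [CharP.cast_eq_zero_iff (env ρ A) p] at h1
    exact (Nat.prime_dvd_prime_iff_eq hp hq.out).1 h1
  subst hpq
  haveI : Fintype (GaloisField p n) := Fintype.ofFinite _
  have hcard2 : Fintype.card (env ρ A) = Fintype.card (GaloisField p n) := by
    rw [hcard, ← Nat.card_eq_fintype_card, GaloisField.card p n hn.ne']
    rfl
  let τ : env ρ A ≃+* GaloisField p n := FiniteField.ringEquivOfCardEq hcard2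
  refine ⟨n, hn.ne', (env ρ A).val.toRingHom.comp τ.symm.toRingHom, ?_⟩
  intro x
  constructor
  · intro hx
    exact ⟨τ ⟨x, hx⟩, by
      show ((τ.symm (τ ⟨x, hx⟩) : env ρ A) : Module.End (ZMod p) V) = x
      rw [RingEquiv.symm_apply_apply]⟩
  · rintro ⟨y, rfl⟩
    exact (τ.symm y).2

omit [Finite G] in
include R in
theorem exists_fld' (A : Subgroup G) (hA : A.Normal) (hAc : ∀ a ∈ A, ∀ b ∈ A, a * b = b * a) : ∃ m ι, Fld ρ A m ι := by
  obtain ⟨m, hm, ι, h⟩ := exists_field' R A hA hAc
  exact ⟨m, ι, ⟨hA, hAc, hm, h⟩⟩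

omit [Nontrivial V] [Finite G] in
include R in
/-- normal abelian subgroups act freely on the nonzero vectors -/
theorem free_of_abelian (hinj : Function.Injective ρ) (A : Subgroup G) (hA : A.Normal) (hAc : ∀ a ∈ A, ∀ b ∈ A, a * b = b * a)
    {a : G} (ha : a ∈ A) {v : V} (hv : v ≠ 0) (h : ρ a v = v) : a = 1 := by
  have h1 : ρ a - 1 ∈ env ρ A := sub_mem (Algebra.subset_adjoin ⟨a, ha, rfl⟩) (one_mem _)
  have h2 := env_inj' R A hA hAc h1 hv (by rw [LinearMap.sub_apply, h, Module.End.one_apply, sub_self])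
  apply hinj
  rw [map_one]
  exact sub_eq_zero.1 h2

include R in
/-- order bound -/
theorem card_le (v : V) (hv : v ≠ 0) : Nat.card V ≤ 2 * Nat.card G + 1 := by
  classical
  haveI := Fintype.ofFinite V
  haveI := Fintype.ofFinite G
  have h1 : (Finset.univ : Finset V) ⊆ insert 0 ((Finset.univ.image fun g : G => ρ g v) ∪ (Finset.univ.image fun g : G => -(ρ g v))) := by
    intro w _
    by_cases hw : w = 0
    · rw [hw]; exact Finset.mem_insert_self _ _
    · obtain ⟨g, hg⟩ := R.trans v w hv hw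
      apply Finset.mem_insert_of_mem
      rw [Finset.mem_union, Finset.mem_image, Finset.mem_image]
      rcases hg with hg | hg
      · exact Or.inl ⟨g, Finset.mem_univ _, hg⟩
      · exact Or.inr ⟨g, Finset.mem_univ _, by rw [hg, neg_neg]⟩
  have h2 := Finset.card_le_card h1
  have h3 := Finset.card_insert_le (0 : V) ((Finset.univ.image fun g : G => ρ g v) ∪ (Finset.univ.image fun g : G => -(ρ g v)))
  have h4 := Finset.card_union_le (Finset.univ.image fun g : G => ρ g v) (Finset.univ.image fun g : G => -(ρ g v))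
  have h5 : (Finset.univ.image fun g : G => ρ g v).card ≤ Fintype.card G := Finset.card_image_le
  have h6 : (Finset.univ.image fun g : G => -(ρ g v)).card ≤ Fintype.card G := Finset.card_image_le
  rw [Nat.card_eq_fintype_card, Nat.card_eq_fintype_card, ← Finset.card_univ (α := V)]
  omega

end Cfsg.Agent.H10
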