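import Mathlib
import Cfsg.Agent.H10.KA1
import Cfsg.Agent.H10.CG3
import Cfsg.Agent.H1.Chief

set_option autoImplicit false
set_option linter.all false

/-!
# H10.KA2: the subgroup `B` above a maximal normal abelian subgroup
-/

universe u

namespace Cfsg.Agent.H10

open Cfsg.Agent.H21.RG
open scoped commutatorElement

theorem exists_B {G : Type u} [Group G] [Finite G] (hs : Group.IsSolvable G) {A : Subgroup G} (M : MaxAb A)
    (hC : ∃ g : G, (∀ a ∈ A, g * a = a * g) ∧ g ∉ A) :
    ∃ B : Subgroup G, B.Normal ∧ A < B ∧ (∀ x ∈ B, ∀ a ∈ A, x * a = a * x) ∧ (∀ x ∈ B, ∀ y ∈ B, ⁅x, y⁆ ∈ A) ∧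
      (∀ x ∈ B, (∀ y ∈ B, x * y = y * x) → x ∈ A) ∧
      ∃ r : ℕ, r.Prime ∧ r ∣ Nat.card G ∧ (∀ x ∈ B, x ^ r ∈ A) := by
  haveI := M.nA
  have hAC : A < Subgroup.centralizer (A : Set G) := by
    refine lt_of_le_of_ne (fun a ha => Subgroup.mem_centralizer_iff.2 fun b hb => M.cA b hb a ha) ?_
    intro e
    obtain ⟨g, hg, hgA⟩ := hC
    apply hgA
    rw [e, Subgroup.mem_centralizer_iff]
    exact fun a ha => (hg a ha).symm
  obtain ⟨B, hBn, hAB, hBC, hmin⟩ := H1.exists_chief_above (G := G) (inferInstance : (Subgroup.centralizer (A : Set G)).Normal) hAC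
  haveI := hBn
  have hcomm : ⁅B, B⁆ ≤ A := by
    by_contra hne
    have h1 : A < ⁅B, B⁆ ⊔ A := by
      refine lt_of_le_of_ne le_sup_right (fun e => hne ?_)
      rw [e]; exact le_sup_left
    have h2 := hmin (⁅B, B⁆ ⊔ A) inferInstance h1 (sup_le (Subgroup.commutator_le_left B B) hAB.le)
    have h3 : ⁅B.map (QuotientGroup.mk' A), B.map (QuotientGroup.mk' A)⁆ = B.map (QuotientGroup.mk' A) := by
      rw [← Subgroup.map_commutator]
      conv_rhs => rw [← h2, Subgroup.map_sup]
      have h4 : A.map (QuotientGroup.mk' A) = ⊥ := H1.map_mk'_eq_bot_iff.2 le_rfl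
      rw [h4, sup_bot_eq]
    have hsB : Group.IsSolvable (B.map (QuotientGroup.mk' A)) := H1.isSolvable_map _ (H1.isSolvable_of_le le_top (by
      haveI := hs; infer_instance))
    by_cases hb : B.map (QuotientGroup.mk' A) = ⊥
    · rw [H1.map_mk'_eq_bot_iff] at hb
      exact absurd hb (not_le_of_gt hAB)
    · exact comm_lt_of_solvable hsB hb h3
  refine ⟨B, hBn, hAB, ?_, fun x hx y hy => hcomm (Subgroup.commutator_mem_commutator hx hy), ?_, ?_⟩
  · intro x hx a ha
    exact (Subgroup.mem_centralizer_iff.1 (hBC hx) a ha).symm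
  · intro x hx hxB
    have h1 : (B ⊓ Subgroup.centralizer (B : Set G)) = A := by
      apply M.max
      · infer_instance
      · intro a ha b hb
        exact (Subgroup.mem_centralizer_iff.1 (Subgroup.mem_inf.1 hb).2 a (Subgroup.mem_inf.1 ha).1)
      · refine le_inf hAB.le (fun a ha => Subgroup.mem_centralizer_iff.2 fun b hb => ?_)
        exact (Subgroup.mem_centralizer_iff.1 (hBC hb) a ha).symm
    rw [← h1, Subgroup.mem_inf, Subgroup.mem_centralizer_iff]
    exact ⟨hx, fun y hy => (hxB y hy).symm⟩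
  · obtain ⟨x₀, hx₀, hx₀A⟩ := SetLike.exists_of_lt hAB
    have hord : orderOf (QuotientGroup.mk' A x₀) ≠ 1 := by
      rw [Ne, orderOf_eq_one_iff]
      intro e
      exact hx₀A ((QuotientGroup.eq_one_iff x₀).1 e)
    obtain ⟨r, hr, k, hk⟩ := Nat.exists_prime_and_dvd hord
    have hkpos : 0 < k := by
      rcases Nat.eq_zero_or_pos k with h | h
      · exfalso
        rw [h, mul_zero] at hk
        exact (orderOf_pos (QuotientGroup.mk' A x₀)).ne' hk
      · exact h
    have hx₁ : QuotientGroup.mk' A (x₀ ^ k) ≠ 1 := by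
      rw [map_pow]
      intro e
      have := orderOf_le_of_pow_eq_one hkpos e
      rw [hk] at this
      have := hr.two_le
      nlinarith
    have hx₁r : (QuotientGroup.mk' A (x₀ ^ k)) ^ r = 1 := by
      rw [map_pow, ← pow_mul, mul_comm, ← hk, pow_orderOf_eq_one]
    refine ⟨r, hr, ?_, ?_⟩
    · haveI : Fact r.Prime := ⟨hr⟩
      have h1 := orderOf_eq_prime hx₁r hx₁
      have h2 : r ∣ Nat.card (G ⧸ A) := by rw [← h1]; exact orderOf_dvd_natCard _
      exact h2.trans (Subgroup.card_quotient_dvd_card A)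
    · let D : Subgroup G :=
        { carrier := {x | x ∈ B ∧ x ^ r ∈ A}
          one_mem' := ⟨one_mem _, by rw [one_pow]; exact one_mem _⟩
          mul_mem' := by
            rintro x y ⟨hx, hx'⟩ ⟨hy, hy'⟩
            refine ⟨mul_mem hx hy, ?_⟩
            rw [← QuotientGroup.eq_one_iff]
            show QuotientGroup.mk' A ((x * y) ^ r) = 1
            have hc : Commute (QuotientGroup.mk' A x) (QuotientGroup.mk' A y) := by
              rw [commute_iff_eq, ← commutatorElement_eq_one_iff_mul_comm, ← map_commutatorElement]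
              exact (QuotientGroup.eq_one_iff _).2 (hcomm (Subgroup.commutator_mem_commutator hx hy))
            rw [map_pow, map_mul, hc.mul_pow, ← map_pow, ← map_pow,
              show QuotientGroup.mk' A (x ^ r) = 1 from (QuotientGroup.eq_one_iff _).2 hx',
              show QuotientGroup.mk' A (y ^ r) = 1 from (QuotientGroup.eq_one_iff _).2 hy', one_mul]
          inv_mem' := by
            rintro x ⟨hx, hx'⟩
            exact ⟨inv_mem hx, by rw [inv_pow]; exact inv_mem hx'⟩ }
      have hDn : D.Normal := by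
        refine ⟨fun x hx g => ⟨hBn.conj_mem x hx.1 g, ?_⟩⟩
        rw [conj_pow]
        exact M.nA.conj_mem _ hx.2 g
      have hAD : A < D := by
        refine lt_of_le_of_ne (fun a ha => ⟨hAB.le ha, pow_mem ha r⟩) ?_
        intro e
        have h3 : x₀ ^ k ∈ D := by
          refine ⟨pow_mem hx₀ k, ?_⟩
          rw [← QuotientGroup.eq_one_iff]
          show QuotientGroup.mk' A ((x₀ ^ k) ^ r) = 1
          rw [map_pow]; exact hx₁r
        rw [← e] at h3
        exact hx₁ ((QuotientGroup.eq_one_iff _).2 h3)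
      have hDB := hmin D hDn hAD (fun x hx => hx.1)
      intro x hx
      rw [← hDB] at hx
      exact hx.2

end Cfsg.Agent.H10
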