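import Mathlib
import Cfsg.Agent.H10.KA2
import Cfsg.Agent.H23.Coprime3

set_option autoImplicit false
set_option linter.all false

/-!
# H10.KA3
-/

universe u v

namespace Cfsg.Agent.H10

open Cfsg.Agent.H21.RG
open scoped commutatorElement

/-- the group theoretic configuration -/
structure BSet {G : Type u} [Group G] (A B : Subgroup G) (r : ℕ) : Prop where
  mA : MaxAb A
  nB : B.Normal
  lt : A < B
  cen : ∀ x ∈ B, ∀ a ∈ A, x * a = a * x
  com : ∀ x ∈ B, ∀ y ∈ B, ⁅x, y⁆ ∈ A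
  zB : ∀ x ∈ B, (∀ y ∈ B, x * y = y * x) → x ∈ A
  pr : r.Prime
  pw : ∀ x ∈ B, x ^ r ∈ A

section
variable {G : Type u} [Group G] {A B : Subgroup G} {r : ℕ}

theorem BSet.comm_pow (h : BSet A B r) {x y : G} (hx : x ∈ B) (hy : y ∈ B) : ⁅x, y⁆ ^ r = 1 := by
  have hc : ∀ z : B, Commute ⁅(⟨x, hx⟩ : B), (⟨y, hy⟩ : B)⁆ z := by
    intro z
    apply Subtype.ext
    exact (h.cen z z.2 _ (h.com x hx y hy)).symm
  have h1 := congrArg Subtype.val (H23.commutator_pow_left_of_central (⟨y, hy⟩ : B) ⟨x, hx⟩ hc r)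
  have h2 : ⁅x ^ r, y⁆ = ⁅x, y⁆ ^ r := h1
  rw [← h2, commutatorElement_eq_one_iff_mul_comm]
  exact (h.cen y hy _ (h.pw x hx)).symm

theorem BSet.mul_pow (h : BSet A B r) (hr2 : r ≠ 2) {x y : G} (hx : x ∈ B) (hy : y ∈ B) : (x * y) ^ r = x ^ r * y ^ r := by
  have hc : ∀ z : B, Commute ⁅(⟨y, hy⟩ : B), (⟨x, hx⟩ : B)⁆ z := by
    intro z
    apply Subtype.ext
    exact (h.cen z z.2 _ (h.com y hy x hx)).symm
  have h1 := congrArg Subtype.val (H23.mul_pow_of_class_two (⟨x, hx⟩ : B) ⟨y, hy⟩ hc r)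
  have h2 : (x * y) ^ r = x ^ r * y ^ r * ⁅y, x⁆ ^ (r * (r - 1) / 2) := h1
  have h3 : r * (r - 1) / 2 = r * ((r - 1) / 2) := by
    have hodd := h.pr.odd_of_ne_two hr2
    obtain ⟨k, hk⟩ := hodd
    have h4 : r - 1 = 2 * k := by omega
    rw [h4, Nat.mul_div_cancel_left k (by norm_num), ← mul_assoc, mul_comm r 2, mul_assoc, Nat.mul_div_cancel_left _ (by norm_num)]
  rw [h2, h3, pow_mul, h.comm_pow hy hx, one_pow, mul_one]

/-- an element of order `r` outside `A` -/
theorem BSet.exists_order (h : BSet A B r) (hr2 : r ≠ 2) (hA : IsCyclic A) : ∃ x ∈ B, x ∉ A ∧ x ^ r = 1 := by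
  obtain ⟨x, hx, hxA⟩ := SetLike.exists_of_lt h.lt
  obtain ⟨y, hy, hxy⟩ : ∃ y ∈ B, x * y ≠ y * x := by
    by_contra hno
    push Not at hno
    exact hxA (h.zB x hx hno)
  obtain ⟨g, hg⟩ := hA.exists_generator
  obtain ⟨α, hα⟩ := Subgroup.mem_zpowers_iff.1 (hg ⟨x ^ r, h.pw x hx⟩)
  obtain ⟨β, hβ⟩ := Subgroup.mem_zpowers_iff.1 (hg ⟨y ^ r, h.pw y hy⟩)
  have hα' : (g : G) ^ α = x ^ r := congrArg Subtype.val hα
  have hβ' : (g : G) ^ β = y ^ r := congrArg Subtype.val hβ
  have hgB : (g : G) ∈ B := h.lt.le g.2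
  by_cases hd : (r : ℤ) ∣ α
  · obtain ⟨γ, hγ⟩ := hd
    refine ⟨x * ((g : G) ^ γ)⁻¹, mul_mem hx (inv_mem (zpow_mem hgB γ)), ?_, ?_⟩
    · intro e
      apply hxA
      have := mul_mem e (zpow_mem g.2 γ)
      rwa [inv_mul_cancel_right] at this
    · have hc : Commute x (((g : G) ^ γ)⁻¹) := h.cen x hx _ (inv_mem (zpow_mem g.2 γ))
      rw [hc.mul_pow, ← hα', hγ, inv_pow, ← zpow_natCast, ← zpow_mul, mul_comm γ, mul_inv_cancel]
  · have hcop : IsCoprime (α : ℤ) (r : ℤ) := by
      rw [isCoprime_comm]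
      exact (Nat.prime_iff_prime_int.1 h.pr).irreducible.coprime_iff_not_dvd.2 hd
    obtain ⟨u, w, huw⟩ := hcop
    set i : ℤ := -(β * u) with hi
    have hiβ : i * α + β = r * (β * w) := by
      have : i * α + β = β * (1 - u * α) := by rw [hi]; ring
      rw [this, ← huw]; ring
    have hxi : x ^ i ∈ B := zpow_mem hx i
    have hxiy : x ^ i * y ∈ B := mul_mem hxi hy
    have hpow : (x ^ i * y) ^ r = (g : G) ^ ((r : ℤ) * (β * w)) := by
      rw [h.mul_pow hr2 hxi hy, ← hβ', ← zpow_natCast, ← zpow_mul, mul_comm i, zpow_mul, zpow_natCast, ← hα', ← zpow_mul,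
        ← zpow_add, mul_comm α, hiβ]
    refine ⟨x ^ i * y * ((g : G) ^ (β * w))⁻¹, mul_mem hxiy (inv_mem (zpow_mem hgB _)), ?_, ?_⟩
    · intro e
      have h5 := mul_mem e (zpow_mem g.2 (β * w))
      rw [inv_mul_cancel_right] at h5
      apply hxy
      have h6 := h.cen x hx _ h5
      have h7 : x ^ i * (x * y) = x ^ i * (y * x) := by
        calc x ^ i * (x * y) = x * (x ^ i * y) := by
              rw [← mul_assoc, ← mul_assoc, ← zpow_add_one, ← zpow_one_add, add_comm]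
          _ = x ^ i * y * x := h6
          _ = _ := by rw [mul_assoc]
      exact mul_left_cancel h7
    · have hc : Commute (x ^ i * y) (((g : G) ^ (β * w))⁻¹) := h.cen _ hxiy _ (inv_mem (zpow_mem g.2 _))
      rw [hc.mul_pow, hpow, inv_pow, ← zpow_natCast ((g : G) ^ (β * w)), ← zpow_mul, mul_comm (β * w), mul_inv_cancel]

end

section
variable {q : ℕ} [hq : Fact q.Prime] {V : Type v} [AddCommGroup V] [Module (ZMod q) V] [Finite V] [Nontrivial V]
  {G : Type u} [Group G] [Finite G] {ρ : G →* Module.End (ZMod q) V}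

omit [Finite G] [Finite V] in
theorem exists_emb {A : Subgroup G} {m : ℕ} {ι : GaloisField q m →+* Module.End (ZMod q) V} (K : Fld ρ A m ι)
    (hinj : Function.Injective ρ) : ∃ f : A →* (GaloisField q m)ˣ, Function.Injective f ∧ ∀ a, ι (f a) = ρ a := by
  choose y hy using fun a : A => K.exists_a a.2
  have hιi : Function.Injective ι := Fld.ι_inj
  let f : A →* GaloisField q m :=
    { toFun := y
      map_one' := hιi (by rw [hy, map_one, OneMemClass.coe_one, map_one])
      map_mul' := fun a b => hιi (by rw [hy, map_mul, hy, hy, Subgroup.coe_mul, map_mul]) }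
  refine ⟨f.toHomUnits, ?_, fun a => hy a⟩
  intro a b hab
  have h1 : y a = y b := congrArg Units.val hab
  apply Subtype.ext
  apply hinj
  rw [← hy, ← hy, h1]

theorem cyclic_A {A : Subgroup G} {m : ℕ} {ι : GaloisField q m →+* Module.End (ZMod q) V} (K : Fld ρ A m ι)
    (hinj : Function.Injective ρ) : IsCyclic A := by
  obtain ⟨f, hf, -⟩ := exists_emb K hinj
  exact isCyclic_of_injective f hf

/-- at most `r` elements of `A` with `c ^ r = 1` -/
theorem card_roots {A : Subgroup G} {m : ℕ} {ι : GaloisField q m →+* Module.End (ZMod q) V} (K : Fld ρ A m ι)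
    (hinj : Function.Injective ρ) {r : ℕ} (hr : 0 < r) : Nat.card {c : A // c ^ r = 1} ≤ r := by
  classical
  haveI := Fintype.ofFinite A
  haveI := cyclic_A K hinj
  rw [Nat.card_eq_fintype_card, Fintype.card_subtype]
  exact IsCyclic.card_pow_eq_one_le hr

/-- eigenvector for a root of unity in `A` -/
theorem exists_fixed (R : PMAct ρ) (hinj : Function.Injective ρ) {A B : Subgroup G} {r : ℕ} (h : BSet A B r)
    (hrq : r ≠ q) {x : G} (hx : x ∈ B) (hxA : x ∉ A) (hxr : x ^ r = 1) :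
    ∃ c ∈ A, c ^ r = 1 ∧ ∃ v : V, v ≠ 0 ∧ ρ (x * c) v = v := by
  obtain ⟨y, hy, hxy⟩ : ∃ y ∈ B, x * y ≠ y * x := by
    by_contra hno
    push Not at hno
    exact hxA (h.zB x hx hno)
  set z := ⁅x, y⁆ with hz
  have hzA : z ∈ A := h.com x hx y hy
  have hz1 : z ≠ 1 := by
    rw [hz, Ne, commutatorElement_eq_one_iff_mul_comm]; exact hxy
  have hzr : z ^ r = 1 := h.comm_pow hx hy
  have hzord : orderOf z = r := by
    haveI : Fact r.Prime := ⟨h.pr⟩
    exact orderOf_eq_prime hzr hz1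
  have hxz : Commute x z := h.cen x hx z hzA
  obtain ⟨v, hv⟩ := exists_ne (0 : V)
  -- the partial sums
  let P : ℕ → V := fun k => ∑ i ∈ Finset.range r, ρ ((x * z ^ k) ^ i) v
  have hPfix : ∀ k, ρ (x * z ^ k) (P k) = P k := by
    intro k
    have hk : (x * z ^ k) ^ r = 1 := by
      rw [(hxz.pow_right k).mul_pow, hxr, one_mul, ← pow_mul, mul_comm, pow_mul, hzr, one_pow]
    show ρ (x * z ^ k) (∑ i ∈ Finset.range r, ρ ((x * z ^ k) ^ i) v) = ∑ i ∈ Finset.range r, ρ ((x * z ^ k) ^ i) v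
    rw [map_sum]
    have h1 : ∀ i, ρ (x * z ^ k) (ρ ((x * z ^ k) ^ i) v) = ρ ((x * z ^ k) ^ (i + 1)) v := by
      intro i
      rw [← Module.End.mul_apply, ← map_mul, ← pow_succ']
    rw [Finset.sum_congr rfl (fun i _ => h1 i)]
    have h2 := Finset.sum_range_succ' (fun i => ρ ((x * z ^ k) ^ i) v) r
    have h3 := Finset.sum_range_succ (fun i => ρ ((x * z ^ k) ^ i) v) r
    rw [h3] at h2
    rw [hk, pow_zero] at h2
    exact (add_right_cancel h2).symm
  have hsum : ∑ k ∈ Finset.range r, P k = (r : ℕ) • v := by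
    show ∑ k ∈ Finset.range r, ∑ i ∈ Finset.range r, ρ ((x * z ^ k) ^ i) v = _
    rw [Finset.sum_comm]
    rw [Finset.sum_eq_single_of_mem 0 (Finset.mem_range.2 h.pr.pos)]
    · simp only [pow_zero, map_one, Module.End.one_apply, Finset.sum_const, Finset.card_range]
    · intro i hi hi0
      have hzi : z ^ i ≠ 1 := by
        intro e
        have := orderOf_dvd_of_pow_eq_one e
        rw [hzord] at this
        have := Nat.le_of_dvd (Nat.pos_of_ne_zero hi0) this
        rw [Finset.mem_range] at hi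
        omega
      have h4 : ∀ k, ρ ((x * z ^ k) ^ i) v = ρ (x ^ i) (ρ ((z ^ i) ^ k) v) := by
        intro k
        rw [← Module.End.mul_apply, ← map_mul, (hxz.pow_right k).mul_pow, ← pow_mul, ← pow_mul, mul_comm k i]
      rw [Finset.sum_congr rfl (fun k _ => h4 k), ← map_sum]
      set w := ∑ k ∈ Finset.range r, ρ ((z ^ i) ^ k) v with hw
      have h5 : ρ (z ^ i) w = w := by
        rw [hw, map_sum]
        have h6 : ∀ k, ρ (z ^ i) (ρ ((z ^ i) ^ k) v) = ρ ((z ^ i) ^ (k + 1)) v := by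
          intro k
          rw [← Module.End.mul_apply, ← map_mul, ← pow_succ']
        rw [Finset.sum_congr rfl (fun k _ => h6 k)]
        have h7 := Finset.sum_range_succ' (fun k => ρ ((z ^ i) ^ k) v) r
        have h8 := Finset.sum_range_succ (fun k => ρ ((z ^ i) ^ k) v) r
        rw [h8] at h7
        have h9 : (z ^ i) ^ r = 1 := by rw [← pow_mul, mul_comm, pow_mul, hzr, one_pow]
        rw [h9, pow_zero] at h7
        exact (add_right_cancel h7).symm
      have h10 : w = 0 := by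
        by_contra hne
        exact hzi (free_of_abelian R hinj A h.mA.nA h.mA.cA (pow_mem hzA i) hne h5)
      rw [h10, map_zero]
  have hne : ∃ k ∈ Finset.range r, P k ≠ 0 := by
    by_contra hno
    push Not at hno
    rw [Finset.sum_eq_zero hno] at hsum
    have h11 : ((r : ℕ) : ZMod q) • v = 0 := by rw [Nat.cast_smul_eq_nsmul]; exact hsum.symm
    rcases smul_eq_zero.1 h11 with h12 | h12
    · rw [ZMod.natCast_eq_zero_iff] at h12
      exact hrq ((Nat.prime_dvd_prime_iff_eq hq.out h.pr).1 h12).symm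
    · exact hv h12
  obtain ⟨k, -, hk⟩ := hne
  exact ⟨z ^ k, pow_mem hzA k, by rw [← pow_mul, mul_comm, pow_mul, hzr, one_pow], P k, hk, hPfix k⟩

end

end Cfsg.Agent.H10
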