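import Mathlib
import Cfsg.Agent.H10.KA3

set_option autoImplicit false
set_option linter.all false

/-!
# H10.KA4: counting
-/

universe u v

namespace Cfsg.Agent.H10

open Cfsg.Agent.H21.RG
open scoped commutatorElement

section
variable {q : ℕ} [hq : Fact q.Prime] {V : Type v} [AddCommGroup V] [Module (ZMod q) V] [Finite V] [Nontrivial V]
  {G : Type u} [Group G] [Finite G] {ρ : G →* Module.End (ZMod q) V} {A B : Subgroup G} {r : ℕ}

theorem fix_facts (R : PMAct ρ) (hinj : Function.Injective ρ) (h : BSet A B r) {x : G} (hx : x ∈ B) (hx1 : x ≠ 1)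
    {v : V} (hv : v ≠ 0) (hxv : ρ x v = v) : x ∉ A ∧ x ^ r = 1 := by
  constructor
  · intro hxA
    exact hx1 (free_of_abelian R hinj A h.mA.nA h.mA.cA hxA hv hxv)
  · have hpow : ∀ k : ℕ, ρ (x ^ k) v = v := by
      intro k
      induction k with
      | zero => rw [pow_zero, map_one]; rfl
      | succ k ih => rw [pow_succ, map_mul, Module.End.mul_apply, hxv, ih]
    exact free_of_abelian R hinj A h.mA.nA h.mA.cA (h.pw x hx) hv (hpow r)

open Classical in
theorem two_le_fix [Fintype G] (R : PMAct ρ) (hinj : Function.Injective ρ) (hodd : Odd (Nat.card G)) (h : BSet A B r)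
    (hrq : r ≠ q) (hr2 : r ≠ 2) (hcyc : IsCyclic A) {v : V} (hv : v ≠ 0) :
    2 ≤ ((Finset.univ.filter fun x : G => x ∈ B ∧ x ∉ A ∧ x ^ r = 1).filter fun x => ρ x v = v).card := by
  obtain ⟨x₁, hx₁, hx₁A, hx₁r⟩ := h.exists_order hr2 hcyc
  obtain ⟨c, hcA, -, v₀, hv₀, hfix⟩ := exists_fixed R hinj h hrq hx₁ hx₁A hx₁r
  set x₀ := x₁ * c with hx₀
  have hx₀B : x₀ ∈ B := mul_mem hx₁ (h.lt.le hcA)
  have hx₀A : x₀ ∉ A := by
    intro e
    apply hx₁A
    have := mul_mem e (inv_mem hcA)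
    rwa [hx₀, mul_inv_cancel_right] at this
  obtain ⟨g, hg⟩ := R.trans v₀ v hv₀ hv
  set x := g * x₀ * g⁻¹ with hxdef
  have hxB : x ∈ B := h.nB.conj_mem _ hx₀B g
  have hxA : x ∉ A := by
    intro e
    apply hx₀A
    have := h.mA.nA.conj_mem _ e g⁻¹
    have e2 : g⁻¹ * x * g⁻¹⁻¹ = x₀ := by rw [hxdef]; group
    rwa [e2] at this
  have hxv' : ρ x (ρ g v₀) = ρ g v₀ := by
    rw [← Module.End.mul_apply, ← map_mul, hxdef, inv_mul_cancel_right, map_mul, Module.End.mul_apply, hfix]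
  have hxv : ρ x v = v := by
    rcases hg with hg | hg
    · rw [hg] at hxv'; exact hxv'
    · rw [hg, map_neg, neg_inj] at hxv'; exact hxv'
  have hx1 : x ≠ 1 := by
    intro e
    apply hxA
    rw [e]; exact one_mem _
  have hxx1 : x * x ≠ 1 := by
    intro e
    have h1 : orderOf x ∣ 2 := orderOf_dvd_of_pow_eq_one (by rw [pow_two, e])
    have h2 : orderOf x ∣ Nat.card G := orderOf_dvd_natCard x
    have h3 : orderOf x = 1 ∨ orderOf x = 2 := (Nat.dvd_prime Nat.prime_two).1 h1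
    rcases h3 with h3 | h3
    · exact hx1 (orderOf_eq_one_iff.1 h3)
    · rw [h3] at h2
      exact (Nat.not_even_iff_odd.2 hodd) (even_iff_two_dvd.2 h2)
  have hxxv : ρ (x * x) v = v := by rw [map_mul, Module.End.mul_apply, hxv, hxv]
  have f1 := fix_facts R hinj h hxB hx1 hv hxv
  have f2 := fix_facts R hinj h (mul_mem hxB hxB) hxx1 hv hxxv
  have hne : x ≠ x * x := by
    intro e
    exact hx1 (mul_left_cancel (show x * x = x * 1 by rw [mul_one]; exact e.symm))
  rw [← Finset.card_pair hne]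
  apply Finset.card_le_card
  intro y hy
  rw [Finset.mem_insert, Finset.mem_singleton] at hy
  rw [Finset.mem_filter, Finset.mem_filter]
  rcases hy with rfl | rfl
  · exact ⟨⟨Finset.mem_univ _, hxB, f1.1, f1.2⟩, hxv⟩
  · exact ⟨⟨Finset.mem_univ _, mul_mem hxB hxB, f2.1, f2.2⟩, hxxv⟩

theorem fix_sq_le (R : PMAct ρ) (hinj : Function.Injective ρ) (h : BSet A B r) {x : G} (hx : x ∈ B) (hxA : x ∉ A) :
    Nat.card {v : V // ρ x v = v} ^ 2 ≤ Nat.card V := by
  obtain ⟨y, hy, hxy⟩ : ∃ y ∈ B, x * y ≠ y * x := by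
    by_contra hno
    push Not at hno
    exact hxA (h.zB x hx hno)
  rw [pow_two, ← Nat.card_prod]
  apply Nat.card_le_card_of_injective (fun uw : {v : V // ρ x v = v} × {v : V // ρ x v = v} => (uw.1 : V) - ρ y uw.2)
  rintro ⟨⟨u, hu⟩, ⟨w, hw⟩⟩ ⟨⟨u', hu'⟩, ⟨w', hw'⟩⟩ heq
  have heq' : u - ρ y w = u' - ρ y w' := heq
  have h1 : u - u' = ρ y (w - w') := by
    rw [map_sub]
    have : u - u' = (u - ρ y w) - (u' - ρ y w') + (ρ y w - ρ y w') := by abel
    rw [this, heq', sub_self, zero_add]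
  have h2 : ρ x (u - u') = u - u' := by rw [map_sub, hu, hu']
  have h3 : ρ x (w - w') = w - w' := by rw [map_sub, hw, hw']
  have h4 : ρ (y * x * y⁻¹) (u - u') = u - u' := by
    rw [h1, ← Module.End.mul_apply, ← map_mul, inv_mul_cancel_right, map_mul, Module.End.mul_apply, h3]
  have h5 : ρ ⁅y, x⁆ (u - u') = u - u' := by
    have h6 : ρ x⁻¹ (u - u') = u - u' := by
      conv_lhs => rw [← h2]
      rw [inv_apply]
    rw [commutatorElement_def, map_mul, Module.End.mul_apply, h6, h4]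
  have h7 : ⁅y, x⁆ ≠ 1 := by
    rw [Ne, commutatorElement_eq_one_iff_mul_comm]
    exact fun e => hxy e.symm
  have h8 : u - u' = 0 := by
    by_contra hne
    exact h7 (free_of_abelian R hinj A h.mA.nA h.mA.cA (h.com y hy x hx) hne h5)
  have h9 : w - w' = 0 := by
    rw [h8] at h1
    by_contra hne
    exact apply_ne_zero (ρ := ρ) y hne h1.symm
  have h10 : u = u' := sub_eq_zero.1 h8
  have h11 : w = w' := sub_eq_zero.1 h9
  subst h10 h11
  rfl

open Classical in
theorem omega_card [Fintype G] {m : ℕ} {ι : GaloisField q m →+* Module.End (ZMod q) V} (K : Fld ρ A m ι)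
    (hinj : Function.Injective ρ) (h : BSet A B r) :
    (Finset.univ.filter fun x : G => x ∈ B ∧ x ∉ A ∧ x ^ r = 1).card ≤ r * (A.relIndex B - 1) := by
  haveI := h.mA.nA
  haveI hn : (A.subgroupOf B).Normal := inferInstance
  haveI : Fintype (B ⧸ A.subgroupOf B) := Fintype.ofFinite _
  let f : G → B ⧸ A.subgroupOf B := fun x => if hx : x ∈ B then QuotientGroup.mk ⟨x, hx⟩ else 1
  have hf : ∀ x (hx : x ∈ B), f x = QuotientGroup.mk ⟨x, hx⟩ := fun x hx => dif_pos hx
  have h1 := Finset.card_le_mul_card_image (f := f) (Finset.univ.filter fun x : G => x ∈ B ∧ x ∉ A ∧ x ^ r = 1) r (by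
    intro a ha
    obtain ⟨x₀, hx₀, rfl⟩ := Finset.mem_image.1 ha
    rw [Finset.mem_filter] at hx₀
    obtain ⟨-, hx₀B, hx₀A, hx₀r⟩ := hx₀
    refine le_trans ?_ (card_roots K hinj h.pr.pos)
    rw [Nat.card_eq_fintype_card, ← Finset.card_univ]
    have key : ∀ x : G, x ∈ B → f x = f x₀ → x₀⁻¹ * x ∈ A := by
      intro x hx hfx
      rw [hf x hx, hf x₀ hx₀B] at hfx
      have h20 : (⟨x₀, hx₀B⟩ : B)⁻¹ * ⟨x, hx⟩ ∈ A.subgroupOf B := QuotientGroup.eq.1 hfx.symm
      exact h20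
    apply Finset.card_le_card_of_injOn (fun x => if hx : x₀⁻¹ * x ∈ A ∧ (x₀⁻¹ * x) ^ r = 1 then (⟨⟨x₀⁻¹ * x, hx.1⟩, Subtype.ext hx.2⟩ : {c : A // c ^ r = 1}) else ⟨1, one_pow r⟩)
    · intro x _; exact Finset.mem_coe.2 (Finset.mem_univ _)
    · have prop : ∀ x ∈ ((Finset.univ.filter fun x : G => x ∈ B ∧ x ∉ A ∧ x ^ r = 1).filter fun x => f x = f x₀), x₀⁻¹ * x ∈ A ∧ (x₀⁻¹ * x) ^ r = 1 := by
        intro x hx
        rw [Finset.mem_filter, Finset.mem_filter] at hx
        obtain ⟨⟨-, hxB, hxA, hxr⟩, hfx⟩ := hx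
        have hA' := key x hxB hfx
        refine ⟨hA', ?_⟩
        have hc : Commute x₀ (x₀⁻¹ * x) := h.cen x₀ hx₀B _ hA'
        have h2 : x = x₀ * (x₀⁻¹ * x) := by group
        have h3 : x ^ r = x₀ ^ r * (x₀⁻¹ * x) ^ r := by
          conv_lhs => rw [h2]
          rw [hc.mul_pow]
        rw [hxr, hx₀r, one_mul] at h3
        exact h3.symm
      intro x hx y hy hxy
      have px := prop x hx
      have py := prop y hy
      simp only [dif_pos px, dif_pos py] at hxy
      have h4 : x₀⁻¹ * x = x₀⁻¹ * y := congrArg (fun c : {c : A // c ^ r = 1} => ((c : A) : G)) hxy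
      exact mul_left_cancel h4)
  refine h1.trans (Nat.mul_le_mul_left r ?_)
  have h5 : ((Finset.univ.filter fun x : G => x ∈ B ∧ x ∉ A ∧ x ^ r = 1).image f) ⊆ Finset.univ.erase 1 := by
    intro a ha
    obtain ⟨x, hx, rfl⟩ := Finset.mem_image.1 ha
    rw [Finset.mem_filter] at hx
    rw [Finset.mem_erase]
    refine ⟨?_, Finset.mem_univ _⟩
    rw [hf x hx.2.1, Ne, QuotientGroup.eq_one_iff]
    exact hx.2.2.1
  have h6 := Finset.card_le_card h5
  rw [Finset.card_erase_of_mem (Finset.mem_univ _), Finset.card_univ, ← Nat.card_eq_fintype_card] at h6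
  exact h6

open Classical in
/-- double counting -/
theorem count_ineq (R : PMAct ρ) (hinj : Function.Injective ρ) (hodd : Odd (Nat.card G)) (h : BSet A B r)
    (hrq : r ≠ q) (hr2 : r ≠ 2) {m : ℕ} {ι : GaloisField q m →+* Module.End (ZMod q) V} (K : Fld ρ A m ι) :
    2 * (Nat.card V - 1) ≤ r * (A.relIndex B - 1) * (Nat.sqrt (Nat.card V) - 1) := by
  haveI := Fintype.ofFinite V
  haveI := Fintype.ofFinite G
  have hcyc := cyclic_A K hinj
  set Ω := (Finset.univ.filter fun x : G => x ∈ B ∧ x ∉ A ∧ x ^ r = 1) with hΩ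
  set N := (Finset.univ.erase (0 : V)) with hN
  have hdc := Finset.sum_card_bipartiteAbove_eq_sum_card_bipartiteBelow (s := N) (t := Ω) (fun v x => ρ x v = v)
  have h1 : 2 * (Nat.card V - 1) ≤ ∑ v ∈ N, (Finset.bipartiteAbove (fun v x => ρ x v = v) Ω v).card := by
    have h2 : N.card = Nat.card V - 1 := by
      rw [hN, Finset.card_erase_of_mem (Finset.mem_univ _), Finset.card_univ, Nat.card_eq_fintype_card]
    rw [← h2, mul_comm, ← smul_eq_mul, ← Finset.sum_const]
    apply Finset.sum_le_sum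
    intro v hv
    exact two_le_fix R hinj hodd h hrq hr2 hcyc (Finset.ne_of_mem_erase hv)
  have h3 : ∑ x ∈ Ω, (Finset.bipartiteBelow (fun v x => ρ x v = v) N x).card ≤ Ω.card * (Nat.sqrt (Nat.card V) - 1) := by
    rw [← smul_eq_mul, ← Finset.sum_const]
    apply Finset.sum_le_sum
    intro x hx
    rw [hΩ, Finset.mem_filter] at hx
    have h4 := fix_sq_le R hinj h hx.2.1 hx.2.2.1
    have h5 : Nat.card {v : V // ρ x v = v} ≤ Nat.sqrt (Nat.card V) := Nat.le_sqrt'.2 h4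
    have h6 : (Finset.bipartiteBelow (fun v x => ρ x v = v) N x) = (Finset.univ.filter fun v : V => ρ x v = v).erase 0 := by
      ext v
      rw [Finset.mem_bipartiteBelow, hN, Finset.mem_erase, Finset.mem_erase, Finset.mem_filter]
      constructor
      · rintro ⟨⟨h7, h8⟩, h9⟩; exact ⟨h7, h8, h9⟩
      · rintro ⟨h7, h8, h9⟩; exact ⟨⟨h7, h8⟩, h9⟩
    rw [h6, Finset.card_erase_of_mem (by rw [Finset.mem_filter]; exact ⟨Finset.mem_univ _, map_zero _⟩), ← Fintype.card_subtype,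
      ← Nat.card_eq_fintype_card]
    omega
  calc 2 * (Nat.card V - 1) ≤ _ := h1
    _ = _ := hdc
    _ ≤ Ω.card * (Nat.sqrt (Nat.card V) - 1) := h3
    _ ≤ _ := Nat.mul_le_mul_right _ (omega_card K hinj h)

end

end Cfsg.Agent.H10
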