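import Mathlib
import Cfsg.Agent.H10.KA4
import Cfsg.Agent.H10.CG2

set_option autoImplicit false
set_option linter.all false

/-!
# H10.KA5: linear independence of coset representatives
-/

universe u v

namespace Cfsg.Agent.H10

open Cfsg.Agent.H21.RG
open scoped commutatorElement

section
variable {q : ℕ} [hq : Fact q.Prime] {V : Type v} [AddCommGroup V] [Module (ZMod q) V] [Finite V] [Nontrivial V]
  {G : Type u} [Group G] [Finite G] {ρ : G →* Module.End (ZMod q) V} {A B : Subgroup G} {r : ℕ}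

theorem index_le {m : ℕ} {ι : GaloisField q m →+* Module.End (ZMod q) V} (K : Fld ρ A m ι)
    (hinj : Function.Injective ρ) (h : BSet A B r) :
    ∃ e : ℕ, Nat.card V = (q ^ m) ^ e ∧ A.relIndex B ≤ e * e := by
  classical
  letI : Module (GaloisField q m) V := Module.compHom V ι
  haveI : Module.Finite (GaloisField q m) V := Module.Finite.of_finite
  refine ⟨Module.finrank (GaloisField q m) V, ?_, ?_⟩
  · rw [← GaloisField.card q m K.hm]
    exact Module.natCard_eq_pow_finrank
  obtain ⟨f, hf, hfι⟩ := exists_emb K hinj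
  haveI := h.mA.nA
  haveI hn : (A.subgroupOf B).Normal := inferInstance
  haveI : Fintype (B ⧸ A.subgroupOf B) := Fintype.ofFinite _
  have hsm : ∀ (y : GaloisField q m) (v : V), y • v = ι y v := fun _ _ => rfl
  let T : B → (V →ₗ[GaloisField q m] V) := fun b =>
    { toFun := fun v => ρ b v
      map_add' := fun v w => map_add _ v w
      map_smul' := fun y v => by
        rw [RingHom.id_apply, hsm, hsm, ← Module.End.mul_apply, ← Module.End.mul_apply]
        rw [K.comm_of_comm (x := ρ b) (fun a ha => by rw [← map_mul, ← map_mul, h.cen b b.2 a ha]) y] }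
  have hT : ∀ (b : B) (v : V), T b v = ρ b v := fun _ _ => rfl
  let χ : B → (B →* GaloisField q m) := fun t =>
    { toFun := fun b => (f ⟨⁅(b : G), (t : G)⁆, h.com b b.2 t t.2⟩ : GaloisField q m)
      map_one' := by
        have : (⟨⁅((1 : B) : G), (t : G)⁆, h.com _ (1 : B).2 t t.2⟩ : A) = 1 := Subtype.ext (commutatorElement_one_left _)
        rw [this, map_one]; rfl
      map_mul' := fun b b' => by
        have : (⟨⁅((b * b' : B) : G), (t : G)⁆, h.com _ (b * b').2 t t.2⟩ : A) =
            ⟨⁅(b : G), (t : G)⁆, h.com b b.2 t t.2⟩ * ⟨⁅(b' : G), (t : G)⁆, h.com b' b'.2 t t.2⟩ := by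
          apply Subtype.ext
          show ⁅(b : G) * b', (t : G)⁆ = ⁅(b : G), (t : G)⁆ * ⁅(b' : G), (t : G)⁆
          rw [comm_mul_central (h.cen b b.2 _ (h.com b' b'.2 t t.2)).symm]
          exact (h.cen _ (h.lt.le (h.com b' b'.2 t t.2)) _ (h.com b b.2 t t.2))
        rw [this, map_mul]; rfl }
  have hχ : ∀ (t b : B) (v : V), ρ (b * t * b⁻¹ : G) v = (χ t b) • ρ t v := by
    intro t b v
    have h1 : ((b : G) * t * ((b⁻¹ : B) : G)) = ⁅(b : G), (t : G)⁆ * t := by
      rw [commutatorElement_def, Subgroup.coe_inv]; group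
    rw [h1, map_mul, Module.End.mul_apply, hsm]
    show _ = ι (f ⟨⁅(b : G), (t : G)⁆, h.com b b.2 t t.2⟩ : GaloisField q m) (ρ t v)
    rw [hfι]
  have hχinj : Function.Injective (fun t : B ⧸ A.subgroupOf B => χ t.out) := by
    intro t s hts
    have h2 : ∀ b : B, ⁅(b : G), (t.out : G)⁆ = ⁅(b : G), (s.out : G)⁆ := by
      intro b
      have h3 : χ t.out b = χ s.out b := by rw [show χ t.out = χ s.out from hts]
      have h4 := hf (Units.ext h3)
      exact congrArg Subtype.val h4
    have h5 : (t.out : G) * (s.out : G)⁻¹ ∈ A := by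
      apply h.zB _ (mul_mem t.out.2 (inv_mem s.out.2))
      intro b hb
      have h6 := h2 ⟨b, hb⟩
      have hcb := h.com b hb _ t.out.2
      have e1 : b * (t.out : G) * b⁻¹ = ⁅b, (t.out : G)⁆ * t.out := by rw [commutatorElement_def]; group
      have e2 : b * (s.out : G) * b⁻¹ = ⁅b, (t.out : G)⁆ * s.out := by
        have : ⁅b, (t.out : G)⁆ = ⁅b, (s.out : G)⁆ := h6
        rw [this, commutatorElement_def]; group
      have e3 : b * ((t.out : G) * (s.out : G)⁻¹) * b⁻¹ = (t.out : G) * (s.out : G)⁻¹ := by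
        have e4 : b * ((t.out : G) * (s.out : G)⁻¹) * b⁻¹ = (b * (t.out : G) * b⁻¹) * (b * (s.out : G) * b⁻¹)⁻¹ := by group
        rw [e4, e1, e2, mul_inv_rev]
        have e5 := h.cen _ (mul_mem t.out.2 (inv_mem s.out.2)) _ hcb
        calc ⁅b, (t.out : G)⁆ * (t.out : G) * ((s.out : G)⁻¹ * ⁅b, (t.out : G)⁆⁻¹)
            = ⁅b, (t.out : G)⁆ * ((t.out : G) * (s.out : G)⁻¹) * ⁅b, (t.out : G)⁆⁻¹ := by group
          _ = _ := by rw [← e5, mul_inv_cancel_right]
      rw [mul_inv_eq_iff_eq_mul] at e3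
      exact e3.symm
    have h7 : (QuotientGroup.mk t.out : B ⧸ A.subgroupOf B) = QuotientGroup.mk s.out := by
      rw [QuotientGroup.eq, Subgroup.mem_subgroupOf]
      show (t.out : G)⁻¹ * (s.out : G) ∈ A
      have h8 := h.cen _ (inv_mem s.out.2) _ (inv_mem h5)
      have h9 : (t.out : G)⁻¹ * (s.out : G) = ((t.out : G) * (s.out : G)⁻¹)⁻¹ := by
        have h10 : (s.out : G)⁻¹ * ((t.out : G) * (s.out : G)⁻¹)⁻¹ = ((t.out : G) * (s.out : G)⁻¹)⁻¹ * (s.out : G)⁻¹ := h8
        have h11 : (t.out : G)⁻¹ * (s.out : G) = ((s.out : G)⁻¹ * ((t.out : G) * (s.out : G)⁻¹)⁻¹) * s.out := by group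
        rw [h11, h10, inv_mul_cancel_right]
      rw [h9]
      exact inv_mem h5
    rwa [QuotientGroup.out_eq', QuotientGroup.out_eq'] at h7
  have hli : LinearIndependent (GaloisField q m) (fun t : B ⧸ A.subgroupOf B => T t.out) := by
    rw [Fintype.linearIndependent_iff]
    intro k hk t
    have hded := (linearIndependent_monoidHom B (GaloisField q m)).comp (fun t : B ⧸ A.subgroupOf B => χ t.out) hχinj
    rw [Fintype.linearIndependent_iff] at hded
    obtain ⟨v, hv⟩ := exists_ne (0 : V)
    have hz : ∀ φ : Module.Dual (GaloisField q m) V, k t * φ (ρ t.out v) = 0 := by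
      intro φ
      refine hded (fun s => k s * φ (ρ s.out v)) ?_ t
      ext b
      rw [Finset.sum_apply]
      have h12 : φ (T b ((∑ s, k s • T s.out) (T b⁻¹ v))) = 0 := by
        rw [hk, LinearMap.zero_apply, map_zero, map_zero]
      rw [LinearMap.sum_apply, map_sum, map_sum] at h12
      rw [Pi.zero_apply, ← h12]
      apply Finset.sum_congr rfl
      intro s _
      rw [LinearMap.smul_apply, map_smul, map_smul, hT, hT, hT]
      have h13 : ρ b (ρ s.out (ρ (b⁻¹ : B) v)) = (χ s.out b) • ρ s.out v := by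
        rw [← hχ, map_mul, map_mul, Module.End.mul_apply, Module.End.mul_apply]
      rw [h13, map_smul]
      show (k s * φ (ρ s.out v)) * (χ s.out b) = k s • (χ s.out b • φ (ρ s.out v))
      rw [smul_eq_mul, smul_eq_mul]; ring
    by_contra hkt
    have h14 : ∀ φ : Module.Dual (GaloisField q m) V, φ (ρ t.out v) = 0 := fun φ => (mul_eq_zero.1 (hz φ)).resolve_left hkt
    rw [Module.forall_dual_apply_eq_zero_iff] at h14
    exact apply_ne_zero (ρ := ρ) _ hv h14
  have := hli.fintype_card_le_finrank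
  rw [Module.finrank_linearMap, ← Nat.card_eq_fintype_card] at this
  exact this

end

end Cfsg.Agent.H10
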