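import Mathlib
import Cfsg.Agent.H10.KA5

set_option autoImplicit false
set_option linter.all false

/-!
# H10.KA6: odd solvable linear groups transitive up to sign are semilinear of dimension one
-/

universe u v

namespace Cfsg.Agent.H10

open Cfsg.Agent.H21.RG
open scoped commutatorElement

theorem sq_le_two_pow (e : ℕ) : e * e ≤ 2 ^ e + 1 := by
  rcases Nat.lt_or_ge e 4 with h | h
  · interval_cases e <;> norm_num
  · have : e * e ≤ 2 ^ e := by
      induction e, h using Nat.le_induction with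
      | base => norm_num
      | succ k hk ih =>
        rw [pow_succ]
        nlinarith
    omega

theorem three_pow_ge (m : ℕ) : 2 * m + 1 ≤ 3 ^ m := by
  induction m with
  | zero => norm_num
  | succ k ih => rw [pow_succ]; omega

theorem num_main {r Q e N n : ℕ} (hr : 3 ≤ r) (hQ : 2 * r + 1 ≤ Q) (hn : n = Q ^ e) (hN : N ≤ e * e) (hN2 : 2 ≤ N)
    (h : 2 * (n - 1) ≤ r * (N - 1) * (Nat.sqrt n - 1)) : False := by
  have he : 2 ≤ e := by
    by_contra hlt
    have : e = 0 ∨ e = 1 := by omega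
    rcases this with rfl | rfl <;> omega
  obtain ⟨k, rfl⟩ : ∃ k, e = k + 2 := ⟨e - 2, by omega⟩
  have h1 : (2 * r + 1) ^ (k + 2) ≤ n := by rw [hn]; exact Nat.pow_le_pow_left hQ _
  have h2 : 4 ^ k ≤ (2 * r + 1) ^ k := Nat.pow_le_pow_left (by omega) _
  have h3 : r ^ 2 * 4 ^ (k + 2) ≤ 4 * (2 * r + 1) ^ (k + 2) := by
    have e1 : (2 * r + 1) ^ (k + 2) = (2 * r + 1) ^ k * (2 * r + 1) ^ 2 := pow_add _ _ _
    have e2 : (4 : ℕ) ^ (k + 2) = 4 ^ k * 16 := by rw [pow_add]; norm_num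
    have e3 : 4 * r ^ 2 ≤ (2 * r + 1) ^ 2 := by nlinarith
    rw [e1, e2]
    calc r ^ 2 * (4 ^ k * 16) = 4 * (4 ^ k * (4 * r ^ 2)) := by ring
      _ ≤ 4 * ((2 * r + 1) ^ k * (2 * r + 1) ^ 2) := Nat.mul_le_mul_left _ (Nat.mul_le_mul h2 e3)
  have h4 : 49 ≤ n := by
    have e4 : 7 ^ 2 ≤ (2 * r + 1) ^ (k + 2) := by
      calc 7 ^ 2 ≤ (2 * r + 1) ^ 2 := Nat.pow_le_pow_left (by omega) _
        _ ≤ _ := Nat.pow_le_pow_right (by omega) (by omega)
    omega
  obtain ⟨s, hs⟩ : ∃ s, s = Nat.sqrt n := ⟨_, rfl⟩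
  have h5 : s * s ≤ n := by rw [hs]; exact Nat.sqrt_le n
  have h6 : n < (s + 1) * (s + 1) := by rw [hs]; exact Nat.lt_succ_sqrt n
  rw [← hs] at h
  have h7 : 2 ≤ s := by
    by_contra hlt
    have : s = 0 ∨ s = 1 := by omega
    rcases this with rfl | rfl <;> omega
  obtain ⟨t, rfl⟩ : ∃ t, s = t + 1 := ⟨s - 1, by omega⟩
  obtain ⟨M, rfl⟩ : ∃ M, N = M + 1 := ⟨N - 1, by omega⟩
  obtain ⟨n', rfl⟩ : ∃ n', n = n' + 1 := ⟨n - 1, by omega⟩
  simp only [Nat.add_sub_cancel] at h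
  have h8 : t * (t + 2) ≤ n' := by nlinarith
  have h9 : 2 * (t + 2) ≤ r * M := by
    have : t * (2 * (t + 2)) ≤ t * (r * M) := by nlinarith
    exact Nat.le_of_mul_le_mul_left this (by omega)
  have h10 : M ≤ 2 ^ (k + 2) := by
    have := sq_le_two_pow (k + 2)
    omega
  have h11 : 2 * (t + 2) ≤ r * 2 ^ (k + 2) := h9.trans (Nat.mul_le_mul_left _ h10)
  have h12 : (2 * (t + 2)) ^ 2 ≤ r ^ 2 * 4 ^ (k + 2) := by
    calc (2 * (t + 2)) ^ 2 ≤ (r * 2 ^ (k + 2)) ^ 2 := Nat.pow_le_pow_left h11 _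
      _ = r ^ 2 * 4 ^ (k + 2) := by rw [mul_pow, ← pow_mul, mul_comm (k + 2) 2, pow_mul]; norm_num
  nlinarith

theorem num_one {m Q e : ℕ} (hQ : 2 * m + 1 ≤ Q) (hm : m ≠ 0) (h : Q ^ e ≤ 2 * ((Q - 1) * m) + 1) (he : e ≠ 0) : e = 1 := by
  by_contra hne
  have he2 : 2 ≤ e := by omega
  have h1 : Q ^ 2 ≤ Q ^ e := Nat.pow_le_pow_right (by omega) he2
  obtain ⟨P, rfl⟩ : ∃ P, Q = P + 1 := ⟨Q - 1, by omega⟩
  simp only [Nat.add_sub_cancel] at h
  have h2 : 2 * (P * m) ≤ P * P := by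
    have : P * (2 * m) ≤ P * P := Nat.mul_le_mul_left _ (by omega)
    nlinarith
  have hm' : 1 ≤ m := Nat.one_le_iff_ne_zero.2 hm
  nlinarith

section
variable {q : ℕ} [hq : Fact q.Prime] {V : Type v} [AddCommGroup V] [Module (ZMod q) V] [Finite V] [Nontrivial V]
  {G : Type u} [Group G] [Finite G] {ρ : G →* Module.End (ZMod q) V}

theorem linear_main (R : PMAct ρ) (hinj : Function.Injective ρ) (hodd : Odd (Nat.card G)) (hs : Group.IsSolvable G)
    (hq2 : q ≠ 2) :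
    ∃ (A : Subgroup G) (m : ℕ) (ι : GaloisField q m →+* Module.End (ZMod q) V), Fld ρ A m ι ∧
      Nat.card V = q ^ m ∧ ∀ v : V, v ≠ 0 → ∀ w, ∃ y, ι y v = w := by
  classical
  obtain ⟨A, M⟩ := exists_maxAb (G := G)
  obtain ⟨m, ι, K⟩ := exists_fld' R A M.nA M.cA
  refine ⟨A, m, ι, K, ?_⟩
  have hinj' : ∀ g h : G, ρ g = ρ h → g = h := fun g h e => hinj e
  have hq3 : 3 ≤ q := by
    have := hq.out.two_le
    omega
  have hQ3 : 3 ^ m ≤ q ^ m := Nat.pow_le_pow_left hq3 m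
  have hQm : 2 * m + 1 ≤ q ^ m := (three_pow_ge m).trans hQ3
  have hcA := K.card_A hinj'
  by_cases hC : ∃ g : G, (∀ a ∈ A, g * a = a * g) ∧ g ∉ A
  · exfalso
    obtain ⟨B, hBn, hAB, hcen, hcom, hzB, r, hr, hrG, hpw⟩ := exists_B hs M hC
    have h : BSet A B r := ⟨M, hBn, hAB, hcen, hcom, hzB, hr, hpw⟩
    have hr2 : r ≠ 2 := by
      rintro rfl
      exact (Nat.not_even_iff_odd.2 hodd) (even_iff_two_dvd.2 hrG)
    -- an element of order r in A
    obtain ⟨x, hx, hxA⟩ := SetLike.exists_of_lt hAB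
    obtain ⟨y, hy, hxy⟩ : ∃ y ∈ B, x * y ≠ y * x := by
      by_contra hno
      push Not at hno
      exact hxA (h.zB x hx hno)
    have hzA : ⁅x, y⁆ ∈ A := h.com x hx y hy
    have hz1 : ⁅x, y⁆ ≠ 1 := by
      rw [Ne, commutatorElement_eq_one_iff_mul_comm]; exact hxy
    have hzord : orderOf ⁅x, y⁆ = r := by
      haveI : Fact r.Prime := ⟨h.pr⟩
      exact orderOf_eq_prime (h.comm_pow hx hy) hz1
    have hrA : r ∣ Nat.card A := by
      have := orderOf_dvd_natCard (⟨⁅x, y⁆, hzA⟩ : A)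
      rwa [Subgroup.orderOf_mk, hzord] at this
    have hrQ : r ∣ q ^ m - 1 := hrA.trans hcA
    have hQpos : 0 < q ^ m := pow_pos hq.out.pos m
    have hrq : r ≠ q := by
      rintro rfl
      have h1 : r ∣ r ^ m := dvd_pow_self r K.hm
      have h2 := (Nat.dvd_sub h1 hrQ)
      generalize hX : r ^ m = X at hQpos h2
      have h3 : X - (X - 1) = 1 := by omega
      rw [h3] at h2
      exact hr.one_lt.ne' (Nat.dvd_one.1 h2)
    have hrodd : Odd r := hr.odd_of_ne_two hr2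
    have h2Q : 2 ∣ q ^ m - 1 := by
      have hqodd : Odd (q ^ m) := (hq.out.odd_of_ne_two hq2).pow
      obtain ⟨k, hk⟩ := hqodd
      exact ⟨k, by rw [hk]; rfl⟩
    have h2rQ : 2 * r ∣ q ^ m - 1 :=
      Nat.Coprime.mul_dvd_of_dvd_of_dvd (Nat.coprime_two_left.2 hrodd) h2Q hrQ
    have hQr : 2 * r + 1 ≤ q ^ m := by
      have hm0 := K.hm
      have := Nat.le_of_dvd (by omega) h2rQ
      omega
    obtain ⟨e, hVe, hNe⟩ := index_le K hinj h
    have hcount := count_ineq R hinj hodd h hrq hr2 K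
    have hN2 : 2 ≤ A.relIndex B := by
      have h0 : A.relIndex B ≠ 0 := by
        haveI : Finite (B ⧸ A.subgroupOf B) := inferInstance
        exact Subgroup.index_ne_zero_of_finite
      have h1 : A.relIndex B ≠ 1 := by
        rw [Ne, Subgroup.relIndex_eq_one]
        exact not_le_of_gt hAB
      omega
    exact num_main (by have := hr.two_le; omega) hQr hVe hNe hN2 hcount
  · push Not at hC
    obtain ⟨Φ, hΦ⟩ := K.exists_gal
    have hker : Φ.ker = A := by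
      ext g
      rw [MonoidHom.mem_ker, K.gal_eq_one hΦ hinj' g]
      exact ⟨fun hg => hC g hg, fun hg a ha => K.cA g hg a ha⟩
    have hG : Nat.card G = Nat.card A * Nat.card Φ.range := by
      have h1 := Subgroup.card_mul_index Φ.ker
      rw [Subgroup.index_ker, hker] at h1
      exact h1.symm
    have h2 : Nat.card Φ.range ≤ m := Nat.le_of_dvd (Nat.pos_of_ne_zero K.hm) K.card_gal
    have h3 : Nat.card A ≤ q ^ m - 1 := by
      apply Nat.le_of_dvd _ hcA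
      have := K.hm
      omega
    obtain ⟨e, he, hVe, htr⟩ := K.card_V
    obtain ⟨v, hv⟩ := exists_ne (0 : V)
    have h4 := card_le R v hv
    have h5 : Nat.card G ≤ (q ^ m - 1) * m := by rw [hG]; exact Nat.mul_le_mul h3 h2
    have he1 : e = 1 := num_one hQm K.hm (by rw [← hVe]; omega) he
    refine ⟨by rw [hVe, he1, pow_one], htr he1⟩

end

end Cfsg.Agent.H10
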