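import Mathlib
import Cfsg.Agent.H10.KA6
import Cfsg.Agent.S0547
import Cfsg.Agent.S0548

set_option autoImplicit false
set_option linter.all false

/-!
# H10.KA7: odd 2-homogeneous groups are semiaffine
-/

universe u v w

namespace Cfsg.Agent.H10

open Cfsg.Agent.H21.RG
open MulAction

/-- the representation of a group on an elementary abelian normal subgroup -/
theorem exists_conj_rep {p : ℕ} {V : Type w} [AddCommGroup V] [Module (ZMod p) V] {G : Type u} [Group G]
    (τ : V → G) (hτ : ∀ v w, τ (v + w) = τ v * τ w) (hτi : Function.Injective τ) (hτn : ∀ (g : G) (v : V), ∃ w, τ w = g * τ v * g⁻¹) :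
    ∃ ρ : G →* Module.End (ZMod p) V, ∀ g v, τ (ρ g v) = g * τ v * g⁻¹ := by
  choose σ hσ using hτn
  let F : G → (V →+ V) := fun g => AddMonoidHom.mk' (σ g) (fun a b => hτi (by rw [hσ, hτ, hτ, hσ, hσ]; group))
  refine ⟨{ toFun := fun g => (F g).toZModLinearMap p, map_one' := ?_, map_mul' := ?_ }, fun g v => hσ g v⟩
  · refine LinearMap.ext fun x => hτi ?_
    refine (hσ 1 x).trans ?_
    rw [one_mul, inv_one, mul_one]; rfl
  · intro g h
    refine LinearMap.ext fun x => hτi ?_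
    refine (hσ (g * h) x).trans ?_
    refine Eq.trans ?_ (hσ g (σ h x)).symm
    rw [hσ]; group

theorem semiaffine_core {p : ℕ} [hp : Fact p.Prime] {V : Type w} [AddCommGroup V] [Module (ZMod p) V] [Finite V] [Nontrivial V]
    {G : Type u} [Group G] [Finite G] {α : Type v} [MulAction G α] (ω : α)
    (τ : V → G) (hτ : ∀ v w, τ (v + w) = τ v * τ w) (hτn : ∀ (g : G) (v : V), ∃ w, τ w = g * τ v * g⁻¹)
    (hreg : Function.Bijective (fun v => τ v • ω))
    (hcen : ∀ h : G, h • ω = ω → (∀ v, h * τ v = τ v * h) → h = 1)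
    (hh : ∀ a b c d : α, a ≠ b → c ≠ d → ∃ g : G, (g • a = c ∧ g • b = d) ∨ (g • a = d ∧ g • b = c))
    (hodd : Odd (Nat.card G)) (hs : Group.IsSolvable G) :
    ∃ f : ℕ, p ≠ 2 ∧ Nat.card α = p ^ f ∧ ∃ e : α ≃ GaloisField p f,
      (∀ g : G, ∃ a : (GaloisField p f)ˣ, ∃ b : GaloisField p f, ∃ φ : GaloisField p f ≃+* GaloisField p f,
        ∀ x : α, e (g • x) = a * φ (e x) + b) ∧
      ∀ b : GaloisField p f, ∃ g : G, ∀ x : α, e (g • x) = e x + b := by
  classical
  haveI := hs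
  have hτi : Function.Injective τ := fun v w h => hreg.1 (by show τ v • ω = τ w • ω; rw [h])
  have hτ0 : τ 0 = 1 := by
    have := hτ 0 0
    rw [add_zero] at this
    exact (mul_eq_left.1 this.symm)
  have hτneg : ∀ v, τ (-v) = (τ v)⁻¹ := by
    intro v
    rw [eq_inv_iff_mul_eq_one, ← hτ, neg_add_cancel, hτ0]
  obtain ⟨ρ', hρ'⟩ := exists_conj_rep (p := p) τ hτ hτi hτn
  let ρ : stabilizer G ω →* Module.End (ZMod p) V := ρ'.comp (stabilizer G ω).subtype
  have hρ : ∀ (h : stabilizer G ω) (x : V), τ (ρ h x) = (h : G) * τ x * (h : G)⁻¹ := fun h x => hρ' h x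
  have hinj : Function.Injective ρ := by
    rw [injective_iff_map_eq_one]
    intro h hh1
    have h1 : (h : G) = 1 := by
      refine hcen _ h.2 fun v => ?_
      have h2 := hρ h v
      rw [hh1, Module.End.one_apply] at h2
      exact (mul_inv_eq_iff_eq_mul.1 h2.symm)
    exact Subtype.ext h1
  have hact : ∀ (h : stabilizer G ω) (x : V), τ (ρ h x) • ω = (h : G) • (τ x • ω) := by
    intro h x
    have h1 : (h : G)⁻¹ • ω = ω := by
      have : (h : G) • ω = ω := h.2
      rw [inv_smul_eq_iff, this]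
    rw [hρ, mul_smul, mul_smul, h1]
  have R : PMAct ρ := by
    refine ⟨fun v w hv hw => ?_⟩
    have h0 : ∀ v : V, v ≠ 0 → ω ≠ τ v • ω := by
      intro v hv h
      apply hv
      apply hreg.1
      show τ v • ω = τ 0 • ω
      rw [← h, hτ0, one_smul]
    obtain ⟨g, hg | hg⟩ := hh ω (τ v • ω) ω (τ w • ω) (h0 v hv) (h0 w hw)
    · refine ⟨⟨g, hg.1⟩, Or.inl ?_⟩
      apply hreg.1
      show _ • ω = _ • ω
      rw [hact]
      exact hg.2
    · have h1 : (τ w)⁻¹ * g ∈ stabilizer G ω := by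
        rw [mem_stabilizer_iff, mul_smul, hg.1, inv_smul_smul]
      refine ⟨⟨_, h1⟩, Or.inr ?_⟩
      apply hreg.1
      show _ • ω = _ • ω
      rw [hact, hτneg]
      show ((τ w)⁻¹ * g) • τ v • ω = (τ w)⁻¹ • ω
      rw [mul_smul, hg.2]
  have hoddH : Odd (Nat.card (stabilizer G ω)) := hodd.of_dvd_nat (Subgroup.card_subgroup_dvd_card _)
  have hp2 : p ≠ 2 := by
    rintro rfl
    obtain ⟨v, hv⟩ := exists_ne (0 : V)
    have h1 : orderOf (τ v) = 2 := by
      apply orderOf_eq_prime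
      · rw [pow_two, ← hτ, ← two_smul (ZMod 2) v]
        have : (2 : ZMod 2) = 0 := rfl
        rw [this, zero_smul, hτ0]
      · intro e; exact hv (hτi (e.trans hτ0.symm))
    have h2 : 2 ∣ Nat.card G := h1 ▸ orderOf_dvd_natCard (τ v)
    exact (Nat.not_even_iff_odd.2 hodd) (even_iff_two_dvd.2 h2)
  obtain ⟨A, m, ι, K, hV, htrV⟩ := linear_main R hinj hoddH inferInstance hp2
  obtain ⟨Φ, hΦ⟩ := K.exists_gal
  obtain ⟨v₀, hv₀⟩ := exists_ne (0 : V)
  have hE : Function.Bijective (fun y : GaloisField p m => ι y v₀) := by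
    haveI : Finite (GaloisField p m) := inferInstance
    rw [Nat.bijective_iff_surjective_and_card]
    refine ⟨fun w => htrV v₀ hv₀ w, ?_⟩
    rw [GaloisField.card p m K.hm, hV]
  let E : GaloisField p m ≃ V := Equiv.ofBijective _ hE
  let F : V ≃ α := Equiv.ofBijective _ hreg
  have hF : ∀ v : V, F v = τ v • ω := fun _ => rfl
  let e : α ≃ GaloisField p m := F.symm.trans E.symm
  have hcard : Nat.card α = p ^ m := by rw [← hV, ← Nat.card_congr F]
  have htransl : ∀ (n : V) (v : V), τ n • F v = F (n + v) := by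
    intro n v
    rw [hF, hF, ← mul_smul, hτ]
  refine ⟨m, hp2, hcard, e, ?_, ?_⟩
  · intro g
    obtain ⟨n₁, hn₁⟩ := hreg.2 (g • ω)
    have hn₁' : τ n₁ • ω = g • ω := hn₁
    have hh1 : (τ n₁)⁻¹ * g ∈ stabilizer G ω := by
      rw [mem_stabilizer_iff, mul_smul, ← hn₁', inv_smul_smul]
    obtain ⟨h, hh⟩ : ∃ h : stabilizer G ω, (h : G) = (τ n₁)⁻¹ * g := ⟨⟨_, hh1⟩, rfl⟩
    obtain ⟨b, hb⟩ := hE.2 n₁
    obtain ⟨c, hc⟩ := hE.2 (ρ h v₀)
    have hc0 : c ≠ 0 := by
      rintro rfl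
      have : ι (0 : GaloisField p m) v₀ = ρ h v₀ := hc
      rw [map_zero, LinearMap.zero_apply] at this
      exact apply_ne_zero (ρ := ρ) h hv₀ this.symm
    refine ⟨Units.mk0 c hc0, b, (Φ h).toRingEquiv, fun x => ?_⟩
    obtain ⟨y, rfl⟩ := e.symm.surjective x
    rw [Equiv.apply_symm_apply, ← Equiv.eq_symm_apply]
    have h1 : e.symm y = F (ι y v₀) := rfl
    have h2 : g • e.symm y = τ n₁ • ((h : G) • F (ι y v₀)) := by
      rw [h1, hh, ← mul_smul, mul_inv_cancel_left]
    have h3 : (h : G) • F (ι y v₀) = F (ρ h (ι y v₀)) := by rw [hF, hF, hact]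
    have h4 : ρ h (ι y v₀) = ι (Φ h y) (ρ h v₀) := by
      rw [hΦ]
      show _ = ρ h (ι y (ρ h⁻¹ (ρ h v₀)))
      rw [inv_apply]
    have h5 : ρ h v₀ = ι c v₀ := hc.symm
    have h6 : n₁ = ι b v₀ := hb.symm
    rw [h2, h3, htransl, h4, h5, h6]
    show F _ = F _
    congr 1
    show ι b v₀ + ι (Φ h y) (ι c v₀) = ι (c * Φ h y + b) v₀
    rw [map_add, LinearMap.add_apply, mul_comm c, map_mul, Module.End.mul_apply, add_comm]
  · intro b
    refine ⟨τ (ι b v₀), fun x => ?_⟩
    obtain ⟨y, rfl⟩ := e.symm.surjective x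
    rw [Equiv.apply_symm_apply, ← Equiv.eq_symm_apply]
    show τ (ι b v₀) • F (ι y v₀) = F (ι (y + b) v₀)
    rw [htransl, map_add ι, LinearMap.add_apply, add_comm (ι b v₀)]

theorem semiaffine_of_odd {G : Type u} [Group G] [Finite G] {α : Type v} [Finite α] [MulAction G α] [FaithfulSMul G α]
    [Nontrivial α] (hs : Group.IsSolvable G) (hprim : IsPreprimitive G α)
    (hh : ∀ a b c d : α, a ≠ b → c ≠ d → ∃ g : G, (g • a = c ∧ g • b = d) ∨ (g • a = d ∧ g • b = c))
    (hodd : Odd (Nat.card G)) :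
    ∃ (p f : ℕ) (_ : Fact p.Prime), p ≠ 2 ∧ Nat.card α = p ^ f ∧ ∃ e : α ≃ GaloisField p f,
      (∀ g : G, ∃ a : (GaloisField p f)ˣ, ∃ b : GaloisField p f, ∃ φ : GaloisField p f ≃+* GaloisField p f,
        ∀ x : α, e (g • x) = a * φ (e x) + b) ∧
      ∀ b : GaloisField p f, ∃ g : G, ∀ x : α, e (g • x) = e x + b := by
  classical
  haveI := hs
  haveI : Nontrivial G := by
    by_contra hno
    rw [not_nontrivial_iff_subsingleton] at hno
    obtain ⟨a, b, hab⟩ := exists_pair_ne α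
    obtain ⟨g, hg⟩ := hprim.toIsPretransitive.exists_smul_eq a b
    rw [Subsingleton.elim g 1, one_smul] at hg
    exact hab hg
  obtain ⟨N, hNn, hN, -, hmin⟩ := H1.exists_minimal_normal_le (G := G) (N := ⊤) inferInstance top_ne_bot
  haveI := hNn
  obtain ⟨hc, p, hp, -, hexp⟩ := H1.minimal_normal_solvable hNn hN hmin inferInstance
  haveI : Fact p.Prime := ⟨hp⟩
  obtain ⟨htr, hst, -⟩ := S0547.result hprim N hN hmin
  obtain ⟨ω⟩ : Nonempty α := inferInstance
  obtain ⟨-, hcen, -⟩ := S0548.result hprim N hN hmin ω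
  have hNc : ∀ a b : N, a * b = b * a := fun a b => hc.is_comm.comm a b
  letI : CommGroup N := { (inferInstance : Group N) with mul_comm := hNc }
  letI : Module (ZMod p) (Additive N) := AddCommGroup.zmodModule (n := p) (by
    intro x
    apply Additive.toMul.injective
    rw [toMul_nsmul, toMul_zero]
    exact Subtype.ext (hexp _ x.toMul.2))
  haveI : Finite (Additive N) := inferInstanceAs (Finite N)
  haveI : Nontrivial N := (Subgroup.nontrivial_iff_ne_bot N).2 hN
  haveI : Nontrivial (Additive N) := inferInstanceAs (Nontrivial N)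
  -- regularity
  have hreg : Function.Bijective (fun n : Additive N => ((n.toMul : N) : G) • ω) := by
    constructor
    · intro n m hnm
      have h1 : (n.toMul : N)⁻¹ * m.toMul ∈ stabilizer N ω := by
        rw [mem_stabilizer_iff]
        show (((n.toMul : N) : G)⁻¹ * ((m.toMul : N) : G)) • ω = ω
        have h2 : ((n.toMul : N) : G) • ω = ((m.toMul : N) : G) • ω := hnm
        rw [mul_smul, ← h2, inv_smul_smul]
      rw [hst, Subgroup.mem_bot] at h1
      exact Additive.toMul.injective (inv_mul_eq_one.1 h1)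
    · intro x
      obtain ⟨n, hn⟩ := htr.exists_smul_eq ω x
      exact ⟨Additive.ofMul n, hn⟩
  obtain ⟨f, h1, h2, e, h3, h4⟩ := semiaffine_core (p := p) (V := Additive N) ω (fun n => ((n.toMul : N) : G)) (fun _ _ => rfl)
    (fun g v => ⟨Additive.ofMul ⟨g * ((v.toMul : N) : G) * g⁻¹, hNn.conj_mem _ v.toMul.2 g⟩, rfl⟩) hreg
    (fun h hω hcomm => by
      have : h ∈ stabilizer G ω ⊓ Subgroup.centralizer (N : Set G) :=
        Subgroup.mem_inf.2 ⟨hω, Subgroup.mem_centralizer_iff.2 fun n hn => (hcomm (Additive.ofMul ⟨n, hn⟩)).symm⟩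
      rwa [hcen, Subgroup.mem_bot] at this) hh hodd hs
  exact ⟨p, f, ⟨hp⟩, h1, h2, e, h3, h4⟩

end Cfsg.Agent.H10
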