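import Mathlib
import Cfsg.Agent.H10.Perm4

set_option autoImplicit false
set_option linter.all false
set_option maxHeartbeats 400000

/-!
# H10.MT1: involutions in 4-transitive groups with 4-point stabilisers of odd order
-/

namespace Cfsg.Agent.H10

open MulAction
open scoped Pointwise

section dihedral
variable {G : Type*} [Group G]

/-- two involutions whose product has odd order are conjugate by a power of the product -/
theorem dih_conj {x y : G} (hx : x * x = 1) (hy : y * y = 1) {m : ℕ} (hm : Odd m) (h : (x * y) ^ m = 1) :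
    ∃ c ∈ Subgroup.zpowers (x * y), c * x * c⁻¹ = y := by
  obtain ⟨j, rfl⟩ := hm
  have hxi : x⁻¹ = x := inv_eq_of_mul_eq_one_right hx
  have hyi : y⁻¹ = y := inv_eq_of_mul_eq_one_right hy
  have h1 : x * (x * y) ^ (j + 1) * x⁻¹ = ((x * y) ^ (j + 1))⁻¹ := by
    rw [← conj_pow, ← inv_pow]
    congr 1
    rw [mul_inv_rev, hxi, hyi, ← mul_assoc, hx, one_mul]
  have h2 : (x * y) ^ (j + 1) * (x * y) ^ (j + 1) = x * y := by
    rw [← pow_add, show j + 1 + (j + 1) = 2 * j + 1 + 1 by ring, pow_succ, h, one_mul]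
  refine ⟨((x * y) ^ (j + 1))⁻¹, Subgroup.inv_mem _ (Subgroup.pow_mem _ (Subgroup.mem_zpowers _) _), ?_⟩
  generalize (x * y) ^ (j + 1) = c at h1 h2
  have h3 : x * c = c⁻¹ * x := by
    rw [← h1]; group
  calc c⁻¹ * x * c⁻¹⁻¹ = c⁻¹ * (x * c) := by group
    _ = (c * c)⁻¹ * x := by rw [h3]; group
    _ = y := by rw [h2, mul_inv_rev, hxi, hyi, mul_assoc, hx, mul_one]

/-- a central involution of a dihedral group -/
theorem dih_comm {x y : G} (hx : x * x = 1) (hy : y * y = 1) (m : ℕ) (h : (x * y) ^ (2 * m) = 1) :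
    x * (x * y) ^ m = (x * y) ^ m * x ∧ (x * y) ^ m * (x * y) ^ m = 1 := by
  have hxi : x⁻¹ = x := inv_eq_of_mul_eq_one_right hx
  have hyi : y⁻¹ = y := inv_eq_of_mul_eq_one_right hy
  have h0 : (x * y) ^ m * (x * y) ^ m = 1 := by rw [← pow_add, ← two_mul, h]
  have h1 : x * (x * y) ^ m * x⁻¹ = ((x * y) ^ m)⁻¹ := by
    rw [← conj_pow, ← inv_pow]
    congr 1
    rw [mul_inv_rev, hxi, hyi, ← mul_assoc, hx, one_mul]
  refine ⟨?_, h0⟩
  have h2 : ((x * y) ^ m)⁻¹ = (x * y) ^ m := inv_eq_of_mul_eq_one_right h0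
  rw [h2, mul_inv_eq_iff_eq_mul] at h1
  exact h1

end dihedral

variable {G : Type*} [Group G] {X : Type*} [MulAction G X]

/-- elementwise 4-transitivity -/
def Tr4 (G : Type*) [Group G] (X : Type*) [MulAction G X] : Prop :=
  ∀ a b c d a' b' c' d' : X, a ≠ b → a ≠ c → a ≠ d → b ≠ c → b ≠ d → c ≠ d →
    a' ≠ b' → a' ≠ c' → a' ≠ d' → b' ≠ c' → b' ≠ d' → c' ≠ d' →
    ∃ g : G, g • a = a' ∧ g • b = b' ∧ g • c = c' ∧ g • d = d'

theorem inj4 {a b c d : X} (hab : a ≠ b) (hac : a ≠ c) (had : a ≠ d) (hbc : b ≠ c) (hbd : b ≠ d) (hcd : c ≠ d) :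
    Function.Injective ![a, b, c, d] := by
  intro i j hij
  fin_cases i <;> fin_cases j <;> simp_all

theorem tr4_of (h : IsMultiplyPretransitive G X 4) : Tr4 G X := by
  intro a b c d a' b' c' d' h1 h2 h3 h4 h5 h6 k1 k2 k3 k4 k5 k6
  rw [isMultiplyPretransitive_iff] at h
  obtain ⟨g, hg⟩ := h ⟨![a, b, c, d], inj4 h1 h2 h3 h4 h5 h6⟩ ⟨![a', b', c', d'], inj4 k1 k2 k3 k4 k5 k6⟩
  exact ⟨g, DFunLike.congr_fun hg 0, DFunLike.congr_fun hg 1, DFunLike.congr_fun hg 2, DFunLike.congr_fun hg 3⟩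

/-- the standing hypotheses: 4-transitive, only the identity fixes 5 points, 4-point stabilisers of odd order -/
structure H4 (G : Type*) [Group G] (X : Type*) [MulAction G X] : Prop where
  tr : Tr4 G X
  five : ∀ g : G, ∀ s : Finset X, 5 ≤ s.card → (∀ p ∈ s, g • p = p) → g = 1
  odd : ∀ s : Finset X, s.card = 4 → ∃ m : ℕ, Odd m ∧ ∀ g : G, (∀ p ∈ s, g • p = p) → g ^ m = 1

theorem pow_smul_fix {g : G} {p : X} (h : g • p = p) (n : ℕ) : g ^ n • p = p := by
  induction n with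
  | zero => rw [pow_zero, one_smul]
  | succ n ih => rw [pow_succ, mul_smul, h, ih]

theorem sq_pow_smul {g : G} {p : X} (h : g • g • p = p) {m : ℕ} (hm : Odd m) : g ^ m • p = g • p := by
  obtain ⟨j, rfl⟩ := hm
  rw [pow_succ', mul_smul, pow_mul]
  congr 1
  apply pow_smul_fix
  rw [pow_two, mul_smul, h]

theorem zpow_smul_fix {g : G} {p : X} (h : g • p = p) (n : ℤ) : g ^ n • p = p := by
  cases n with
  | ofNat n => rw [Int.ofNat_eq_natCast, zpow_natCast]; exact pow_smul_fix h n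
  | negSucc n =>
    rw [zpow_negSucc, inv_smul_eq_iff]
    exact (pow_smul_fix h _).symm

theorem fix_of_mem_zpowers {g c : G} (hc : c ∈ Subgroup.zpowers g) {p : X} (h : g • p = p) : c • p = p := by
  obtain ⟨n, rfl⟩ := hc
  exact zpow_smul_fix h n

namespace H4
variable (h : H4 G X)
include h

/-- involutions with prescribed action on a 4-set -/
theorem exists_inv {s : Finset X} (hs : s.card = 4) {g : G} (hg : ∀ p ∈ s, g • g • p = p) :
    ∃ t : G, t * t = 1 ∧ ∀ p ∈ s, t • p = g • p := by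
  obtain ⟨m, hm, hm1⟩ := h.odd s hs
  refine ⟨g ^ m, ?_, fun p hp => sq_pow_smul (hg p hp) hm⟩
  rw [← pow_add, ← two_mul, pow_mul]
  apply hm1
  intro p hp
  rw [pow_two, mul_smul, hg p hp]

/-- commuting involutions -/
theorem exists_comm {s : Finset X} (hs : s.card = 4) {x t : G} (hx : x * x = 1) (ht : t * t = 1)
    (hxt : ∀ p ∈ s, x • t • p = t • x • p) :
    ∃ z : G, x * z = z * x ∧ z * z = 1 ∧ ∀ p ∈ s, z • p = x • t • p := by
  obtain ⟨m, hm, hm1⟩ := h.odd s hs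
  have hxx : ∀ q : X, x • x • q = q := fun q => by rw [← mul_smul, hx, one_smul]
  have htt : ∀ q : X, t • t • q = q := fun q => by rw [← mul_smul, ht, one_smul]
  have h1 : ∀ p ∈ s, (x * t) • (x * t) • p = p := by
    intro p hp
    rw [mul_smul, mul_smul, hxt p hp, htt, hxx]
  have h2 : (x * t) ^ (2 * m) = 1 := by
    rw [pow_mul]
    apply hm1
    intro p hp
    rw [pow_two, mul_smul, h1 p hp]
  obtain ⟨h3, h4⟩ := dih_comm hx ht m h2
  refine ⟨(x * t) ^ m, h3, h4, ?_⟩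
  intro p hp
  rw [sq_pow_smul (h1 p hp) hm, mul_smul]

/-- involutions agreeing on a 4-set are conjugate -/
theorem conj_of_agree {s : Finset X} (hs : s.card = 4) {x y : G} (hx : x * x = 1) (hy : y * y = 1)
    (hxy : ∀ p ∈ s, y • p = x • p) (hinv : ∀ p ∈ s, x • p ∈ s) :
    ∃ c ∈ Subgroup.zpowers (x * y), c * x * c⁻¹ = y ∧ ∀ p ∈ s, c • p = p := by
  obtain ⟨m, hm, hm1⟩ := h.odd s hs
  have h1 : ∀ p ∈ s, (x * y) • p = p := by
    intro p hp
    rw [mul_smul, hxy p hp, ← mul_smul, hx, one_smul]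
  obtain ⟨c, hc, hcx⟩ := dih_conj hx hy hm (hm1 _ h1)
  exact ⟨c, hc, hcx, fun p hp => fix_of_mem_zpowers hc (h1 p hp)⟩

/-- an involution does not fix 4 points -/
theorem inv_fix {t : G} (ht : t * t = 1) (ht1 : t ≠ 1) {s : Finset X} (hs : ∀ p ∈ s, t • p = p) : s.card ≤ 3 := by
  by_contra hcon
  obtain ⟨u, hu, hu4⟩ := Finset.exists_subset_card_eq (show 4 ≤ s.card by omega)
  obtain ⟨m, ⟨j, rfl⟩, hm1⟩ := h.odd u hu4
  apply ht1
  have := hm1 t (fun p hp => hs p (hu hp))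
  rwa [pow_succ, pow_mul, pow_two, ht, one_pow, one_mul] at this

end H4

end Cfsg.Agent.H10
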