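import Mathlib
import Cfsg.Agent.H10.MT1

set_option autoImplicit false
set_option linter.all false
set_option maxHeartbeats 400000

/-!
# H10.MT2: 4-transitive groups with 4-point stabilisers of odd order have degree at most 7, 10 or 11
-/

namespace Cfsg.Agent.H10

open MulAction
open scoped Pointwise

variable {G : Type*} [Group G] {X : Type*} [MulAction G X]

theorem invol_smul {x : G} (hx : x * x = 1) (q : X) : x • x • q = q := by rw [← mul_smul, hx, one_smul]

namespace H4
variable (h : H4 G X)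
include h

theorem conj_two {t t' : G} (ht : t * t = 1) (ht' : t' * t' = 1) {a b c d a' b' c' d' : X}
    (h1 : a ≠ b) (h2 : a ≠ c) (h3 : a ≠ d) (h4 : b ≠ c) (h5 : b ≠ d) (h6 : c ≠ d)
    (k1 : a' ≠ b') (k2 : a' ≠ c') (k3 : a' ≠ d') (k4 : b' ≠ c') (k5 : b' ≠ d') (k6 : c' ≠ d')
    (hab : t • a = b) (hcd : t • c = d) (hab' : t' • a' = b') (hcd' : t' • c' = d') : ∃ g : G, g * t * g⁻¹ = t' := by
  classical
  obtain ⟨g, ga, gb, gc, gd⟩ := h.tr a b c d a' b' c' d' h1 h2 h3 h4 h5 h6 k1 k2 k3 k4 k5 k6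
  have hba : t • b = a := by rw [← hab, invol_smul ht]
  have hdc : t • d = c := by rw [← hcd, invol_smul ht]
  have hba' : t' • b' = a' := by rw [← hab', invol_smul ht']
  have hdc' : t' • d' = c' := by rw [← hcd', invol_smul ht']
  have ia : g⁻¹ • a' = a := by rw [← ga, inv_smul_smul]
  have ib : g⁻¹ • b' = b := by rw [← gb, inv_smul_smul]
  have ic : g⁻¹ • c' = c := by rw [← gc, inv_smul_smul]
  have id : g⁻¹ • d' = d := by rw [← gd, inv_smul_smul]
  have hs : ({a', b', c', d'} : Finset X).card = 4 := by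
    rw [Finset.card_insert_of_notMem, Finset.card_insert_of_notMem, Finset.card_insert_of_notMem, Finset.card_singleton] <;>
      simp_all
  have e1 : (g * t * g⁻¹) • a' = b' := by rw [mul_smul, mul_smul, ia, hab, gb]
  have e2 : (g * t * g⁻¹) • b' = a' := by rw [mul_smul, mul_smul, ib, hba, ga]
  have e3 : (g * t * g⁻¹) • c' = d' := by rw [mul_smul, mul_smul, ic, hcd, gd]
  have e4 : (g * t * g⁻¹) • d' = c' := by rw [mul_smul, mul_smul, id, hdc, gc]
  have hx : (g * t * g⁻¹) * (g * t * g⁻¹) = 1 := by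
    rw [show (g * t * g⁻¹) * (g * t * g⁻¹) = g * (t * t) * g⁻¹ by group, ht]; group
  obtain ⟨c₀, -, hc, -⟩ := h.conj_of_agree hs hx ht' (by
    intro p hp
    simp only [Finset.mem_insert, Finset.mem_singleton] at hp
    rcases hp with rfl | rfl | rfl | rfl
    · rw [e1, hab']
    · rw [e2, hba']
    · rw [e3, hcd']
    · rw [e4, hdc']) (by
    intro p hp
    simp only [Finset.mem_insert, Finset.mem_singleton] at hp ⊢
    rcases hp with rfl | rfl | rfl | rfl
    · rw [e1]; simp
    · rw [e2]; simp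
    · rw [e3]; simp
    · rw [e4]; simp)
  exact ⟨c₀ * g, by rw [← hc]; group⟩

theorem exists_two (hX : ∃ W : Finset X, 6 ≤ W.card) {t : G} (ht : t * t = 1) (ht1 : t ≠ 1) :
    ∃ a b c d : X, a ≠ b ∧ a ≠ c ∧ a ≠ d ∧ b ≠ c ∧ b ≠ d ∧ c ≠ d ∧ t • a = b ∧ t • c = d := by
  classical
  obtain ⟨W, hW⟩ := hX
  have h1 : ∃ a : X, t • a ≠ a := by
    by_contra hcon
    push Not at hcon
    exact ht1 (h.five t W (by omega) (fun p _ => hcon p))
  obtain ⟨a, ha⟩ := h1
  have h2 : ∃ c ∈ (W.erase a).erase (t • a), t • c ≠ c := by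
    by_contra hcon
    push Not at hcon
    have h3 := h.inv_fix ht ht1 (s := (W.erase a).erase (t • a)) hcon
    have h4 : W.card ≤ ((W.erase a).erase (t • a)).card + 2 := by
      have := Finset.pred_card_le_card_erase (s := W) (a := a)
      have := Finset.pred_card_le_card_erase (s := W.erase a) (a := t • a)
      omega
    omega
  obtain ⟨c, hc, hc2⟩ := h2
  rw [Finset.mem_erase, Finset.mem_erase] at hc
  refine ⟨a, t • a, c, t • c, ha.symm, hc.2.1.symm, ?_, hc.1.symm, ?_, hc2.symm, rfl, rfl⟩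
  · intro e
    apply hc.1
    rw [e, invol_smul ht]
  · intro e
    exact hc.2.1 ((smul_left_cancel_iff t).1 e).symm

theorem all_conj (hX : ∃ W : Finset X, 6 ≤ W.card) {t t' : G} (ht : t * t = 1) (ht1 : t ≠ 1)
    (ht' : t' * t' = 1) (ht1' : t' ≠ 1) : ∃ g : G, g * t * g⁻¹ = t' := by
  obtain ⟨a, b, c, d, h1, h2, h3, h4, h5, h6, hab, hcd⟩ := h.exists_two hX ht ht1
  obtain ⟨a', b', c', d', k1, k2, k3, k4, k5, k6, kab, kcd⟩ := h.exists_two hX ht' ht1'
  exact h.conj_two ht ht' h1 h2 h3 h4 h5 h6 k1 k2 k3 k4 k5 k6 hab hcd kab kcd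

theorem fix_finite {t : G} (ht : t * t = 1) (ht1 : t ≠ 1) : (fixedBy X t).Finite ∧ (fixedBy X t).ncard ≤ 3 := by
  classical
  have h1 : (fixedBy X t).Finite := by
    by_contra hcon
    obtain ⟨s, hs, hs4⟩ := Set.Infinite.exists_subset_card_eq hcon 4
    have := h.inv_fix ht ht1 (s := s) (fun p hp => hs hp)
    omega
  refine ⟨h1, ?_⟩
  rw [Set.ncard_eq_toFinset_card _ h1]
  apply h.inv_fix ht ht1
  intro p hp
  exact h1.mem_toFinset.1 hp

theorem fix_card_eq (hX : ∃ W : Finset X, 6 ≤ W.card) {t t' : G} (ht : t * t = 1) (ht1 : t ≠ 1)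
    (ht' : t' * t' = 1) (ht1' : t' ≠ 1) : (fixedBy X t).ncard = (fixedBy X t').ncard := by
  obtain ⟨g, hg⟩ := h.all_conj hX ht ht1 ht' ht1'
  have : fixedBy X t' = (fun p => g • p) '' fixedBy X t := by
    ext p
    rw [Set.mem_image, mem_fixedBy, ← hg]
    constructor
    · intro hp
      refine ⟨g⁻¹ • p, ?_, smul_inv_smul g p⟩
      rw [mem_fixedBy]
      have := congrArg (fun q => g⁻¹ • q) hp
      simp only [mul_smul, inv_smul_smul] at this
      exact this
    · rintro ⟨q, hq, rfl⟩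
      rw [mem_fixedBy] at hq
      simp only [mul_smul, inv_smul_smul, hq]
  rw [this, Set.ncard_image_of_injective _ (MulAction.injective g)]

theorem exists_U {a b c d : X} (h1 : a ≠ b) (h2 : a ≠ c) (h3 : a ≠ d) (h4 : b ≠ c) (h5 : b ≠ d) (h6 : c ≠ d) :
    ∃ x y : G, x * x = 1 ∧ y * y = 1 ∧ x * y = y * x ∧ x • a = a ∧ x • b = b ∧ x • c = d ∧ x • d = c ∧
      y • a = b ∧ y • b = a ∧ y • c = c ∧ y • d = d := by
  classical
  have hs : ({a, b, c, d} : Finset X).card = 4 := by
    rw [Finset.card_insert_of_notMem, Finset.card_insert_of_notMem, Finset.card_insert_of_notMem, Finset.card_singleton] <;>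
      simp_all
  obtain ⟨g, ga, gb, gc, gd⟩ := h.tr a b c d a b d c h1 h2 h3 h4 h5 h6 h1 h3 h2 h5 h4 h6.symm
  obtain ⟨g', ga', gb', gc', gd'⟩ := h.tr a b c d b a c d h1 h2 h3 h4 h5 h6 h1.symm h4 h5 h2 h3 h6
  obtain ⟨x, hx, hxs⟩ := h.exists_inv hs (g := g) (by
    intro p hp
    simp only [Finset.mem_insert, Finset.mem_singleton] at hp
    rcases hp with rfl | rfl | rfl | rfl
    · rw [ga, ga]
    · rw [gb, gb]
    · rw [gc, gd]
    · rw [gd, gc])
  obtain ⟨t, ht, hts⟩ := h.exists_inv hs (g := g') (by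
    intro p hp
    simp only [Finset.mem_insert, Finset.mem_singleton] at hp
    rcases hp with rfl | rfl | rfl | rfl
    · rw [ga', gb']
    · rw [gb', ga']
    · rw [gc', gc']
    · rw [gd', gd'])
  have xa : x • a = a := by rw [hxs a (by simp), ga]
  have xb : x • b = b := by rw [hxs b (by simp), gb]
  have xc : x • c = d := by rw [hxs c (by simp), gc]
  have xd : x • d = c := by rw [hxs d (by simp), gd]
  have ta : t • a = b := by rw [hts a (by simp), ga']
  have tb : t • b = a := by rw [hts b (by simp), gb']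
  have tc : t • c = c := by rw [hts c (by simp), gc']
  have td : t • d = d := by rw [hts d (by simp), gd']
  obtain ⟨z, hxz, hzz, hz⟩ := h.exists_comm hs hx ht (by
    intro p hp
    simp only [Finset.mem_insert, Finset.mem_singleton] at hp
    rcases hp with rfl | rfl | rfl | rfl
    · rw [ta, xb, xa, ta]
    · rw [tb, xa, xb, tb]
    · rw [tc, xc, td]
    · rw [td, xd, tc])
  have hy : ∀ p ∈ ({a, b, c, d} : Finset X), (x * z) • p = t • p := by
    intro p hp
    rw [mul_smul, hz p hp, invol_smul hx]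
  refine ⟨x, x * z, hx, ?_, ?_, xa, xb, xc, xd, ?_, ?_, ?_, ?_⟩
  · calc x * z * (x * z) = x * (z * x) * z := by group
      _ = x * (x * z) * z := by rw [hxz]
      _ = (x * x) * (z * z) := by group
      _ = 1 := by rw [hx, hzz, mul_one]
  · rw [mul_assoc, ← hxz]
  · rw [hy a (by simp), ta]
  · rw [hy b (by simp), tb]
  · rw [hy c (by simp), tc]
  · rw [hy d (by simp), td]

/-- transitivity of the centralizer of a four-group on regular points -/
theorem cent_trans {x y : G} (hx : x * x = 1) (hy : y * y = 1) (hxy : x * y = y * x) {p q : X}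
    (hxp : x • p ≠ p) (hyp : y • p ≠ p) (hzp : x • y • p ≠ p) (hxq : x • q ≠ q) (hyq : y • q ≠ q) (hzq : x • y • q ≠ q) :
    ∃ k : G, k * x = x * k ∧ k * y = y * k ∧ k • p = q := by
  classical
  have hcomm : ∀ r : X, x • y • r = y • x • r := fun r => by rw [← mul_smul, hxy, mul_smul]
  have key : ∀ r : X, x • r ≠ r → y • r ≠ r → x • y • r ≠ r →
      r ≠ x • r ∧ r ≠ y • r ∧ r ≠ x • y • r ∧ x • r ≠ y • r ∧ x • r ≠ x • y • r ∧ y • r ≠ x • y • r := by
    intro r h1 h2 h3
    refine ⟨h1.symm, h2.symm, h3.symm, ?_, ?_, ?_⟩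
    · intro e
      exact h3 (by rw [← e, invol_smul hx])
    · intro e
      exact h2 ((smul_left_cancel_iff x).1 e).symm
    · intro e
      rw [hcomm] at e
      exact h1 ((smul_left_cancel_iff y).1 e).symm
  obtain ⟨p1, p2, p3, p4, p5, p6⟩ := key p hxp hyp hzp
  obtain ⟨q1, q2, q3, q4, q5, q6⟩ := key q hxq hyq hzq
  obtain ⟨g, g0, gx, gy, gz⟩ := h.tr p (x • p) (y • p) (x • y • p) q (x • q) (y • q) (x • y • q) p1 p2 p3 p4 p5 p6 q1 q2 q3 q4 q5 q6
  have hs : ({q, x • q, y • q, x • y • q} : Finset X).card = 4 := by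
    rw [Finset.card_insert_of_notMem, Finset.card_insert_of_notMem, Finset.card_insert_of_notMem, Finset.card_singleton]
    · simpa using q6
    · simp only [Finset.mem_insert, Finset.mem_singleton, not_or]; exact ⟨q4, q5⟩
    · simp only [Finset.mem_insert, Finset.mem_singleton, not_or]; exact ⟨q1, q2, q3⟩
  -- first conjugation
  have agree : ∀ (g : G) (_ : g • p = q) (_ : g • x • p = x • q) (_ : g • y • p = y • q) (_ : g • x • y • p = x • y • q),
      (∀ r ∈ ({q, x • q, y • q, x • y • q} : Finset X), x • r = (g * x * g⁻¹) • r) ∧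
      (∀ r ∈ ({q, x • q, y • q, x • y • q} : Finset X), y • r = (g * y * g⁻¹) • r) := by
    intro g g0 gx gy gz
    have i0 : g⁻¹ • q = p := by rw [← g0, inv_smul_smul]
    have ix : g⁻¹ • x • q = x • p := by rw [← gx, inv_smul_smul]
    have iy : g⁻¹ • y • q = y • p := by rw [← gy, inv_smul_smul]
    have iz : g⁻¹ • x • y • q = x • y • p := by rw [← gz, inv_smul_smul]
    constructor
    · intro r hr
      simp only [Finset.mem_insert, Finset.mem_singleton] at hr
      rcases hr with rfl | rfl | rfl | rfl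
      · rw [mul_smul, mul_smul, i0, gx]
      · rw [mul_smul, mul_smul, ix, invol_smul hx, invol_smul hx, g0]
      · rw [mul_smul, mul_smul, iy, gz]
      · rw [mul_smul, mul_smul, iz, invol_smul hx, invol_smul hx, gy]
    · intro r hr
      simp only [Finset.mem_insert, Finset.mem_singleton] at hr
      rcases hr with rfl | rfl | rfl | rfl
      · rw [mul_smul, mul_smul, i0, gy]
      · rw [mul_smul, mul_smul, ix, ← hcomm, ← hcomm, gz]
      · rw [mul_smul, mul_smul, iy, invol_smul hy, invol_smul hy, g0]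
      · rw [mul_smul, mul_smul, iz, hcomm, hcomm, invol_smul hy, invol_smul hy, gx]
  have conj_sq : ∀ (g w : G), w * w = 1 → (g * w * g⁻¹) * (g * w * g⁻¹) = 1 := by
    intro g w hw
    rw [show (g * w * g⁻¹) * (g * w * g⁻¹) = g * (w * w) * g⁻¹ by group, hw]; group
  have inv_x : ∀ r ∈ ({q, x • q, y • q, x • y • q} : Finset X), x • r ∈ ({q, x • q, y • q, x • y • q} : Finset X) := by
    intro r hr
    simp only [Finset.mem_insert, Finset.mem_singleton] at hr ⊢
    rcases hr with rfl | rfl | rfl | rfl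
    · simp
    · rw [invol_smul hx]; simp
    · simp
    · rw [invol_smul hx]; simp
  have inv_y : ∀ r ∈ ({q, x • q, y • q, x • y • q} : Finset X), y • r ∈ ({q, x • q, y • q, x • y • q} : Finset X) := by
    intro r hr
    simp only [Finset.mem_insert, Finset.mem_singleton] at hr ⊢
    rcases hr with rfl | rfl | rfl | rfl
    · simp
    · rw [← hcomm]; simp
    · rw [invol_smul hy]; simp
    · rw [hcomm, invol_smul hy]; simp
  obtain ⟨a1, -⟩ := agree g g0 gx gy gz
  obtain ⟨c, -, hc, hcs⟩ := h.conj_of_agree hs (conj_sq g x hx) hx a1 (fun r hr => by rw [← a1 r hr]; exact inv_x r hr)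
  have g0' : (c * g) • p = q := by rw [mul_smul, g0, hcs q (by simp)]
  have gx' : (c * g) • x • p = x • q := by rw [mul_smul, gx, hcs _ (by simp)]
  have gy' : (c * g) • y • p = y • q := by rw [mul_smul, gy, hcs _ (by simp)]
  have gz' : (c * g) • x • y • p = x • y • q := by rw [mul_smul, gz, hcs _ (by simp)]
  have hg1 : (c * g) * x * (c * g)⁻¹ = x := by
    calc (c * g) * x * (c * g)⁻¹ = c * (g * x * g⁻¹) * c⁻¹ := by group
      _ = x := hc
  generalize c * g = g1 at g0' gx' gy' gz' hg1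
  obtain ⟨-, a2⟩ := agree g1 g0' gx' gy' gz'
  obtain ⟨c', hc'z, hc', hcs'⟩ := h.conj_of_agree hs (conj_sq g1 y hy) hy a2 (fun r hr => by rw [← a2 r hr]; exact inv_y r hr)
  have hgx : g1 * x = x * g1 := by rw [mul_inv_eq_iff_eq_mul] at hg1; exact hg1
  have hcx : Commute x c' := by
    obtain ⟨n, rfl⟩ := hc'z
    apply Commute.zpow_right
    have e1 : Commute x g1 := hgx.symm
    have e2 : Commute x y := hxy
    exact (((e1.mul_right e2).mul_right e1.inv_right).mul_right e2)
  refine ⟨c' * g1, ?_, ?_, ?_⟩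
  · rw [mul_assoc, hgx, ← mul_assoc, ← hcx.eq, mul_assoc]
  · have : (c' * g1) * y * (c' * g1)⁻¹ = y := by
      calc (c' * g1) * y * (c' * g1)⁻¹ = c' * (g1 * y * g1⁻¹) * c'⁻¹ := by group
        _ = y := hc'
    rw [mul_inv_eq_iff_eq_mul] at this
    exact this
  · rw [mul_smul, g0', hcs' q (by simp)]

end H4

end Cfsg.Agent.H10
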