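import Mathlib
import Cfsg.Agent.H10.MT2

set_option autoImplicit false
set_option linter.all false
set_option maxHeartbeats 1000000

/-!
# H10.MT3: 4-transitive groups with 4-point stabilisers of odd order: the degree
-/

namespace Cfsg.Agent.H10

open MulAction
open scoped Pointwise

variable {G : Type*} [Group G] {X : Type*} [MulAction G X]

/-- from the centralizer to the regular points -/
theorem reg_pts {x y : G} (hx : x * x = 1) (hy : y * y = 1) (hxy : x * y = y * x) {p : X}
    (htr : ∀ q : X, x • q ≠ q → y • q ≠ q → x • y • q ≠ q → ∃ k : G, k * x = x * k ∧ k * y = y * k ∧ k • p = q)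
    (hC : ∀ k : G, k * x = x * k → k * y = y * k → k = 1 ∨ k = x ∨ k = y ∨ k = x * y) (q : X)
    (h1 : x • q ≠ q) (h2 : y • q ≠ q) (h3 : x • y • q ≠ q) : q = p ∨ q = x • p ∨ q = y • p ∨ q = x • y • p := by
  obtain ⟨k, k1, k2, rfl⟩ := htr q h1 h2 h3
  rcases hC k k1 k2 with rfl | rfl | rfl | rfl
  · left; rw [one_smul]
  · right; left; rfl
  · right; right; left; rfl
  · right; right; right; rw [mul_smul]

/-- regular points -/
def Reg (x y : G) (p : X) : Prop := x • p ≠ p ∧ y • p ≠ p ∧ x • y • p ≠ p

theorem Reg.left {x y : G} {p : X} (h : Reg x y p) (hc : ∀ r : X, x • y • r = y • x • r) : Reg x y (x • p) := by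
  refine ⟨fun e => h.1 ((smul_left_cancel_iff x).1 e), fun e => ?_, fun e => ?_⟩
  · rw [← hc] at e
    exact h.2.1 ((smul_left_cancel_iff x).1 e)
  · have := (smul_left_cancel_iff x).1 e
    rw [← hc] at this
    exact h.2.2 this

theorem Reg.right {x y : G} {p : X} (h : Reg x y p) (hc : ∀ r : X, x • y • r = y • x • r) : Reg x y (y • p) := by
  refine ⟨fun e => ?_, fun e => h.2.1 ((smul_left_cancel_iff y).1 e), fun e => ?_⟩
  · rw [hc] at e
    exact h.1 ((smul_left_cancel_iff y).1 e)
  · rw [hc] at e
    exact h.2.2 ((smul_left_cancel_iff y).1 e)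

namespace H4
variable (h : H4 G X)
include h

theorem hall_odd (hX : ∃ W : Finset X, 8 ≤ W.card) : ∃ S : Finset X, (∀ q, q ∈ S) ∧
    ((S.card = 10 ∧ ∀ t : G, t * t = 1 → t ≠ 1 → (fixedBy X t).ncard = 2) ∨
     (S.card = 11 ∧ (∀ t : G, t * t = 1 → t ≠ 1 → (fixedBy X t).ncard = 3) ∧
      ∃ (x y : G) (p e : X), x * x = 1 ∧ y * y = 1 ∧ x * y = y * x ∧ x • p ≠ p ∧ y • p ≠ p ∧ x • y • p ≠ p ∧
        x • e = e ∧ y • e = e ∧ ∀ r : X, x • r = r → y • r = r → r = e)) := by
  classical
  obtain ⟨W, hW⟩ := hX
  have hX6 : ∃ W : Finset X, 6 ≤ W.card := ⟨W, by omega⟩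
  obtain ⟨s₀, hs₀, hs4⟩ := Finset.exists_subset_card_eq (show 4 ≤ W.card by omega)
  obtain ⟨a, b, c, d, h1, h2, h3, h4, h5, h6, hs₀'⟩ : ∃ a b c d : X, a ≠ b ∧ a ≠ c ∧ a ≠ d ∧ b ≠ c ∧ b ≠ d ∧ c ≠ d ∧
      s₀ = {a, b, c, d} := by
    obtain ⟨a, s1, ha, rfl, hs1⟩ := Finset.card_eq_succ.1 hs4
    obtain ⟨b, c, d, hbc, hbd, hcd, rfl⟩ := Finset.card_eq_three.1 hs1
    simp only [Finset.mem_insert, Finset.mem_singleton, not_or] at ha
    exact ⟨a, b, c, d, ha.1, ha.2.1, ha.2.2, hbc, hbd, hcd, rfl⟩
  obtain ⟨x, y, hx, hy, hxy, xa, xb, xc, xd, ya, yb, yc, yd⟩ := h.exists_U h1 h2 h3 h4 h5 h6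
  have hcomm : ∀ r : X, x • y • r = y • x • r := fun r => by rw [← mul_smul, hxy, mul_smul]
  have hx1 : x ≠ 1 := by rintro rfl; rw [one_smul] at xc; exact h6 xc
  have hy1 : y ≠ 1 := by rintro rfl; rw [one_smul] at ya; exact h1 ya
  have hz : (x * y) * (x * y) = 1 := by
    calc x * y * (x * y) = x * (y * x) * y := by group
      _ = x * (x * y) * y := by rw [hxy]
      _ = (x * x) * (y * y) := by group
      _ = 1 := by rw [hx, hy, mul_one]
  have hz1 : x * y ≠ 1 := by
    intro e
    have := congrArg (fun g : G => g • a) e
    simp only [mul_smul, one_smul, ya, xb] at this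
    exact h1 this.symm
  have hfx := h.fix_finite hx hx1
  have hfy := h.fix_finite hy hy1
  have hfz := h.fix_finite hz hz1
  have hexy : (fixedBy X x).ncard = (fixedBy X y).ncard := h.fix_card_eq hX6 hx hx1 hy hy1
  have hexz : (fixedBy X x).ncard = (fixedBy X (x * y)).ncard := h.fix_card_eq hX6 hx hx1 hz hz1
  have hall : ∀ t : G, t * t = 1 → t ≠ 1 → (fixedBy X t).ncard = (fixedBy X x).ncard :=
    fun t ht ht1 => h.fix_card_eq hX6 ht ht1 hx hx1
  have hsub : ({a, b} : Set X) ⊆ fixedBy X x := by
    intro p hp
    rcases hp with rfl | hp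
    · exact xa
    · rw [Set.mem_singleton_iff.1 hp]; exact xb
  have hsuby : ({c, d} : Set X) ⊆ fixedBy X y := by
    intro p hp
    rcases hp with rfl | hp
    · exact yc
    · rw [Set.mem_singleton_iff.1 hp]; exact yd
  have h2le : 2 ≤ (fixedBy X x).ncard := by
    rw [← Set.ncard_pair h1]
    exact Set.ncard_le_ncard hsub hfx.1
  have hcase : (fixedBy X x).ncard = 2 ∨ (fixedBy X x).ncard = 3 := by omega
  -- the counting argument
  have final : ∀ (W0 : Finset X) (k : ℕ), W0.card = k → k ≤ 7 →
      (∀ q : X, q ∈ W0 ↔ (x • q = q ∨ y • q = q ∨ x • y • q = q)) →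
      (∀ k : G, k * x = x * k → k * y = y * k → k = 1 ∨ k = x ∨ k = y ∨ k = x * y) →
      ∃ (S : Finset X) (p : X), (∀ q, q ∈ S) ∧ S.card = k + 4 ∧ x • p ≠ p ∧ y • p ≠ p ∧ x • y • p ≠ p := by
    intro W0 k hk hk7 hW0 hC
    obtain ⟨p, hpW, hp⟩ := Finset.exists_mem_notMem_of_card_lt_card (show W0.card < W.card by omega)
    rw [hW0] at hp
    push Not at hp
    obtain ⟨hp1, hp2, hp3⟩ := hp
    have hreg := reg_pts hx hy hxy (fun q q1 q2 q3 => h.cent_trans hx hy hxy hp1 hp2 hp3 q1 q2 q3) hC
    have q4 : x • p ≠ y • p := fun e => hp3 (by rw [← e, invol_smul hx])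
    have q5 : x • p ≠ x • y • p := fun e => hp2 ((smul_left_cancel_iff x).1 e).symm
    have q6 : y • p ≠ x • y • p := fun e => by
      rw [hcomm] at e
      exact hp1 ((smul_left_cancel_iff y).1 e).symm
    have hs : ({p, x • p, y • p, x • y • p} : Finset X).card = 4 := by
      rw [Finset.card_insert_of_notMem, Finset.card_insert_of_notMem, Finset.card_insert_of_notMem, Finset.card_singleton]
      · simpa using q6
      · simp only [Finset.mem_insert, Finset.mem_singleton, not_or]; exact ⟨q4, q5⟩
      · simp only [Finset.mem_insert, Finset.mem_singleton, not_or]; exact ⟨hp1.symm, hp2.symm, hp3.symm⟩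
    refine ⟨W0 ∪ {p, x • p, y • p, x • y • p}, p, ?_, ?_, hp1, hp2, hp3⟩
    · intro q
      rw [Finset.mem_union]
      by_cases hq : q ∈ W0
      · exact Or.inl hq
      · right
        rw [hW0] at hq
        push Not at hq
        simp only [Finset.mem_insert, Finset.mem_singleton]
        exact hreg q hq.1 hq.2.1 hq.2.2
    · rw [Finset.card_union_of_disjoint, hk, hs]
      rw [Finset.disjoint_right]
      intro q hq
      rw [hW0]
      push Not
      simp only [Finset.mem_insert, Finset.mem_singleton] at hq
      have R0 : Reg x y p := ⟨hp1, hp2, hp3⟩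
      rcases hq with rfl | rfl | rfl | rfl
      · exact R0
      · exact R0.left hcomm
      · exact R0.right hcomm
      · exact (R0.right hcomm).left hcomm
  have hcx : ∀ {k : G}, k * x = x * k → ∀ {r : X}, x • r = r → x • k • r = k • r := by
    intro k hk r hr
    rw [← mul_smul, ← hk, mul_smul, hr]
  have hcy : ∀ {k : G}, k * y = y * k → ∀ {r : X}, y • r = r → y • k • r = k • r := by
    intro k hk r hr
    rw [← mul_smul, ← hk, mul_smul, hr]
  rcases hcase with hα | hα
  · -- two fixed points
    have hFx : ∀ r : X, x • r = r ↔ r = a ∨ r = b := by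
      have e : ({a, b} : Set X) = fixedBy X x := by
        apply Set.eq_of_subset_of_ncard_le hsub _ hfx.1
        rw [hα, Set.ncard_pair h1]
      intro r
      have := Set.ext_iff.1 e r
      exact this.symm
    have hFy : ∀ r : X, y • r = r ↔ r = c ∨ r = d := by
      have e : ({c, d} : Set X) = fixedBy X y := by
        apply Set.eq_of_subset_of_ncard_le hsuby _ hfy.1
        rw [← hexy, hα, Set.ncard_pair h6]
      intro r
      have := Set.ext_iff.1 e r
      exact this.symm
    obtain ⟨e, f, hef, hFz'⟩ := Set.ncard_eq_two.1 (hexz.symm.trans hα)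
    have hFz : ∀ r : X, x • y • r = r ↔ r = e ∨ r = f := by
      intro r
      have := Set.ext_iff.1 hFz' r
      rw [mem_fixedBy, mul_smul] at this
      exact this
    have za : x • y • a = b := by rw [ya, xb]
    have zb : x • y • b = a := by rw [yb, xa]
    have zc : x • y • c = d := by rw [yc, xc]
    have zd : x • y • d = c := by rw [yd, xd]
    have hne : ∀ r ∈ ({a, b, c, d} : Finset X), r ≠ e ∧ r ≠ f := by
      intro r hr
      have h7 : x • y • r ≠ r := by
        simp only [Finset.mem_insert, Finset.mem_singleton] at hr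
        rcases hr with rfl | rfl | rfl | rfl
        · rw [za]; exact h1.symm
        · rw [zb]; exact h1
        · rw [zc]; exact h6.symm
        · rw [zd]; exact h6
      rw [Ne, hFz] at h7
      push Not at h7
      exact h7
    have hW0c : ({a, b, c, d, e, f} : Finset X).card = 6 := by
      have ea := hne a (by simp)
      have eb := hne b (by simp)
      have ec := hne c (by simp)
      have ed := hne d (by simp)
      rw [Finset.card_insert_of_notMem, Finset.card_insert_of_notMem, Finset.card_insert_of_notMem, Finset.card_insert_of_notMem,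
        Finset.card_pair hef]
      · simp only [Finset.mem_insert, Finset.mem_singleton, not_or]; exact ⟨ed.1, ed.2⟩
      · simp only [Finset.mem_insert, Finset.mem_singleton, not_or]; exact ⟨h6, ec.1, ec.2⟩
      · simp only [Finset.mem_insert, Finset.mem_singleton, not_or]; exact ⟨h4, h5, eb.1, eb.2⟩
      · simp only [Finset.mem_insert, Finset.mem_singleton, not_or]; exact ⟨h1, h2, h3, ea.1, ea.2⟩
    have hC1 : ∀ k : G, k * x = x * k → k * y = y * k → k • a = a → k • c = c → k = 1 := by
      intro k hkx hky hka hkc
      have hkb : k • b = b := by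
        rcases (hFx _).1 (hcx hkx xb) with e1 | e1
        · exact absurd ((smul_left_cancel_iff k).1 (e1.trans hka.symm)) h1.symm
        · exact e1
      have hkd : k • d = d := by
        rcases (hFy _).1 (hcy hky yd) with e1 | e1
        · exact absurd ((smul_left_cancel_iff k).1 (e1.trans hkc.symm)) h6.symm
        · exact e1
      have hs : ({a, b, c, d} : Finset X).card = 4 := by
        rw [← hs₀', hs4]
      have hfixs : ∀ p ∈ ({a, b, c, d} : Finset X), k • p = p := by
        intro p hp
        simp only [Finset.mem_insert, Finset.mem_singleton] at hp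
        rcases hp with rfl | rfl | rfl | rfl
        · exact hka
        · exact hkb
        · exact hkc
        · exact hkd
      obtain ⟨m, hm, hm1⟩ := h.odd _ hs
      have hkm := hm1 k hfixs
      have hkz : ∀ {r : X}, x • y • r = r → x • y • k • r = k • r := by
        intro r hr
        rw [← mul_smul y, ← hky, mul_smul, ← mul_smul x, ← hkx, mul_smul, hr]
      have hke : k • e = e := by
        rcases (hFz _).1 (hkz ((hFz e).2 (Or.inl rfl))) with e1 | e1
        · exact e1
        · -- k swaps e and f
          have e2 : k • f = e := by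
            rcases (hFz _).1 (hkz ((hFz f).2 (Or.inr rfl))) with e3 | e3
            · exact e3
            · exact absurd ((smul_left_cancel_iff k).1 (e1.trans e3.symm)) hef
          have e3 : k ^ m • e = k • e := sq_pow_smul (by rw [e1, e2]) hm
          rw [hkm, one_smul] at e3
          exact e3.symm
      apply h.five k {a, b, c, d, e}
      · have ea := hne a (by simp)
        have eb := hne b (by simp)
        have ec := hne c (by simp)
        have ed := hne d (by simp)
        rw [Finset.card_insert_of_notMem, Finset.card_insert_of_notMem, Finset.card_insert_of_notMem,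
          Finset.card_pair ed.1]
        · simp only [Finset.mem_insert, Finset.mem_singleton, not_or]; exact ⟨h6, ec.1⟩
        · simp only [Finset.mem_insert, Finset.mem_singleton, not_or]; exact ⟨h4, h5, eb.1⟩
        · simp only [Finset.mem_insert, Finset.mem_singleton, not_or]; exact ⟨h1, h2, h3, ea.1⟩
      · intro p hp
        simp only [Finset.mem_insert, Finset.mem_singleton] at hp
        rcases hp with rfl | rfl | rfl | rfl | rfl
        · exact hka
        · exact hkb
        · exact hkc
        · exact hkd
        · exact hke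
    obtain ⟨S, p, hS1, hS2, -⟩ := final {a, b, c, d, e, f} 6 hW0c (by norm_num) (by
      intro q
      simp only [Finset.mem_insert, Finset.mem_singleton]
      rw [hFx, hFy, hFz]
      tauto) (by
      intro k hkx hky
      have key : ∀ w : G, w * x = x * w → w * y = y * w → w • a = k • a → w • c = k • c → k = w := by
        intro w hw1 hw2 hw3 hw4
        have e1 : w⁻¹ * k = 1 := by
          have c1 : Commute w x := hw1
          have c2 : Commute w y := hw2
          have c3 : Commute k x := hkx
          have c4 : Commute k y := hky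
          apply hC1
          · exact (c1.inv_left.mul_left c3).eq
          · exact (c2.inv_left.mul_left c4).eq
          · rw [mul_smul, ← hw3, inv_smul_smul]
          · rw [mul_smul, ← hw4, inv_smul_smul]
        rw [inv_mul_eq_one] at e1
        exact e1.symm
      rcases (hFx _).1 (hcx hkx xa) with e1 | e1 <;> rcases (hFy _).1 (hcy hky yc) with e2 | e2
      · left
        exact key 1 (by group) (by group) (by rw [one_smul, e1]) (by rw [one_smul, e2])
      · right; left
        exact key x rfl hxy (by rw [xa, e1]) (by rw [xc, e2])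
      · right; right; left
        exact key y hxy.symm rfl (by rw [ya, e1]) (by rw [yc, e2])
      · right; right; right
        exact key (x * y) (by rw [mul_assoc, ← hxy, ← mul_assoc]) (by rw [← mul_assoc y x y, ← hxy]) (by rw [mul_smul, ya, xb, e1]) (by rw [mul_smul, yc, xc, e2]))
    exact ⟨S, hS1, Or.inl ⟨by rw [hS2], fun t ht ht1 => by rw [hall t ht ht1, hα]⟩⟩
  · -- three fixed points
    have e_exists : ∃ e : X, e ≠ a ∧ e ≠ b ∧ ∀ r : X, x • r = r ↔ r = a ∨ r = b ∨ r = e := by
      have h7 : ¬ fixedBy X x ⊆ {a, b} := by
        intro hcon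
        have := Set.ncard_le_ncard hcon (Set.toFinite _)
        rw [hα, Set.ncard_pair h1] at this
        omega
      obtain ⟨e, he1, he2⟩ := Set.not_subset.1 h7
      simp only [Set.mem_insert_iff, Set.mem_singleton_iff, not_or] at he2
      have h8 : ({a, b, e} : Set X).ncard = 3 := by
        rw [Set.ncard_eq_toFinset_card', Set.toFinset_insert, Set.toFinset_insert, Set.toFinset_singleton]
        rw [Finset.card_eq_three]
        exact ⟨a, b, e, h1, Ne.symm he2.1, Ne.symm he2.2, rfl⟩
      have h9 : ({a, b, e} : Set X) = fixedBy X x := by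
        apply Set.eq_of_subset_of_ncard_le _ _ hfx.1
        · intro p hp
          rcases hp with rfl | rfl | hp
          · exact xa
          · exact xb
          · rw [Set.mem_singleton_iff.1 hp]; exact he1
        · rw [hα, h8]
      refine ⟨e, he2.1, he2.2, fun r => ?_⟩
      have := Set.ext_iff.1 h9 r
      exact this.symm
    obtain ⟨e, hea, heb, hFx⟩ := e_exists
    have xe : x • e = e := (hFx e).2 (Or.inr (Or.inr rfl))
    have hec : e ≠ c := by rintro rfl; rw [xe] at xc; exact h6 xc
    have hed : e ≠ d := by rintro rfl; rw [xe] at xd; exact h6 xd.symm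
    have ye : y • e = e := by
      rcases (hFx _).1 (hcx hxy.symm xe) with e1 | e1 | e1
      · exfalso; apply heb
        rw [← invol_smul hy e, e1, ya]
      · exfalso; apply hea
        rw [← invol_smul hy e, e1, yb]
      · exact e1
    have hFy : ∀ r : X, y • r = r ↔ r = c ∨ r = d ∨ r = e := by
      have h8 : ({c, d, e} : Set X).ncard = 3 := by
        rw [Set.ncard_eq_toFinset_card', Set.toFinset_insert, Set.toFinset_insert, Set.toFinset_singleton]
        rw [Finset.card_eq_three]
        exact ⟨c, d, e, h6, hec.symm, hed.symm, rfl⟩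
      have h9 : ({c, d, e} : Set X) = fixedBy X y := by
        apply Set.eq_of_subset_of_ncard_le _ _ hfy.1
        · intro p hp
          rcases hp with rfl | rfl | hp
          · exact yc
          · exact yd
          · rw [Set.mem_singleton_iff.1 hp]; exact ye
        · rw [← hexy, hα, h8]
      intro r
      have := Set.ext_iff.1 h9 r
      exact this.symm
    have ze : x • y • e = e := by rw [ye, xe]
    have za : x • y • a = b := by rw [ya, xb]
    have zb : x • y • b = a := by rw [yb, xa]
    have zc : x • y • c = d := by rw [yc, xc]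
    have zd : x • y • d = c := by rw [yd, xd]
    obtain ⟨f, g, hef, heg, hfg, hFz⟩ : ∃ f g : X, e ≠ f ∧ e ≠ g ∧ f ≠ g ∧ ∀ r : X, x • y • r = r ↔ r = e ∨ r = f ∨ r = g := by
      have h7 : e ∈ fixedBy X (x * y) := by rw [mem_fixedBy, mul_smul]; exact ze
      have h8 := Set.ncard_diff_singleton_add_one h7 hfz.1
      rw [← hexz, hα] at h8
      obtain ⟨f, g, hfg, h9⟩ := Set.ncard_eq_two.1 (show (fixedBy X (x * y) \ {e}).ncard = 2 by omega)
      have hf : f ∈ fixedBy X (x * y) \ {e} := by rw [h9]; simp
      have hg : g ∈ fixedBy X (x * y) \ {e} := by rw [h9]; simp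
      refine ⟨f, g, fun e1 => hf.2 e1.symm, fun e1 => hg.2 e1.symm, hfg, fun r => ?_⟩
      rw [← mul_smul, ← mem_fixedBy]
      constructor
      · intro hr
        by_cases hre : r = e
        · exact Or.inl hre
        · right
          have : r ∈ fixedBy X (x * y) \ {e} := ⟨hr, hre⟩
          rw [h9] at this
          exact this
      · rintro (rfl | rfl | rfl)
        · exact h7
        · exact hf.1
        · exact hg.1
    have hne : ∀ r ∈ ({a, b, c, d} : Finset X), r ≠ e ∧ r ≠ f ∧ r ≠ g := by
      intro r hr
      have h7 : x • y • r ≠ r := by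
        simp only [Finset.mem_insert, Finset.mem_singleton] at hr
        rcases hr with rfl | rfl | rfl | rfl
        · rw [za]; exact h1.symm
        · rw [zb]; exact h1
        · rw [zc]; exact h6.symm
        · rw [zd]; exact h6
      rw [Ne, hFz] at h7
      push Not at h7
      exact h7
    have ea := hne a (by simp)
    have eb := hne b (by simp)
    have ec := hne c (by simp)
    have ed := hne d (by simp)
    have hzc : ∀ {k : G}, k * x = x * k → k * y = y * k → ∀ {r : X}, x • y • r = r → x • y • k • r = k • r := by
      intro k hkx hky r hr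
      rw [← mul_smul y, ← hky, mul_smul, ← mul_smul x, ← hkx, mul_smul, hr]
    have xf : x • f = g := by
      rcases (hFz _).1 (hzc rfl hxy ((hFz f).2 (Or.inr (Or.inl rfl)))) with e1 | e1 | e1
      · exact absurd ((smul_left_cancel_iff x).1 (e1.trans xe.symm)) hef.symm
      · rcases (hFx f).1 e1 with e2 | e2 | e2
        · exact absurd e2.symm ea.2.1
        · exact absurd e2.symm eb.2.1
        · exact absurd e2.symm hef
      · exact e1
    have yf : y • f = g := by
      rcases (hFz _).1 (hzc hxy.symm rfl ((hFz f).2 (Or.inr (Or.inl rfl)))) with e1 | e1 | e1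
      · exact absurd ((smul_left_cancel_iff y).1 (e1.trans ye.symm)) hef.symm
      · rcases (hFy f).1 e1 with e2 | e2 | e2
        · exact absurd e2.symm ec.2.1
        · exact absurd e2.symm ed.2.1
        · exact absurd e2.symm hef
      · exact e1
    have xg : x • g = f := by rw [← xf, invol_smul hx]
    have hW0c : ({a, b, c, d, e, f, g} : Finset X).card = 7 := by
      rw [Finset.card_insert_of_notMem, Finset.card_insert_of_notMem, Finset.card_insert_of_notMem, Finset.card_insert_of_notMem,
        Finset.card_insert_of_notMem, Finset.card_pair hfg]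
      · simp only [Finset.mem_insert, Finset.mem_singleton, not_or]; exact ⟨hef, heg⟩
      · simp only [Finset.mem_insert, Finset.mem_singleton, not_or]; exact ed
      · simp only [Finset.mem_insert, Finset.mem_singleton, not_or]; exact ⟨h6, ec⟩
      · simp only [Finset.mem_insert, Finset.mem_singleton, not_or]; exact ⟨h4, h5, eb⟩
      · simp only [Finset.mem_insert, Finset.mem_singleton, not_or]; exact ⟨h1, h2, h3, ea⟩
    have hke : ∀ k : G, k * x = x * k → k * y = y * k → k • e = e := by
      intro k hkx hky
      rcases (hFx _).1 (hcx hkx xe) with e1 | e1 | e1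
      · rcases (hFy _).1 (hcy hky ye) with e2 | e2 | e2
        · exact absurd (e1.symm.trans e2) h2
        · exact absurd (e1.symm.trans e2) h3
        · exact e2
      · rcases (hFy _).1 (hcy hky ye) with e2 | e2 | e2
        · exact absurd (e1.symm.trans e2) h4
        · exact absurd (e1.symm.trans e2) h5
        · exact e2
      · exact e1
    have hC1 : ∀ k : G, k * x = x * k → k * y = y * k → k • a = a → k • f = f → k = 1 := by
      intro k hkx hky hka hkf
      have hke' := hke k hkx hky
      have hkb : k • b = b := by
        rcases (hFx _).1 (hcx hkx xb) with e1 | e1 | e1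
        · exact absurd ((smul_left_cancel_iff k).1 (e1.trans hka.symm)) h1.symm
        · exact e1
        · exact absurd ((smul_left_cancel_iff k).1 (e1.trans hke'.symm)) eb.1
      have hkg : k • g = g := by
        rcases (hFz _).1 (hzc hkx hky ((hFz g).2 (Or.inr (Or.inr rfl)))) with e1 | e1 | e1
        · exact absurd ((smul_left_cancel_iff k).1 (e1.trans hke'.symm)) heg.symm
        · exact absurd ((smul_left_cancel_iff k).1 (e1.trans hkf.symm)) hfg.symm
        · exact e1
      apply h.five k {a, b, e, f, g}
      · rw [Finset.card_insert_of_notMem, Finset.card_insert_of_notMem, Finset.card_insert_of_notMem,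
          Finset.card_pair hfg]
        · simp only [Finset.mem_insert, Finset.mem_singleton, not_or]; exact ⟨hef, heg⟩
        · simp only [Finset.mem_insert, Finset.mem_singleton, not_or]; exact eb
        · simp only [Finset.mem_insert, Finset.mem_singleton, not_or]; exact ⟨h1, ea⟩
      · intro p hp
        simp only [Finset.mem_insert, Finset.mem_singleton] at hp
        rcases hp with rfl | rfl | rfl | rfl | rfl
        · exact hka
        · exact hkb
        · exact hke'
        · exact hkf
        · exact hkg
    obtain ⟨S, p, hS1, hS2, hp1, hp2, hp3⟩ := final {a, b, c, d, e, f, g} 7 hW0c (by norm_num) (by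
      intro q
      simp only [Finset.mem_insert, Finset.mem_singleton]
      rw [hFx, hFy, hFz]
      constructor
      · rintro (h | h | h | h | h | h | h)
        · exact Or.inl (Or.inl h)
        · exact Or.inl (Or.inr (Or.inl h))
        · exact Or.inr (Or.inl (Or.inl h))
        · exact Or.inr (Or.inl (Or.inr (Or.inl h)))
        · exact Or.inl (Or.inr (Or.inr h))
        · exact Or.inr (Or.inr (Or.inr (Or.inl h)))
        · exact Or.inr (Or.inr (Or.inr (Or.inr h)))
      · rintro ((h | h | h) | (h | h | h) | (h | h | h))
        · exact Or.inl h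
        · exact Or.inr (Or.inl h)
        · exact Or.inr (Or.inr (Or.inr (Or.inr (Or.inl h))))
        · exact Or.inr (Or.inr (Or.inl h))
        · exact Or.inr (Or.inr (Or.inr (Or.inl h)))
        · exact Or.inr (Or.inr (Or.inr (Or.inr (Or.inl h))))
        · exact Or.inr (Or.inr (Or.inr (Or.inr (Or.inl h))))
        · exact Or.inr (Or.inr (Or.inr (Or.inr (Or.inr (Or.inl h)))))
        · exact Or.inr (Or.inr (Or.inr (Or.inr (Or.inr (Or.inr h)))))) (by
      intro k hkx hky
      have key : ∀ w : G, w * x = x * w → w * y = y * w → w • a = k • a → w • f = k • f → k = w := by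
        intro w hw1 hw2 hw3 hw4
        have e1 : w⁻¹ * k = 1 := by
          have c1 : Commute w x := hw1
          have c2 : Commute w y := hw2
          have c3 : Commute k x := hkx
          have c4 : Commute k y := hky
          apply hC1
          · exact (c1.inv_left.mul_left c3).eq
          · exact (c2.inv_left.mul_left c4).eq
          · rw [mul_smul, ← hw3, inv_smul_smul]
          · rw [mul_smul, ← hw4, inv_smul_smul]
        rw [inv_mul_eq_one] at e1
        exact e1.symm
      have hke' := hke k hkx hky
      have e1 : k • a = a ∨ k • a = b := by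
        rcases (hFx _).1 (hcx hkx xa) with e1 | e1 | e1
        · exact Or.inl e1
        · exact Or.inr e1
        · exact absurd ((smul_left_cancel_iff k).1 (e1.trans hke'.symm)) ea.1
      have e2 : k • f = f ∨ k • f = g := by
        rcases (hFz _).1 (hzc hkx hky ((hFz f).2 (Or.inr (Or.inl rfl)))) with e1 | e1 | e1
        · exact absurd ((smul_left_cancel_iff k).1 (e1.trans hke'.symm)) hef.symm
        · exact Or.inl e1
        · exact Or.inr e1
      rcases e1 with e1 | e1 <;> rcases e2 with e2 | e2
      · left
        exact key 1 (by group) (by group) (by rw [one_smul, e1]) (by rw [one_smul, e2])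
      · right; left
        exact key x rfl hxy (by rw [xa, e1]) (by rw [xf, e2])
      · right; right; right
        exact key (x * y) (by rw [mul_assoc, ← hxy, ← mul_assoc]) (by rw [← mul_assoc y x y, ← hxy]) (by rw [mul_smul, ya, xb, e1]) (by rw [mul_smul, yf, xg, e2])
      · right; right; left
        exact key y hxy.symm rfl (by rw [ya, e1]) (by rw [yf, e2]))
    refine ⟨S, hS1, Or.inr ⟨by rw [hS2], fun t ht ht1 => by rw [hall t ht ht1, hα], x, y, p, e, hx, hy, hxy, hp1, hp2, hp3, xe, ye, ?_⟩⟩
    intro r hr1 hr2
    rcases (hFx r).1 hr1 with e1 | e1 | e1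
    · rcases (hFy r).1 hr2 with e2 | e2 | e2
      · exact absurd (e1.symm.trans e2) h2
      · exact absurd (e1.symm.trans e2) h3
      · exact e2
    · rcases (hFy r).1 hr2 with e2 | e2 | e2
      · exact absurd (e1.symm.trans e2) h4
      · exact absurd (e1.symm.trans e2) h5
      · exact e2
    · exact e1

end H4

end Cfsg.Agent.H10
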