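import Mathlib
import Cfsg.Agent.H10.MT3
import Cfsg.Agent.H10.Perm17

set_option autoImplicit false
set_option linter.all false
set_option maxHeartbeats 400000

/-!
# H10.MT4: order formulas; no degree 10
-/

namespace Cfsg.Agent.H10

open MulAction
open scoped Pointwise

theorem card_eq_desc_mul {G : Type*} [Group G] {X : Type*} [MulAction G X] [Finite X] [Finite G] {k : ℕ}
    (h : IsMultiplyPretransitive G X k) {s : Set X} (hs : s.ncard = k) :
    Nat.card G = (Nat.card X).descFactorial k * Nat.card (fixingSubgroup G s) := by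
  have h1 := h.index_of_fixingSubgroup_mul hs
  have hk : k ≤ Nat.card X := by
    rw [← hs, ← Set.ncard_univ]
    exact Set.ncard_le_ncard (Set.subset_univ s) (Set.toFinite _)
  have h2 := Nat.factorial_mul_descFactorial hk
  have h3 : (fixingSubgroup G s).index = (Nat.card X).descFactorial k := by
    apply Nat.eq_of_mul_eq_mul_right (Nat.factorial_pos (Nat.card X - k))
    rw [h1, ← h2, mul_comm]
  rw [← (fixingSubgroup G s).card_mul_index, h3, mul_comm]

theorem desc_dvd {G : Type*} [Group G] {X : Type*} [MulAction G X] [Finite X] [Finite G] {k : ℕ}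
    (h : IsMultiplyPretransitive G X k) (hk : k ≤ Nat.card X) : (Nat.card X).descFactorial k ∣ Nat.card G := by
  classical
  haveI := Fintype.ofFinite X
  obtain ⟨s, hs⟩ : ∃ s : Finset X, s.card = k := by
    rw [Nat.card_eq_fintype_card] at hk
    obtain ⟨s, -, hs⟩ := Finset.exists_subset_card_eq (s := (Finset.univ : Finset X)) (n := k) (by rw [Finset.card_univ]; exact hk)
    exact ⟨s, hs⟩
  rw [card_eq_desc_mul h (s := (s : Set X)) (by rw [Set.ncard_coe_finset, hs])]
  exact Dvd.intro _ rfl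

theorem range_trans {G : Type*} [Group G] {X : Type*} [MulAction G X] {k : ℕ} (h : IsMultiplyPretransitive G X k) :
    IsMultiplyPretransitive (MulAction.toPermHom G X).range X k := by
  refine ⟨fun x y => ?_⟩
  obtain ⟨g, hg⟩ := h.exists_smul_eq x y
  refine ⟨⟨MulAction.toPermHom G X g, g, rfl⟩, ?_⟩
  rw [← hg]
  rfl

section
variable {α : Type*} [Fintype α] [DecidableEq α]

/-- a primitive group of degree `p + 3 + …` with an element of prime order with long orbit contains the alternating group -/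
theorem alt_of_prime_dvd (G : Subgroup (Equiv.Perm α)) (hG : IsPreprimitive G α) {p : ℕ} (hp : p.Prime)
    (hpn : p + 3 ≤ Fintype.card α) (h2 : Fintype.card α < 2 * p) (hd : p ∣ Nat.card G) : alternatingGroup α ≤ G := by
  haveI : Fact p.Prime := ⟨hp⟩
  obtain ⟨⟨g, hg⟩, hgo⟩ := exists_prime_orderOf_dvd_card' (G := G) p hd
  rw [Subgroup.orderOf_mk] at hgo
  have hgc : g.IsCycle := Equiv.Perm.isCycle_of_prime_order' (by rw [hgo]; exact hp) (by rw [hgo]; exact h2)
  exact jordan_cycle G hG hp hpn hgc (by rw [← hgc.orderOf, hgo]) hg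

theorem alt_four {G : Subgroup (Equiv.Perm α)} (hA : alternatingGroup α ≤ G) (hn : 8 ≤ Fintype.card α) :
    ∃ g ∈ G, g ≠ 1 ∧ ∃ s : Finset α, 5 ≤ s.card ∧ ∀ x ∈ s, g x = x := by
  obtain ⟨t, -, ht⟩ := Finset.exists_subset_card_eq (s := (Finset.univ : Finset α)) (n := 3) (by rw [Finset.card_univ]; omega)
  obtain ⟨a, b, c, hab, hac, hbc, rfl⟩ := Finset.card_eq_three.1 ht
  refine ⟨Equiv.swap a b * Equiv.swap a c, hA (Equiv.Perm.IsThreeCycle.mem_alternatingGroup (Equiv.Perm.isThreeCycle_swap_mul_swap_same hab hac hbc)),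
    (Equiv.Perm.isThreeCycle_swap_mul_swap_same hab hac hbc).isCycle.ne_one, ({a, b, c} : Finset α)ᶜ, ?_, ?_⟩
  · rw [Finset.card_compl, ht]; omega
  · intro x hx
    simp only [Finset.mem_compl, Finset.mem_insert, Finset.mem_singleton, not_or] at hx
    rw [Equiv.Perm.mul_apply, Equiv.swap_apply_of_ne_of_ne hx.1 hx.2.2, Equiv.swap_apply_of_ne_of_ne hx.1 hx.2.1]

theorem no_ten (G : Subgroup (Equiv.Perm α)) (h4 : IsMultiplyPretransitive G α 4) (hcard : Fintype.card α = 10)
    (hfix : ∀ g ∈ G, ∀ s : Finset α, 5 ≤ s.card → (∀ x ∈ s, g x = x) → g = 1) : False := by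
  have h2 : IsMultiplyPretransitive G α 2 := isMultiplyPretransitive_of_le' (n := 4) (by norm_num) (by
    rw [ENat.card_eq_coe_fintype_card, hcard]; norm_num)
  have hprim : IsPreprimitive G α := isPreprimitive_of_is_two_pretransitive h2
  have hd := desc_dvd h4 (by rw [Nat.card_eq_fintype_card, hcard]; norm_num)
  rw [Nat.card_eq_fintype_card, hcard] at hd
  have h7 : 7 ∣ Nat.card G := Dvd.dvd.trans (by decide) hd
  obtain ⟨g, hg, hg1, s, hs, hsf⟩ := alt_four (alt_of_prime_dvd G hprim (by norm_num) (by rw [hcard]) (by rw [hcard]; norm_num) h7) (by rw [hcard]; norm_num)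
  exact hg1 (hfix g hg s hs hsf)

end

/-- Tits: sharply 4-transitive groups -/
theorem tits_four {G : Type*} [Group G] {Ω : Type*} [MulAction G Ω] (h4 : MulAction.IsMultiplyPretransitive G Ω 4)
    (hsharp : ∀ x : Fin 4 ↪ Ω, MulAction.stabilizer G x = ⊥) :
    Finite Ω ∧ Nat.card Ω ≤ 11 ∧ (Even (Nat.card Ω) → Nat.card Ω ≤ 6) := by
  classical
  have hs4 : ∀ g : G, ∀ s : Finset Ω, s.card = 4 → (∀ p ∈ s, g • p = p) → g = 1 := by
    intro g s hs hg
    obtain ⟨e, he⟩ : ∃ e : Fin 4 ↪ Ω, ∀ i, e i ∈ s := by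
      let e := (s.equivFinOfCardEq hs).symm
      exact ⟨e.toEmbedding.trans ⟨Subtype.val, Subtype.val_injective⟩, fun i => (e i).2⟩
    have h1 : g ∈ stabilizer G e := by
      rw [mem_stabilizer_iff]
      ext i
      exact hg _ (he i)
    rw [hsharp e, Subgroup.mem_bot] at h1
    exact h1
  have H : H4 G Ω := by
    refine ⟨tr4_of h4, ?_, ?_⟩
    · intro g s hs hg
      obtain ⟨u, hu, hu4⟩ := Finset.exists_subset_card_eq (show 4 ≤ s.card by omega)
      exact hs4 g u hu4 (fun p hp => hg p (hu hp))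
    · intro s hs
      exact ⟨1, odd_one, fun g hg => by rw [pow_one]; exact hs4 g s hs hg⟩
  by_cases hW : ∃ W : Finset Ω, 8 ≤ W.card
  · obtain ⟨S, hS, hc⟩ := H.hall_odd hW
    letI : Fintype Ω := ⟨S, hS⟩
    have hcard : Nat.card Ω = S.card := by rw [Nat.card_eq_fintype_card]; rfl
    refine ⟨inferInstance, ?_, ?_⟩
    · rw [hcard]
      rcases hc with ⟨hc, -⟩ | ⟨hc, -⟩ <;> omega
    · intro hev
      exfalso
      rcases hc with ⟨hc, -⟩ | ⟨hc, -⟩
      · refine no_ten (MulAction.toPermHom G Ω).range (range_trans h4) (by rw [← Nat.card_eq_fintype_card, hcard, hc]) ?_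
        rintro _ ⟨g, rfl⟩ s hs hsf
        rw [H.five g s hs hsf, map_one]
      · rw [hcard, hc] at hev
        exact absurd hev (by decide)
  · push Not at hW
    have hfin : Finite Ω := by
      by_contra hcon
      rw [not_finite_iff_infinite] at hcon
      obtain ⟨s, hs⟩ := Infinite.exists_subset_card_eq Ω 8
      have := hW s
      omega
    haveI := Fintype.ofFinite Ω
    have h7 : Nat.card Ω ≤ 7 := by
      rw [Nat.card_eq_fintype_card, ← Finset.card_univ]
      have := hW Finset.univ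
      omega
    refine ⟨hfin, by omega, ?_⟩
    rintro ⟨m, hm⟩
    omega

end Cfsg.Agent.H10
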