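import Mathlib
import Cfsg.Agent.H10.MT4

set_option autoImplicit false
set_option linter.all false
set_option maxHeartbeats 1000000

/-!
# H10.MT5: 4-transitive groups, only the identity fixing 5 points, 4-point stabilisers of even order: degree at most 12
-/

namespace Cfsg.Agent.H10

open MulAction
open scoped Pointwise

variable {G : Type*} [Group G] {X : Type*} [MulAction G X]

theorem parity [DecidableEq X] {z : G} (hz : z * z = 1) (S : Finset X) (hS : ∀ y ∈ S, z • y ∈ S) :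
    (S.card : ZMod 2) = ((S.filter (fun y => z • y = y)).card : ZMod 2) := by
  have h1 : ∑ y ∈ S.filter (fun y => ¬ z • y = y), (1 : ZMod 2) = 0 := by
    apply Finset.sum_involution (fun y _ => z • y)
    · intro a ha; decide
    · intro a ha _; exact (Finset.mem_filter.1 ha).2
    · intro a ha
      exact invol_smul hz a
    · intro a ha
      rw [Finset.mem_filter] at ha ⊢
      refine ⟨hS a ha.1, fun e => ha.2 ?_⟩
      exact (smul_left_cancel_iff z).1 e
  have h2 := Finset.card_filter_add_card_filter_not (s := S) (fun y => z • y = y)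
  rw [← h2, Nat.cast_add]
  rw [Finset.sum_const, nsmul_eq_mul, mul_one] at h1
  rw [h1, add_zero]

theorem even_bound [Fintype X] [DecidableEq X] [Finite G] (tr : Tr4 G X)
    (five : ∀ g : G, ∀ s : Finset X, 5 ≤ s.card → (∀ p ∈ s, g • p = p) → g = 1)
    {z₀ : G} (hz : z₀ * z₀ = 1) (hz1 : z₀ ≠ 1) {u v w o : X} (huv : u ≠ v) (huw : u ≠ w) (huo : u ≠ o)
    (hvw : v ≠ w) (hvo : v ≠ o) (hwo : w ≠ o) (zu : z₀ • u = u) (zv : z₀ • v = v) (zw : z₀ • w = w) (zo : z₀ • o = o)
    (hn : 5 ≤ Fintype.card X) : Fintype.card X ≤ 12 ∧ Even (Fintype.card X) := by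
  classical
  obtain ⟨Y, hY⟩ : ∃ Y : Finset X, ∀ y, y ∈ Y ↔ y ≠ u ∧ y ≠ v ∧ y ≠ w := ⟨Finset.univ.filter (fun y => y ≠ u ∧ y ≠ v ∧ y ≠ w), by simp⟩
  have hYc : Fintype.card X = Y.card + 3 := by
    have h1 : Y = ({u, v, w} : Finset X)ᶜ := by
      ext y; rw [hY]; simp
    rw [h1, Finset.card_compl, Finset.card_eq_three.2 ⟨u, v, w, huv, huw, hvw, rfl⟩]
    omega
  have hoY : o ∈ Y := (hY o).2 ⟨huo.symm, hvo.symm, hwo.symm⟩
  -- five points
  have five' : ∀ g : G, g • u = u → g • v = v → g • w = w → ∀ x y : X, x ∈ Y → y ∈ Y → x ≠ y → g • x = x → g • y = y → g = 1 := by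
    intro g gu gv gw x y hx hy hxy gx gy
    rw [hY] at hx hy
    apply five g {u, v, w, x, y}
    · rw [Finset.card_insert_of_notMem, Finset.card_insert_of_notMem, Finset.card_insert_of_notMem, Finset.card_pair hxy]
      · simp only [Finset.mem_insert, Finset.mem_singleton, not_or]; exact ⟨hx.2.2.symm, hy.2.2.symm⟩
      · simp only [Finset.mem_insert, Finset.mem_singleton, not_or]; exact ⟨hvw, hx.2.1.symm, hy.2.1.symm⟩
      · simp only [Finset.mem_insert, Finset.mem_singleton, not_or]; exact ⟨huv, huw, hx.1.symm, hy.1.symm⟩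
    · intro p hp
      simp only [Finset.mem_insert, Finset.mem_singleton] at hp
      rcases hp with rfl | rfl | rfl | rfl | rfl
      · exact gu
      · exact gv
      · exact gw
      · exact gx
      · exact gy
  obtain ⟨I, hI⟩ : ∃ I : Set G, ∀ z, z ∈ I ↔ z * z = 1 ∧ z ≠ 1 ∧ z • u = u ∧ z • v = v ∧ z • w = w := ⟨{z | _}, fun z => Iff.rfl⟩
  have hz₀ : z₀ ∈ I := (hI _).2 ⟨hz, hz1, zu, zv, zw⟩
  have hIY : ∀ z ∈ I, ∀ y ∈ Y, z • y ∈ Y := by
    intro z hz y hy
    rw [hI] at hz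
    rw [hY] at hy ⊢
    refine ⟨fun e => hy.1 ?_, fun e => hy.2.1 ?_, fun e => hy.2.2 ?_⟩
    · exact (smul_left_cancel_iff z).1 (e.trans hz.2.2.1.symm)
    · exact (smul_left_cancel_iff z).1 (e.trans hz.2.2.2.1.symm)
    · exact (smul_left_cancel_iff z).1 (e.trans hz.2.2.2.2.symm)
  have hfix1 : ∀ z ∈ I, ∀ x ∈ Y, ∀ y ∈ Y, z • x = x → z • y = y → x = y := by
    intro z hzI x hx y hy h1 h2
    have hzI' := (hI z).1 hzI
    by_contra hxy
    exact hzI'.2.1 (five' z hzI'.2.2.1 hzI'.2.2.2.1 hzI'.2.2.2.2 x y hx hy hxy h1 h2)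
  have hodd : (Y.card : ZMod 2) = 1 := by
    rw [parity hz Y (hIY z₀ hz₀)]
    have : Y.filter (fun y => z₀ • y = y) = {o} := by
      ext y
      rw [Finset.mem_filter, Finset.mem_singleton]
      constructor
      · rintro ⟨h1, h2⟩
        exact hfix1 z₀ hz₀ y h1 o hoY h2 zo
      · rintro rfl
        exact ⟨hoY, zo⟩
    rw [this, Finset.card_singleton]; rfl
  have hfix2 : ∀ z ∈ I, ∃ y ∈ Y, z • y = y := by
    intro z hzI
    by_contra hcon
    push Not at hcon
    have h1 := parity ((hI z).1 hzI).1 Y (hIY z hzI)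
    have h2 : Y.filter (fun y => z • y = y) = ∅ := by
      rw [Finset.filter_eq_empty_iff]
      intro y hy
      exact hcon y hy
    rw [h2, hodd, Finset.card_empty] at h1
    exact absurd h1 (by decide)
  -- injectivity
  have hinj : ∀ z ∈ I, ∀ z' ∈ I, ∀ x ∈ Y, z • x ≠ x → z • x = z' • x → z = z' := by
    intro z hzI z' hzI' x hx hzx hzz
    have h1 := (hI z).1 hzI
    have h2 := (hI z').1 hzI'
    have h3 : z' * z = 1 := by
      apply five' (z' * z) _ _ _ x (z • x) hx (hIY z hzI x hx) hzx.symm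
      · rw [mul_smul, hzz, invol_smul h2.1]
      · rw [mul_smul, invol_smul h1.1, hzz]
      · rw [mul_smul, h1.2.2.1, h2.2.2.1]
      · rw [mul_smul, h1.2.2.2.1, h2.2.2.2.1]
      · rw [mul_smul, h1.2.2.2.2, h2.2.2.2.2]
    have h4 : z'⁻¹ = z := inv_eq_of_mul_eq_one_right h3
    have h5 : z'⁻¹ = z' := inv_eq_of_mul_eq_one_right h2.1
    rw [← h4, h5]
  -- conjugating elements
  have hcj : ∀ y ∈ Y, ∃ g : G, g • u = u ∧ g • v = v ∧ g • w = w ∧ g • o = y := by
    intro y hy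
    rw [hY] at hy
    exact tr u v w o u v w y huv huw huo hvw hvo hwo huv huw hy.1.symm hvw hy.2.1.symm hy.2.2.symm
  have hconjI : ∀ g : G, g • u = u → g • v = v → g • w = w → ∀ z ∈ I, g * z * g⁻¹ ∈ I := by
    intro g gu gv gw z hzI
    rw [hI] at hzI ⊢
    have iu : g⁻¹ • u = u := by rw [inv_smul_eq_iff, gu]
    have iv : g⁻¹ • v = v := by rw [inv_smul_eq_iff, gv]
    have iw : g⁻¹ • w = w := by rw [inv_smul_eq_iff, gw]
    refine ⟨?_, ?_, ?_, ?_, ?_⟩
    · calc g * z * g⁻¹ * (g * z * g⁻¹) = g * (z * z) * g⁻¹ := by group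
        _ = 1 := by rw [hzI.1]; group
    · intro e
      apply hzI.2.1
      have : z = g⁻¹ * (g * z * g⁻¹) * g := by group
      rw [this, e]; group
    · rw [mul_smul, mul_smul, iu, hzI.2.2.1, gu]
    · rw [mul_smul, mul_smul, iv, hzI.2.2.2.1, gv]
    · rw [mul_smul, mul_smul, iw, hzI.2.2.2.2, gw]
  -- the injection Y × I_o → I
  obtain ⟨γ, hγ⟩ : ∃ γ : X → G, ∀ y ∈ Y, γ y • u = u ∧ γ y • v = v ∧ γ y • w = w ∧ γ y • o = y := by
    choose! γ hγ using hcj
    exact ⟨γ, hγ⟩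
  have hIfin : I.Finite := Set.toFinite _
  have c1 : Y.card * ({z ∈ I | z • o = o}).ncard ≤ I.ncard := by
    have h1 : ((Y : Set X) ×ˢ {z ∈ I | z • o = o}).ncard = Y.card * ({z ∈ I | z • o = o}).ncard := by
      rw [Set.ncard_prod, Set.ncard_coe_finset]
    rw [← h1]
    apply Set.ncard_le_ncard_of_injOn (fun p => γ p.1 * p.2 * (γ p.1)⁻¹) _ _ hIfin
    · rintro ⟨y, z⟩ ⟨hy, hzI, hzo⟩
      obtain ⟨g1, g2, g3, g4⟩ := hγ y hy
      exact hconjI _ g1 g2 g3 z hzI
    · rintro ⟨y, z⟩ ⟨hy, hzI, hzo⟩ ⟨y', z'⟩ ⟨hy', hzI', hzo'⟩ heq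
      simp only at heq hy hy' hzI hzI' hzo hzo'
      obtain ⟨g1, g2, g3, g4⟩ := hγ y hy
      obtain ⟨k1, k2, k3, k4⟩ := hγ y' hy'
      have e1 : (γ y * z * (γ y)⁻¹) • y = y := by
        have : (γ y)⁻¹ • y = o := by rw [inv_smul_eq_iff, g4]
        rw [mul_smul, mul_smul, this, hzo, g4]
      have e2 : (γ y' * z' * (γ y')⁻¹) • y' = y' := by
        have : (γ y')⁻¹ • y' = o := by rw [inv_smul_eq_iff, k4]
        rw [mul_smul, mul_smul, this, hzo', k4]
      rw [← heq] at e2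
      have e3 : y = y' := hfix1 _ (hconjI _ g1 g2 g3 z hzI) y hy y' hy' e1 e2
      subst e3
      have e4 : z = z' := by
        have := mul_right_cancel heq
        exact mul_left_cancel this
      rw [e4]
  have c2 : ∀ x ∈ Y, ({z ∈ I | ¬ z • x = x}).ncard ≤ Y.card - 1 := by
    intro x hx
    rw [← Finset.card_erase_of_mem hx, ← Set.ncard_coe_finset]
    apply Set.ncard_le_ncard_of_injOn (fun z => z • x)
    · rintro z ⟨hzI, hzx⟩
      simp only [Finset.coe_erase, Set.mem_diff, Finset.mem_coe, Set.mem_singleton_iff]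
      exact ⟨hIY z hzI x hx, hzx⟩
    · rintro z ⟨hzI, hzx⟩ z' ⟨hzI', hzx'⟩ heq
      exact hinj z hzI z' hzI' x hx hzx heq
  have c3 : ∀ x : X, I.ncard = ({z ∈ I | z • x = x}).ncard + ({z ∈ I | ¬ z • x = x}).ncard := by
    intro x
    rw [← Set.ncard_union_eq _ (Set.toFinite _) (Set.toFinite _)]
    · congr 1
      ext z
      simp only [Set.mem_union, Set.mem_setOf_eq]
      tauto
    · rw [Set.disjoint_left]
      rintro z ⟨_, h1⟩ ⟨_, h2⟩
      exact h2 h1
  have hY2 : 2 ≤ Y.card := by omega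
  have c4 : ({z ∈ I | z • o = o}).ncard = 1 := by
    have h1 : 1 ≤ ({z ∈ I | z • o = o}).ncard := by
      rw [Nat.succ_le_iff, Set.ncard_pos (Set.toFinite _)]
      exact ⟨z₀, hz₀, zo⟩
    have h2 := c2 o hoY
    have h3 := c3 o
    by_contra hcon
    have h4 : 2 ≤ ({z ∈ I | z • o = o}).ncard := by omega
    obtain ⟨i, hi⟩ : ∃ i, ({z ∈ I | z • o = o}).ncard = i := ⟨_, rfl⟩
    rw [hi] at c1 h3 h4
    have : Y.card * i ≤ i + (Y.card - 1) := by omega
    nlinarith [Nat.sub_add_cancel (show 1 ≤ Y.card by omega)]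
  have c5 : Y.card ≤ I.ncard := by rw [c4, mul_one] at c1; exact c1
  -- unique involution through each point
  have huniq : ∀ x ∈ Y, ∀ z ∈ I, ∀ z' ∈ I, z • x = x → z' • x = x → z = z' := by
    intro x hx z hzI z' hzI' h1 h2
    obtain ⟨g1, g2, g3, g4⟩ := hγ x hx
    obtain ⟨ζ, hζ⟩ := Set.ncard_eq_one.1 c4
    have key : ∀ z ∈ I, z • x = x → (γ x)⁻¹ * z * γ x = ζ := by
      intro z hzI h1
      have i1 : (γ x)⁻¹ • u = u := by rw [inv_smul_eq_iff, g1]
      have i2 : (γ x)⁻¹ • v = v := by rw [inv_smul_eq_iff, g2]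
      have i3 : (γ x)⁻¹ • w = w := by rw [inv_smul_eq_iff, g3]
      have h3 := hconjI (γ x)⁻¹ i1 i2 i3 z hzI
      rw [inv_inv] at h3
      have h4 : (γ x)⁻¹ * z * γ x ∈ ({z ∈ I | z • o = o} : Set G) := by
        refine ⟨h3, ?_⟩
        rw [mul_smul, mul_smul, g4, h1, inv_smul_eq_iff, g4]
      rw [hζ] at h4
      exact h4
    have h3 := (key z hzI h1).trans (key z' hzI' h2).symm
    exact mul_left_cancel (mul_right_cancel h3)
  -- swapping involutions
  have hswap : ∀ x ∈ Y, ∀ y ∈ Y, ∃ z ∈ I, z • x = y := by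
    intro x hx y hy
    have hx1 : ∃ z ∈ I, z • x = x := by
      obtain ⟨g1, g2, g3, g4⟩ := hγ x hx
      refine ⟨_, hconjI _ g1 g2 g3 z₀ hz₀, ?_⟩
      have : (γ x)⁻¹ • x = o := by rw [inv_smul_eq_iff, g4]
      rw [mul_smul, mul_smul, this, zo, g4]
    by_cases hxy : y = x
    · subst hxy; exact hx1
    · have h1 : ({z ∈ I | z • x = x}).ncard ≤ 1 := by
        rw [Set.ncard_le_one (Set.toFinite _)]
        rintro z ⟨hzI, hzx⟩ z' ⟨hzI', hzx'⟩
        exact huniq x hx z hzI z' hzI' hzx hzx'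
      have h2 := c3 x
      have h3 : Y.card - 1 ≤ ({z ∈ I | ¬ z • x = x}).ncard := by omega
      have h4 : (fun z : G => z • x) '' {z ∈ I | ¬ z • x = x} = ((Y.erase x : Finset X) : Set X) := by
        apply Set.eq_of_subset_of_ncard_le
        · rintro _ ⟨z, ⟨hzI, hzx⟩, rfl⟩
          simp only [Finset.coe_erase, Set.mem_diff, Finset.mem_coe, Set.mem_singleton_iff]
          exact ⟨hIY z hzI x hx, hzx⟩
        · rw [Set.ncard_coe_finset, Finset.card_erase_of_mem hx, Set.ncard_image_of_injOn]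
          · exact h3
          · rintro z ⟨hzI, hzx⟩ z' ⟨hzI', hzx'⟩ heq
            exact hinj z hzI z' hzI' x hx hzx heq
        · exact Finset.finite_toSet _
      have h5 : y ∈ (fun z : G => z • x) '' {z ∈ I | ¬ z • x = x} := by
        rw [h4]
        simp only [Finset.coe_erase, Set.mem_diff, Finset.mem_coe, Set.mem_singleton_iff]
        exact ⟨hy, hxy⟩
      obtain ⟨z, ⟨hzI, -⟩, hz'⟩ := h5
      exact ⟨z, hzI, hz'⟩
  -- the involution t
  obtain ⟨t, ht, ht1, tu, tv, tw, t4⟩ : ∃ t : G, t * t = 1 ∧ t ≠ 1 ∧ t • u = v ∧ t • v = u ∧ t • w = w ∧ t • o = o := by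
    obtain ⟨a, haY, hao⟩ : ∃ a ∈ Y, a ≠ o := by
      by_contra hcon
      push Not at hcon
      have : Y ⊆ {o} := fun a ha => Finset.mem_singleton.2 (hcon a ha)
      have := Finset.card_le_card this
      rw [Finset.card_singleton] at this
      omega
    have hza : z₀ • a ≠ a := fun e => hao (hfix1 z₀ hz₀ a haY o hoY e zo)
    have haY' := (hY a).1 haY
    have hzaY := (hY _).1 (hIY z₀ hz₀ a haY)
    obtain ⟨g, g1, g2, g3, g4⟩ := tr a (z₀ • a) u v u v w o hza.symm haY'.1 haY'.2.1 hzaY.1 hzaY.2.1 huv huv huw huo hvw hvo hwo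
    have i1 : g⁻¹ • u = a := by rw [inv_smul_eq_iff, g1]
    have i2 : g⁻¹ • v = z₀ • a := by rw [inv_smul_eq_iff, g2]
    have i3 : g⁻¹ • w = u := by rw [inv_smul_eq_iff, g3]
    have i4 : g⁻¹ • o = v := by rw [inv_smul_eq_iff, g4]
    refine ⟨g * z₀ * g⁻¹, ?_, ?_, ?_, ?_, ?_, ?_⟩
    · calc g * z₀ * g⁻¹ * (g * z₀ * g⁻¹) = g * (z₀ * z₀) * g⁻¹ := by group
        _ = 1 := by rw [hz]; group
    · intro e
      apply hz1
      have : z₀ = g⁻¹ * (g * z₀ * g⁻¹) * g := by group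
      rw [this, e]; group
    · rw [mul_smul, mul_smul, i1, g2]
    · rw [mul_smul, mul_smul, i2, invol_smul hz, g1]
    · rw [mul_smul, mul_smul, i3, zu, g3]
    · rw [mul_smul, mul_smul, i4, zv, g4]
  -- properties of an involution of type t
  have tprop : ∀ t : G, t * t = 1 → t • u = v → t • v = u → t • w = w →
      (∀ y ∈ Y, t • y ∈ Y) ∧ (∀ z ∈ I, t * z * t⁻¹ ∈ I) ∧
      (∀ y ∈ Y, ∃ c ∈ Y, t • c = c ∧ ∃ ζ ∈ I, ζ • c = c ∧ ζ • y = t • y) ∧ (Y.filter (fun y => t • y = y)).card ≤ 3 := by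
    intro t ht tu tv tw
    have hti : t⁻¹ = t := inv_eq_of_mul_eq_one_right ht
    have p1 : ∀ y ∈ Y, t • y ∈ Y := by
      intro y hy
      rw [hY] at hy ⊢
      refine ⟨fun e => hy.2.1 ?_, fun e => hy.1 ?_, fun e => hy.2.2 ?_⟩
      · exact (smul_left_cancel_iff t).1 (e.trans tv.symm)
      · exact (smul_left_cancel_iff t).1 (e.trans tu.symm)
      · exact (smul_left_cancel_iff t).1 (e.trans tw.symm)
    have p2 : ∀ z ∈ I, t * z * t⁻¹ ∈ I := by
      intro z hzI
      rw [hI] at hzI ⊢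
      refine ⟨?_, ?_, ?_, ?_, ?_⟩
      · calc t * z * t⁻¹ * (t * z * t⁻¹) = t * (z * z) * t⁻¹ := by group
          _ = 1 := by rw [hzI.1]; group
      · intro e
        apply hzI.2.1
        have : z = t⁻¹ * (t * z * t⁻¹) * t := by group
        rw [this, e]; group
      · rw [mul_smul, mul_smul, hti, tu, hzI.2.2.2.1, tv]
      · rw [mul_smul, mul_smul, hti, tv, hzI.2.2.1, tu]
      · rw [mul_smul, mul_smul, hti, tw, hzI.2.2.2.2, tw]
    refine ⟨p1, p2, ?_, ?_⟩
    · intro y hy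
      by_cases hty : t • y = y
      · obtain ⟨ζ, hζ, hζy⟩ := hswap y hy y hy
        exact ⟨y, hy, hty, ζ, hζ, hζy, by rw [hζy, hty]⟩
      · obtain ⟨ζ, hζ, hζy⟩ := hswap y hy (t • y) (p1 y hy)
        have h1 := p2 ζ hζ
        have hζ2 := ((hI ζ).1 hζ).1
        have e1 : ζ • t • y = y := by rw [← hζy, invol_smul hζ2]
        have e2 : (t * ζ * t⁻¹) • y = t • y := by rw [hti, mul_smul, mul_smul, e1]
        have e3 : t * ζ * t⁻¹ = ζ := by
          apply hinj _ h1 ζ hζ y hy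
          · rw [e2]; exact hty
          · rw [e2, hζy]
        obtain ⟨c, hc, hζc⟩ := hfix2 ζ hζ
        refine ⟨c, hc, ?_, ζ, hζ, hζc, hζy⟩
        apply hfix1 ζ hζ _ (p1 c hc) c hc _ hζc
        have e4 : ζ * t = t * ζ := by
          rw [mul_inv_eq_iff_eq_mul] at e3
          exact e3.symm
        rw [← mul_smul, e4, mul_smul, hζc]
    · by_contra hcon
      have ht1 : t ≠ 1 := by rintro rfl; rw [one_smul] at tu; exact huv tu
      apply ht1
      apply five t (insert w (Y.filter (fun y => t • y = y)))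
      · rw [Finset.card_insert_of_notMem]
        · omega
        · rw [Finset.mem_filter]
          rintro ⟨h1, -⟩
          exact ((hY w).1 h1).2.2 rfl
      · intro p hp
        rw [Finset.mem_insert, Finset.mem_filter] at hp
        rcases hp with rfl | hp
        · exact tw
        · exact hp.2
  obtain ⟨q1, q2, q3, q4⟩ := tprop t ht tu tv tw
  have htz : t * z₀ = z₀ * t := by
    have h1 := q2 z₀ hz₀
    have hti : t⁻¹ = t := inv_eq_of_mul_eq_one_right ht
    have h2 : (t * z₀ * t⁻¹) • o = o := by rw [hti, mul_smul, mul_smul, t4, zo, t4]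
    have h3 := huniq o hoY _ h1 z₀ hz₀ h2 zo
    rw [mul_inv_eq_iff_eq_mul] at h3
    exact h3
  have htz2 : (t * z₀) * (t * z₀) = 1 := by
    calc (t * z₀) * (t * z₀) = t * (z₀ * t) * z₀ := by group
      _ = (t * t) * (z₀ * z₀) := by rw [← htz]; group
      _ = 1 := by rw [ht, hz, mul_one]
  obtain ⟨r1, r2, r3, r4⟩ := tprop (t * z₀) htz2 (by rw [mul_smul, zu, tu]) (by rw [mul_smul, zv, tv]) (by rw [mul_smul, zw, tw])
  choose! C hC1 hC2 ζ hζ1 hζ2 hζ3 using q3
  choose! D hD1 hD2 η hη1 hη2 hη3 using r3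
  have hbound : Y.card ≤ (Y.filter (fun y => t • y = y)).card * (Y.filter (fun y => (t * z₀) • y = y)).card := by
    rw [← Finset.card_product]
    apply Finset.card_le_card_of_injOn (fun y => (C y, D y))
    · intro y hy
      rw [Finset.mem_coe, Finset.mem_product, Finset.mem_filter, Finset.mem_filter]
      exact ⟨⟨hC1 y hy, hC2 y hy⟩, ⟨hD1 y hy, hD2 y hy⟩⟩
    · intro y hy y' hy' heq
      have e1 : C y = C y' := congrArg Prod.fst heq
      have e2 : D y = D y' := congrArg Prod.snd heq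
      by_contra hyy
      have e3 : ζ y = ζ y' := huniq (C y) (hC1 y hy) _ (hζ1 y hy) _ (hζ1 y' hy') (hζ2 y hy) (by rw [e1]; exact hζ2 y' hy')
      have e4 : η y = η y' := huniq (D y) (hD1 y hy) _ (hη1 y hy) _ (hη1 y' hy') (hη2 y hy) (by rw [e2]; exact hη2 y' hy')
      have a1 := (hI _).1 (hζ1 y hy)
      have a2 := (hI _).1 (hη1 y hy)
      have key : ∀ x ∈ Y, ζ y • x = t • x → η y • x = (t * z₀) • x → (η y * z₀ * ζ y) • x = x := by
        intro x hx h1 h2
        have : z₀ • t • x = η y • x := by rw [h2, htz, mul_smul]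
        rw [mul_smul, mul_smul, h1, this, invol_smul a2.1]
      have k1 := key y hy (hζ3 y hy) (hη3 y hy)
      have k2 := key y' hy' (by rw [e3]; exact hζ3 y' hy') (by rw [e4]; exact hη3 y' hy')
      have k3 : η y * z₀ * ζ y = 1 := by
        apply five' _ _ _ _ y y' hy hy' hyy k1 k2
        · rw [mul_smul, mul_smul, a1.2.2.1, zu, a2.2.2.1]
        · rw [mul_smul, mul_smul, a1.2.2.2.1, zv, a2.2.2.2.1]
        · rw [mul_smul, mul_smul, a1.2.2.2.2, zw, a2.2.2.2.2]
      have k4 : η y * z₀ = ζ y := by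
        have : (ζ y)⁻¹ = ζ y := inv_eq_of_mul_eq_one_right a1.1
        rw [← this]
        exact eq_inv_of_mul_eq_one_left k3
      have k5 : z₀ • C y = η y • C y := by
        have h1 : (η y * z₀) • C y = C y := by rw [k4]; exact hζ2 y hy
        rw [mul_smul] at h1
        rw [← invol_smul a2.1 (z₀ • C y), h1]
      have k6 : z₀ = η y := by
        by_cases hzc : z₀ • C y = C y
        · exact huniq (C y) (hC1 y hy) _ hz₀ _ (hη1 y hy) hzc (by rw [← k5]; exact hzc)
        · exact hinj z₀ hz₀ _ (hη1 y hy) (C y) (hC1 y hy) hzc k5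
      apply a1.2.1
      rw [← k4, ← k6, hz]
  have h9 : Y.card ≤ 9 := hbound.trans (Nat.mul_le_mul q4 r4)
  refine ⟨by omega, ?_⟩
  have : Odd Y.card := by
    rw [← Nat.not_even_iff_odd, ← ZMod.natCast_eq_zero_iff_even, hodd]
    decide
  rw [hYc]
  exact this.add_odd (by decide)

end Cfsg.Agent.H10
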