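import Mathlib
import Cfsg.Agent.H10.MT5
import Cfsg.Agent.H10.Perm15

set_option autoImplicit false
set_option linter.all false
set_option maxHeartbeats 1000000

/-!
# H10.MT6: Sylow counting; structure of 4-transitive groups in which only the identity fixes 5 points
-/

namespace Cfsg.Agent.H10

open MulAction
open scoped Pointwise

section
variable {α : Type*} [Fintype α] [DecidableEq α]

theorem no_p3 (G : Subgroup (Equiv.Perm α)) (h4 : IsMultiplyPretransitive G α 4) {p : ℕ} (hp : p.Prime) (hp5 : 5 ≤ p)
    (hcard : Fintype.card α = p + 3)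
    (hfix : ∀ g ∈ G, ∀ s : Finset α, 5 ≤ s.card → (∀ x ∈ s, g x = x) → g = 1) : False := by
  have h2 : IsMultiplyPretransitive G α 2 := isMultiplyPretransitive_of_le' (n := 4) (by norm_num) (by
    rw [ENat.card_eq_coe_fintype_card, hcard]; norm_cast; omega)
  have hprim : IsPreprimitive G α := isPreprimitive_of_is_two_pretransitive h2
  have hd := desc_dvd h4 (by rw [Nat.card_eq_fintype_card, hcard]; omega)
  rw [Nat.card_eq_fintype_card, hcard] at hd
  have h7 : p ∣ Nat.card G := by
    refine Dvd.dvd.trans ?_ hd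
    rw [Nat.descFactorial_succ, show p + 3 - 3 = p by omega]
    exact Dvd.intro _ rfl
  obtain ⟨g, hg, hg1, s, hs, hsf⟩ := alt_four (alt_of_prime_dvd G hprim hp (by rw [hcard]) (by rw [hcard]; omega) h7) (by rw [hcard]; omega)
  exact hg1 (hfix g hg s hs hsf)

end

/-- Sylow counting when the centralizer of an element of order `p` is as small as possible -/
theorem sylow_count {G : Type*} [Group G] [Finite G] {p m : ℕ} (hp : p.Prime) (hcard : Nat.card G = p * m) (hpm : ¬ p ∣ m)
    (hC : ∀ g c : G, orderOf g = p → c * g = g * c → c ∈ Subgroup.zpowers g) :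
    ∃ d k : ℕ, d ∣ p - 1 ∧ m = d * (1 + k * p) := by
  haveI : Fact p.Prime := ⟨hp⟩
  obtain ⟨P⟩ : Nonempty (Sylow p G) := inferInstance
  have hP : Nat.card P = p := by
    rw [Sylow.card_eq_multiplicity, hcard, Nat.factorization_mul hp.ne_zero (by rintro rfl; exact hpm (dvd_zero p))]
    rw [Finsupp.add_apply, hp.factorization_self, Nat.factorization_eq_zero_of_not_dvd hpm, add_zero, pow_one]
  have hcyc : IsCyclic P := isCyclic_of_prime_card hP
  obtain ⟨g₀, hg₀⟩ := hcyc.exists_generator
  have hg₀o : orderOf (g₀ : G) = p := by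
    rw [Subgroup.orderOf_coe, orderOf_eq_card_of_forall_mem_zpowers hg₀]
    exact hP
  have hPz : (P : Subgroup G) = Subgroup.zpowers (g₀ : G) := by
    symm
    apply Subgroup.eq_of_le_of_card_ge
    · rw [Subgroup.zpowers_le]; exact g₀.2
    · rw [Nat.card_zpowers, hg₀o]; exact hP.le
  have hcent : Subgroup.centralizer ((P : Subgroup G) : Set G) ≤ P := by
    intro c hc
    rw [hPz]
    apply hC _ _ hg₀o
    exact ((Subgroup.mem_centralizer_iff.1 hc) _ g₀.2).symm
  -- the index of P in its normalizer divides p - 1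
  have h1 : ((P : Subgroup G).subgroupOf (Subgroup.normalizer ((P : Subgroup G) : Set G))).index ∣ p - 1 := by
    have hk : (Subgroup.normalizerMonoidHom (P : Subgroup G)).ker ≤ (P : Subgroup G).subgroupOf (Subgroup.normalizer ((P : Subgroup G) : Set G)) := by
      rw [Subgroup.normalizerMonoidHom_ker]
      intro x hx
      exact hcent hx
    have h2 := Subgroup.index_dvd_of_le hk
    refine h2.trans ?_
    rw [Subgroup.index_ker]
    refine (Subgroup.card_subgroup_dvd_card _).trans ?_
    haveI : IsCyclic (P : Subgroup G) := hcyc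
    rw [IsCyclic.card_mulAut]
    have : Nat.card (P : Subgroup G) = p := hP
    rw [this, Nat.totient_prime hp]
  have h2 := card_sylow_modEq_one p G
  rw [Sylow.card_eq_index_normalizer P] at h2
  obtain ⟨k, hk⟩ : ∃ k, (Subgroup.normalizer ((P : Subgroup G) : Set G)).index = 1 + k * p := by
    have hpos : 1 ≤ (Subgroup.normalizer ((P : Subgroup G) : Set G)).index := Nat.one_le_iff_ne_zero.2 Subgroup.index_ne_zero_of_finite
    obtain ⟨k, hk⟩ := (Nat.modEq_iff_dvd' hpos).1 h2.symm
    exact ⟨k, by rw [mul_comm k p, ← hk]; omega⟩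
  refine ⟨_, k, h1, ?_⟩
  rw [← hk]
  have h3 := (Subgroup.normalizer ((P : Subgroup G) : Set G)).card_mul_index
  have h4 := ((P : Subgroup G).subgroupOf (Subgroup.normalizer ((P : Subgroup G) : Set G))).card_mul_index
  rw [Nat.card_congr (Subgroup.subgroupOfEquivOfLe Subgroup.le_normalizer).toEquiv] at h4
  have h5 : Nat.card (P : Subgroup G) = p := hP
  rw [h5] at h4
  apply Nat.eq_of_mul_eq_mul_left hp.pos
  rw [← hcard, ← h3, ← h4]
  ring

/-- an element of order `p` acting as a `p`-cycle and its centralizer -/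
theorem cent_cycle {G : Type*} [Group G] {X : Type*} [MulAction G X] [Fintype X] [DecidableEq X] {p : ℕ} (hp : p.Prime)
    (hn : Fintype.card X < 2 * p) (hfix : ∀ g : G, ∀ s : Finset X, p ≤ s.card → (∀ x ∈ s, g • x = x) → g = 1)
    (g c : G) (hg : orderOf g = p) (hc : c * g = g * c) {q : X} (hq : g • q ≠ q) : c ∈ Subgroup.zpowers g := by
  have hgp : g ^ p = 1 := by rw [← hg, pow_orderOf_eq_one]
  have hinj : ∀ x : X, g • x ≠ x → ∀ i j : ℕ, i ≤ j → j < p → g ^ i • x = g ^ j • x → i = j := by
    intro x hx i j hij hj heq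
    have h1 : g ^ (j - i) • x = x := by
      have : g ^ j • x = g ^ i • g ^ (j - i) • x := by rw [← mul_smul, ← pow_add]; congr 2; omega
      rw [this] at heq
      exact ((smul_left_cancel_iff _).1 heq).symm
    have h2 : g ^ p • x = x := by rw [hgp, one_smul]
    rw [pow_smul_eq_iff_minimalPeriod_dvd] at h1 h2
    rcases (Nat.dvd_prime hp).1 h2 with h3 | h3
    · exfalso
      apply hx
      have := (pow_smul_eq_iff_minimalPeriod_dvd (a := g) (b := x) (n := 1)).2 (by rw [h3])
      rwa [pow_one] at this
    · rw [h3] at h1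
      have := Nat.eq_zero_of_dvd_of_lt h1 (by omega)
      omega
  have hcardO : ∀ x : X, g • x ≠ x → ((Finset.range p).image (fun i => g ^ i • x)).card = p := by
    intro x hx
    rw [Finset.card_image_of_injOn, Finset.card_range]
    intro i hi j hj hij
    rw [Finset.coe_range, Set.mem_Iio] at hi hj
    rcases le_total i j with h | h
    · exact hinj x hx i j h hj hij
    · exact (hinj x hx j i h hi hij.symm).symm
  have hcg : ∀ i : ℕ, c * g ^ i = g ^ i * c := fun i => ((show Commute c g from hc).pow_right i).eq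
  have hcq : g • c • q ≠ c • q := by
    intro e
    apply hq
    rw [← mul_smul, ← hc, mul_smul] at e
    exact (smul_left_cancel_iff c).1 e
  -- the two orbits meet
  have hmeet : ∃ i j : ℕ, g ^ i • q = g ^ j • c • q := by
    by_contra hcon
    push Not at hcon
    have h1 : Disjoint ((Finset.range p).image (fun i => g ^ i • q)) ((Finset.range p).image (fun i => g ^ i • c • q)) := by
      rw [Finset.disjoint_left]
      intro x hx hx'
      rw [Finset.mem_image] at hx hx'
      obtain ⟨i, -, rfl⟩ := hx
      obtain ⟨j, -, hj⟩ := hx'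
      exact hcon i j hj.symm
    have h2 := Finset.card_le_univ (((Finset.range p).image (fun i => g ^ i • q)) ∪ ((Finset.range p).image (fun i => g ^ i • c • q)))
    rw [Finset.card_union_of_disjoint h1, hcardO q hq, hcardO _ hcq] at h2
    omega
  obtain ⟨i, j, hij⟩ := hmeet
  have h3 : (g ^ i)⁻¹ * g ^ j * c = 1 := by
    apply hfix _ ((Finset.range p).image (fun i => g ^ i • q)) (by rw [hcardO q hq])
    intro x hx
    rw [Finset.mem_image] at hx
    obtain ⟨l, -, rfl⟩ := hx
    have e1 : (g ^ i)⁻¹ * g ^ j * c * g ^ l = g ^ l * ((g ^ i)⁻¹ * g ^ j * c) := by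
      have c1 : Commute g (g ^ i) := (Commute.refl g).pow_right i
      have c2 : Commute (g ^ l) ((g ^ i)⁻¹ * g ^ j * c) := by
        apply Commute.pow_left
        exact ((c1.inv_right.mul_right ((Commute.refl g).pow_right j)).mul_right (show Commute g c from hc.symm))
      exact c2.eq.symm
    rw [← mul_smul, e1, mul_smul]
    congr 1
    rw [mul_smul, mul_smul, ← hij, inv_smul_smul]
  have h4 : c = ((g ^ i)⁻¹ * g ^ j)⁻¹ := (inv_eq_of_mul_eq_one_right h3).symm
  rw [h4]
  exact Subgroup.inv_mem _ (Subgroup.mul_mem _ (Subgroup.inv_mem _ (Subgroup.pow_mem _ (Subgroup.mem_zpowers g) i)) (Subgroup.pow_mem _ (Subgroup.mem_zpowers g) j))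

/-- semiregularity on the complement -/
theorem semireg_dvd {G : Type*} [Group G] {X : Type*} [MulAction G X] [Fintype X] [Finite G] {k : ℕ} (hk : 1 ≤ k)
    (hfix : ∀ g : G, ∀ s : Finset X, k + 1 ≤ s.card → (∀ x ∈ s, g • x = x) → g = 1)
    (h : IsMultiplyPretransitive G X k) (s : Finset X) (hs : s.card = k) :
    Nat.card (fixingSubgroup G (s : Set X)) ∣ Fintype.card X - k ∧
      (Nat.card (fixingSubgroup G (s : Set X)) = Fintype.card X - k → k < Fintype.card X → IsMultiplyPretransitive G X (k + 1)) := by
  classical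
  have hfree : ∀ y : SubMulAction.ofFixingSubgroup G (s : Set X), stabilizer (fixingSubgroup G (s : Set X)) y = ⊥ := by
    intro y
    rw [eq_bot_iff]
    rintro ⟨g, hg⟩ hgy
    rw [mem_stabilizer_iff] at hgy
    rw [Subgroup.mem_bot]
    apply Subtype.ext
    show g = 1
    have hys : (y : X) ∉ s := fun hy => (SubMulAction.mem_ofFixingSubgroup_iff G).1 y.2 hy
    apply hfix g (insert (y : X) s)
    · rw [Finset.card_insert_of_notMem hys, hs]
    · intro x hx
      rw [Finset.mem_insert] at hx
      rcases hx with rfl | hx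
      · exact congrArg Subtype.val hgy
      · exact (mem_fixingSubgroup_iff G).1 hg x hx
  have hcardY : Nat.card (SubMulAction.ofFixingSubgroup G (s : Set X)) = Fintype.card X - k := by
    have h1 : (SubMulAction.ofFixingSubgroup G (s : Set X) : Set X) = ((sᶜ : Finset X) : Set X) := by
      ext x
      simp only [Finset.coe_compl, Set.mem_compl_iff, Finset.mem_coe]
      exact SubMulAction.mem_ofFixingSubgroup_iff G
    rw [show Nat.card (SubMulAction.ofFixingSubgroup G (s : Set X)) = (SubMulAction.ofFixingSubgroup G (s : Set X) : Set X).ncard from rfl,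
      h1, Set.ncard_coe_finset, Finset.card_compl, hs]
  have e := selfEquivOrbitsQuotientProd hfree
  have h2 := Nat.card_congr e
  rw [Nat.card_prod, hcardY] at h2
  refine ⟨Dvd.intro_left _ h2.symm, ?_⟩
  intro hL hkn
  apply combine_trans (s : Set X) (by rw [Set.ncard_coe_finset, hs]) h
  rw [is_one_pretransitive_iff]
  rw [hL] at h2
  have h3 : Nat.card (Quotient (orbitRel (fixingSubgroup G (s : Set X)) (SubMulAction.ofFixingSubgroup G (s : Set X)))) = 1 := by
    apply Nat.eq_of_mul_eq_mul_right (show 0 < Fintype.card X - k by omega)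
    rw [← h2, one_mul]
  rw [Nat.card_eq_one_iff_unique] at h3
  obtain ⟨h3, -⟩ := h3
  rw [pretransitive_iff_subsingleton_quotient]
  exact h3

end Cfsg.Agent.H10
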