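import Mathlib
import Cfsg.Agent.H10.MT6

set_option autoImplicit false
set_option linter.all false
set_option maxHeartbeats 1000000

/-!
# H10.MT7: 4-transitive groups in which only the identity fixes 5 points
-/

namespace Cfsg.Agent.H10

open MulAction
open scoped Pointwise

theorem q4 {G : Type*} [Group G] {X : Type*} [MulAction G X] [Fintype X] [Finite G]
    (h4 : IsMultiplyPretransitive G X 4)
    (five : ∀ g : G, ∀ s : Finset X, 5 ≤ s.card → (∀ p ∈ s, g • p = p) → g = 1) (hn : 8 ≤ Fintype.card X) :
    IsMultiplyPretransitive G X 5 ∨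
    (Fintype.card X = 11 ∧ (∀ g : G, ∀ s : Finset X, 4 ≤ s.card → (∀ p ∈ s, g • p = p) → g = 1) ∧
      (∀ t : G, t * t = 1 → t ≠ 1 → (fixedBy X t).ncard = 3) ∧
      ∃ (x y : G) (p e : X), x * x = 1 ∧ y * y = 1 ∧ x * y = y * x ∧ x • p ≠ p ∧ y • p ≠ p ∧ x • y • p ≠ p ∧
        x • e = e ∧ y • e = e ∧ ∀ r : X, x • r = r → y • r = r → r = e) := by
  classical
  have tr := tr4_of h4
  have hrfive : ∀ g ∈ (MulAction.toPermHom G X).range, ∀ s : Finset X, 5 ≤ s.card → (∀ x ∈ s, g x = x) → g = 1 := by
    rintro _ ⟨g, rfl⟩ s hs hsf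
    rw [five g s hs hsf, map_one]
  by_cases hL : ∃ (s : Finset X) (z : G), s.card = 4 ∧ z * z = 1 ∧ z ≠ 1 ∧ ∀ p ∈ s, z • p = p
  · left
    obtain ⟨s, z, hs, hz, hz1, hzs⟩ := hL
    obtain ⟨a, s1, ha, rfl, hs1⟩ := Finset.card_eq_succ.1 hs
    obtain ⟨b, c, d, hbc, hbd, hcd, rfl⟩ := Finset.card_eq_three.1 hs1
    simp only [Finset.mem_insert, Finset.mem_singleton, not_or] at ha
    have hzf : z ∈ fixingSubgroup G ((insert a {b, c, d} : Finset X) : Set X) := by
      rw [mem_fixingSubgroup_iff]
      intro y hy
      exact hzs y hy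
    have hev : 2 ∣ Nat.card (fixingSubgroup G ((insert a {b, c, d} : Finset X) : Set X)) := by
      have h1 : orderOf (⟨z, hzf⟩ : fixingSubgroup G ((insert a {b, c, d} : Finset X) : Set X)) = 2 := by
        rw [Subgroup.orderOf_mk]
        exact orderOf_eq_prime (by rw [pow_two, hz]) hz1
      rw [← h1]
      exact orderOf_dvd_natCard _
    obtain ⟨hle, hevn⟩ := even_bound tr five hz hz1 (u := a) (v := b) (w := c) (o := d) ha.1 ha.2.1 ha.2.2 hbc hbd hcd
      (hzs a (by simp)) (hzs b (by simp)) (hzs c (by simp)) (hzs d (by simp)) (by omega)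
    obtain ⟨hd, hfull⟩ := semireg_dvd (by norm_num) five h4 (insert a {b, c, d}) hs
    have hcases : Fintype.card X = 5 + 3 ∨ Fintype.card X = 7 + 3 ∨ Fintype.card X = 12 := by
      obtain ⟨m, hm⟩ := hevn
      omega
    rcases hcases with h8 | h10 | h12
    · exact (no_p3 (MulAction.toPermHom G X).range (range_trans h4) (by norm_num) (by norm_num) h8 hrfive).elim
    · exact (no_p3 (MulAction.toPermHom G X).range (range_trans h4) (by norm_num) (by norm_num) h10 hrfive).elim
    · have hcardG := card_eq_desc_mul h4 (s := ((insert a {b, c, d} : Finset X) : Set X)) (by rw [Set.ncard_coe_finset, hs])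
      rw [show Nat.card X = 12 by rw [Nat.card_eq_fintype_card, h12]] at hcardG
      rw [h12] at hd hfull
      obtain ⟨r, hr⟩ : ∃ r, Nat.card (fixingSubgroup G ((insert a {b, c, d} : Finset X) : Set X)) = r := ⟨_, rfl⟩
      rw [hr] at hd hfull hcardG hev
      have hr8 : r = 2 ∨ r = 4 ∨ r = 8 := by
        have h1 : r ≤ 8 := Nat.le_of_dvd (by norm_num) hd
        interval_cases r <;> first | (exfalso; revert hd; decide) | (exfalso; revert hev; decide) | simp
      by_cases h8 : r = 8
      · exact hfull h8 (by norm_num)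
      · exfalso
        have hne : Nonempty X := ⟨a⟩
        have hCC : ∀ g c : G, orderOf g = 11 → c * g = g * c → c ∈ Subgroup.zpowers g := by
          intro g c hg hc
          have hgm : ∃ q : X, g • q ≠ q := by
            by_contra hcon
            push Not at hcon
            have := five g Finset.univ (by rw [Finset.card_univ]; omega) (fun p _ => hcon p)
            rw [this, orderOf_one] at hg
            omega
          obtain ⟨q, hq⟩ := hgm
          exact cent_cycle (by norm_num) (by rw [h12]; norm_num) (fun g s hs h => five g s (by omega) h) g c hg hc hq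
        have hd4 : Nat.descFactorial 12 4 = 11 * 1080 := by decide
        have hm : Nat.card G = 11 * (1080 * r) := by rw [hcardG, hd4]; ring
        rcases hr8 with rfl | rfl | rfl
        · obtain ⟨d, k, hdd, hmk⟩ := sylow_count (by norm_num) hm (by norm_num) hCC
          have hd10 : d ≤ 10 := Nat.le_of_dvd (by norm_num) hdd
          norm_num at hdd hmk
          interval_cases d <;> first | (revert hdd; decide) | omega
        · obtain ⟨d, k, hdd, hmk⟩ := sylow_count (by norm_num) hm (by norm_num) hCC
          have hd10 : d ≤ 10 := Nat.le_of_dvd (by norm_num) hdd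
          norm_num at hdd hmk
          interval_cases d <;> first | (revert hdd; decide) | omega
        · exact h8 rfl
  · -- odd case
    have hodd : ∀ s : Finset X, s.card = 4 → Odd (Nat.card (fixingSubgroup G (s : Set X))) := by
      intro s hs
      rw [← Nat.not_even_iff_odd, even_iff_two_dvd]
      intro h2
      haveI : Fact (Nat.Prime 2) := ⟨Nat.prime_two⟩
      obtain ⟨⟨z, hz⟩, hzo⟩ := exists_prime_orderOf_dvd_card' (G := fixingSubgroup G (s : Set X)) 2 h2
      rw [Subgroup.orderOf_mk] at hzo
      apply hL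
      refine ⟨s, z, hs, ?_, ?_, fun p hp => (mem_fixingSubgroup_iff G).1 hz p hp⟩
      · rw [← pow_two, ← hzo, pow_orderOf_eq_one]
      · rintro rfl
        rw [orderOf_one] at hzo
        omega
    have H : H4 G X := by
      refine ⟨tr, five, ?_⟩
      intro s hs
      refine ⟨_, hodd s hs, fun g hg => ?_⟩
      have hgf : g ∈ fixingSubgroup G (s : Set X) := (mem_fixingSubgroup_iff G).2 (fun y hy => hg y hy)
      have := pow_card_eq_one' (x := (⟨g, hgf⟩ : fixingSubgroup G (s : Set X)))
      exact congrArg Subtype.val this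
    obtain ⟨S, hS, hc⟩ := H.hall_odd ⟨Finset.univ, by rw [Finset.card_univ]; exact hn⟩
    have hSu : S = Finset.univ := Finset.eq_univ_of_forall hS
    rw [hSu, Finset.card_univ] at hc
    rcases hc with ⟨h10, -⟩ | ⟨h11, h3, hU⟩
    · exact (no_p3 (MulAction.toPermHom G X).range (range_trans h4) (p := 7) (by norm_num) (by norm_num) h10 hrfive).elim
    · obtain ⟨s, -, hs⟩ := Finset.exists_subset_card_eq (s := (Finset.univ : Finset X)) (n := 4) (by rw [Finset.card_univ]; omega)
      obtain ⟨hd, hfull⟩ := semireg_dvd (by norm_num) five h4 s hs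
      rw [h11] at hd hfull
      rcases (Nat.dvd_prime (by norm_num : Nat.Prime 7)).1 hd with h1 | h7
      · right
        refine ⟨h11, ?_, h3, hU⟩
        intro g t ht htf
        obtain ⟨u, hut, hu⟩ := Finset.exists_subset_card_eq ht
        have h5 : Nat.card (fixingSubgroup G (u : Set X)) = 1 := by rw [← h1]; exact card_fixing_eq h4 hu hs
        have hgf : g ∈ fixingSubgroup G (u : Set X) := (mem_fixingSubgroup_iff G).2 (fun y hy => htf y (hut hy))
        rw [Subgroup.card_eq_one.1 h5, Subgroup.mem_bot] at hgf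
        exact hgf
      · left
        exact hfull h7 (by norm_num)

end Cfsg.Agent.H10
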