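import Mathlib
import Cfsg.Agent.H10.MT7
import Cfsg.Agent.H1.Coprime2

set_option autoImplicit false
set_option linter.all false
set_option maxHeartbeats 400000

/-!
# H10.MT8: normalizers of p-subgroups act multiply transitively on fixed points (Witt, Gleason)
-/

namespace Cfsg.Agent.H10

open MulAction
open scoped Pointwise

universe u v

section
variable {G : Type u} [Group G] {X : Type v} [MulAction G X]

/-- the normalizer acts on the fixed points -/
def fixSub (Q : Subgroup G) : SubMulAction (Subgroup.normalizer (Q : Set G)) X where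
  carrier := fixedPoints Q X
  smul_mem' := by
    rintro ⟨n, hn⟩ x hx ⟨q, hq⟩
    show q • n • x = n • x
    have h1 : n⁻¹ * q * n ∈ Q := by
      have := (Subgroup.mem_normalizer_iff.1 (Subgroup.inv_mem _ hn) q).1 hq
      rwa [inv_inv] at this
    have h2 : (n⁻¹ * q * n) • x = x := hx ⟨_, h1⟩
    rw [← mul_smul, show q * n = n * (n⁻¹ * q * n) by group, mul_smul, h2]

theorem mem_fixSub {Q : Subgroup G} {x : X} : x ∈ fixSub (X := X) Q ↔ ∀ q ∈ Q, q • x = x :=
  ⟨fun h q hq => h ⟨q, hq⟩, fun h q => h q q.2⟩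

theorem fix_reduction [Finite G] [Finite X] [FaithfulSMul G X] {k : ℕ} (hk : 1 ≤ k)
    (h : IsMultiplyPretransitive G X k) {g : G} (hg : g ≠ 1) {s : Finset X} (hs : k + 1 ≤ s.card)
    (hgs : ∀ x ∈ s, g • x = x) :
    ∃ Q : Subgroup G, Q ≠ ⊥ ∧ k + 1 ≤ (fixedPoints Q X).ncard ∧
      IsMultiplyPretransitive (Subgroup.normalizer (Q : Set G)) (fixSub (X := X) Q) k := by
  classical
  -- an element of prime order
  obtain ⟨p, hp, hpd⟩ := Nat.exists_prime_and_dvd (n := orderOf g) (by rwa [Ne, orderOf_eq_one_iff])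
  haveI : Fact p.Prime := ⟨hp⟩
  have hg' : orderOf (g ^ (orderOf g / p)) = p := orderOf_pow_orderOf_div (orderOf_pos g).ne' hpd
  -- the family of subgroups
  have hex : (Subgroup.zpowers (g ^ (orderOf g / p))) ∈ {Q : Subgroup G | IsPGroup p Q ∧ k + 1 ≤ (fixedPoints Q X).ncard} := by
    refine ⟨IsPGroup.of_card (n := 1) (by rw [Nat.card_zpowers, hg', pow_one]), ?_⟩
    refine hs.trans ?_
    rw [← Set.ncard_coe_finset]
    apply Set.ncard_le_ncard _ (Set.toFinite _)
    rintro x hx ⟨q, hq⟩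
    exact fix_of_mem_zpowers hq (pow_smul_fix (hgs x hx) _)
  obtain ⟨Q, ⟨hQp, hQf⟩, hQmax⟩ := Set.Finite.exists_maximalFor (fun Q : Subgroup G => Nat.card Q)
    {Q : Subgroup G | IsPGroup p Q ∧ k + 1 ≤ (fixedPoints Q X).ncard} (Set.toFinite _) ⟨_, hex⟩
  have hQ1 : Q ≠ ⊥ := by
    rintro rfl
    have h1 := hQmax hex (by
      show Nat.card (⊥ : Subgroup G) ≤ Nat.card (Subgroup.zpowers (g ^ (orderOf g / p)))
      rw [Subgroup.card_bot]
      exact Nat.card_pos)
    simp only [Nat.card_zpowers, hg', Subgroup.card_bot] at h1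
    have := hp.two_le
    omega
  refine ⟨Q, hQ1, hQf, ?_⟩
  have hQmax' : ∀ R : Subgroup G, IsPGroup p R → k + 1 ≤ (fixedPoints R X).ncard → Nat.card R ≤ Nat.card Q := by
    intro R hR hRf
    by_contra hcon
    push Not at hcon
    have := hQmax (show R ∈ {Q : Subgroup G | IsPGroup p Q ∧ k + 1 ≤ (fixedPoints Q X).ncard} from ⟨hR, hRf⟩) hcon.le
    exact absurd this (not_le.2 hcon)
  -- Q inside pointwise stabilisers
  have hQfix : ∀ t : Finset X, (∀ x ∈ t, x ∈ fixedPoints Q X) → Q ≤ fixingSubgroup G (t : Set X) := by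
    intro t ht q hq
    rw [mem_fixingSubgroup_iff]
    intro y hy
    exact ht y hy ⟨q, hq⟩
  by_cases hcase : ∃ t : Finset X, t.card = k ∧ (∀ x ∈ t, x ∈ fixedPoints Q X) ∧
      Nat.card Q = p ^ (Nat.card (fixingSubgroup G (t : Set X))).factorization p
  · -- Witt
    obtain ⟨t₀, ht₀, -, hcardQ⟩ := hcase
    refine ⟨fun x y => ?_⟩
    let ι : fixSub (X := X) Q ↪ X := ⟨Subtype.val, Subtype.val_injective⟩
    obtain ⟨g, hg⟩ := h.exists_smul_eq (x.trans ι) (y.trans ι)
    have hg' : ∀ i, g • ((x i : fixSub (X := X) Q) : X) = (y i : fixSub (X := X) Q) := fun i => DFunLike.congr_fun hg i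
    obtain ⟨t, ht⟩ : ∃ t : Finset X, t = Finset.univ.map (y.trans ι) := ⟨_, rfl⟩
    have htc : t.card = k := by rw [ht, Finset.card_map, Finset.card_univ, Fintype.card_fin]
    have htm : ∀ z, z ∈ t ↔ ∃ i, ((y i : fixSub (X := X) Q) : X) = z := by
      intro z
      rw [ht, Finset.mem_map]
      exact ⟨fun ⟨i, _, hi⟩ => ⟨i, hi⟩, fun ⟨i, hi⟩ => ⟨i, Finset.mem_univ _, hi⟩⟩
    have hQ2 : Q ≤ fixingSubgroup G (t : Set X) := by
      apply hQfix
      intro z hz
      obtain ⟨i, rfl⟩ := (htm z).1 hz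
      exact (y i).2
    have hQ3 : Q.map (MulAut.conj g).toMonoidHom ≤ fixingSubgroup G (t : Set X) := by
      rintro _ ⟨q, hq, rfl⟩
      rw [mem_fixingSubgroup_iff]
      intro z hz
      obtain ⟨i, rfl⟩ := (htm z).1 hz
      show (g * q * g⁻¹) • ((y i : fixSub (X := X) Q) : X) = _
      rw [← hg' i, mul_smul, mul_smul, inv_smul_smul, mem_fixSub.1 (x i).2 q hq]
    have hcardL : Nat.card (fixingSubgroup G (t : Set X)) = Nat.card (fixingSubgroup G (t₀ : Set X)) := card_fixing_eq h htc ht₀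
    have c1 : Nat.card (Q.subgroupOf (fixingSubgroup G (t : Set X))) = p ^ (Nat.card (fixingSubgroup G (t : Set X))).factorization p := by
      rw [Nat.card_congr (Subgroup.subgroupOfEquivOfLe hQ2).toEquiv, hcardL, hcardQ]
    have c2 : Nat.card ((Q.map (MulAut.conj g).toMonoidHom).subgroupOf (fixingSubgroup G (t : Set X))) = p ^ (Nat.card (fixingSubgroup G (t : Set X))).factorization p := by
      rw [Nat.card_congr (Subgroup.subgroupOfEquivOfLe hQ3).toEquiv, hcardL, ← hcardQ]
      exact (Nat.card_congr (Q.equivMapOfInjective _ (MulAut.conj g).injective).toEquiv).symm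
    obtain ⟨⟨l, hl⟩, hlP⟩ := MulAction.exists_smul_eq (fixingSubgroup G (t : Set X)) (Sylow.ofCard _ c2) (Sylow.ofCard _ c1)
    have hln : l * g ∈ Subgroup.normalizer (Q : Set G) := by
      have h1 : Q.map (MulAut.conj (l * g)).toMonoidHom ≤ Q := by
        rintro _ ⟨q, hq, rfl⟩
        show l * g * q * (l * g)⁻¹ ∈ Q
        have e1 : (⟨g * q * g⁻¹, hQ3 ⟨q, hq, rfl⟩⟩ : fixingSubgroup G (t : Set X)) ∈ (Sylow.ofCard _ c2 : Subgroup (fixingSubgroup G (t : Set X))) :=
          (⟨q, hq, rfl⟩ : g * q * g⁻¹ ∈ Q.map (MulAut.conj g).toMonoidHom)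
        have e2 : (⟨l, hl⟩ : fixingSubgroup G (t : Set X)) * ⟨g * q * g⁻¹, hQ3 ⟨q, hq, rfl⟩⟩ * (⟨l, hl⟩ : fixingSubgroup G (t : Set X))⁻¹ ∈
            (((⟨l, hl⟩ : fixingSubgroup G (t : Set X)) • Sylow.ofCard _ c2 : Sylow p _) : Subgroup (fixingSubgroup G (t : Set X))) := by
          rw [Sylow.smul_def]
          exact ⟨_, e1, rfl⟩
        rw [hlP] at e2
        have e3 : l * (g * q * g⁻¹) * l⁻¹ ∈ Q := e2
        have e4 : l * g * q * (l * g)⁻¹ = l * (g * q * g⁻¹) * l⁻¹ := by group
        rw [e4]; exact e3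
      rw [Subgroup.mem_normalizer_iff_map_conj_eq]
      apply Subgroup.eq_of_le_of_card_ge h1
      rw [← Nat.card_congr (Q.equivMapOfInjective (MulAut.conj (l * g)).toMonoidHom (MulAut.conj (l * g)).injective).toEquiv]
    refine ⟨⟨l * g, hln⟩, ?_⟩
    ext i
    show (l * g) • ((x i : fixSub (X := X) Q) : X) = _
    rw [mul_smul, hg' i]
    exact (mem_fixingSubgroup_iff G).1 hl _ ((htm _).2 ⟨i, rfl⟩)
  · push Not at hcase
    apply gleason (p := p) k hk
    · show k < (fixSub (X := X) Q : Set X).ncard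
      exact hQf
    · intro t ht
      obtain ⟨t', ht'⟩ : ∃ t' : Finset X, t' = t.map ⟨Subtype.val, Subtype.val_injective⟩ := ⟨_, rfl⟩
      have htc : t'.card = k := by rw [ht', Finset.card_map, ht]
      have htm : ∀ z, z ∈ t' ↔ ∃ y ∈ t, (y : X) = z := by
        intro z
        rw [ht', Finset.mem_map]
        rfl
      have htf : ∀ x ∈ t', x ∈ fixedPoints Q X := by
        intro z hz
        obtain ⟨y, -, rfl⟩ := (htm z).1 hz
        exact y.2
      have hQL := hQfix t' htf
      have hQS : IsPGroup p (Q.subgroupOf (fixingSubgroup G (t' : Set X))) := hQp.comap_subtype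
      obtain ⟨P, hP⟩ := hQS.exists_le_sylow
      have hP'p : IsPGroup p ((P : Subgroup (fixingSubgroup G (t' : Set X))).map (fixingSubgroup G (t' : Set X)).subtype) := P.isPGroup'.map _
      have hQP' : Q ≤ (P : Subgroup (fixingSubgroup G (t' : Set X))).map (fixingSubgroup G (t' : Set X)).subtype := by
        intro q hq
        exact ⟨⟨q, hQL hq⟩, hP hq, rfl⟩
      have hne : Q ≠ (P : Subgroup (fixingSubgroup G (t' : Set X))).map (fixingSubgroup G (t' : Set X)).subtype := by
        intro e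
        apply hcase t' htc htf
        have : Nat.card Q = Nat.card ((P : Subgroup (fixingSubgroup G (t' : Set X))).map (fixingSubgroup G (t' : Set X)).subtype) := by rw [← e]
        rw [this, Nat.card_congr ((P : Subgroup (fixingSubgroup G (t' : Set X))).equivMapOfInjective _ (Subgroup.subtype_injective _)).toEquiv.symm]
        exact P.card_eq_multiplicity
      have hlt := H1.lt_normalizer_inf_of_nilpotent (hP'p.isNilpotent) (lt_of_le_of_ne hQP' hne)
      obtain ⟨R, hR⟩ : ∃ R : Subgroup G, R = Subgroup.normalizer (Q : Set G) ⊓ (P : Subgroup (fixingSubgroup G (t' : Set X))).map (fixingSubgroup G (t' : Set X)).subtype := ⟨_, rfl⟩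
      rw [← hR] at hlt
      have hRp : IsPGroup p R := hP'p.to_le (by rw [hR]; exact inf_le_right)
      have hRc : Nat.card Q < Nat.card R := by
        by_contra hcon
        exact hlt.ne (Subgroup.eq_of_le_of_card_ge hlt.le (not_lt.1 hcon))
      have hRL : R ≤ fixingSubgroup G (t' : Set X) := by
        rw [hR]
        exact inf_le_right.trans (Subgroup.map_subtype_le _)
      have hRN : R ≤ Subgroup.normalizer (Q : Set G) := by rw [hR]; exact inf_le_left
      have hRf : fixedPoints R X = (t' : Set X) := by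
        symm
        apply Set.eq_of_subset_of_ncard_le _ _ (Set.toFinite _)
        · rintro x hx ⟨r, hr⟩
          exact (mem_fixingSubgroup_iff G).1 (hRL hr) x hx
        · rw [Set.ncard_coe_finset, htc]
          by_contra hcon
          have := hQmax' R hRp (by omega)
          omega
      refine ⟨R.subgroupOf (Subgroup.normalizer (Q : Set G)), hRp.comap_subtype, ?_⟩
      ext x
      have h1 : x ∈ (t : Set _) ↔ (x : X) ∈ fixedPoints R X := by
        rw [hRf]
        constructor
        · intro hx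
          exact (htm _).2 ⟨x, hx, rfl⟩
        · intro hx
          obtain ⟨y, hy, hyx⟩ := (htm _).1 hx
          rw [← Subtype.ext hyx]
          exact hy
      rw [h1]
      constructor
      · rintro hx ⟨r, hr⟩
        exact congrArg Subtype.val (hx ⟨⟨r, hRN hr⟩, hr⟩)
      · rintro hx ⟨⟨r, hrn⟩, hr⟩
        exact Subtype.ext (hx ⟨r, hr⟩)

end

end Cfsg.Agent.H10
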