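import Mathlib
import Cfsg.Agent.H10.MT8
import Cfsg.Agent.H10.Perm16

set_option autoImplicit false
set_option linter.all false
set_option maxHeartbeats 1000000

/-!
# H10.MT9: some (k+1)-subset of a k-transitive group has the alternating group induced (k ≥ 4)
-/

namespace Cfsg.Agent.H10

open MulAction
open scoped Pointwise

universe u v

theorem card_four {X : Type*} [DecidableEq X] {a b c d : X} (h1 : a ≠ b) (h2 : a ≠ c) (h3 : a ≠ d) (h4 : b ≠ c)
    (h5 : b ≠ d) (h6 : c ≠ d) : ({a, b, c, d} : Finset X).card = 4 := by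
  rw [Finset.card_insert_of_notMem, Finset.card_insert_of_notMem, Finset.card_pair h6]
  · simp only [Finset.mem_insert, Finset.mem_singleton, not_or]; exact ⟨h4, h5⟩
  · simp only [Finset.mem_insert, Finset.mem_singleton, not_or]; exact ⟨h1, h2, h3⟩

/-- fixed point of the stabiliser of a 4-set in a group of Mathieu type -/
theorem c4 {G : Type*} [Group G] {X : Type*} [MulAction G X] (tr : Tr4 G X)
    (four : ∀ g : G, ∀ s : Finset X, 4 ≤ s.card → (∀ p ∈ s, g • p = p) → g = 1)
    (hU : ∃ (x y : G) (p e : X), x * x = 1 ∧ y * y = 1 ∧ x * y = y * x ∧ x • p ≠ p ∧ y • p ≠ p ∧ x • y • p ≠ p ∧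
        x • e = e ∧ y • e = e ∧ ∀ r : X, x • r = r → y • r = r → r = e)
    {a b c d : X} (h1 : a ≠ b) (h2 : a ≠ c) (h3 : a ≠ d) (h4 : b ≠ c) (h5 : b ≠ d) (h6 : c ≠ d) :
    ∃ e : X, e ≠ a ∧ e ≠ b ∧ e ≠ c ∧ e ≠ d ∧ ∀ k : G, (k • a = a ∨ k • a = b ∨ k • a = c ∨ k • a = d) →
      (k • b = a ∨ k • b = b ∨ k • b = c ∨ k • b = d) → (k • c = a ∨ k • c = b ∨ k • c = c ∨ k • c = d) →
      (k • d = a ∨ k • d = b ∨ k • d = c ∨ k • d = d) → k • e = e := by
  classical
  obtain ⟨x₀, y₀, p, e₀, hx₀, hy₀, hxy₀, hp1, hp2, hp3, he1, he2, hun⟩ := hU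
  have hcomm₀ : ∀ r : X, x₀ • y₀ • r = y₀ • x₀ • r := fun r => by rw [← mul_smul, hxy₀, mul_smul]
  have q4 : x₀ • p ≠ y₀ • p := fun e => hp3 (by rw [← e, invol_smul hx₀])
  have q5 : x₀ • p ≠ x₀ • y₀ • p := fun e => hp2 ((smul_left_cancel_iff x₀).1 e).symm
  have q6 : y₀ • p ≠ x₀ • y₀ • p := fun e => by
    rw [hcomm₀] at e
    exact hp1 ((smul_left_cancel_iff y₀).1 e).symm
  obtain ⟨g, g0, gx, gy, gz⟩ := tr p (x₀ • p) (y₀ • p) (x₀ • y₀ • p) a b c d hp1.symm hp2.symm hp3.symm q4 q5 q6 h1 h2 h3 h4 h5 h6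
  obtain ⟨x, hxd⟩ : ∃ x, x = g * x₀ * g⁻¹ := ⟨_, rfl⟩
  obtain ⟨y, hyd⟩ : ∃ y, y = g * y₀ * g⁻¹ := ⟨_, rfl⟩
  have i0 : g⁻¹ • a = p := by rw [inv_smul_eq_iff, g0]
  have i1 : g⁻¹ • b = x₀ • p := by rw [inv_smul_eq_iff, gx]
  have i2 : g⁻¹ • c = y₀ • p := by rw [inv_smul_eq_iff, gy]
  have i3 : g⁻¹ • d = x₀ • y₀ • p := by rw [inv_smul_eq_iff, gz]
  have xa : x • a = b := by rw [hxd, mul_smul, mul_smul, i0, gx]
  have xb : x • b = a := by rw [hxd, mul_smul, mul_smul, i1, invol_smul hx₀, g0]
  have xc : x • c = d := by rw [hxd, mul_smul, mul_smul, i2, gz]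
  have xd : x • d = c := by rw [hxd, mul_smul, mul_smul, i3, invol_smul hx₀, gy]
  have ya : y • a = c := by rw [hyd, mul_smul, mul_smul, i0, gy]
  have yb : y • b = d := by rw [hyd, mul_smul, mul_smul, i1, ← hcomm₀, gz]
  have yc : y • c = a := by rw [hyd, mul_smul, mul_smul, i2, invol_smul hy₀, g0]
  have yd : y • d = b := by rw [hyd, mul_smul, mul_smul, i3, hcomm₀, invol_smul hy₀, gx]
  have hxx : x * x = 1 := by
    rw [hxd, show (g * x₀ * g⁻¹) * (g * x₀ * g⁻¹) = g * (x₀ * x₀) * g⁻¹ by group, hx₀]; group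
  have hyy : y * y = 1 := by
    rw [hyd, show (g * y₀ * g⁻¹) * (g * y₀ * g⁻¹) = g * (y₀ * y₀) * g⁻¹ by group, hy₀]; group
  have xe : x • g • e₀ = g • e₀ := by rw [hxd, mul_smul, mul_smul, inv_smul_smul, he1]
  have ye : y • g • e₀ = g • e₀ := by rw [hyd, mul_smul, mul_smul, inv_smul_smul, he2]
  have hunq : ∀ r : X, x • r = r → y • r = r → r = g • e₀ := by
    intro r hr1 hr2
    have := hun (g⁻¹ • r) (by
      rw [eq_inv_smul_iff, ← mul_smul, ← mul_smul, ← hxd, hr1]) (by
      rw [eq_inv_smul_iff, ← mul_smul, ← mul_smul, ← hyd, hr2])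
    rw [← this, smul_inv_smul]
  have hs : ({a, b, c, d} : Finset X).card = 4 := card_four h1 h2 h3 h4 h5 h6
  have sharp : ∀ k k' : G, k • a = k' • a → k • b = k' • b → k • c = k' • c → k • d = k' • d → k = k' := by
    intro k k' ea eb ec ed
    have := four (k'⁻¹ * k) {a, b, c, d} hs.ge (by
      intro p hp
      simp only [Finset.mem_insert, Finset.mem_singleton] at hp
      rcases hp with rfl | rfl | rfl | rfl
      · rw [mul_smul, ea, inv_smul_smul]
      · rw [mul_smul, eb, inv_smul_smul]
      · rw [mul_smul, ec, inv_smul_smul]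
      · rw [mul_smul, ed, inv_smul_smul])
    rw [inv_mul_eq_one] at this
    exact this.symm
  refine ⟨g • e₀, ?_, ?_, ?_, ?_, ?_⟩
  · intro e; rw [e, xa] at xe; exact h1 xe.symm
  · intro e; rw [e, xb] at xe; exact h1 xe
  · intro e; rw [e, xc] at xe; exact h6 xe.symm
  · intro e; rw [e, xd] at xe; exact h6 xe
  · intro k ka kb kc kd
    -- an involution acting without fixed points on {a,b,c,d} is x, y or xy
    have key : ∀ w : G, w * w = 1 → w • a ≠ a → w • b ≠ b → w • c ≠ c → w • d ≠ d →
        (w • a = a ∨ w • a = b ∨ w • a = c ∨ w • a = d) → (w • b = a ∨ w • b = b ∨ w • b = c ∨ w • b = d) →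
        (w • c = a ∨ w • c = b ∨ w • c = c ∨ w • c = d) → (w • d = a ∨ w • d = b ∨ w • d = c ∨ w • d = d) →
        w • g • e₀ = g • e₀ := by
      intro w hw wa wb wc wd wa' wb' wc' wd'
      have hinj : ∀ r s : X, w • r = s → w • s = r := fun r s e => by rw [← e, invol_smul hw]
      rcases wa' with e | e | e | e
      · exact absurd e wa
      · have eb := hinj _ _ e
        have ec : w • c = d := by
          rcases wc' with e' | e' | e' | e'
          · exact absurd ((smul_left_cancel_iff w).1 (e'.trans eb.symm)) h4.symm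
          · exact absurd ((smul_left_cancel_iff w).1 (e'.trans e.symm)) h2.symm
          · exact absurd e' wc
          · exact e'
        have ed := hinj _ _ ec
        rw [sharp w x (by rw [e, xa]) (by rw [eb, xb]) (by rw [ec, xc]) (by rw [ed, xd])]
        exact xe
      · have ec := hinj _ _ e
        have eb : w • b = d := by
          rcases wb' with e' | e' | e' | e'
          · exact absurd ((smul_left_cancel_iff w).1 (e'.trans ec.symm)) h4
          · exact absurd e' wb
          · exact absurd ((smul_left_cancel_iff w).1 (e'.trans e.symm)) h1.symm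
          · exact e'
        have ed := hinj _ _ eb
        rw [sharp w y (by rw [e, ya]) (by rw [eb, yb]) (by rw [ec, yc]) (by rw [ed, yd])]
        exact ye
      · have ed := hinj _ _ e
        have eb : w • b = c := by
          rcases wb' with e' | e' | e' | e'
          · exact absurd ((smul_left_cancel_iff w).1 (e'.trans ed.symm)) h5
          · exact absurd e' wb
          · exact e'
          · exact absurd ((smul_left_cancel_iff w).1 (e'.trans e.symm)) h1.symm
        have ec := hinj _ _ eb
        rw [sharp w (x * y) (by rw [e, mul_smul, ya, xc]) (by rw [eb, mul_smul, yb, xd]) (by rw [ec, mul_smul, yc, xa]) (by rw [ed, mul_smul, yd, xb]),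
          mul_smul, ye, xe]
    -- conjugates
    have conj_ok : ∀ w : G, w * w = 1 → w • a ≠ a → w • b ≠ b → w • c ≠ c → w • d ≠ d →
        (∀ r, (r = a ∨ r = b ∨ r = c ∨ r = d) → (w • r = a ∨ w • r = b ∨ w • r = c ∨ w • r = d)) →
        w • k • g • e₀ = k • g • e₀ := by
      intro w hw wa wb wc wd hwr
      have kinv : ∀ r, (r = a ∨ r = b ∨ r = c ∨ r = d) → (k⁻¹ • r = a ∨ k⁻¹ • r = b ∨ k⁻¹ • r = c ∨ k⁻¹ • r = d) := by
        intro r hr
        have himg : ({a, b, c, d} : Finset X).image (fun z => k • z) = {a, b, c, d} := by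
          apply Finset.eq_of_subset_of_card_le
          · intro z hz
            rw [Finset.mem_image] at hz
            obtain ⟨q, hq, rfl⟩ := hz
            simp only [Finset.mem_insert, Finset.mem_singleton] at hq ⊢
            rcases hq with rfl | rfl | rfl | rfl
            · exact ka
            · exact kb
            · exact kc
            · exact kd
          · rw [Finset.card_image_of_injective _ (MulAction.injective k)]
        have hr' : r ∈ ({a, b, c, d} : Finset X).image (fun z => k • z) := by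
          rw [himg]; simpa using hr
        rw [Finset.mem_image] at hr'
        obtain ⟨q, hq, rfl⟩ := hr'
        rw [inv_smul_smul]
        simpa using hq
      have hk4 : ∀ r, (r = a ∨ r = b ∨ r = c ∨ r = d) → (k • r = a ∨ k • r = b ∨ k • r = c ∨ k • r = d) := by
        rintro r (rfl | rfl | rfl | rfl)
        · exact ka
        · exact kb
        · exact kc
        · exact kd
      have hne4 : ∀ r, (r = a ∨ r = b ∨ r = c ∨ r = d) → w • r ≠ r := by
        rintro r (rfl | rfl | rfl | rfl)
        · exact wa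
        · exact wb
        · exact wc
        · exact wd
      have hfix : (k⁻¹ * w * k) • g • e₀ = g • e₀ := by
        have hne : ∀ r, (r = a ∨ r = b ∨ r = c ∨ r = d) → (k⁻¹ * w * k) • r ≠ r := by
          intro r hr e
          rw [mul_smul, mul_smul, inv_smul_eq_iff] at e
          exact hne4 _ (hk4 r hr) e
        have hin : ∀ r, (r = a ∨ r = b ∨ r = c ∨ r = d) →
            ((k⁻¹ * w * k) • r = a ∨ (k⁻¹ * w * k) • r = b ∨ (k⁻¹ * w * k) • r = c ∨ (k⁻¹ * w * k) • r = d) := by
          intro r hr
          rw [mul_smul, mul_smul]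
          exact kinv _ (hwr _ (hk4 r hr))
        apply key
        · calc k⁻¹ * w * k * (k⁻¹ * w * k) = k⁻¹ * (w * w) * k := by group
            _ = 1 := by rw [hw]; group
        · exact hne a (by simp)
        · exact hne b (by simp)
        · exact hne c (by simp)
        · exact hne d (by simp)
        · exact hin a (by simp)
        · exact hin b (by simp)
        · exact hin c (by simp)
        · exact hin d (by simp)
      rw [mul_smul, mul_smul, inv_smul_eq_iff] at hfix
      exact hfix
    apply hunq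
    · apply conj_ok x hxx
      · rw [xa]; exact h1.symm
      · rw [xb]; exact h1
      · rw [xc]; exact h6.symm
      · rw [xd]; exact h6
      · rintro r (rfl | rfl | rfl | rfl)
        · rw [xa]; simp
        · rw [xb]; simp
        · rw [xc]; simp
        · rw [xd]; simp
    · apply conj_ok y hyy
      · rw [ya]; exact h2.symm
      · rw [yb]; exact h5.symm
      · rw [yc]; exact h2
      · rw [yd]; exact h5
      · rintro r (rfl | rfl | rfl | rfl)
        · rw [ya]; simp
        · rw [yb]; simp
        · rw [yc]; simp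
        · rw [yd]; simp

end Cfsg.Agent.H10
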