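import Mathlib
import Cfsg.Agent.H10.MT9

set_option autoImplicit false
set_option linter.all false
set_option maxHeartbeats 1000000

/-!
# H10.MT10: some (k+1)-subset of a k-transitive group has the alternating group induced: the sharp case
-/

namespace Cfsg.Agent.H10

open MulAction
open scoped Pointwise

section
variable {α : Type*} [Fintype α] [DecidableEq α]

/-- all 3-cycles on `Δ` are induced by elements of `G` -/
def AltOn (G : Subgroup (Equiv.Perm α)) (Δ : Finset α) : Prop :=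
  ∀ a ∈ Δ, ∀ b ∈ Δ, ∀ c ∈ Δ, a ≠ b → a ≠ c → b ≠ c →
    ∃ g ∈ G, g a = b ∧ g b = c ∧ g c = a ∧ ∀ x ∈ Δ, x ≠ a → x ≠ b → x ≠ c → g x = x

theorem exists_perm_on {G : Subgroup (Equiv.Perm α)} {k : ℕ} (hG : IsMultiplyPretransitive G α k) {Θ : Finset α}
    (hΘ : Θ.card = k) (σ : Equiv.Perm α) : ∃ y ∈ G, ∀ x ∈ Θ, y x = σ x := by
  obtain ⟨e, he⟩ := exists_enum Θ hΘ
  obtain ⟨g, hg⟩ := hG.exists_smul_eq e (e.trans σ.toEmbedding)
  refine ⟨g, g.2, ?_⟩
  intro x hx
  have : x ∈ Set.range e := by rw [he]; exact hx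
  obtain ⟨i, rfl⟩ := this
  exact DFunLike.congr_fun hg i

theorem altOn_of_trans {G : Subgroup (Equiv.Perm α)} {k : ℕ} (hG : IsMultiplyPretransitive G α k) {Θ : Finset α}
    (hΘ : Θ.card = k) : AltOn G Θ := by
  intro a ha b hb c hc hab hac hbc
  obtain ⟨y, hy, hyx⟩ := exists_perm_on hG hΘ (Equiv.swap a b * Equiv.swap b c)
  refine ⟨y, hy, ?_, ?_, ?_, ?_⟩
  · rw [hyx a ha, Equiv.Perm.mul_apply, Equiv.swap_apply_of_ne_of_ne hab hac, Equiv.swap_apply_left]
  · rw [hyx b hb, Equiv.Perm.mul_apply, Equiv.swap_apply_left, Equiv.swap_apply_of_ne_of_ne hac.symm hbc.symm]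
  · rw [hyx c hc, Equiv.Perm.mul_apply, Equiv.swap_apply_right, Equiv.swap_apply_right]
  · intro x hx xa xb xc
    rw [hyx x hx, Equiv.Perm.mul_apply, Equiv.swap_apply_of_ne_of_ne xb xc, Equiv.swap_apply_of_ne_of_ne xa xb]

theorem altOn_of_alt {G : Subgroup (Equiv.Perm α)} (hG : alternatingGroup α ≤ G) (Θ : Finset α) : AltOn G Θ := by
  intro a ha b hb c hc hab hac hbc
  refine ⟨Equiv.swap a b * Equiv.swap b c, hG ?_, ?_, ?_, ?_, ?_⟩
  · rw [Equiv.Perm.mem_alternatingGroup, Equiv.Perm.sign_mul, Equiv.Perm.sign_swap hab, Equiv.Perm.sign_swap hbc]; rfl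
  · rw [Equiv.Perm.mul_apply, Equiv.swap_apply_of_ne_of_ne hab hac, Equiv.swap_apply_left]
  · rw [Equiv.Perm.mul_apply, Equiv.swap_apply_left, Equiv.swap_apply_of_ne_of_ne hac.symm hbc.symm]
  · rw [Equiv.Perm.mul_apply, Equiv.swap_apply_right, Equiv.swap_apply_right]
  · intro x hx xa xb xc
    rw [Equiv.Perm.mul_apply, Equiv.swap_apply_of_ne_of_ne xb xc, Equiv.swap_apply_of_ne_of_ne xa xb]

/-- hypotheses of the sharp case -/
structure Sh (G : Subgroup (Equiv.Perm α)) (k : ℕ) : Prop where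
  hk : 4 ≤ k
  hG : IsMultiplyPretransitive G α k
  hfix : ∀ g ∈ G, ∀ s : Finset α, k + 1 ≤ s.card → (∀ x ∈ s, g x = x) → g = 1
  hn : 3 * k ≤ Fintype.card α + 4
  hno : ¬ IsMultiplyPretransitive G α (k + 1)

namespace Sh
variable {G : Subgroup (Equiv.Perm α)} {k : ℕ} (h : Sh G k)
include h

theorem apply_q4 {A : Finset α} (hA : A.card = k - 4) :
    (∀ y ∈ G, (∀ x ∈ A, y x = x) → ∀ s : Finset α, Disjoint s A → 4 ≤ s.card → (∀ p ∈ s, y p = p) → y = 1) ∧
    (∀ y ∈ G, (∀ x ∈ A, y x = x) → y * y = 1 → y ≠ 1 → (Finset.univ.filter (fun p => p ∉ A ∧ y p = p)).card = 3) ∧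
    (∀ a b c d : α, a ∉ A → b ∉ A → c ∉ A → d ∉ A → a ≠ b → a ≠ c → a ≠ d → b ≠ c → b ≠ d → c ≠ d →
      ∃ e, e ∉ A ∧ e ≠ a ∧ e ≠ b ∧ e ≠ c ∧ e ≠ d ∧ ∀ y ∈ G, (∀ x ∈ A, y x = x) →
        (y a = a ∨ y a = b ∨ y a = c ∨ y a = d) → (y b = a ∨ y b = b ∨ y b = c ∨ y b = d) →
        (y c = a ∨ y c = b ∨ y c = c ∨ y c = d) → (y d = a ∨ y d = b ∨ y d = c ∨ y d = d) → y e = e) := by
  classical
  have hk := h.hk
  have hn := h.hn
  have memX : ∀ x : α, x ∈ SubMulAction.ofFixingSubgroup G (A : Set α) ↔ x ∉ A := fun x => SubMulAction.mem_ofFixingSubgroup_iff G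
  haveI := h.hG
  have h4 : IsMultiplyPretransitive (fixingSubgroup G (A : Set α)) (SubMulAction.ofFixingSubgroup G (A : Set α)) 4 := by
    exact SubMulAction.ofFixingSubgroup.isMultiplyPretransitive G (n := k) (A : Set α) (by
      rw [Set.ncard_coe_finset, hA]; omega)
  haveI : Fintype (SubMulAction.ofFixingSubgroup G (A : Set α)) := Fintype.ofFinite _
  have hcardX : Fintype.card (SubMulAction.ofFixingSubgroup G (A : Set α)) = Fintype.card α - (k - 4) := by
    have h1 : (SubMulAction.ofFixingSubgroup G (A : Set α) : Set α) = ((Aᶜ : Finset α) : Set α) := by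
      ext x
      simp only [Finset.coe_compl, Set.mem_compl_iff, Finset.mem_coe]
      exact memX x
    rw [← Nat.card_eq_fintype_card,
      show Nat.card (SubMulAction.ofFixingSubgroup G (A : Set α)) = (SubMulAction.ofFixingSubgroup G (A : Set α) : Set α).ncard from rfl,
      h1, Set.ncard_coe_finset, Finset.card_compl, hA]
  have emb : ∀ s : Finset (SubMulAction.ofFixingSubgroup G (A : Set α)), ∃ t : Finset α, t.card = s.card ∧ Disjoint t A ∧
      ∀ x, x ∈ t ↔ ∃ y ∈ s, (y : α) = x := by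
    intro s
    refine ⟨s.map ⟨Subtype.val, Subtype.val_injective⟩, Finset.card_map _, ?_, ?_⟩
    · rw [Finset.disjoint_left]
      intro x hx
      rw [Finset.mem_map] at hx
      obtain ⟨y, -, rfl⟩ := hx
      exact (memX _).1 y.2
    · intro x
      rw [Finset.mem_map]; rfl
  have five : ∀ g : fixingSubgroup G (A : Set α), ∀ s : Finset (SubMulAction.ofFixingSubgroup G (A : Set α)), 5 ≤ s.card →
      (∀ p ∈ s, g • p = p) → g = 1 := by
    rintro ⟨⟨g, hg⟩, hgA⟩ s hs hsf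
    obtain ⟨t, htc, htA, ht⟩ := emb s
    apply Subtype.ext
    apply Subtype.ext
    apply h.hfix g hg (t ∪ A)
    · rw [Finset.card_union_of_disjoint htA, htc, hA]; omega
    · intro x hx
      rw [Finset.mem_union] at hx
      rcases hx with hx | hx
      · obtain ⟨y, hy, rfl⟩ := (ht x).1 hx
        exact congrArg Subtype.val (hsf y hy)
      · exact (mem_fixingSubgroup_iff G).1 hgA x hx
  rcases q4 h4 five (by rw [hcardX]; omega) with hq | ⟨h11, hfour, hthree, hU⟩
  · exfalso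
    apply h.hno
    have h5 : IsMultiplyPretransitive G α (k - 4) := isMultiplyPretransitive_of_le' (n := k) (by omega) (by
      rw [ENat.card_eq_coe_fintype_card]; norm_cast; omega)
    have := combine_trans (A : Set α) (m := k - 4) (j := 5) (by rw [Set.ncard_coe_finset, hA]) h5 hq
    rwa [show k - 4 + 5 = k + 1 by omega] at this
  · have lift : ∀ y ∈ G, (∀ x ∈ A, y x = x) → ∃ g : fixingSubgroup G (A : Set α), ∀ p : SubMulAction.ofFixingSubgroup G (A : Set α),
        ((g • p : SubMulAction.ofFixingSubgroup G (A : Set α)) : α) = y p ∧ ((g : G) : Equiv.Perm α) = y := by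
      intro y hy hyA
      exact ⟨⟨⟨y, hy⟩, (mem_fixingSubgroup_iff G).2 (fun x hx => hyA x hx)⟩, fun p => ⟨rfl, rfl⟩⟩
    have ho : ∃ p : SubMulAction.ofFixingSubgroup G (A : Set α), True := by
      have : 0 < Fintype.card (SubMulAction.ofFixingSubgroup G (A : Set α)) := by omega
      obtain ⟨p⟩ := Fintype.card_pos_iff.1 this
      exact ⟨p, trivial⟩
    obtain ⟨p₀, -⟩ := ho
    refine ⟨?_, ?_, ?_⟩
    · intro y hy hyA s hsA hs hsf
      obtain ⟨g, hg⟩ := lift y hy hyA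
      have h1 := hfour g (s.subtype (fun x => x ∈ SubMulAction.ofFixingSubgroup G (A : Set α))) (by
        rw [Finset.card_subtype]
        refine hs.trans (Finset.card_le_card ?_)
        intro x hx
        rw [Finset.mem_filter]
        exact ⟨hx, (memX x).2 (fun hxA => Finset.disjoint_left.1 hsA hx hxA)⟩) (by
        intro p hp
        rw [Finset.mem_subtype] at hp
        exact Subtype.ext (((hg p).1).trans (hsf _ hp)))
      rw [← (hg p₀).2, h1]; rfl
    · intro y hy hyA hyy hy1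
      obtain ⟨g, hg⟩ := lift y hy hyA
      have hgy := (hg p₀).2
      have h1 := hthree g (by
        apply Subtype.ext; apply Subtype.ext
        show ((g : G) : Equiv.Perm α) * ((g : G) : Equiv.Perm α) = 1
        rw [hgy, hyy]) (by
        rintro rfl
        exact hy1 hgy.symm)
      have h2 : (Finset.univ.filter (fun p => p ∉ A ∧ y p = p) : Set α) = Subtype.val '' (fixedBy (SubMulAction.ofFixingSubgroup G (A : Set α)) g) := by
        ext x
        simp only [Finset.coe_filter, Finset.mem_univ, true_and, Set.mem_setOf_eq, Set.mem_image, mem_fixedBy]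
        constructor
        · rintro ⟨hxA, hxy⟩
          exact ⟨⟨x, (memX x).2 hxA⟩, Subtype.ext (((hg _).1).trans hxy), rfl⟩
        · rintro ⟨p, hp, rfl⟩
          refine ⟨(memX _).1 p.2, ?_⟩
          rw [← (hg p).1, hp]
      rw [← Set.ncard_coe_finset, h2, Set.ncard_image_of_injective _ Subtype.val_injective, h1]
    · intro a b c d ha hb hc hd h1 h2 h3 h4' h5 h6
      have ne : ∀ {x y : α} (hx : x ∉ A) (hy : y ∉ A), x ≠ y → (⟨x, (memX x).2 hx⟩ : SubMulAction.ofFixingSubgroup G (A : Set α)) ≠ ⟨y, (memX y).2 hy⟩ :=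
        fun hx hy hxy e => hxy (congrArg Subtype.val e)
      obtain ⟨e, ea, eb, ec, ed, he⟩ := c4 (tr4_of h4) hfour hU (ne ha hb h1) (ne ha hc h2) (ne ha hd h3) (ne hb hc h4') (ne hb hd h5) (ne hc hd h6)
      refine ⟨e, (memX _).1 e.2, fun e' => ea (Subtype.ext e'), fun e' => eb (Subtype.ext e'), fun e' => ec (Subtype.ext e'), fun e' => ed (Subtype.ext e'), ?_⟩
      intro y hy hyA ya yb yc yd
      obtain ⟨g, hg⟩ := lift y hy hyA
      rw [← (hg e).1]
      congr 1
      have conv : ∀ (z : α) (hz : z ∉ A), (y z = a ∨ y z = b ∨ y z = c ∨ y z = d) →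
          (g • (⟨z, (memX z).2 hz⟩ : SubMulAction.ofFixingSubgroup G (A : Set α)) = ⟨a, (memX a).2 ha⟩ ∨
           g • (⟨z, (memX z).2 hz⟩ : SubMulAction.ofFixingSubgroup G (A : Set α)) = ⟨b, (memX b).2 hb⟩ ∨
           g • (⟨z, (memX z).2 hz⟩ : SubMulAction.ofFixingSubgroup G (A : Set α)) = ⟨c, (memX c).2 hc⟩ ∨
           g • (⟨z, (memX z).2 hz⟩ : SubMulAction.ofFixingSubgroup G (A : Set α)) = ⟨d, (memX d).2 hd⟩) := by
        intro z hz hyz
        rcases hyz with e' | e' | e' | e'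
        · exact Or.inl (Subtype.ext (((hg _).1).trans e'))
        · exact Or.inr (Or.inl (Subtype.ext (((hg _).1).trans e')))
        · exact Or.inr (Or.inr (Or.inl (Subtype.ext (((hg _).1).trans e'))))
        · exact Or.inr (Or.inr (Or.inr (Subtype.ext (((hg _).1).trans e'))))
      exact he g (conv a ha ya) (conv b hb yb) (conv c hc yc) (conv d hd yd)

theorem sharp {y : Equiv.Perm α} (hy : y ∈ G) {s : Finset α} (hs : k ≤ s.card) (hsf : ∀ x ∈ s, y x = x) : y = 1 := by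
  have hk := h.hk
  obtain ⟨A, hAs, hA⟩ := Finset.exists_subset_card_eq (show k - 4 ≤ s.card by omega)
  apply (h.apply_q4 hA).1 y hy (fun x hx => hsf x (hAs hx)) (s \ A) Finset.sdiff_disjoint
  · rw [Finset.card_sdiff_of_subset hAs]; omega
  · intro p hp
    exact hsf p (Finset.mem_sdiff.1 hp).1

end Sh

/-- transposition data -/
def YP (G : Subgroup (Equiv.Perm α)) (Θ : Finset α) (a b e : α) : Prop :=
  ∃ y ∈ G, y a = b ∧ y b = a ∧ (∀ x ∈ Θ, x ≠ a → x ≠ b → y x = x) ∧ y e = e ∧ ∀ x, x ∉ Θ → y x = x → x = e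

namespace Sh
variable {G : Subgroup (Equiv.Perm α)} {k : ℕ} (h : Sh G k)
include h

theorem g1' {Θ S : Finset α} (hΘ : Θ.card = k) (hS : S ⊆ Θ) (hS4 : S.card = 4) :
    ∃ e, e ∉ Θ ∧ ∀ a ∈ S, ∀ b ∈ S, a ≠ b → YP G Θ a b e := by
  have hk := h.hk
  obtain ⟨A, hAd⟩ : ∃ A : Finset α, A = Θ \ S := ⟨_, rfl⟩
  have hA : A.card = k - 4 := by rw [hAd, Finset.card_sdiff_of_subset hS]; omega
  obtain ⟨q1, q2, q3⟩ := h.apply_q4 hA
  obtain ⟨a, s1, ha, hS', hs1⟩ := Finset.card_eq_succ.1 hS4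
  obtain ⟨b, c, d, hbc, hbd, hcd, rfl⟩ := Finset.card_eq_three.1 hs1
  simp only [Finset.mem_insert, Finset.mem_singleton, not_or] at ha
  have hSA : ∀ x ∈ S, x ∉ A := by
    intro x hx hxA
    rw [hAd, Finset.mem_sdiff] at hxA
    exact hxA.2 hx
  have mS : ∀ x, x ∈ S ↔ x = a ∨ x = b ∨ x = c ∨ x = d := by
    intro x; rw [← hS']; simp
  obtain ⟨e, heA, ea, eb, ec, ed, he⟩ := q3 a b c d (hSA a ((mS _).2 (by simp))) (hSA b ((mS _).2 (by simp))) (hSA c ((mS _).2 (by simp)))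
    (hSA d ((mS _).2 (by simp))) ha.1 ha.2.1 ha.2.2 hbc hbd hcd
  have heΘ : e ∉ Θ := by
    intro he'
    by_cases heS : e ∈ S
    · rcases (mS e).1 heS with e' | e' | e' | e'
      · exact ea e'
      · exact eb e'
      · exact ec e'
      · exact ed e'
    · exact heA (by rw [hAd, Finset.mem_sdiff]; exact ⟨he', heS⟩)
  refine ⟨e, heΘ, ?_⟩
  intro u hu v hv huv
  obtain ⟨y, hy, hyx⟩ := exists_perm_on h.hG hΘ (Equiv.swap u v)
  have yu : y u = v := by rw [hyx u (hS hu), Equiv.swap_apply_left]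
  have yv : y v = u := by rw [hyx v (hS hv), Equiv.swap_apply_right]
  have yx : ∀ x ∈ Θ, x ≠ u → x ≠ v → y x = x := fun x hx xu xv => by rw [hyx x hx, Equiv.swap_apply_of_ne_of_ne xu xv]
  have yA : ∀ x ∈ A, y x = x := by
    intro x hx
    have hx' := hx
    rw [hAd, Finset.mem_sdiff] at hx'
    exact yx x hx'.1 (fun e => hx'.2 (e ▸ hu)) (fun e => hx'.2 (e ▸ hv))
  have yS : ∀ x ∈ S, y x ∈ S := by
    intro x hx
    by_cases xu : x = u
    · rw [xu, yu]; exact hv
    · by_cases xv : x = v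
      · rw [xv, yv]; exact hu
      · rw [yx x (hS hx) xu xv]; exact hx
  have ye : y e = e := he y hy yA ((mS _).1 (yS a ((mS _).2 (by simp)))) ((mS _).1 (yS b ((mS _).2 (by simp))))
    ((mS _).1 (yS c ((mS _).2 (by simp)))) ((mS _).1 (yS d ((mS _).2 (by simp))))
  have yy : y * y = 1 := by
    apply h.sharp (G.mul_mem hy hy) (s := Θ) hΘ.ge
    intro x hx
    show y (y x) = x
    by_cases xu : x = u
    · rw [xu, yu, yv]
    · by_cases xv : x = v
      · rw [xv, yv, yu]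
      · rw [yx x hx xu xv, yx x hx xu xv]
  have y1 : y ≠ 1 := by
    rintro rfl
    exact huv yu
  refine ⟨y, hy, yu, yv, yx, ye, ?_⟩
  intro x hx hyx'
  have h3 := q2 y hy yA yy y1
  have h4 : ((S.erase u).erase v ∪ {e}) = (Finset.univ.filter (fun p => p ∉ A ∧ y p = p)) := by
    apply Finset.eq_of_subset_of_card_le
    · intro p hp
      rw [Finset.mem_union, Finset.mem_erase, Finset.mem_erase, Finset.mem_singleton] at hp
      rw [Finset.mem_filter]
      rcases hp with ⟨hp1, hp2, hp3⟩ | rfl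
      · exact ⟨Finset.mem_univ _, hSA p hp3, yx p (hS hp3) hp2 hp1⟩
      · exact ⟨Finset.mem_univ _, heA, ye⟩
    · rw [h3, Finset.card_union_of_disjoint, Finset.card_singleton, Finset.card_erase_of_mem, Finset.card_erase_of_mem hu, hS4]
      · rw [Finset.mem_erase]; exact ⟨huv.symm, hv⟩
      · rw [Finset.disjoint_singleton_right, Finset.mem_erase, Finset.mem_erase]
        rintro ⟨-, -, h5⟩
        exact heΘ (hS h5)
  have h5 : x ∈ Finset.univ.filter (fun p => p ∉ A ∧ y p = p) := by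
    rw [Finset.mem_filter]
    refine ⟨Finset.mem_univ _, ?_, hyx'⟩
    intro hxA
    rw [hAd, Finset.mem_sdiff] at hxA
    exact hx hxA.1
  rw [← h4, Finset.mem_union, Finset.mem_erase, Finset.mem_erase, Finset.mem_singleton] at h5
  rcases h5 with ⟨-, -, h6⟩ | h6
  · exact absurd (hS h6) hx
  · exact h6

theorem yp_unique {Θ : Finset α} (hΘ : Θ.card = k) {a b e e' : α} (ha : a ∈ Θ) (hb : b ∈ Θ) (he : e ∉ Θ) (he' : e' ∉ Θ)
    (h1 : YP G Θ a b e) (h2 : YP G Θ a b e') : e = e' := by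
  obtain ⟨y, hy, ya, yb, yx, ye, yu⟩ := h1
  obtain ⟨z, hz, za, zb, zx, ze, zu⟩ := h2
  have hyz : z⁻¹ * y = 1 := by
    apply h.sharp (G.mul_mem (G.inv_mem hz) hy) (s := Θ) hΘ.ge
    intro x hx
    show z⁻¹ (y x) = x
    rw [Equiv.Perm.inv_eq_iff_eq]
    by_cases xa : x = a
    · rw [xa, ya, za]
    · by_cases xb : x = b
      · rw [xb, yb, zb]
      · rw [yx x hx xa xb, zx x hx xa xb]
  rw [inv_mul_eq_one] at hyz
  subst hyz
  exact zu e he ye

theorem g1 {Θ : Finset α} (hΘ : Θ.card = k) : ∃ e, e ∉ Θ ∧ ∀ a ∈ Θ, ∀ b ∈ Θ, a ≠ b → YP G Θ a b e := by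
  have hk := h.hk
  obtain ⟨a₀, ha₀, b₀, hb₀, hab₀⟩ := Finset.one_lt_card.1 (show 1 < Θ.card by omega)
  have key : ∀ a ∈ Θ, ∀ b ∈ Θ, ∃ S : Finset α, S ⊆ Θ ∧ S.card = 4 ∧ a₀ ∈ S ∧ b₀ ∈ S ∧ a ∈ S ∧ b ∈ S := by
    intro a ha b hb
    have h1 : ({a₀, b₀, a, b} : Finset α) ⊆ Θ := by
      intro x hx
      simp only [Finset.mem_insert, Finset.mem_singleton] at hx
      rcases hx with rfl | rfl | rfl | rfl <;> assumption
    have h2 : ({a₀, b₀, a, b} : Finset α).card ≤ 4 := Finset.card_le_four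
    obtain ⟨S, hS1, hS2, hS3⟩ := Finset.exists_subsuperset_card_eq h1 h2 (by omega)
    exact ⟨S, hS2, hS3, hS1 (by simp), hS1 (by simp), hS1 (by simp), hS1 (by simp)⟩
  obtain ⟨S₀, hS₀, hS₀4, ha₀S, hb₀S, -, -⟩ := key a₀ ha₀ b₀ hb₀
  obtain ⟨e, he, heY⟩ := h.g1' hΘ hS₀ hS₀4
  refine ⟨e, he, ?_⟩
  intro a ha b hb hab
  obtain ⟨S, hS, hS4, h1, h2, h3, h4⟩ := key a ha b hb
  obtain ⟨e', he', heY'⟩ := h.g1' hΘ hS hS4
  have := h.yp_unique hΘ ha₀ hb₀ he he' (heY a₀ ha₀S b₀ hb₀S hab₀) (heY' a₀ h1 b₀ h2 hab₀)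
  rw [this]
  exact heY' a h3 b h4 hab

theorem exists_altOn : ∃ Δ : Finset α, Δ.card = k + 1 ∧ AltOn G Δ := by
  have hk := h.hk
  have hn := h.hn
  obtain ⟨Θ, -, hΘ⟩ := Finset.exists_subset_card_eq (s := (Finset.univ : Finset α)) (n := k) (by rw [Finset.card_univ]; omega)
  obtain ⟨e, he, heY⟩ := h.g1 hΘ
  refine ⟨insert e Θ, by rw [Finset.card_insert_of_notMem he, hΘ], ?_⟩
  have good : ∀ d ∈ insert e Θ, ∀ a ∈ (insert e Θ).erase d, ∀ b ∈ (insert e Θ).erase d, a ≠ b → YP G ((insert e Θ).erase d) a b d := by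
    intro d hd
    rw [Finset.mem_insert] at hd
    rcases hd with rfl | hd
    · rw [Finset.erase_insert he]
      exact heY
    · have hde : d ≠ e := fun e' => he (e' ▸ hd)
      have hc : ((insert e Θ).erase d).card = k := by
        rw [Finset.card_erase_of_mem (Finset.mem_insert_of_mem hd), Finset.card_insert_of_notMem he, hΘ]; omega
      obtain ⟨e', he', heY'⟩ := h.g1 hc
      have h1 : d = e' := by
        obtain ⟨a, ha, b, hb, hab⟩ := Finset.one_lt_card.1 (show 1 < (Θ.erase d).card by rw [Finset.card_erase_of_mem hd]; omega)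
        rw [Finset.mem_erase] at ha hb
        have ha' : a ∈ (insert e Θ).erase d := Finset.mem_erase.2 ⟨ha.1, Finset.mem_insert_of_mem ha.2⟩
        have hb' : b ∈ (insert e Θ).erase d := Finset.mem_erase.2 ⟨hb.1, Finset.mem_insert_of_mem hb.2⟩
        obtain ⟨y, hy, ya, yb, yx, ye, yu⟩ := heY a ha.2 b hb.2 hab
        obtain ⟨z, hz, za, zb, zx, ze, zu⟩ := heY' a ha' b hb' hab
        have hyz : z⁻¹ * y = 1 := by
          apply h.sharp (G.mul_mem (G.inv_mem hz) hy) (s := (insert e Θ).erase d) hc.ge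
          intro x hx
          show z⁻¹ (y x) = x
          rw [Equiv.Perm.inv_eq_iff_eq]
          by_cases xa : x = a
          · rw [xa, ya, za]
          · by_cases xb : x = b
            · rw [xb, yb, zb]
            · rw [zx x hx xa xb]
              rw [Finset.mem_erase, Finset.mem_insert] at hx
              rcases hx.2 with rfl | hx2
              · exact ye
              · exact yx x hx2 xa xb
        rw [inv_mul_eq_one] at hyz
        subst hyz
        apply zu d (Finset.notMem_erase d _)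
        exact yx d hd (fun e'' => ha.1 e''.symm) (fun e'' => hb.1 e''.symm)
      rw [← h1] at heY'
      exact heY'
  intro a ha b hb c hc hab hac hbc
  obtain ⟨d, hd, hda⟩ := Finset.exists_mem_notMem_of_card_lt_card (s := {a, b, c}) (t := insert e Θ) (by
    rw [Finset.card_insert_of_notMem he, hΘ]
    have := Finset.card_le_three (a := a) (b := b) (c := c)
    omega)
  simp only [Finset.mem_insert, Finset.mem_singleton, not_or] at hda
  have ha' : a ∈ (insert e Θ).erase d := Finset.mem_erase.2 ⟨fun e' => hda.1 e'.symm, ha⟩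
  have hb' : b ∈ (insert e Θ).erase d := Finset.mem_erase.2 ⟨fun e' => hda.2.1 e'.symm, hb⟩
  have hc' : c ∈ (insert e Θ).erase d := Finset.mem_erase.2 ⟨fun e' => hda.2.2 e'.symm, hc⟩
  obtain ⟨y, hy, ya, yb, yx, ye, yu⟩ := good d hd a ha' b hb' hab
  obtain ⟨z, hz, zb, zc, zx, ze, zu⟩ := good d hd b hb' c hc' hbc
  refine ⟨y * z, G.mul_mem hy hz, ?_, ?_, ?_, ?_⟩
  · show y (z a) = b
    rw [zx a ha' hab hac, ya]
  · show y (z b) = c
    rw [zb, yx c hc' hac.symm hbc.symm]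
  · show y (z c) = a
    rw [zc, yb]
  · intro x hx xa xb xc
    show y (z x) = x
    by_cases xd : x = d
    · rw [xd, ze, ye]
    · have hx' : x ∈ (insert e Θ).erase d := Finset.mem_erase.2 ⟨xd, hx⟩
      rw [zx x hx' xb xc, yx x hx' xa xb]

end Sh

end

end Cfsg.Agent.H10
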