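import Mathlib
import Cfsg.Agent.H10.MT10

set_option autoImplicit false
set_option linter.all false
set_option maxHeartbeats 1000000

/-!
# H10.MT11: some (k+1)-subset of a k-transitive group has the alternating group induced
-/

namespace Cfsg.Agent.H10

open MulAction
open scoped Pointwise

universe u

theorem alt_of_small_degree {α : Type*} [Fintype α] [DecidableEq α] {G : Subgroup (Equiv.Perm α)} {k : ℕ} (hk : 4 ≤ k)
    (hkn : k ≤ Fintype.card α) (hG : IsMultiplyPretransitive G α k) (hn : Fintype.card α + 5 ≤ 3 * k) : alternatingGroup α ≤ G := by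
  obtain ⟨Θ, -, hΘ⟩ := Finset.exists_subset_card_eq (s := (Finset.univ : Finset α)) (n := k) (by rw [Finset.card_univ]; omega)
  obtain ⟨a, ha, b, hb, hab⟩ := Finset.one_lt_card.1 (show 1 < Θ.card by omega)
  obtain ⟨y, hy, hyx⟩ := exists_perm_on hG hΘ (Equiv.swap a b)
  have hy1 : y ≠ 1 := by
    rintro rfl
    have := hyx a ha
    rw [Equiv.swap_apply_left] at this
    exact hab this
  have hsupp : y.support.card < 2 * k - 2 := by
    have h1 : y.support ⊆ ((Θ.erase a).erase b)ᶜ := by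
      intro x hx
      rw [Finset.mem_compl, Finset.mem_erase, Finset.mem_erase]
      rintro ⟨xb, xa, hxΘ⟩
      rw [Equiv.Perm.mem_support] at hx
      exact hx (by rw [hyx x hxΘ, Equiv.swap_apply_of_ne_of_ne xa xb])
    have h2 := Finset.card_le_card h1
    rw [Finset.card_compl, Finset.card_erase_of_mem, Finset.card_erase_of_mem ha, hΘ] at h2
    · omega
    · rw [Finset.mem_erase]; exact ⟨hab.symm, hb⟩
  obtain ⟨z, hz, hz1, hz3⟩ := small_support (by omega) hkn hG y hy hy1 hsupp
  apply alt_le_of_small _ hz hz1 hz3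
  apply MulAction.isPreprimitive_of_is_two_pretransitive
  exact MulAction.isMultiplyPretransitive_of_le (n := k) (by omega) (by rw [Nat.card_eq_fintype_card]; exact hkn)

theorem altset (n : ℕ) : ∀ {α : Type u} [Fintype α] [DecidableEq α], Fintype.card α = n → ∀ (G : Subgroup (Equiv.Perm α)) (k : ℕ),
    4 ≤ k → k < n → IsMultiplyPretransitive G α k → ∃ Δ : Finset α, Δ.card = k + 1 ∧ AltOn G Δ := by
  induction n using Nat.strong_induction_on with
  | _ n ih =>
  intro α _ _ hcard G k hk hkn hG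
  have exΔ : ∃ Δ : Finset α, Δ.card = k + 1 := by
    obtain ⟨Θ, -, hΘ⟩ := Finset.exists_subset_card_eq (s := (Finset.univ : Finset α)) (n := k + 1) (by rw [Finset.card_univ]; omega)
    exact ⟨Θ, hΘ⟩
  by_cases hno : IsMultiplyPretransitive G α (k + 1)
  · obtain ⟨Δ, hΔ⟩ := exΔ
    exact ⟨Δ, hΔ, altOn_of_trans hno hΔ⟩
  by_cases hsm : Fintype.card α + 5 ≤ 3 * k
  · obtain ⟨Δ, hΔ⟩ := exΔ
    exact ⟨Δ, hΔ, altOn_of_alt (alt_of_small_degree hk (by omega) hG hsm) Δ⟩
  by_cases hfix : ∀ g ∈ G, ∀ s : Finset α, k + 1 ≤ s.card → (∀ x ∈ s, g x = x) → g = 1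
  · exact Sh.exists_altOn ⟨hk, hG, hfix, by omega, hno⟩
  · push Not at hfix
    obtain ⟨g, hg, s, hs, hsf, hg1⟩ := hfix
    obtain ⟨Q, hQ1, hQf, hQt⟩ := fix_reduction (G := G) (X := α) (k := k) (by omega) hG (g := ⟨g, hg⟩) (by
      intro e
      exact hg1 (congrArg Subtype.val e)) hs (fun x hx => hsf x hx)
    haveI : Fintype (fixSub (X := α) Q) := Fintype.ofFinite _
    haveI : DecidableEq (fixSub (X := α) Q) := Classical.decEq _
    have hcF : Fintype.card (fixSub (X := α) Q) = (fixedPoints Q α).ncard := by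
      rw [← Nat.card_eq_fintype_card]; rfl
    have hlt : Fintype.card (fixSub (X := α) Q) < n := by
      rw [hcF, ← hcard, ← Nat.card_eq_fintype_card, ← Set.ncard_univ]
      apply Set.ncard_lt_ncard _ (Set.toFinite _)
      rw [Set.ssubset_univ_iff]
      intro huniv
      apply hQ1
      rw [eq_bot_iff]
      intro q hq
      rw [Subgroup.mem_bot]
      apply Subtype.ext
      apply Equiv.ext
      intro x
      have : x ∈ fixedPoints Q α := by rw [huniv]; trivial
      exact this ⟨q, hq⟩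
    obtain ⟨Δ, hΔ, hA⟩ := ih _ hlt rfl (MulAction.toPermHom (Subgroup.normalizer (Q : Set G)) (fixSub (X := α) Q)).range k hk (by rw [hcF]; omega) (range_trans hQt)
    refine ⟨Δ.map ⟨Subtype.val, Subtype.val_injective⟩, by rw [Finset.card_map, hΔ], ?_⟩
    intro a ha b hb c hc hab hac hbc
    rw [Finset.mem_map] at ha hb hc
    obtain ⟨a, ha, rfl⟩ := ha
    obtain ⟨b, hb, rfl⟩ := hb
    obtain ⟨c, hc, rfl⟩ := hc
    obtain ⟨_, ⟨⟨⟨y, hy⟩, hyn⟩, rfl⟩, ya, yb, yc, yx⟩ := hA a ha b hb c hc (fun e => hab (by rw [e])) (fun e => hac (by rw [e])) (fun e => hbc (by rw [e]))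
    refine ⟨y, hy, congrArg Subtype.val ya, congrArg Subtype.val yb, congrArg Subtype.val yc, ?_⟩
    intro x hx xa xb xc
    rw [Finset.mem_map] at hx
    obtain ⟨x, hx, rfl⟩ := hx
    exact congrArg Subtype.val (yx x hx (fun e => xa (by rw [e])) (fun e => xb (by rw [e])) (fun e => xc (by rw [e])))

/-- from 3-cycles to even permutations -/
theorem altOn_even {α : Type*} [Fintype α] [DecidableEq α] {G : Subgroup (Equiv.Perm α)} {Δ : Finset α} (h : AltOn G Δ)
    (σ : Equiv.Perm ↥Δ) (hσ : σ ∈ alternatingGroup ↥Δ) : ∃ g ∈ G, ∀ x : ↥Δ, g (x : α) = σ x := by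
  rw [← Equiv.Perm.closure_three_cycles_eq_alternating] at hσ
  refine Subgroup.closure_induction (p := fun σ _ => ∃ g ∈ G, ∀ x : ↥Δ, g (x : α) = σ x) ?_ ?_ ?_ ?_ hσ
  · intro σ hσ
    have h3 : σ.support.card = 3 := Equiv.Perm.IsThreeCycle.card_support hσ
    have ho : orderOf σ = 3 := Equiv.Perm.IsThreeCycle.orderOf hσ
    obtain ⟨a, ha⟩ : ∃ a, a ∈ σ.support := Finset.card_pos.1 (by omega)
    have hab : σ a ≠ a := Equiv.Perm.mem_support.1 ha
    have h33 : σ (σ (σ a)) = a := by
      have : (σ ^ 3) a = a := by rw [← ho, pow_orderOf_eq_one]; rfl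
      exact this
    have hbc : σ (σ a) ≠ σ a := fun e => hab (σ.injective e)
    have hac : σ (σ a) ≠ a := by
      intro e
      rw [e] at h33
      exact hab h33
    have hsupp : σ.support = {a, σ a, σ (σ a)} := by
      symm
      apply Finset.eq_of_subset_of_card_le
      · intro x hx
        simp only [Finset.mem_insert, Finset.mem_singleton] at hx
        rcases hx with rfl | rfl | rfl
        · exact ha
        · exact Equiv.Perm.mem_support.2 hbc
        · rw [Equiv.Perm.mem_support, h33]; exact hac.symm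
      · rw [h3, Finset.card_eq_three.2 ⟨a, σ a, σ (σ a), hab.symm, hac.symm, hbc.symm, rfl⟩]
    obtain ⟨g, hg, ga, gb, gc, gx⟩ := h a a.2 (σ a : Δ) (σ a).2 (σ (σ a) : Δ) (σ (σ a)).2
      (fun e => hab (Subtype.ext e.symm)) (fun e => hac (Subtype.ext e.symm)) (fun e => hbc (Subtype.ext e.symm))
    refine ⟨g, hg, fun x => ?_⟩
    by_cases hx : x ∈ σ.support
    · rw [hsupp] at hx
      simp only [Finset.mem_insert, Finset.mem_singleton] at hx
      rcases hx with rfl | rfl | rfl
      · exact ga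
      · exact gb
      · rw [gc, h33]
    · have hx' := hx
      rw [hsupp] at hx'
      simp only [Finset.mem_insert, Finset.mem_singleton, not_or] at hx'
      rw [Equiv.Perm.notMem_support.1 hx]
      exact gx x x.2 (fun e => hx'.1 (Subtype.ext e)) (fun e => hx'.2.1 (Subtype.ext e)) (fun e => hx'.2.2 (Subtype.ext e))
  · exact ⟨1, G.one_mem, fun x => rfl⟩
  · rintro σ τ _ _ ⟨g, hg, hgx⟩ ⟨k, hk, hkx⟩
    refine ⟨g * k, G.mul_mem hg hk, fun x => ?_⟩
    show g (k x) = _
    rw [hkx, hgx]; rfl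
  · rintro σ _ ⟨g, hg, hgx⟩
    refine ⟨g⁻¹, G.inv_mem hg, fun x => ?_⟩
    rw [Equiv.Perm.inv_eq_iff_eq, hgx]
    congr 1
    exact (σ.apply_symm_apply x).symm

end Cfsg.Agent.H10
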