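import Mathlib
import Cfsg.Agent.H10.MT11
import Cfsg.Agent.FT

set_option autoImplicit false
set_option linter.all false
set_option maxHeartbeats 1000000

/-!
# H10.MT12: groups inducing exactly the alternating group on k-sets
-/

namespace Cfsg.Agent.H10

open MulAction
open scoped Pointwise commutatorElement

section
variable {α : Type*} [Fintype α] [DecidableEq α]

/-- no element induces a transposition on a `k`-set -/
def NoSwap (G : Subgroup (Equiv.Perm α)) (k : ℕ) : Prop :=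
  ∀ Δ : Finset α, Δ.card = k → ∀ g ∈ G, ∀ a ∈ Δ, ∀ b ∈ Δ, a ≠ b → g a = b → g b = a →
    (∀ x ∈ Δ, x ≠ a → x ≠ b → g x = x) → False

theorem altOn_conj {G : Subgroup (Equiv.Perm α)} {k : ℕ} (hom : HomE G k) {Δ₀ : Finset α} (h0 : Δ₀.card = k)
    (hA : AltOn G Δ₀) : ∀ Δ : Finset α, Δ.card = k → AltOn G Δ := by
  intro Δ hΔ a ha b hb c hc hab hac hbc
  obtain ⟨u, hu, huΔ⟩ := hom Δ Δ₀ hΔ h0
  have hin : ∀ x ∈ Δ, u x ∈ Δ₀ := by
    intro x hx
    rw [← huΔ]
    exact Finset.mem_map_of_mem _ hx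
  obtain ⟨g, hg, ga, gb, gc, gx⟩ := hA (u a) (hin a ha) (u b) (hin b hb) (u c) (hin c hc) (fun e => hab (u.injective e))
    (fun e => hac (u.injective e)) (fun e => hbc (u.injective e))
  refine ⟨u⁻¹ * g * u, G.mul_mem (G.mul_mem (G.inv_mem hu) hg) hu, ?_, ?_, ?_, ?_⟩
  · show u⁻¹ (g (u a)) = b
    rw [ga, Equiv.Perm.inv_eq_iff_eq]
  · show u⁻¹ (g (u b)) = c
    rw [gb, Equiv.Perm.inv_eq_iff_eq]
  · show u⁻¹ (g (u c)) = a
    rw [gc, Equiv.Perm.inv_eq_iff_eq]
  · intro x hx xa xb xc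
    show u⁻¹ (g (u x)) = x
    rw [gx (u x) (hin x hx) (fun e => xa (u.injective e)) (fun e => xb (u.injective e)) (fun e => xc (u.injective e)),
      Equiv.Perm.inv_eq_iff_eq]

/-- homogeneous, alternating and a swap: transitive -/
theorem trans_of_swap {G : Subgroup (Equiv.Perm α)} {k : ℕ} (hom : HomE G k) {Δ : Finset α} (h0 : Δ.card = k)
    (hA : AltOn G Δ) {g : Equiv.Perm α} (hg : g ∈ G) {a b : α} (ha : a ∈ Δ) (hb : b ∈ Δ) (hab : a ≠ b)
    (gab : g a = b) (gba : g b = a) (gx : ∀ x ∈ Δ, x ≠ a → x ≠ b → g x = x) : IsMultiplyPretransitive G α k := by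
  have hall : ∀ σ : Equiv.Perm ↥Δ, ∃ g ∈ G, ∀ x : ↥Δ, g (x : α) = σ x := by
    intro σ
    by_cases hσ : σ ∈ alternatingGroup ↥Δ
    · exact altOn_even hA σ hσ
    · have hswap : σ * Equiv.swap ⟨a, ha⟩ ⟨b, hb⟩ ∈ alternatingGroup ↥Δ := by
        rw [Equiv.Perm.mem_alternatingGroup] at hσ ⊢
        have h1 := Int.units_eq_one_or (Equiv.Perm.sign σ)
        rw [Equiv.Perm.sign_mul, Equiv.Perm.sign_swap (fun e => hab (congrArg Subtype.val e))]
        rcases h1 with h1 | h1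
        · exact absurd h1 hσ
        · rw [h1]; rfl
      obtain ⟨k, hk, hkx⟩ := altOn_even hA _ hswap
      refine ⟨k * g, G.mul_mem hk hg, fun x => ?_⟩
      show k (g x) = σ x
      have h2 : g x = ((Equiv.swap (⟨a, ha⟩ : ↥Δ) ⟨b, hb⟩ x : ↥Δ) : α) := by
        by_cases xa : x = ⟨a, ha⟩
        · subst xa; rw [Equiv.swap_apply_left]; exact gab
        · by_cases xb : x = ⟨b, hb⟩
          · subst xb; rw [Equiv.swap_apply_right]; exact gba
          · rw [Equiv.swap_apply_of_ne_of_ne xa xb]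
            exact gx x x.2 (fun e => xa (Subtype.ext e)) (fun e => xb (Subtype.ext e))
      rw [h2, hkx]
      congr 1
      rw [Equiv.Perm.mul_apply, Equiv.swap_apply_self]
  refine ⟨fun x y => ?_⟩
  have hr : ∀ x : Fin k ↪ α, ∃ u ∈ G, ∀ i, u (x i) ∈ Δ := by
    intro x
    obtain ⟨u, hu, huΔ⟩ := hom (Finset.univ.map x) Δ (by rw [Finset.card_map, Finset.card_univ, Fintype.card_fin]) h0
    refine ⟨u, hu, fun i => ?_⟩
    rw [← huΔ]
    exact Finset.mem_map_of_mem _ (Finset.mem_map_of_mem _ (Finset.mem_univ i))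
  obtain ⟨u, hu, hux⟩ := hr x
  obtain ⟨v, hv, hvy⟩ := hr y
  let x' : Fin k → ↥Δ := fun i => ⟨u (x i), hux i⟩
  let y' : Fin k → ↥Δ := fun i => ⟨v (y i), hvy i⟩
  have hx' : Function.Bijective x' := by
    rw [Fintype.bijective_iff_injective_and_card]
    refine ⟨fun i j e => x.injective (u.injective (congrArg Subtype.val e)), ?_⟩
    rw [Fintype.card_fin, Fintype.card_coe, h0]
  have hy' : Function.Bijective y' := by
    rw [Fintype.bijective_iff_injective_and_card]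
    refine ⟨fun i j e => y.injective (v.injective (congrArg Subtype.val e)), ?_⟩
    rw [Fintype.card_fin, Fintype.card_coe, h0]
  obtain ⟨w, hw, hwx⟩ := hall ((Equiv.ofBijective x' hx').symm.trans (Equiv.ofBijective y' hy'))
  refine ⟨⟨v⁻¹ * w * u, G.mul_mem (G.mul_mem (G.inv_mem hv) hw) hu⟩, ?_⟩
  ext i
  show v⁻¹ (w (u (x i))) = y i
  rw [Equiv.Perm.inv_eq_iff_eq]
  have h3 := hwx (x' i)
  rw [Equiv.trans_apply, Equiv.ofBijective_symm_apply_apply] at h3
  exact h3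

theorem noSwap_of_not_trans {G : Subgroup (Equiv.Perm α)} {k : ℕ} (hom : HomE G k) (hA : ∀ Δ : Finset α, Δ.card = k → AltOn G Δ)
    (hn : ¬ IsMultiplyPretransitive G α k) : NoSwap G k := by
  intro Δ hΔ g hg a ha b hb hab gab gba gx
  exact hn (trans_of_swap hom hΔ (hA Δ hΔ) hg ha hb hab gab gba gx)

/-- a double transposition on an alternating set -/
theorem exists_double {G : Subgroup (Equiv.Perm α)} {Δ : Finset α} (hA : AltOn G Δ) {a b c d : α}
    (ha : a ∈ Δ) (hb : b ∈ Δ) (hc : c ∈ Δ) (hd : d ∈ Δ) (h1 : a ≠ b) (h2 : a ≠ c) (h3 : a ≠ d) (h4 : b ≠ c) (h5 : b ≠ d) (h6 : c ≠ d) :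
    ∃ g ∈ G, g a = b ∧ g b = a ∧ g c = d ∧ g d = c ∧ ∀ x ∈ Δ, x ≠ a → x ≠ b → x ≠ c → x ≠ d → g x = x := by
  -- (a b c) then (a b d)... use (a b)(c d) = (a b c)(b c d)⁻¹-like products: y = (a c b) z = (a b d)...
  obtain ⟨y, hy, y1, y2, y3, yx⟩ := hA a ha b hb c hc h1 h2 h4
  obtain ⟨z, hz, z1, z2, z3, zx⟩ := hA b hb c hc d hd h4 h5 h6
  -- y : a→b→c→a, z : b→c→d→b ; y * z : a→b, b→c→a, c→d, d→b→c
  refine ⟨y * z, G.mul_mem hy hz, ?_, ?_, ?_, ?_, ?_⟩
  · show y (z a) = b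
    rw [zx a ha h1 h2 h3, y1]
  · show y (z b) = a
    rw [z1, y3]
  · show y (z c) = d
    rw [z2, yx d hd h3.symm h5.symm h6.symm]
  · show y (z d) = c
    rw [z3, y2]
  · intro x hx xa xb xc xd
    show y (z x) = x
    rw [zx x hx xb xc xd, yx x hx xa xb xc]

/-- pointwise stabilisers of `m`-sets have odd order -/
theorem odd_of_noSwap {G : Subgroup (Equiv.Perm α)} {m : ℕ} (hN : NoSwap G m) {s : Finset α} (hs : m - 2 ≤ s.card) (hm : 2 ≤ m)
    {K : Subgroup (Equiv.Perm α)} (hKG : K ≤ G) (hK : ∀ g ∈ K, ∀ x ∈ s, g x = x) : Odd (Nat.card K) := by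
  haveI : Fact (Nat.Prime 2) := ⟨Nat.prime_two⟩
  rw [← Nat.not_even_iff_odd, even_iff_two_dvd]
  intro hd
  obtain ⟨⟨z, hz⟩, hzo⟩ := exists_prime_orderOf_dvd_card' (G := K) 2 hd
  rw [Subgroup.orderOf_mk] at hzo
  have hzz : ∀ x, z (z x) = x := by
    intro x
    have : (z ^ 2) x = x := by rw [← hzo, pow_orderOf_eq_one]; rfl
    rwa [pow_two] at this
  have hz1 : z ≠ 1 := by
    rintro rfl
    rw [orderOf_one] at hzo; omega
  obtain ⟨a, ha⟩ : ∃ a, z a ≠ a := by
    by_contra hcon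
    push Not at hcon
    exact hz1 (Equiv.ext hcon)
  obtain ⟨t, hts, ht⟩ := Finset.exists_subset_card_eq hs
  have has : a ∉ t := fun h => ha (hK z hz a (hts h))
  have hzas : z a ∉ t := fun h => ha (by
    have := hK z hz (z a) (hts h)
    exact z.injective this)
  refine hN (insert a (insert (z a) t)) ?_ z (hKG hz) a (by simp) (z a) (by simp) ha.symm rfl (hzz a) ?_
  · rw [Finset.card_insert_of_notMem, Finset.card_insert_of_notMem hzas, ht]
    · omega
    · rw [Finset.mem_insert, not_or]; exact ⟨ha.symm, has⟩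
  · intro x hx xa xb
    rw [Finset.mem_insert, Finset.mem_insert] at hx
    rcases hx with rfl | rfl | hx
    · exact absurd rfl xa
    · exact absurd rfl xb
    · exact hK z hz x (hts hx)

/-- the involution trick -/
theorem exists_inv_of_odd {K : Subgroup (Equiv.Perm α)} (hK : Odd (Nat.card K)) {g : Equiv.Perm α} (hg : g * g ∈ K) :
    ∃ t ∈ Subgroup.zpowers g, t * t = 1 ∧ ∀ x, g (g x) = x → t x = g x := by
  refine ⟨g ^ (Nat.card K), Subgroup.pow_mem _ (Subgroup.mem_zpowers g) _, ?_, ?_⟩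
  · have h1 : (⟨g * g, hg⟩ : K) ^ Nat.card K = 1 := pow_card_eq_one'
    have h2 : (g * g) ^ Nat.card K = 1 := congrArg Subtype.val h1
    rw [← pow_add, ← two_mul, pow_mul, pow_two]
    exact h2
  · intro x hx
    exact sq_pow_smul (g := g) (p := x) hx hK

/-- sets of size at least 6 -/
theorem six_case {G : Subgroup (Equiv.Perm α)} {m : ℕ} (hm : 6 ≤ m) (hmn : m ≤ Fintype.card α)
    (hA : ∀ Δ : Finset α, Δ.card = m → AltOn G Δ) (hN : NoSwap G m) : Fintype.card α ≤ m + 1 := by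
  by_contra hcon
  push Not at hcon
  obtain ⟨Δ, -, hΔ⟩ := Finset.exists_subset_card_eq (s := (Finset.univ : Finset α)) (n := m) (by rw [Finset.card_univ]; omega)
  obtain ⟨s₄, hs₄, hs4⟩ := Finset.exists_subset_card_eq (show 4 ≤ Δ.card by omega)
  obtain ⟨a, s1, ha, hS', hs1⟩ := Finset.card_eq_succ.1 hs4
  obtain ⟨b, c, d, hbc, hbd, hcd, rfl⟩ := Finset.card_eq_three.1 hs1
  simp only [Finset.mem_insert, Finset.mem_singleton, not_or] at ha
  obtain ⟨hab, hac, had⟩ := ha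
  have mS : ∀ x, x ∈ s₄ ↔ x = a ∨ x = b ∨ x = c ∨ x = d := by
    intro x; rw [← hS']; simp
  have haΔ : a ∈ Δ := hs₄ ((mS a).2 (by simp))
  have hbΔ : b ∈ Δ := hs₄ ((mS b).2 (by simp))
  have hcΔ : c ∈ Δ := hs₄ ((mS c).2 (by simp))
  have hdΔ : d ∈ Δ := hs₄ ((mS d).2 (by simp))
  obtain ⟨g, hg, ga, gb, gc, gd, gx⟩ := exists_double (hA Δ hΔ) haΔ hbΔ hcΔ hdΔ hab hac had hbc hbd hcd
  obtain ⟨K, hK⟩ : ∃ K : Subgroup (Equiv.Perm α), ∀ y, y ∈ K ↔ y ∈ G ∧ ∀ x ∈ Δ, y x = x :=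
    ⟨{ carrier := {y | y ∈ G ∧ ∀ x ∈ Δ, y x = x}
       one_mem' := ⟨G.one_mem, fun _ _ => rfl⟩
       mul_mem' := fun {y z} hy hz => ⟨G.mul_mem hy.1 hz.1, fun x hx => by
         show y (z x) = x
         rw [hz.2 x hx, hy.2 x hx]⟩
       inv_mem' := fun {y} hy => ⟨G.inv_mem hy.1, fun x hx => by
         rw [Equiv.Perm.inv_eq_iff_eq, hy.2 x hx]⟩ }, fun y => Iff.rfl⟩
  have hKodd : Odd (Nat.card K) := odd_of_noSwap hN (s := Δ) (by omega) (by omega) (fun y hy => ((hK y).1 hy).1) (fun y hy => ((hK y).1 hy).2)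
  have hgg : ∀ x ∈ Δ, g (g x) = x := by
    intro x hx
    by_cases xa : x = a
    · rw [xa, ga, gb]
    · by_cases xb : x = b
      · rw [xb, gb, ga]
      · by_cases xc : x = c
        · rw [xc, gc, gd]
        · by_cases xd : x = d
          · rw [xd, gd, gc]
          · rw [gx x hx xa xb xc xd, gx x hx xa xb xc xd]
  obtain ⟨t, ht, htt, htx⟩ := exists_inv_of_odd hKodd (g := g) ((hK _).2 ⟨G.mul_mem hg hg, hgg⟩)
  have htG : t ∈ G := (Subgroup.zpowers_le.2 hg) ht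
  have ta : t a = b := by rw [htx a (hgg a haΔ), ga]
  have tb : t b = a := by rw [htx b (hgg b hbΔ), gb]
  have tc : t c = d := by rw [htx c (hgg c hcΔ), gc]
  have td : t d = c := by rw [htx d (hgg d hdΔ), gd]
  have tΔ : ∀ x ∈ Δ, x ∉ s₄ → t x = x := by
    intro x hx hxs
    rw [mS] at hxs
    push Not at hxs
    rw [htx x (hgg x hx), gx x hx hxs.1 hxs.2.1 hxs.2.2.1 hxs.2.2.2]
  have ttx : ∀ x, t (t x) = x := by
    intro x
    show (t * t) x = x
    rw [htt]; rfl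
  -- t fixes everything outside {a,b,c,d}
  have tout : ∀ x, x ∉ s₄ → t x = x := by
    intro x hxs
    by_contra htx'
    have hxΔ : x ∉ Δ := fun h => htx' (tΔ x h hxs)
    have hys : t x ∉ s₄ := by
      intro h
      rw [mS] at h
      rcases h with h | h | h | h
      · have := ttx x; rw [h, ta] at this; exact hxs ((mS _).2 (by rw [← this]; simp))
      · have := ttx x; rw [h, tb] at this; exact hxs ((mS _).2 (by rw [← this]; simp))
      · have := ttx x; rw [h, tc] at this; exact hxs ((mS _).2 (by rw [← this]; simp))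
      · have := ttx x; rw [h, td] at this; exact hxs ((mS _).2 (by rw [← this]; simp))
    have hyΔ : t x ∉ Δ := by
      intro h
      have := tΔ _ h hys
      rw [ttx] at this
      exact htx' this.symm
    obtain ⟨r, hr, hrc⟩ := Finset.exists_subset_card_eq (s := Δ \ s₄) (n := m - 6) (by
      rw [Finset.card_sdiff_of_subset hs₄, hΔ, hs4]; omega)
    have hr' : ∀ z ∈ r, z ∈ Δ ∧ z ∉ s₄ := fun z hz => Finset.mem_sdiff.1 (hr hz)
    obtain ⟨Δ', hΔ'⟩ : ∃ Δ' : Finset α, Δ' = insert x (insert (t x) (s₄ ∪ r)) := ⟨_, rfl⟩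
    have hm' : ∀ z, z ∈ Δ' ↔ z = x ∨ z = t x ∨ z ∈ s₄ ∨ z ∈ r := by
      intro z; rw [hΔ']; simp
    have hc' : Δ'.card = m := by
      rw [hΔ', Finset.card_insert_of_notMem, Finset.card_insert_of_notMem, Finset.card_union_of_disjoint, hs4, hrc]
      · omega
      · rw [Finset.disjoint_right]; exact fun z hz => (hr' z hz).2
      · rw [Finset.mem_union, not_or]; exact ⟨hys, fun h => hyΔ (hr' _ h).1⟩
      · rw [Finset.mem_insert, Finset.mem_union, not_or, not_or]; exact ⟨fun e => htx' e.symm, hxs, fun h => hxΔ (hr' _ h).1⟩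
    have hne : ∀ z, z ∈ s₄ → z ≠ x ∧ z ≠ t x := fun z hz => ⟨fun e => hxs (e ▸ hz), fun e => hys (e ▸ hz)⟩
    obtain ⟨h, hh, hc1, hd1, hx1, hy1, hz1⟩ := exists_double (hA Δ' hc') (a := c) (b := d) (c := x) (d := t x)
      ((hm' _).2 (Or.inr (Or.inr (Or.inl ((mS c).2 (by simp))))))
      ((hm' _).2 (Or.inr (Or.inr (Or.inl ((mS d).2 (by simp))))))
      ((hm' _).2 (Or.inl rfl)) ((hm' _).2 (Or.inr (Or.inl rfl))) hcd (hne c ((mS c).2 (by simp))).1 (hne c ((mS c).2 (by simp))).2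
      (hne d ((mS d).2 (by simp))).1 (hne d ((mS d).2 (by simp))).2 (fun e => htx' e.symm)
    have hxne : ∀ z, z = a ∨ z = b → z ≠ c ∧ z ≠ d ∧ z ≠ x ∧ z ≠ t x := by
      rintro z (rfl | rfl)
      · exact ⟨hac, had, hne _ ((mS _).2 (by simp))⟩
      · exact ⟨hbc, hbd, hne _ ((mS _).2 (by simp))⟩
    have haa := hxne a (Or.inl rfl)
    have hbb := hxne b (Or.inr rfl)
    have hha : h a = a := hz1 a ((hm' _).2 (Or.inr (Or.inr (Or.inl ((mS a).2 (by simp)))))) haa.1 haa.2.1 haa.2.2.1 haa.2.2.2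
    have hhb : h b = b := hz1 b ((hm' _).2 (Or.inr (Or.inr (Or.inl ((mS b).2 (by simp)))))) hbb.1 hbb.2.1 hbb.2.2.1 hbb.2.2.2
    refine hN Δ' hc' (t * h) (G.mul_mem htG hh) a ((hm' _).2 (Or.inr (Or.inr (Or.inl ((mS a).2 (by simp)))))) b
      ((hm' _).2 (Or.inr (Or.inr (Or.inl ((mS b).2 (by simp)))))) hab ?_ ?_ ?_
    · show t (h a) = b
      rw [hha, ta]
    · show t (h b) = a
      rw [hhb, tb]
    · intro z hz za zb
      show t (h z) = z
      rcases (hm' z).1 hz with rfl | rfl | hz | hz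
      · rw [hx1, ttx]
      · rw [hy1]
      · rw [mS] at hz
        rcases hz with rfl | rfl | rfl | rfl
        · exact absurd rfl za
        · exact absurd rfl zb
        · rw [hc1, td]
        · rw [hd1, tc]
      · have hzr := hr' z hz
        have hzs := hzr.2
        rw [mS] at hzs
        push Not at hzs
        rw [hz1 z ((hm' z).2 (Or.inr (Or.inr (Or.inr hz)))) hzs.2.2.1 hzs.2.2.2 (fun e => hxΔ (e ▸ hzr.1)) (fun e => hyΔ (e ▸ hzr.1))]
        exact tΔ z hzr.1 hzr.2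
  obtain ⟨r, hr, hrc⟩ := Finset.exists_subset_card_eq (s := s₄ᶜ) (n := m - 2) (by
    rw [Finset.card_compl, hs4]; omega)
  have hr' : ∀ z ∈ r, z ∉ s₄ := fun z hz => Finset.mem_compl.1 (hr hz)
  refine hN (insert a (insert b r)) ?_ t htG a (by simp) b (by simp) hab ta tb ?_
  · rw [Finset.card_insert_of_notMem, Finset.card_insert_of_notMem, hrc]
    · omega
    · exact fun h => hr' b h ((mS b).2 (by simp))
    · rw [Finset.mem_insert, not_or]; exact ⟨hab, fun h => hr' a h ((mS a).2 (by simp))⟩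
  · intro x hx xa xb
    rw [Finset.mem_insert, Finset.mem_insert] at hx
    rcases hx with rfl | rfl | hx
    · exact absurd rfl xa
    · exact absurd rfl xb
    · exact tout x (hr' x hx)

end

end Cfsg.Agent.H10
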