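import Mathlib
import Cfsg.Agent.H10.MT12

set_option autoImplicit false
set_option linter.all false
set_option maxHeartbeats 1000000

/-!
# H10.MT13: 4-transitive groups inducing exactly the alternating group on 5-sets have degree at most 6
-/

namespace Cfsg.Agent.H10

open MulAction
open scoped Pointwise commutatorElement

/-- a solvable nontrivial group has a nontrivial abelian characteristic subgroup -/
theorem exists_char_abelian {K : Type*} [Group K] (h : Group.IsSolvable K) (hn : Nontrivial K) :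
    ∃ A : Subgroup K, A.Characteristic ∧ A ≠ ⊥ ∧ ∀ a ∈ A, ∀ b ∈ A, a * b = b * a := by
  classical
  obtain ⟨n, hn'⟩ := h.solvable
  have hex : ∃ n, derivedSeries K n = ⊥ := ⟨n, hn'⟩
  have h1 := Nat.find_spec hex
  have h2 : Nat.find hex ≠ 0 := by
    intro e
    rw [e, derivedSeries_zero] at h1
    exact top_ne_bot h1
  obtain ⟨m, hm⟩ := Nat.exists_eq_succ_of_ne_zero h2
  have h3 : derivedSeries K m ≠ ⊥ := Nat.find_min hex (by omega)
  rw [hm, Nat.succ_eq_add_one, derivedSeries_succ, Subgroup.commutator_eq_bot_iff_le_centralizer] at h1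
  refine ⟨derivedSeries K m, inferInstance, h3, ?_⟩
  intro a ha b hb
  exact ((Subgroup.mem_centralizer_iff.1 (h1 ha)) b hb).symm

section
variable {α : Type*} [Fintype α] [DecidableEq α]

theorem alt_step {G : Subgroup (Equiv.Perm α)} {Δ F : Finset α} (hA : AltOn G Δ) (hF : F ⊆ Δ) (hc : F.card + 3 ≤ Δ.card)
    {q p : α} (hq : q ∈ Δ) (hqF : q ∉ F) (hp : p ∈ Δ) (hpF : p ∉ F) :
    ∃ g ∈ G, g q = p ∧ (∀ x ∈ F, g x = x) ∧ ∀ x ∈ Δ, g x ∈ Δ := by
  by_cases hqp : q = p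
  · subst hqp
    exact ⟨1, G.one_mem, rfl, fun _ _ => rfl, fun x hx => hx⟩
  · obtain ⟨c, hc, hcF⟩ := Finset.exists_mem_notMem_of_card_lt_card (s := insert q (insert p F)) (t := Δ) (by
      have := Finset.card_insert_le q (insert p F)
      have := Finset.card_insert_le p F
      omega)
    simp only [Finset.mem_insert, not_or] at hcF
    obtain ⟨g, hg, g1, g2, g3, gx⟩ := hA q hq p hp c hc hqp (Ne.symm hcF.1) (Ne.symm hcF.2.1)
    refine ⟨g, hg, g1, ?_, ?_⟩
    · intro x hx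
      exact gx x (hF hx) (fun e => hqF (e ▸ hx)) (fun e => hpF (e ▸ hx)) (fun e => hcF.2.2 (e ▸ hx))
    · intro x hx
      by_cases h1 : x = q
      · rw [h1, g1]; exact hp
      · by_cases h2 : x = p
        · rw [h2, g2]; exact hc
        · by_cases h3 : x = c
          · rw [h3, g3]; exact hq
          · rw [gx x hx h1 h2 h3]; exact hx

theorem card_five {a b c d e : α} (h1 : a ≠ b) (h2 : a ≠ c) (h3 : a ≠ d) (h4 : a ≠ e) (h5 : b ≠ c) (h6 : b ≠ d) (h7 : b ≠ e)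
    (h8 : c ≠ d) (h9 : c ≠ e) (h10 : d ≠ e) : ({a, b, c, d, e} : Finset α).card = 5 := by
  rw [Finset.card_insert_of_notMem, card_four h5 h6 h7 h8 h9 h10]
  simp only [Finset.mem_insert, Finset.mem_singleton, not_or]; exact ⟨h1, h2, h3, h4⟩

theorem five_case {G : Subgroup (Equiv.Perm α)} (h4 : IsMultiplyPretransitive G α 4) (hom : HomE G 5)
    (hA : ∀ Δ : Finset α, Δ.card = 5 → AltOn G Δ) (hN : NoSwap G 5) : Fintype.card α ≤ 6 := by
  by_contra hcon
  push Not at hcon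
  have tr' := tr4_of h4
  have tr : ∀ a b c d a' b' c' d' : α, a ≠ b → a ≠ c → a ≠ d → b ≠ c → b ≠ d → c ≠ d →
      a' ≠ b' → a' ≠ c' → a' ≠ d' → b' ≠ c' → b' ≠ d' → c' ≠ d' → ∃ g ∈ G, g a = a' ∧ g b = b' ∧ g c = c' ∧ g d = d' := by
    intro a b c d a' b' c' d' h1 h2 h3 h4 h5 h6 k1 k2 k3 k4 k5 k6
    obtain ⟨⟨g, hg⟩, g1, g2, g3, g4⟩ := tr' a b c d a' b' c' d' h1 h2 h3 h4 h5 h6 k1 k2 k3 k4 k5 k6
    exact ⟨g, hg, g1, g2, g3, g4⟩
  obtain ⟨s₄, -, hs4⟩ := Finset.exists_subset_card_eq (s := (Finset.univ : Finset α)) (n := 4) (by rw [Finset.card_univ]; omega)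
  obtain ⟨p₁, s1, ha, hS', hs1⟩ := Finset.card_eq_succ.1 hs4
  obtain ⟨p₂, p₃, o, h23, h2o, h3o, rfl⟩ := Finset.card_eq_three.1 hs1
  simp only [Finset.mem_insert, Finset.mem_singleton, not_or] at ha
  obtain ⟨h12, h13, h1o⟩ := ha
  have h12' : p₁ ≠ p₂ := h12
  have h13' : p₁ ≠ p₃ := h13
  have h1o' : p₁ ≠ o := h1o
  obtain ⟨K, hK⟩ : ∃ K : Subgroup (Equiv.Perm α), ∀ y, y ∈ K ↔ y ∈ G ∧ y p₁ = p₁ ∧ y p₂ = p₂ ∧ y p₃ = p₃ :=
    ⟨{ carrier := {y | y ∈ G ∧ y p₁ = p₁ ∧ y p₂ = p₂ ∧ y p₃ = p₃}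
       one_mem' := ⟨G.one_mem, rfl, rfl, rfl⟩
       mul_mem' := fun {y z} hy hz => ⟨G.mul_mem hy.1 hz.1, by
         show y (z p₁) = p₁
         rw [hz.2.1, hy.2.1], by
         show y (z p₂) = p₂
         rw [hz.2.2.1, hy.2.2.1], by
         show y (z p₃) = p₃
         rw [hz.2.2.2, hy.2.2.2]⟩
       inv_mem' := fun {y} hy => ⟨G.inv_mem hy.1, by
         rw [Equiv.Perm.inv_eq_iff_eq, hy.2.1], by
         rw [Equiv.Perm.inv_eq_iff_eq, hy.2.2.1], by
         rw [Equiv.Perm.inv_eq_iff_eq, hy.2.2.2]⟩ }, fun y => Iff.rfl⟩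
  have hP3 : ({p₁, p₂, p₃} : Finset α).card = 3 := Finset.card_eq_three.2 ⟨p₁, p₂, p₃, h12, h13, h23, rfl⟩
  have hKodd : Odd (Nat.card K) := odd_of_noSwap hN (s := {p₁, p₂, p₃}) (by rw [hP3]) (by norm_num) (fun y hy => ((hK y).1 hy).1) (by
    intro y hy x hx
    have := (hK y).1 hy
    simp only [Finset.mem_insert, Finset.mem_singleton] at hx
    rcases hx with rfl | rfl | rfl
    · exact this.2.1
    · exact this.2.2.1
    · exact this.2.2.2)
  have hKsol : Group.IsSolvable K := FT.odd_order hKodd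
  -- 2-homogeneity of K outside
  have hom2 : ∀ x y x' y' : α, x ≠ p₁ → x ≠ p₂ → x ≠ p₃ → y ≠ p₁ → y ≠ p₂ → y ≠ p₃ → x' ≠ p₁ → x' ≠ p₂ → x' ≠ p₃ →
      y' ≠ p₁ → y' ≠ p₂ → y' ≠ p₃ → x ≠ y → x' ≠ y' → ∃ κ ∈ K, (κ x = x' ∧ κ y = y') ∨ (κ x = y' ∧ κ y = x') := by
    intro x y x' y' x1 x2 x3 y1 y2 y3 x1' x2' x3' y1' y2' y3' hxy hxy'
    have c1 : ({p₁, p₂, p₃, x, y} : Finset α).card = 5 := card_five h12' h13' x1.symm y1.symm h23 x2.symm y2.symm x3.symm y3.symm hxy
    obtain ⟨Δ', hΔ'⟩ : ∃ Δ' : Finset α, Δ' = {p₁, p₂, p₃, x', y'} := ⟨_, rfl⟩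
    have c2 : Δ'.card = 5 := by rw [hΔ']; exact card_five h12' h13' x1'.symm y1'.symm h23 x2'.symm y2'.symm x3'.symm y3'.symm hxy'
    obtain ⟨u, hu, huΔ⟩ := hom _ _ c1 c2
    have hin : ∀ z, z = p₁ ∨ z = p₂ ∨ z = p₃ ∨ z = x ∨ z = y → u z ∈ Δ' := by
      intro z hz
      rw [← huΔ]
      apply Finset.mem_map_of_mem
      simpa using hz
    have m1 : p₁ ∈ Δ' := by rw [hΔ']; simp
    have m2 : p₂ ∈ Δ' := by rw [hΔ']; simp
    have m3 : p₃ ∈ Δ' := by rw [hΔ']; simp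
    obtain ⟨v₁, hv₁, v1a, -, v1c⟩ := alt_step (hA Δ' c2) (F := ∅) (Finset.empty_subset _) (by rw [c2]; simp) (hin p₁ (by simp)) (by simp) m1 (by simp)
    have hin2 : v₁ (u p₂) ∈ Δ' := v1c _ (hin p₂ (by simp))
    obtain ⟨v₂, hv₂, v2a, v2b, v2c⟩ := alt_step (hA Δ' c2) (F := {p₁}) (by
        intro z hz; rw [Finset.mem_singleton] at hz; rw [hz]; exact m1) (by rw [c2]; simp) hin2 (by
        rw [Finset.mem_singleton, ← v1a]
        intro e
        exact h12' (u.injective (v₁.injective e)).symm) m2 (by rw [Finset.mem_singleton]; exact h12'.symm)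
    have hin3 : v₂ (v₁ (u p₃)) ∈ Δ' := v2c _ (v1c _ (hin p₃ (by simp)))
    have e1 : v₂ (v₁ (u p₁)) = p₁ := by rw [v1a]; exact v2b p₁ (by simp)
    obtain ⟨v₃, hv₃, v3a, v3b, v3c⟩ := alt_step (hA Δ' c2) (F := {p₁, p₂}) (by
        intro z hz; simp only [Finset.mem_insert, Finset.mem_singleton] at hz
        rcases hz with rfl | rfl
        · exact m1
        · exact m2) (by rw [c2, Finset.card_pair h12']) hin3 (by
        simp only [Finset.mem_insert, Finset.mem_singleton, not_or]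
        constructor
        · intro e
          rw [← e1] at e
          exact h13' (u.injective (v₁.injective (v₂.injective e))).symm
        · intro e
          rw [← v2a] at e
          exact h23 (u.injective (v₁.injective (v₂.injective e))).symm) m3 (by
        simp only [Finset.mem_insert, Finset.mem_singleton, not_or]
        exact ⟨h13'.symm, h23.symm⟩)
    obtain ⟨κ, hκ⟩ : ∃ κ, κ = v₃ * v₂ * v₁ * u := ⟨_, rfl⟩
    have κx : ∀ z, κ z = v₃ (v₂ (v₁ (u z))) := fun z => by rw [hκ]; rfl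
    have k1 : κ p₁ = p₁ := by rw [κx, e1]; exact v3b p₁ (by simp)
    have k2 : κ p₂ = p₂ := by rw [κx, v2a]; exact v3b p₂ (by simp)
    have k3 : κ p₃ = p₃ := by rw [κx, v3a]
    have hκK : κ ∈ K := (hK κ).2 ⟨by rw [hκ]; exact G.mul_mem (G.mul_mem (G.mul_mem hv₃ hv₂) hv₁) hu, k1, k2, k3⟩
    have hκΔ : ∀ z, z = x ∨ z = y → κ z = x' ∨ κ z = y' := by
      intro z hz
      have hz1 : κ z ∈ Δ' := by
        rw [κx]
        refine v3c _ (v2c _ (v1c _ (hin z ?_)))
        rcases hz with rfl | rfl <;> simp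
      have hz2 : z ≠ p₁ ∧ z ≠ p₂ ∧ z ≠ p₃ := by
        rcases hz with rfl | rfl
        · exact ⟨x1, x2, x3⟩
        · exact ⟨y1, y2, y3⟩
      rw [hΔ'] at hz1
      simp only [Finset.mem_insert, Finset.mem_singleton] at hz1
      rcases hz1 with e | e | e | e | e
      · exact absurd (κ.injective (e.trans k1.symm)) hz2.1
      · exact absurd (κ.injective (e.trans k2.symm)) hz2.2.1
      · exact absurd (κ.injective (e.trans k3.symm)) hz2.2.2
      · exact Or.inl e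
      · exact Or.inr e
    refine ⟨κ, hκK, ?_⟩
    rcases hκΔ x (Or.inl rfl) with e | e
    · rcases hκΔ y (Or.inr rfl) with e' | e'
      · exact absurd (κ.injective (e.trans e'.symm)) hxy
      · exact Or.inl ⟨e, e'⟩
    · rcases hκΔ y (Or.inr rfl) with e' | e'
      · exact Or.inr ⟨e, e'⟩
      · exact absurd (κ.injective (e.trans e'.symm)) hxy
  -- other points
  obtain ⟨o', ho'⟩ : ∃ o', o' ∉ ({p₁, p₂, p₃, o} : Finset α) := by
    by_contra hcon'
    push Not at hcon'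
    have := Finset.card_le_card (fun x _ => hcon' x : (Finset.univ : Finset α) ⊆ {p₁, p₂, p₃, o})
    rw [Finset.card_univ, card_four h12' h13' h1o' h23 h2o h3o] at this
    omega
  simp only [Finset.mem_insert, Finset.mem_singleton, not_or] at ho'
  have hKnt : Nontrivial K := by
    obtain ⟨g, hg, g1, g2, g3, g4⟩ := tr p₁ p₂ p₃ o p₁ p₂ p₃ o' h12' h13' h1o' h23 h2o h3o h12' h13' (Ne.symm ho'.1) h23 (Ne.symm ho'.2.1) (Ne.symm ho'.2.2.1)
    refine ⟨⟨⟨g, (hK g).2 ⟨hg, g1, g2, g3⟩⟩, 1, ?_⟩⟩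
    intro e
    have : g = 1 := congrArg Subtype.val e
    rw [this] at g4
    exact ho'.2.2.2 g4.symm
  obtain ⟨A', hA'c, hA'b, hA'a⟩ := exists_char_abelian hKsol hKnt
  obtain ⟨A, hAd⟩ : ∃ A : Subgroup (Equiv.Perm α), A = A'.map K.subtype := ⟨_, rfl⟩
  have hAK : A ≤ K := by rw [hAd]; exact Subgroup.map_subtype_le A'
  have hAcomm : ∀ a ∈ A, ∀ b ∈ A, a * b = b * a := by
    intro a ha b hb
    rw [hAd] at ha hb
    obtain ⟨a, ha, rfl⟩ := ha
    obtain ⟨b, hb, rfl⟩ := hb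
    exact congrArg Subtype.val (hA'a a ha b hb)
  have hAnorm : ∀ w ∈ G, (w p₁ = p₁ ∨ w p₁ = p₂ ∨ w p₁ = p₃) → (w p₂ = p₁ ∨ w p₂ = p₂ ∨ w p₂ = p₃) →
      (w p₃ = p₁ ∨ w p₃ = p₂ ∨ w p₃ = p₃) → ∀ a ∈ A, w * a * w⁻¹ ∈ A := by
    intro w hw w1 w2 w3
    have wP : ∀ z, (z = p₁ ∨ z = p₂ ∨ z = p₃) → (w z = p₁ ∨ w z = p₂ ∨ w z = p₃) := by
      rintro z (rfl | rfl | rfl)
      · exact w1
      · exact w2
      · exact w3
    have wimg : ({p₁, p₂, p₃} : Finset α).map w.toEmbedding = {p₁, p₂, p₃} := by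
      apply Finset.eq_of_subset_of_card_le
      · intro z hz
        rw [Finset.mem_map] at hz
        obtain ⟨y, hy, rfl⟩ := hz
        simp only [Finset.mem_insert, Finset.mem_singleton] at hy ⊢
        exact wP y hy
      · rw [Finset.card_map]
    have wP' : ∀ z, (z = p₁ ∨ z = p₂ ∨ z = p₃) → (w⁻¹ z = p₁ ∨ w⁻¹ z = p₂ ∨ w⁻¹ z = p₃) := by
      intro z hz
      have hz' : z ∈ ({p₁, p₂, p₃} : Finset α).map w.toEmbedding := by rw [wimg]; simpa using hz
      rw [Finset.mem_map] at hz'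
      obtain ⟨y, hy, rfl⟩ := hz'
      have : w⁻¹ (w.toEmbedding y) = y := by
        rw [Equiv.Perm.inv_eq_iff_eq]; rfl
      rw [this]
      simpa using hy
    have kP : ∀ k ∈ K, ∀ z, (z = p₁ ∨ z = p₂ ∨ z = p₃) → k z = z := by
      intro k hk z hz
      have := (hK k).1 hk
      rcases hz with rfl | rfl | rfl
      · exact this.2.1
      · exact this.2.2.1
      · exact this.2.2.2
    have hwK : w ∈ Subgroup.normalizer (K : Set (Equiv.Perm α)) := by
      rw [Subgroup.mem_normalizer_iff]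
      intro k
      constructor
      · intro hk
        have hkG := ((hK k).1 hk).1
        rw [hK]
        refine ⟨G.mul_mem (G.mul_mem hw hkG) (G.inv_mem hw), ?_, ?_, ?_⟩
        · show w (k (w⁻¹ p₁)) = p₁
          rw [kP k hk _ (wP' p₁ (by simp))]
          exact w.apply_symm_apply p₁
        · show w (k (w⁻¹ p₂)) = p₂
          rw [kP k hk _ (wP' p₂ (by simp))]
          exact w.apply_symm_apply p₂
        · show w (k (w⁻¹ p₃)) = p₃
          rw [kP k hk _ (wP' p₃ (by simp))]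
          exact w.apply_symm_apply p₃
      · intro hk
        have hkG : k ∈ G := by
          have h1 := ((hK _).1 hk).1
          have h2 := G.mul_mem (G.mul_mem (G.inv_mem hw) h1) hw
          rwa [show w⁻¹ * (w * k * w⁻¹) * w = k by group] at h2
        rw [hK]
        have h3 : ∀ z, (z = p₁ ∨ z = p₂ ∨ z = p₃) → k z = z := by
          intro z hz
          have h4 := kP _ hk (w z) (wP z hz)
          have h5 : (w * k * w⁻¹) (w z) = w (k z) := by
            show w (k (w⁻¹ (w z))) = w (k z)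
            rw [show w⁻¹ (w z) = z from w.symm_apply_apply z]
          rw [h5] at h4
          exact w.injective h4
        exact ⟨hkG, h3 _ (by simp), h3 _ (by simp), h3 _ (by simp)⟩
    intro a ha
    rw [hAd] at ha ⊢
    obtain ⟨a, ha, rfl⟩ := ha
    have h1 := (Subgroup.characteristic_iff_map_eq.1 hA'c) (Subgroup.normalizerMonoidHom K ⟨w, hwK⟩)
    refine ⟨Subgroup.normalizerMonoidHom K ⟨w, hwK⟩ a, ?_, rfl⟩
    rw [SetLike.mem_coe, ← h1]
    exact ⟨a, ha, rfl⟩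
  have hAP : ∀ a ∈ A, a p₁ = p₁ ∧ a p₂ = p₂ ∧ a p₃ = p₃ := fun a ha => ((hK a).1 (hAK ha)).2
  -- transitivity of A
  have hAtr : ∀ z, z ≠ p₁ → z ≠ p₂ → z ≠ p₃ → ∃ b ∈ A, b o = z := by
    obtain ⟨a, ha, ha1⟩ : ∃ a ∈ A, a ≠ 1 := by
      by_contra hcon'
      push Not at hcon'
      apply hA'b
      rw [eq_bot_iff]
      intro x hx
      rw [Subgroup.mem_bot]
      exact Subtype.ext (hcon' x (by rw [hAd]; exact ⟨x, hx, rfl⟩))
    obtain ⟨x, hx⟩ : ∃ x, a x ≠ x := by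
      by_contra hcon'
      push Not at hcon'
      exact ha1 (Equiv.ext hcon')
    obtain ⟨a1, a2, a3⟩ := hAP a ha
    have x1 : x ≠ p₁ := by rintro rfl; exact hx a1
    have x2 : x ≠ p₂ := by rintro rfl; exact hx a2
    have x3 : x ≠ p₃ := by rintro rfl; exact hx a3
    have ax1 : a x ≠ p₁ := fun e => x1 (a.injective (e.trans a1.symm))
    have ax2 : a x ≠ p₂ := fun e => x2 (a.injective (e.trans a2.symm))
    have ax3 : a x ≠ p₃ := fun e => x3 (a.injective (e.trans a3.symm))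
    have orb : ∀ z, z ≠ p₁ → z ≠ p₂ → z ≠ p₃ → ∃ b ∈ A, b x = z := by
      intro z z1 z2 z3
      by_cases hzx : z = x
      · exact ⟨1, A.one_mem, hzx.symm⟩
      · obtain ⟨κ, hκ, h⟩ := hom2 x (a x) x z x1 x2 x3 ax1 ax2 ax3 x1 x2 x3 z1 z2 z3 hx.symm (Ne.symm hzx)
        have hκ' := (hK κ).1 hκ
        have h5 := hAnorm κ hκ'.1 (Or.inl hκ'.2.1) (Or.inr (Or.inl hκ'.2.2.1)) (Or.inr (Or.inr hκ'.2.2.2)) a ha
        rcases h with ⟨h1, h2⟩ | ⟨h1, h2⟩
        · refine ⟨_, h5, ?_⟩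
          show κ (a (κ⁻¹ x)) = z
          have : κ⁻¹ x = x := by rw [Equiv.Perm.inv_eq_iff_eq, h1]
          rw [this, h2]
        · refine ⟨_, A.inv_mem h5, ?_⟩
          rw [Equiv.Perm.inv_eq_iff_eq]
          show x = κ (a (κ⁻¹ z))
          have : κ⁻¹ z = x := by rw [Equiv.Perm.inv_eq_iff_eq, h1]
          rw [this, h2]
    obtain ⟨b₀, hb₀, hb₀o⟩ := orb o h1o'.symm h2o.symm h3o.symm
    intro z z1 z2 z3
    obtain ⟨b, hb, hbz⟩ := orb z z1 z2 z3
    refine ⟨b * b₀⁻¹, A.mul_mem hb (A.inv_mem hb₀), ?_⟩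
    show b (b₀⁻¹ o) = z
    have : b₀⁻¹ o = x := by rw [Equiv.Perm.inv_eq_iff_eq, hb₀o]
    rw [this, hbz]
  -- an element commuting with A and fixing o fixes all points outside P
  have hcomm : ∀ w : Equiv.Perm α, (∀ a ∈ A, w * a = a * w) → w o = o → ∀ z, z ≠ p₁ → z ≠ p₂ → z ≠ p₃ → w z = z := by
    intro w hw wo z z1 z2 z3
    obtain ⟨b, hb, rfl⟩ := hAtr z z1 z2 z3
    show (w * b) o = b o
    rw [hw b hb]
    show b (w o) = b o
    rw [wo]
  have hreg : ∀ b ∈ A, b o = o → b = 1 := by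
    intro b hb hbo
    have h1 := hcomm b (fun a ha => hAcomm b hb a ha) hbo
    obtain ⟨b1, b2, b3⟩ := hAP b hb
    apply Equiv.ext
    intro z
    by_cases z1 : z = p₁
    · rw [z1, b1]; rfl
    · by_cases z2 : z = p₂
      · rw [z2, b2]; rfl
      · by_cases z3 : z = p₃
        · rw [z3, b3]; rfl
        · rw [h1 z z1 z2 z3]; rfl
  -- involutions with unique fixed point outside P invert A
  have hinv : ∀ t ∈ G, t * t = 1 → (t p₁ = p₁ ∨ t p₁ = p₂ ∨ t p₁ = p₃) → (t p₂ = p₁ ∨ t p₂ = p₂ ∨ t p₂ = p₃) →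
      (t p₃ = p₁ ∨ t p₃ = p₂ ∨ t p₃ = p₃) → t o = o → (∀ z, z ≠ p₁ → z ≠ p₂ → z ≠ p₃ → t z = z → z = o) →
      ∀ a ∈ A, t * a * t⁻¹ = a⁻¹ := by
    intro t ht htt t1 t2 t3 to' tu a ha
    have h1 := hAnorm t ht t1 t2 t3 a ha
    have hti : t⁻¹ = t := inv_eq_of_mul_eq_one_right htt
    obtain ⟨b, hb⟩ : ∃ b, b = t * a * t⁻¹ := ⟨_, rfl⟩
    rw [← hb] at h1 ⊢
    have hbt : t * a = b * t := by rw [hb]; group
    have htb : t * b = a * t := by
      rw [hb, hti]
      calc t * (t * a * t) = (t * t) * a * t := by group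
        _ = a * t := by rw [htt, one_mul]
    have h3 : t * (a * b) = (a * b) * t := by
      calc t * (a * b) = (t * a) * b := by group
        _ = b * (t * b) := by rw [hbt]; group
        _ = (b * a) * t := by rw [htb]; group
        _ = (a * b) * t := by rw [hAcomm b h1 a ha]
    have h4 : a * b ∈ A := A.mul_mem ha h1
    obtain ⟨q1, q2, q3⟩ := hAP _ h4
    have h5 : (a * b) o = o := by
      apply tu
      · intro e; exact h1o'.symm ((a * b).injective (e.trans q1.symm))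
      · intro e; exact h2o.symm ((a * b).injective (e.trans q2.symm))
      · intro e; exact h3o.symm ((a * b).injective (e.trans q3.symm))
      · show (t * (a * b)) o = (a * b) o
        rw [h3]
        show (a * b) (t o) = (a * b) o
        rw [to']
    have h6 := hreg _ h4 h5
    exact (inv_eq_of_mul_eq_one_right h6).symm
  -- two involutions
  have hnofix : ∀ t ∈ G, ∀ a b c : α, ({a, b, c} : Finset α) = {p₁, p₂, p₃} → a ≠ b → t a = b → t b = a → t c = c → t o = o →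
      ∀ z, z ≠ p₁ → z ≠ p₂ → z ≠ p₃ → t z = z → z = o := by
    intro t ht a b c habc hab tab tba tcc to' z z1 z2 z3 tz
    by_contra hzo
    have hset : ∀ x, (x = a ∨ x = b ∨ x = c) ↔ (x = p₁ ∨ x = p₂ ∨ x = p₃) := by
      intro x
      have := Finset.ext_iff.1 habc x
      simpa using this
    have hc : (insert o (insert z ({a, b, c} : Finset α))).card = 5 := by
      rw [Finset.card_insert_of_notMem, Finset.card_insert_of_notMem, habc, hP3]
      · rw [habc]; simp only [Finset.mem_insert, Finset.mem_singleton, not_or]; exact ⟨z1, z2, z3⟩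
      · rw [habc]; simp only [Finset.mem_insert, Finset.mem_singleton, not_or]
        exact ⟨fun e => hzo e.symm, h1o'.symm, h2o.symm, h3o.symm⟩
    refine hN _ hc t ht a (by simp) b (by simp) hab tab tba ?_
    intro x hx xa xb
    simp only [Finset.mem_insert, Finset.mem_singleton] at hx
    rcases hx with rfl | rfl | rfl | rfl | rfl
    · exact to'
    · exact tz
    · exact absurd rfl xa
    · exact absurd rfl xb
    · exact tcc
  obtain ⟨g, hg, g1, g2, g3, g4⟩ := tr p₁ p₂ p₃ o p₂ p₁ p₃ o h12' h13' h1o' h23 h2o h3o h12'.symm h23 h2o h13' h1o' h3o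
  have hgg : ∀ x, x = p₁ ∨ x = p₂ ∨ x = p₃ ∨ x = o → g (g x) = x := by
    rintro x (rfl | rfl | rfl | rfl)
    · rw [g1, g2]
    · rw [g2, g1]
    · rw [g3, g3]
    · rw [g4, g4]
  obtain ⟨t, ht, htt, htx⟩ := exists_inv_of_odd hKodd (g := g) ((hK _).2 ⟨G.mul_mem hg hg, hgg _ (by simp), hgg _ (by simp), hgg _ (by simp)⟩)
  have htG : t ∈ G := (Subgroup.zpowers_le.2 hg) ht
  have t1 : t p₁ = p₂ := by rw [htx _ (hgg _ (by simp)), g1]
  have t2 : t p₂ = p₁ := by rw [htx _ (hgg _ (by simp)), g2]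
  have t3 : t p₃ = p₃ := by rw [htx _ (hgg _ (by simp)), g3]
  have t4 : t o = o := by rw [htx _ (hgg _ (by simp)), g4]
  obtain ⟨g', hg', g1', g2', g3', g4'⟩ := tr p₁ p₂ p₃ o p₁ p₃ p₂ o h12' h13' h1o' h23 h2o h3o h13' h12' h1o' h23.symm h3o h2o
  have hgg' : ∀ x, x = p₁ ∨ x = p₂ ∨ x = p₃ ∨ x = o → g' (g' x) = x := by
    rintro x (rfl | rfl | rfl | rfl)
    · rw [g1', g1']
    · rw [g2', g3']
    · rw [g3', g2']
    · rw [g4', g4']
  obtain ⟨t', ht', htt', htx'⟩ := exists_inv_of_odd hKodd (g := g') ((hK _).2 ⟨G.mul_mem hg' hg', hgg' _ (by simp), hgg' _ (by simp), hgg' _ (by simp)⟩)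
  have htG' : t' ∈ G := (Subgroup.zpowers_le.2 hg') ht'
  have t1' : t' p₁ = p₁ := by rw [htx' _ (hgg' _ (by simp)), g1']
  have t2' : t' p₂ = p₃ := by rw [htx' _ (hgg' _ (by simp)), g2']
  have t3' : t' p₃ = p₂ := by rw [htx' _ (hgg' _ (by simp)), g3']
  have t4' : t' o = o := by rw [htx' _ (hgg' _ (by simp)), g4']
  have ti := hinv t htG htt (Or.inr (Or.inl t1)) (Or.inl t2) (Or.inr (Or.inr t3)) t4
    (hnofix t htG p₁ p₂ p₃ rfl h12' t1 t2 t3 t4)
  have ti' := hinv t' htG' htt' (Or.inl t1') (Or.inr (Or.inr t2')) (Or.inr (Or.inl t3')) t4'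
    (hnofix t' htG' p₂ p₃ p₁ (by ext x; simp only [Finset.mem_insert, Finset.mem_singleton]; tauto) h23 t2' t3' t1' t4')
  have hw : ∀ a ∈ A, (t * t') * a = a * (t * t') := by
    intro a ha
    have e1 := ti' a ha
    have e2 := ti _ (A.inv_mem ha)
    rw [inv_inv] at e2
    rw [← mul_inv_eq_iff_eq_mul]
    calc t * t' * a * (t * t')⁻¹ = t * (t' * a * t'⁻¹) * t⁻¹ := by group
      _ = a := by rw [e1, e2]
  have hwfix := hcomm (t * t') hw (by
    show t (t' o) = o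
    rw [t4', t4])
  have hw1 : t * t' ≠ 1 := by
    intro e
    have : (t * t') p₁ = p₁ := by rw [e]; rfl
    have h2 : (t * t') p₁ = p₂ := by
      show t (t' p₁) = p₂
      rw [t1', t1]
    exact h12' (this.symm.trans h2)
  have hwsupp : (t * t').support.card ≤ 3 := by
    rw [← hP3]
    apply Finset.card_le_card
    intro x hx
    rw [Equiv.Perm.mem_support] at hx
    by_contra hx'
    simp only [Finset.mem_insert, Finset.mem_singleton, not_or] at hx'
    exact hx (hwfix x hx'.1 hx'.2.1 hx'.2.2)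
  have h2t : IsMultiplyPretransitive G α 2 := isMultiplyPretransitive_of_le' (n := 4) (by norm_num) (by
    rw [ENat.card_eq_coe_fintype_card]; norm_cast; omega)
  have hAlt := alt_le_of_small (isPreprimitive_of_is_two_pretransitive h2t) (G.mul_mem htG htG') hw1 hwsupp
  obtain ⟨Δ, -, hΔ⟩ := Finset.exists_subset_card_eq (s := (Finset.univ : Finset α)) (n := 5) (by rw [Finset.card_univ]; omega)
  obtain ⟨a, ha, b, hb, hab⟩ := Finset.one_lt_card.1 (show 1 < Δ.card by omega)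
  obtain ⟨c, hc, d, hd, hcd⟩ := Finset.one_lt_card.1 (show 1 < Δᶜ.card by rw [Finset.card_compl, hΔ]; omega)
  rw [Finset.mem_compl] at hc hd
  have hac : a ≠ c := fun e => hc (e ▸ ha)
  have had : a ≠ d := fun e => hd (e ▸ ha)
  have hbc : b ≠ c := fun e => hc (e ▸ hb)
  have hbd : b ≠ d := fun e => hd (e ▸ hb)
  refine hN Δ hΔ (Equiv.swap a b * Equiv.swap c d) (hAlt ?_) a ha b hb hab ?_ ?_ ?_
  · rw [Equiv.Perm.mem_alternatingGroup, Equiv.Perm.sign_mul, Equiv.Perm.sign_swap hab, Equiv.Perm.sign_swap hcd]; rfl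
  · rw [Equiv.Perm.mul_apply, Equiv.swap_apply_of_ne_of_ne hac had, Equiv.swap_apply_left]
  · rw [Equiv.Perm.mul_apply, Equiv.swap_apply_of_ne_of_ne hbc hbd, Equiv.swap_apply_right]
  · intro x hx xa xb
    rw [Equiv.Perm.mul_apply, Equiv.swap_apply_of_ne_of_ne (show x ≠ c from fun e => hc (e ▸ hx)) (show x ≠ d from fun e => hd (e ▸ hx)), Equiv.swap_apply_of_ne_of_ne xa xb]

/-- exactly alternating on `m`-sets, `m ≥ 5` -/
theorem exact_alt {G : Subgroup (Equiv.Perm α)} {m : ℕ} (hm : 5 ≤ m) (hmn : m ≤ Fintype.card α)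
    (h4 : IsMultiplyPretransitive G α 4) (hom : HomE G m)
    (hA : ∀ Δ : Finset α, Δ.card = m → AltOn G Δ) (hN : NoSwap G m) : Fintype.card α ≤ m + 1 := by
  rcases Nat.lt_or_ge m 6 with h | h
  · have : m = 5 := by omega
    subst this
    exact five_case h4 hom hA hN
  · exact six_case h hmn hA hN

end

end Cfsg.Agent.H10
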