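import Mathlib
import Cfsg.Agent.H10.MT13
import Cfsg.Agent.H10.Perm13
import Cfsg.Agent.H10.Perm14
import Cfsg.Agent.S0698

set_option autoImplicit false
set_option linter.all false

open MulAction
open scoped Pointwise

namespace Cfsg.Agent.H10

section
variable {α : Type*} [Fintype α] [DecidableEq α]

theorem psc_key {G : Subgroup (Equiv.Perm α)} {k : ℕ} (g : G) (s : Set.powersetCard α k) :
    ((g • s : Set.powersetCard α k) : Finset α) = (s : Finset α).map (g : Equiv.Perm α).toEmbedding := by
  have h1 := Set.powersetCard.coe_smul (n := k) (g := g) (s := s)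
  refine h1.trans ?_
  rw [Finset.map_eq_image]
  rfl

theorem trans_of_all {G : Subgroup (Equiv.Perm α)} {k : ℕ} (hom : HomE G k) {Δ : Finset α} (h0 : Δ.card = k)
    (hall : ∀ σ : Equiv.Perm ↥Δ, ∃ g ∈ G, ∀ x : ↥Δ, g (x : α) = σ x) : IsMultiplyPretransitive G α k := by
  refine ⟨fun x y => ?_⟩
  have hr : ∀ x : Fin k ↪ α, ∃ u ∈ G, ∀ i, u (x i) ∈ Δ := by
    intro x
    obtain ⟨u, hu, huΔ⟩ := hom (Finset.univ.map x) Δ (by rw [Finset.card_map, Finset.card_univ, Fintype.card_fin]) h0
    refine ⟨u, hu, fun i => ?_⟩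
    rw [← huΔ]
    exact Finset.mem_map_of_mem _ (Finset.mem_map_of_mem _ (Finset.mem_univ i))
  obtain ⟨u, hu, hux⟩ := hr x
  obtain ⟨v, hv, hvy⟩ := hr y
  let x' : Fin k → ↥Δ := fun i => ⟨u (x i), hux i⟩
  let y' : Fin k → ↥Δ := fun i => ⟨v (y i), hvy i⟩
  have hx' : Function.Bijective x' := by
    rw [Fintype.bijective_iff_injective_and_card]
    refine ⟨fun i j e => x.injective (u.injective (congrArg Subtype.val e)), ?_⟩
    rw [Fintype.card_fin, Fintype.card_coe, h0]
  have hy' : Function.Bijective y' := by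
    rw [Fintype.bijective_iff_injective_and_card]
    refine ⟨fun i j e => y.injective (v.injective (congrArg Subtype.val e)), ?_⟩
    rw [Fintype.card_fin, Fintype.card_coe, h0]
  obtain ⟨w, hw, hwx⟩ := hall ((Equiv.ofBijective x' hx').symm.trans (Equiv.ofBijective y' hy'))
  refine ⟨⟨v⁻¹ * w * u, G.mul_mem (G.mul_mem (G.inv_mem hv) hw) hu⟩, ?_⟩
  ext i
  show v⁻¹ (w (u (x i))) = y i
  rw [Equiv.Perm.inv_eq_iff_eq]
  have h3 := hwx (x' i)
  rw [Equiv.trans_apply, Equiv.ofBijective_symm_apply_apply] at h3
  exact h3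

/-- numerical data of a group homogeneous on `j`- and `(j+1)`-sets, not `j`-transitive -/
theorem hom_data {G : Subgroup (Equiv.Perm α)} {j : ℕ} (hj : 2 ≤ j) (hjn : j + 1 ≤ Fintype.card α)
    (h1 : IsPretransitive G (Set.powersetCard α j)) (h2 : IsPretransitive G (Set.powersetCard α (j + 1)))
    (hnt : ¬ IsMultiplyPretransitive G α j) :
    (∀ g ∈ G, ∀ s : Finset α, j ≤ s.card → (∀ x ∈ s, g x = x) → g = 1) ∧
    ∃ y x : ℕ, (∀ s : Set.powersetCard α j, Nat.card (stabilizer G s) = y) ∧
      Nat.card G = (Fintype.card α).choose j * y ∧ Nat.card G = (Fintype.card α).choose (j + 1) * x ∧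
      y ∣ j.factorial ∧ y ≠ j.factorial ∧ x * (Fintype.card α - j) = (j + 1) * y := by
  classical
  have hom1 := homE_iff.1 h1
  have hom2 := homE_iff.1 h2
  -- pointwise stabilisers have constant orders
  have hconst : ∀ m : ℕ, HomE G m → ∀ s t : Finset α, s.card = m → t.card = m →
      Nat.card (fixingSubgroup G (s : Set α)) = Nat.card (fixingSubgroup G (t : Set α)) := by
    intro m hm s t hs ht
    obtain ⟨g, hg, hgs⟩ := hm s t hs ht
    have : (⟨g, hg⟩ : G) • (s : Set α) = (t : Set α) := by
      rw [← hgs, Finset.coe_map]; rfl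
    exact Nat.card_congr (SubMulAction.fixingSubgroupEquivFixingSubgroup this).toEquiv
  obtain ⟨s1, -, hs1⟩ := Finset.exists_subset_card_eq (s := (Finset.univ : Finset α)) (n := j) (by rw [Finset.card_univ]; omega)
  obtain ⟨s2, -, hs2⟩ := Finset.exists_subset_card_eq (s := (Finset.univ : Finset α)) (n := j + 1) (by rw [Finset.card_univ]; omega)
  have hl : Nat.card (fixingSubgroup G (s1 : Set α)) = 1 := by
    by_contra hne
    have hpos : 0 < Nat.card (fixingSubgroup G (s1 : Set α)) := Nat.card_pos
    apply hnt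
    exact const_stab j (by omega) (G := G) (X := α) (by rw [Nat.card_eq_fintype_card]; exact hjn)
      (Nat.card (fixingSubgroup G (s1 : Set α))) (Nat.card (fixingSubgroup G (s2 : Set α))) (by omega)
      (fun s hs => hconst j hom1 s s1 hs hs1) (fun s hs => hconst (j + 1) hom2 s s2 hs hs2)
  have hfree' : ∀ g ∈ G, ∀ s : Finset α, s.card = j → (∀ x ∈ s, g x = x) → g = 1 := by
    intro g hg s hs hgs
    have h3 : Nat.card (fixingSubgroup G (s : Set α)) = 1 := by rw [hconst j hom1 s s1 hs hs1, hl]
    have h4 := Subgroup.card_eq_one.1 h3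
    have h5 : (⟨g, hg⟩ : G) ∈ fixingSubgroup G (s : Set α) := by
      rw [mem_fixingSubgroup_iff]
      exact fun x hx => hgs x hx
    rw [h4, Subgroup.mem_bot] at h5
    exact congrArg Subtype.val h5
  have hfree : ∀ g ∈ G, ∀ s : Finset α, j ≤ s.card → (∀ x ∈ s, g x = x) → g = 1 := by
    intro g hg s hs hgs
    obtain ⟨s', hs', hs'c⟩ := Finset.exists_subset_card_eq hs
    exact hfree' g hg s' hs'c (fun x hx => hgs x (hs' hx))
  refine ⟨hfree, ?_⟩
  let S1 : Set.powersetCard α j := ⟨s1, Set.powersetCard.mem_iff.2 hs1⟩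
  let S2 : Set.powersetCard α (j + 1) := ⟨s2, Set.powersetCard.mem_iff.2 hs2⟩
  have hcardps : ∀ m : ℕ, Nat.card (Set.powersetCard α m) = (Fintype.card α).choose m := by
    intro m
    rw [← Nat.card_eq_fintype_card]
    exact Set.powersetCard.card α m
  have hy : ∀ s : Set.powersetCard α j, Nat.card G = (Fintype.card α).choose j * Nat.card (stabilizer G s) := by
    intro s
    have := index_stabilizer_of_transitive G s
    rw [← hcardps, ← this, mul_comm, Subgroup.card_mul_index]
  have hx : Nat.card G = (Fintype.card α).choose (j + 1) * Nat.card (stabilizer G S2) := by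
    have := index_stabilizer_of_transitive G S2
    rw [← hcardps, ← this, mul_comm, Subgroup.card_mul_index]
  have hchpos : 0 < (Fintype.card α).choose j := Nat.choose_pos (by omega)
  refine ⟨Nat.card (stabilizer G S1), Nat.card (stabilizer G S2), ?_, hy S1, hx, ?_, ?_, ?_⟩
  · intro s
    exact Nat.eq_of_mul_eq_mul_left hchpos ((hy s).symm.trans (hy S1))
  all_goals
    try
      (apply Nat.eq_of_mul_eq_mul_left hchpos
       have h3 := Nat.choose_succ_right_eq (Fintype.card α) j
       have h4 := (hy S1).symm.trans hx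
       calc (Fintype.card α).choose j * (Nat.card (stabilizer G S2) * (Fintype.card α - j)) =
           ((Fintype.card α).choose j * (Fintype.card α - j)) * Nat.card (stabilizer G S2) := by ring
         _ = ((Fintype.card α).choose (j + 1) * Nat.card (stabilizer G S2)) * (j + 1) := by rw [← h3]; ring
         _ = _ := by rw [← h4]; ring)
  all_goals
    -- the action on `s1`
    have hmemS : ∀ g : G, g ∈ stabilizer G S1 → ∀ x, (g : Equiv.Perm α) x ∈ s1 ↔ x ∈ s1 := by
      intro g hg x
      have h5 : s1.map (g : Equiv.Perm α).toEmbedding = s1 := by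
        have := congrArg (fun x : Set.powersetCard α j => (x : Finset α)) (mem_stabilizer_iff.1 hg)
        simp only [psc_key] at this
        exact this
      constructor
      · intro h
        rw [← h5] at h
        obtain ⟨y, hy, hyx⟩ := Finset.mem_map.1 h
        have : y = x := (g : Equiv.Perm α).injective hyx
        rw [← this]; exact hy
      · intro h
        rw [← h5]
        exact Finset.mem_map_of_mem _ h
    let φ : stabilizer G S1 →* Equiv.Perm ↥s1 :=
      { toFun := fun g => ((g : G) : Equiv.Perm α).subtypePerm (p := fun x => x ∈ s1) (hmemS g.1 g.2)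
        map_one' := by ext x; rfl
        map_mul' := fun g h => by ext x; rfl }
    have hφ : Function.Injective φ := by
      rw [injective_iff_map_eq_one]
      intro g hg
      have : ((g : G) : Equiv.Perm α) = 1 := by
        apply hfree' _ g.1.2 s1 hs1
        intro x hx
        exact congrArg (fun σ : Equiv.Perm ↥s1 => ((σ ⟨x, hx⟩ : ↥s1) : α)) hg
      exact Subtype.ext (Subtype.ext this)
    have hcs : Nat.card (Equiv.Perm ↥s1) = j.factorial := by
      rw [Nat.card_eq_fintype_card, Fintype.card_perm, Fintype.card_coe, hs1]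
  · rw [← hcs]
    exact Subgroup.card_dvd_of_injective φ hφ
  · intro he
    apply hnt
    apply trans_of_all hom1 hs1
    intro σ
    have hsurj : Function.Surjective φ := by
      haveI : Finite (stabilizer G S1) := inferInstance
      have : Function.Bijective φ := (Nat.bijective_iff_injective_and_card φ).2 ⟨hφ, he.trans hcs.symm⟩
      exact this.2
    obtain ⟨g, hg⟩ := hsurj σ
    refine ⟨g.1.1, g.1.2, fun x => ?_⟩
    rw [← hg]; rfl

end

end Cfsg.Agent.H10
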