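import Mathlib
import Cfsg.Agent.H10.MT14
import Cfsg.Agent.S0698

set_option autoImplicit false
set_option linter.all false

open MulAction
open scoped Pointwise

namespace Cfsg.Agent.H10

section
variable {α : Type*} [Fintype α] [DecidableEq α]

theorem sylow_kill {G : Subgroup (Equiv.Perm α)} {j p m : ℕ} (hp : p.Prime) (hjp : j ≤ p) (hn : Fintype.card α < 2 * p)
    (hfree : ∀ g ∈ G, ∀ s : Finset α, j ≤ s.card → (∀ x ∈ s, g x = x) → g = 1)
    (hcard : Nat.card G = p * m) (hpm : ¬ p ∣ m) : ∃ d k : ℕ, d ∣ p - 1 ∧ m = d * (1 + k * p) := by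
  refine sylow_count hp hcard hpm ?_
  intro g c hg hc
  have hg1 : g ≠ 1 := by
    rintro rfl
    rw [orderOf_one] at hg
    exact hp.one_lt.ne hg
  obtain ⟨q, hq⟩ : ∃ q : α, g • q ≠ q := by
    by_contra hno
    push Not at hno
    exact hg1 (Subtype.ext (Equiv.ext hno))
  refine cent_cycle hp hn ?_ g c hg hc hq
  intro g s hs hgs
  exact Subtype.ext (hfree g g.2 s (by omega) hgs)

theorem inv_dvd {G : Subgroup (Equiv.Perm α)} {j y : ℕ} (hy : ∀ s : Set.powersetCard α j, Nat.card (stabilizer G s) = y)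
    {t : Equiv.Perm α} (ht : t ∈ G) (ht1 : t ≠ 1) (ht2 : t * t = 1) {s : Finset α} (hs : s.card = j)
    (hts : ∀ x ∈ s, t x ∈ s) : 2 ∣ y := by
  rw [← hy ⟨s, Set.powersetCard.mem_iff.2 hs⟩]
  have hmem : (⟨t, ht⟩ : G) ∈ stabilizer G (⟨s, Set.powersetCard.mem_iff.2 hs⟩ : Set.powersetCard α j) := by
    rw [mem_stabilizer_iff]
    apply Subtype.ext
    rw [psc_key]
    apply Finset.eq_of_subset_of_card_le
    · intro x hx
      obtain ⟨z, hz, rfl⟩ := Finset.mem_map.1 hx
      exact hts z hz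
    · rw [Finset.card_map]
  have h1 : orderOf (⟨⟨t, ht⟩, hmem⟩ : stabilizer G (⟨s, Set.powersetCard.mem_iff.2 hs⟩ : Set.powersetCard α j)) = 2 := by
    haveI : Fact (Nat.Prime 2) := ⟨Nat.prime_two⟩
    apply orderOf_eq_prime
    · apply Subtype.ext; apply Subtype.ext
      show t ^ 2 = 1
      rw [pow_two, ht2]
    · intro e
      exact ht1 (congrArg (fun x => ((x.1 : G) : Equiv.Perm α)) e)
  rw [← h1]
  exact orderOf_dvd_natCard _

theorem exists_invol {G : Subgroup (Equiv.Perm α)} (h : 2 ∣ Nat.card G) : ∃ t ∈ G, t ≠ 1 ∧ t * t = 1 := by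
  haveI : Fact (Nat.Prime 2) := ⟨Nat.prime_two⟩
  obtain ⟨t, ht⟩ := exists_prime_orderOf_dvd_card' (G := G) 2 h
  refine ⟨t, t.2, ?_, ?_⟩
  · intro e
    have : t = 1 := Subtype.ext e
    rw [this, orderOf_one] at ht
    omega
  · have : t ^ 2 = 1 := by rw [← ht, pow_orderOf_eq_one]
    have h2 := congrArg (fun x : G => (x : Equiv.Perm α)) this
    simp only [Subgroup.coe_pow, Subgroup.coe_one, pow_two] at h2
    exact h2

theorem kill_five {G : Subgroup (Equiv.Perm α)} (hy : ∀ s : Set.powersetCard α 2, Nat.card (stabilizer G s) = 1)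
    (h : 2 ∣ Nat.card G) : False := by
  obtain ⟨t, ht, ht1, ht2⟩ := exists_invol h
  obtain ⟨a, ha⟩ : ∃ a, t a ≠ a := by
    by_contra hno
    push Not at hno
    exact ht1 (Equiv.ext hno)
  have htt : t (t a) = a := by
    have := congrArg (fun σ : Equiv.Perm α => σ a) ht2
    exact this
  have := inv_dvd hy ht ht1 ht2 (s := {a, t a}) (Finset.card_pair (Ne.symm ha)) (by
    intro x hx
    rw [Finset.mem_insert, Finset.mem_singleton] at hx
    rcases hx with rfl | rfl
    · exact Finset.mem_insert_of_mem (Finset.mem_singleton_self _)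
    · rw [htt]; exact Finset.mem_insert_self _ _)
  omega

theorem kill_six {G : Subgroup (Equiv.Perm α)} (h2 : IsMultiplyPretransitive G α 2)
    (hn : Fintype.card α = 6) (hcard : Nat.card G = 60)
    (hy : ∀ s : Set.powersetCard α 3, Nat.card (stabilizer G s) = 3) : False := by
  obtain ⟨Δ, -, hΔ⟩ := Finset.exists_subset_card_eq (s := (Finset.univ : Finset α)) (n := 2) (by rw [Finset.card_univ]; omega)
  have hr := card_eq_desc_mul h2 (s := (Δ : Set α)) (by rw [Set.ncard_coe_finset, hΔ])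
  rw [hcard, Nat.card_eq_fintype_card (α := α), hn] at hr
  have hr2 : Nat.card (fixingSubgroup G (Δ : Set α)) = 2 := by
    have : (6 : ℕ).descFactorial 2 = 30 := by decide
    rw [this] at hr
    omega
  obtain ⟨a, ha⟩ : Δ.Nonempty := Finset.card_pos.1 (by omega)
  haveI : Fact (Nat.Prime 2) := ⟨Nat.prime_two⟩
  obtain ⟨t, ht⟩ := exists_prime_orderOf_dvd_card' (G := fixingSubgroup G (Δ : Set α)) 2 (by rw [hr2])
  have ht1 : ((t : G) : Equiv.Perm α) ≠ 1 := by
    intro e
    have : t = 1 := Subtype.ext (Subtype.ext e)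
    rw [this, orderOf_one] at ht
    omega
  have ht2 : ((t : G) : Equiv.Perm α) * ((t : G) : Equiv.Perm α) = 1 := by
    have : t ^ 2 = 1 := by rw [← ht, pow_orderOf_eq_one]
    have h2 := congrArg (fun x : fixingSubgroup G (Δ : Set α) => ((x : G) : Equiv.Perm α)) this
    simp only [Subgroup.coe_pow, Subgroup.coe_one, pow_two] at h2
    exact h2
  have hta : ((t : G) : Equiv.Perm α) a = a := (mem_fixingSubgroup_iff G).1 t.2 a ha
  obtain ⟨c, hc⟩ : ∃ c, ((t : G) : Equiv.Perm α) c ≠ c := by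
    by_contra hno
    push Not at hno
    exact ht1 (Equiv.ext hno)
  have htt : ((t : G) : Equiv.Perm α) (((t : G) : Equiv.Perm α) c) = c := congrArg (fun σ : Equiv.Perm α => σ c) ht2
  have hac : a ≠ c := by
    rintro rfl
    exact hc hta
  have hatc : a ≠ ((t : G) : Equiv.Perm α) c := by
    intro e
    apply hac
    rw [← htt, ← e, hta]
  have := inv_dvd hy t.1.2 ht1 ht2 (s := {a, c, ((t : G) : Equiv.Perm α) c}) (Finset.card_eq_three.2 ⟨_, _, _, hac, hatc, Ne.symm hc, rfl⟩) (by
    intro x hx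
    rw [Finset.mem_insert, Finset.mem_insert, Finset.mem_singleton] at hx
    rcases hx with rfl | rfl | rfl
    · rw [hta]; exact Finset.mem_insert_self _ _
    · exact Finset.mem_insert_of_mem (Finset.mem_insert_of_mem (Finset.mem_singleton_self _))
    · rw [htt]; exact Finset.mem_insert_of_mem (Finset.mem_insert_self _ _))
  omega

theorem kill_seven {G : Subgroup (Equiv.Perm α)} (h3 : IsMultiplyPretransitive G α 3)
    (hn : Fintype.card α = 7) (hcard : Nat.card G = 210) : False := by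
  obtain ⟨t, ht, ht1, ht2⟩ := exists_invol (G := G) (by rw [hcard]; decide)
  -- `t` fixes at most two points
  have hfix : ∀ s : Finset α, s.card = 3 → (∀ x ∈ s, t x = x) → False := by
    intro s hs hts
    have hr := card_eq_desc_mul h3 (s := (s : Set α)) (by rw [Set.ncard_coe_finset, hs])
    rw [hcard, Nat.card_eq_fintype_card (α := α), hn] at hr
    have hr2 : Nat.card (fixingSubgroup G (s : Set α)) = 1 := by
      have : (7 : ℕ).descFactorial 3 = 210 := by decide
      rw [this] at hr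
      omega
    have h4 := Subgroup.card_eq_one.1 hr2
    have h5 : (⟨t, ht⟩ : G) ∈ fixingSubgroup G (s : Set α) := by
      rw [mem_fixingSubgroup_iff]
      exact fun x hx => hts x hx
    rw [h4, Subgroup.mem_bot] at h5
    exact ht1 (congrArg Subtype.val h5)
  have hord : orderOf t = 2 := by
    haveI : Fact (Nat.Prime 2) := ⟨Nat.prime_two⟩
    exact orderOf_eq_prime (by rw [pow_two, ht2]) ht1
  have hsupp : 5 ≤ t.support.card := by
    by_contra hlt
    obtain ⟨s, hs, hsc⟩ := Finset.exists_subset_card_eq (s := t.supportᶜ) (n := 3) (by rw [Finset.card_compl, hn]; omega)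
    refine hfix s hsc (fun x hx => ?_)
    have := hs hx
    rw [Finset.mem_compl, Equiv.Perm.notMem_support] at this
    exact this
  obtain ⟨m, hm⟩ := Equiv.Perm.cycleType_prime_order (σ := t) (by rw [hord]; exact Nat.prime_two)
  have hsum := Equiv.Perm.sum_cycleType t
  rw [hm, hord, Multiset.sum_replicate, smul_eq_mul] at hsum
  have hle : t.support.card ≤ 7 := by rw [← hn, ← Finset.card_univ]; exact Finset.card_le_card (Finset.subset_univ _)
  have hm2 : m = 2 := by omega
  have hsign : Equiv.Perm.sign t = -1 := by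
    rw [Equiv.Perm.sign_of_cycleType, hm, hord, hm2]
    decide
  let N : Subgroup G := (Equiv.Perm.sign.comp G.subtype).ker
  have hNi : N.index = 2 := by
    rw [Subgroup.index_ker]
    have h6 : (Equiv.Perm.sign.comp G.subtype).range = ⊤ := by
      rw [eq_top_iff]
      intro u _
      rcases Int.units_eq_one_or u with rfl | rfl
      · exact ⟨1, map_one _⟩
      · exact ⟨⟨t, ht⟩, hsign⟩
    rw [h6, Subgroup.card_top, Nat.card_eq_fintype_card]; rfl
  have hNc : Nat.card N = 105 := by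
    have := N.card_mul_index
    rw [hNi, hcard] at this
    omega
  have hN : N ≠ ⊥ := by
    intro e
    rw [e, Subgroup.card_bot] at hNc
    omega
  rcases S0698.result G (k := 3) (by norm_num) (by omega) h3 N hN with h | ⟨-, -, h⟩
  · have := desc_dvd h (by rw [Nat.card_eq_fintype_card]; omega)
    rw [Nat.card_eq_fintype_card (α := α), hn, hNc] at this
    revert this
    decide
  · haveI : Fact (Nat.Prime 3) := ⟨Nat.prime_three⟩
    obtain ⟨u, hu⟩ := exists_prime_orderOf_dvd_card' (G := N) 3 (by rw [hNc]; decide)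
    have h7 : u ^ 2 = 1 := Subtype.ext (h u u.2)
    have := orderOf_dvd_of_pow_eq_one h7
    rw [hu] at this
    revert this
    decide

theorem num2 : ∀ y ∈ Finset.range 3, ∀ d ∈ Finset.range 7, y ∣ 2 → y ≠ 2 → d ∣ 3 * y → (y = 1 ∧ d = 1) ∨ (y = 1 ∧ d = 3) := by decide +kernel

theorem num3 : ∀ y ∈ Finset.range 7, ∀ d ∈ Finset.range 25, y ∣ 6 → y ≠ 6 → d ∣ 4 * y → 6 ∣ (d + 1) * y →
    (y = 2 ∧ d = 2) ∨ (y = 2 ∧ d = 8) ∨ (y = 3 ∧ d = 1) ∨ (y = 3 ∧ d = 3) := by decide +kernel

theorem num4 : ∀ y ∈ Finset.range 25, ∀ d ∈ Finset.range 121, y ∣ 24 → y ≠ 24 → d ∣ 5 * y → 24 ∣ (d + 1) * y →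
    (y = 12 ∧ d = 1) ∨ (y = 12 ∧ d = 3) ∨ (y = 12 ∧ d = 5) ∨ (y = 12 ∧ d = 15) ∨ (y = 8 ∧ d = 2) ∨ (y = 8 ∧ d = 5) ∨
    (y = 8 ∧ d = 8) ∨ (y = 8 ∧ d = 20) ∨ (y = 6 ∧ d = 3) ∨ (y = 6 ∧ d = 15) ∨ (y = 4 ∧ d = 5) ∨ (y = 3 ∧ d = 15) := by
  decide +kernel

theorem trans_dvd {G : Subgroup (Equiv.Perm α)} {c y : ℕ} (hc : c + 1 ≤ Fintype.card α) (h : IsMultiplyPretransitive G α c)
    (hy : Nat.card G = (Fintype.card α).choose (c + 1) * y) : (c + 1).factorial ∣ (Fintype.card α - c) * y := by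
  obtain ⟨r, hr⟩ := desc_dvd h (by rw [Nat.card_eq_fintype_card]; omega)
  rw [Nat.card_eq_fintype_card (α := α)] at hr
  have hpos : 0 < (Fintype.card α).descFactorial c := Nat.descFactorial_pos.2 (by omega)
  refine ⟨r, ?_⟩
  apply Nat.eq_of_mul_eq_mul_left hpos
  have h1 := Nat.descFactorial_eq_factorial_mul_choose (Fintype.card α) (c + 1)
  rw [Nat.descFactorial_succ] at h1
  calc (Fintype.card α).descFactorial c * ((Fintype.card α - c) * y) = ((Fintype.card α - c) * (Fintype.card α).descFactorial c) * y := by ring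
    _ = (c + 1).factorial * ((Fintype.card α).choose (c + 1) * y) := by rw [h1]; ring
    _ = (c + 1).factorial * ((Fintype.card α).descFactorial c * r) := by rw [← hy, hr]
    _ = _ := by ring

theorem eq_alt_of_card {G : Subgroup (Equiv.Perm α)} {m : ℕ} (hm : 0 < m) (h1 : Nat.card G = m) (h2 : (Fintype.card α).factorial = m * 2) :
    G = alternatingGroup α := by
  apply Equiv.Perm.eq_alternatingGroup_of_index_eq_two
  have := G.card_mul_index
  rw [h1, Nat.card_eq_fintype_card (α := Equiv.Perm α), Fintype.card_perm, h2] at this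
  exact Nat.eq_of_mul_eq_mul_left hm this

end

end Cfsg.Agent.H10
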