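import Cfsg.Agent.H10.Sig4
import Cfsg.Agent.H23.Baer

set_option autoImplicit false
set_option linter.unusedVariables false
open Cfsg

/-!
# H10.OddConstr: S1302
-/

open scoped commutatorElement Pointwise

namespace Cfsg.Agent.H10

variable {G : Type*} [Group G]

theorem commutator_le_inf_of_normalizes {A Q F : Subgroup G} (h1 : A ≤ F)
    (hQF : Q ≤ Subgroup.normalizer (F : Set G)) (hAQ : A ≤ Subgroup.normalizer (Q : Set G)) :
    ⁅A, Q⁆ ≤ F ⊓ Q := by
  rw [Subgroup.commutator_le]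
  intro a ha q hq
  constructor
  · have h2 : ⁅a, q⁆ = a * (q * a⁻¹ * q⁻¹) := by rw [commutatorElement_def]; group
    rw [h2]
    exact F.mul_mem (h1 ha) ((Subgroup.mem_normalizer_iff.mp (hQF hq) _).mp (F.inv_mem (h1 ha)))
  · rw [commutatorElement_def]
    exact Q.mul_mem ((Subgroup.mem_normalizer_iff.mp (hAQ ha) q).mp hq) (Q.inv_mem hq)

theorem odd_invariant_aux [Finite G] {p : ℕ} [hp : Fact p.Prime] (hp2 : p ≠ 2)
    (hchar : Subgroup.centralizer (pCore p G : Set G) ≤ pCore p G) {A : Subgroup G}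
    (hAp : IsPGroup p A)
    (hΩ : ∀ x ∈ Subgroup.centralizer (A : Set G), orderOf x = p → x ∈ A) {Q : Subgroup G}
    (hQ : (Nat.card Q).Coprime p) (hAQ : A ≤ Subgroup.normalizer (Q : Set G)) : Q = ⊥ := by
  have hFn := pCore_normal p G
  have hFp := pCore_isPGroup p G
  have htop : ∀ H : Subgroup G, H ≤ Subgroup.normalizer ((pCore p G : Subgroup G) : Set G) := by
    intro H
    rw [Subgroup.normalizer_eq_top]; exact le_top
  have hFQ : pCore p G ⊓ Q = ⊥ := by
    rw [eq_bot_iff]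
    intro y hy
    obtain ⟨k, hk⟩ := hFp ⟨y, hy.1⟩
    exact eq_one_of_isPElt_of_mem ⟨k, congrArg Subtype.val hk⟩ hQ hy.2
  have hAFQ : ⁅A ⊓ pCore p G, Q⁆ = ⊥ := by
    rw [eq_bot_iff, ← hFQ]
    exact commutator_le_inf_of_normalizes inf_le_right (htop Q) (inf_le_left.trans hAQ)
  suffices h : ⁅pCore p G, Q⁆ = ⊥ by
    have h1 : Q ≤ Subgroup.centralizer (pCore p G : Set G) := by
      rw [← Subgroup.commutator_eq_bot_iff_le_centralizer, Subgroup.commutator_comm]; exact h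
    rw [← hFQ, eq_comm, inf_eq_right]
    exact h1.trans hchar
  by_contra hne
  -- a minimal `AQ`-invariant subgroup of `F` not centralised by `Q`
  obtain ⟨P, ⟨hPF, hPn, hPQ⟩, hmin⟩ := Set.Finite.exists_minimalFor (fun P : Subgroup G => P)
    {P : Subgroup G | P ≤ pCore p G ∧ A ⊔ Q ≤ Subgroup.normalizer (P : Set G) ∧ ⁅P, Q⁆ ≠ ⊥}
    (Set.toFinite _) ⟨pCore p G, le_rfl, htop _, hne⟩
  have hPp := isPGroup_of_le hPF hFp
  obtain ⟨-, -, -, hexp⟩ := H23.hall_higman_reduction (A ⊔ Q) Q P hPp hPn le_sup_right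
    (sup_le hAQ Subgroup.le_normalizer) hQ hPQ (by
      intro U hU hBU
      by_contra hne
      exact (not_le_of_gt hU) (hmin ⟨hU.le.trans hPF, hBU, hne⟩ hU.le))
  apply hPQ
  rw [Subgroup.commutator_comm, Subgroup.commutator_eq_bot_iff_le_centralizer]
  refine H23.thompson_pq hp2 A Q P hAp hQ hAQ hPp (le_sup_left.trans hPn) (le_sup_right.trans hPn) ?_
  rintro x ⟨hxP, hxA⟩
  by_cases hx1 : x = 1
  · rw [hx1]; exact Subgroup.one_mem _
  have hxA' := hΩ x hxA (orderOf_eq_prime (hexp hp2 x hxP) hx1)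
  exact (Subgroup.commutator_eq_bot_iff_le_centralizer.mp hAFQ) ⟨hxA', hPF hxP⟩

theorem exists_isPElt_order_lift [Finite G] {p : ℕ} [hp : Fact p.Prime] {O : Subgroup G}
    [hOn : O.Normal] (hO : (Nat.card O).Coprime p) {A : Subgroup G} (hA : IsPGroup p A)
    {y : G ⧸ O} (hy : y ∈ Subgroup.centralizer
      ((A.map (QuotientGroup.mk' O) : Subgroup (G ⧸ O)) : Set (G ⧸ O))) (hyo : orderOf y = p) :
    ∃ x ∈ Subgroup.centralizer (A : Set G), orderOf x = p ∧ QuotientGroup.mk' O x = y := by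
  have hOs : (Nat.card A).Coprime (Nat.card O) := by
    obtain ⟨m, hm⟩ := IsPGroup.iff_card.mp hA
    rw [hm]; exact Nat.Coprime.pow_left m hO.symm
  have hAs : Group.IsSolvable A := by
    have := hA.isNilpotent
    infer_instance
  have h1 := H23.map_inf_centralizer (A := A) (G := ⊤) (N := O) hOs (Or.inl hAs) le_top
  have h2 : (⊤ : Subgroup G).map (QuotientGroup.mk' O) = ⊤ := by
    rw [← MonoidHom.range_eq_map]
    exact MonoidHom.range_eq_top.mpr (QuotientGroup.mk'_surjective O)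
  rw [h2, top_inf_eq, top_inf_eq] at h1
  rw [← h1] at hy
  obtain ⟨x, hx, hxp, hxy⟩ := exists_isPElt_lift (QuotientGroup.mk' O) p hy
    ⟨1, by rw [pow_one, ← hyo]; exact pow_orderOf_eq_one y⟩
  refine ⟨x, hx, ?_, hxy⟩
  have h3 : x ^ p ∈ O := by
    refine (QuotientGroup.eq_one_iff _).mp ?_
    change QuotientGroup.mk' O (x ^ p) = 1
    rw [map_pow, hxy, ← hyo, pow_orderOf_eq_one]
  have h4 : x ^ p = 1 := by
    obtain ⟨k, hk⟩ := hxp
    refine eq_one_of_isPElt_of_mem (p := p) ⟨k, ?_⟩ hO h3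
    rw [← pow_mul, mul_comm, pow_mul, hk, one_pow]
  apply orderOf_eq_prime h4
  rintro rfl
  rw [map_one] at hxy
  rw [← hxy, orderOf_one] at hyo
  exact hp.out.one_lt.ne hyo

/-- S1302 -/
theorem odd_invariant [Finite G] {p : ℕ} [hp : Fact p.Prime] (hp2 : p ≠ 2)
    (hG : IsPConstrained p G) {A : Subgroup G}
    (hAp : IsPGroup p A)
    (hΩ : ∀ x ∈ Subgroup.centralizer (A : Set G), orderOf x = p → x ∈ A) {Q : Subgroup G}
    (hQ : (Nat.card Q).Coprime p) (hAQ : A ≤ Subgroup.normalizer (Q : Set G)) :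
    Q ≤ pPrimeCore p G := by
  have hOn := pPrimeCore_normal p G
  rw [isPConstrained_iff] at hG
  have h1 := odd_invariant_aux hp2 hG (A := A.map (QuotientGroup.mk' (pPrimeCore p G)))
    (hAp.map _) (by
      intro y hy hyo
      obtain ⟨x, hx, hxo, hxy⟩ := exists_isPElt_order_lift (pPrimeCore_coprime p G) hAp hy hyo
      rw [← hxy]
      exact ⟨x, hΩ x hx hxo, rfl⟩)
    (Q := Q.map (QuotientGroup.mk' (pPrimeCore p G)))
    (Nat.Coprime.coprime_dvd_left (Subgroup.card_map_dvd (f := QuotientGroup.mk' (pPrimeCore p G))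
      (H := Q)) hQ) (by
      rintro _ ⟨a, ha, rfl⟩
      apply mem_normalizer_of_conj_le
      rintro _ ⟨q, hq, rfl⟩
      exact ⟨a * q * a⁻¹, (Subgroup.mem_normalizer_iff.mp (hAQ ha) q).mp hq, by simp⟩)
  rw [Subgroup.map_eq_bot_iff, QuotientGroup.ker_mk'] at h1
  exact h1

end Cfsg.Agent.H10
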