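import Cfsg.Agent.H25.ClassProd
import Cfsg.Agent.H24.Decomp
import Cfsg.Agent.H1.Coprime

set_option autoImplicit false
open Cfsg

/-!
# H10.PS1: classes of p-singular elements (S4321)
-/

namespace Cfsg.Agent.H10.PS

open Subgroup Cfsg.Agent.H25 Cfsg.Agent.H24

variable {G : Type*} [Group G]

abbrev C (z : G) : Subgroup G := Subgroup.centralizer ({z} : Set G)

theorem mem_C {z x : G} : x ∈ C z ↔ x * z = z * x := Subgroup.mem_centralizer_singleton_iff

theorem mem_C_symm {z x : G} (h : x ∈ C z) : z ∈ C x := mem_C.2 (mem_C.1 h).symm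

/-- `p`-element -/
def PE (p : ℕ) (x : G) : Prop := ∃ k : ℕ, orderOf x = p ^ k

theorem PE.one {p : ℕ} : PE p (1 : G) := ⟨0, by simp⟩

theorem PE.conj {p : ℕ} {x : G} (h : PE p x) (g : G) : PE p (g * x * g⁻¹) := by
  obtain ⟨k, hk⟩ := h
  refine ⟨k, ?_⟩
  rw [← hk]
  have := orderOf_injective (MulAut.conj g).toMonoidHom (MulAut.conj g).injective x
  simpa using this

theorem PE.mul {p : ℕ} [hp : Fact p.Prime] {x y : G} (hx : PE p x) (hy : PE p y) (h : x * y = y * x) :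
    PE p (x * y) := by
  obtain ⟨k, hk⟩ := hx
  obtain ⟨l, hl⟩ := hy
  have h1 : orderOf (x * y) ∣ p ^ (k + l) := by
    apply orderOf_dvd_of_pow_eq_one
    rw [(show Commute x y from h).mul_pow, pow_add, pow_mul, ← hk, pow_orderOf_eq_one, one_pow, one_mul,
      mul_comm, pow_mul, ← hl, pow_orderOf_eq_one, one_pow]
  obtain ⟨m, -, hm⟩ := (Nat.dvd_prime_pow hp.out).1 h1
  exact ⟨m, hm⟩

theorem PE.inv {p : ℕ} {x : G} (hx : PE p x) : PE p x⁻¹ := by
  obtain ⟨k, hk⟩ := hx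
  exact ⟨k, by rw [orderOf_inv, hk]⟩

theorem PE.dvd {p : ℕ} {x : G} (hx : PE p x) (h : x ≠ 1) : p ∣ orderOf x := by
  obtain ⟨k, hk⟩ := hx
  rw [hk]
  apply dvd_pow_self
  rintro rfl
  apply h
  rw [pow_zero] at hk
  exact orderOf_eq_one_iff.1 hk

theorem PE.mem_sylow [Finite G] {p : ℕ} [hp : Fact p.Prime] {x : G} (hx : PE p x) (P : Sylow p G)
    (h : x ∈ normalizer ((P : Subgroup G) : Set G)) : x ∈ (P : Subgroup G) := by
  have h1 := isPGroup_zpowers_of_orderOf hx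
  have h2 : zpowers x ≤ normalizer ((P : Subgroup G) : Set G) := by rwa [zpowers_le]
  have h3 := IsPGroup.to_sup_of_normal_right' h1 P.isPGroup' h2
  have h4 := P.is_maximal' h3 le_sup_right
  have h5 : zpowers x ⊔ (P : Subgroup G) = (P : Subgroup G) := h4
  rw [← h5]
  exact (le_sup_left : zpowers x ≤ _) (mem_zpowers x)

/-- a `p`-element with centralizer of index prime to `p` -/
theorem exists_sylow [Finite G] {p : ℕ} [hp : Fact p.Prime] {b : G} (h : ¬ p ∣ (C b).index) {x : G}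
    (hx : PE p x) (hxb : x ∈ C b) : ∃ Q : Sylow p G, (Q : Subgroup G) ≤ C b ∧ x ∈ (Q : Subgroup G) := by
  obtain ⟨Q, hQ, hQ2⟩ := exists_sylow_le_of_not_dvd_index (C b) h (zpowers x)
    (isPGroup_zpowers_of_orderOf hx) (by rwa [zpowers_le])
  exact ⟨Q, hQ, hQ2 (mem_zpowers x)⟩

theorem not_dvd_of_sylow_le [Finite G] {p : ℕ} [hp : Fact p.Prime] {H : Subgroup G} (P : Sylow p G)
    (h : (P : Subgroup G) ≤ H) : ¬ p ∣ H.index := fun hd =>
  P.not_dvd_index (hd.trans (index_dvd_of_le h))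

/-- conjugation form of Sylow's theorem -/
theorem sylow_conj [Finite G] {p : ℕ} [hp : Fact p.Prime] (P Q : Sylow p G) :
    ∃ g : G, ∀ x, x ∈ (Q : Subgroup G) ↔ g⁻¹ * x * g ∈ (P : Subgroup G) := by
  obtain ⟨g, rfl⟩ := MulAction.exists_smul_eq G P Q
  refine ⟨g, fun x => ?_⟩
  rw [Sylow.coe_subgroup_smul, mem_pointwise_smul_iff_inv_smul_mem]
  have : (MulAut.conj g)⁻¹ • x = g⁻¹ * x * g := by simp [← map_inv]
  rw [this]

theorem commute_of_coprime [Finite G] {p : ℕ} [hp : Fact p.Prime] {b c : G} (hb : ¬ p ∣ (C b).index)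
    (hc : PE p c) (hco : (C b).index.Coprime (C c).index) (g : G) : g * c * g⁻¹ ∈ C b := by
  obtain ⟨P, hPb, -⟩ := exists_sylow hb PE.one (one_mem _)
  obtain ⟨Q, hQ⟩ := (isPGroup_zpowers_of_orderOf hc).exists_le_sylow
  obtain ⟨k, hk⟩ := sylow_conj P Q
  have h1 := (hk c).1 (hQ (mem_zpowers c))
  have h2 := hPb h1
  obtain ⟨m, hm1, hm2⟩ := exists_simul_conj hco (1 : G) (k⁻¹)
  obtain ⟨n, hn1, hn2⟩ := exists_simul_conj hco (1 : G) g
  have e1 : m * c * m⁻¹ = k⁻¹ * c * k := by rw [hm2]; group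
  have e0 : m * b * m⁻¹ = b := by rw [hm1]; group
  have e0' : n * b * n⁻¹ = b := by rw [hn1]; group
  rw [← e1] at h2
  have h3 := mem_C.1 h2
  -- c commutes with b
  have h4 : c * b = b * c := by
    calc c * b = m⁻¹ * ((m * c * m⁻¹) * (m * b * m⁻¹)) * m := by group
      _ = m⁻¹ * ((m * b * m⁻¹) * (m * c * m⁻¹)) * m := by rw [e0, h3]
      _ = b * c := by group
  rw [mem_C, ← hn2]
  calc n * c * n⁻¹ * b = (n * c * n⁻¹) * (n * b * n⁻¹) := by rw [e0']
    _ = n * (c * b) * n⁻¹ := by group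
    _ = (n * b * n⁻¹) * (n * c * n⁻¹) := by rw [h4]; group
    _ = b * (n * c * n⁻¹) := by rw [e0']

/-- product of a `p'`-element and a `p`-element -/
theorem C_mul_le [Finite G] {p : ℕ} [hp : Fact p.Prime] {w v : G} (hw : (orderOf w).Coprime p)
    (hv : PE p v) (h : w * v = v * w) : C (w * v) ≤ C w ⊓ C v := by
  obtain ⟨k, hk⟩ := hv
  have hcop : (orderOf w).Coprime (orderOf v) := by rw [hk]; exact Nat.Coprime.pow_right _ hw
  have hc : Commute w v := h
  have hwmem : w ∈ zpowers (w * v) := by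
    obtain ⟨a, ha1, ha2⟩ := Nat.chineseRemainder hcop 1 0
    have : (w * v) ^ a = w := by
      rw [hc.mul_pow]
      have e1 : w ^ a = w := by
        have := (pow_eq_pow_iff_modEq (x := w)).2 ha1
        rwa [pow_one] at this
      have e2 : v ^ a = 1 := by
        have := (pow_eq_pow_iff_modEq (x := v)).2 ha2
        rwa [pow_zero] at this
      rw [e1, e2, mul_one]
    have h3 : (w * v) ^ a ∈ zpowers (w * v) := npow_mem_zpowers (w * v) a
    rwa [this] at h3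
  have hvmem : v ∈ zpowers (w * v) := by
    have := mul_mem (inv_mem hwmem) (mem_zpowers (w * v))
    rwa [inv_mul_cancel_left] at this
  intro x hx
  have hx' := mem_C.1 hx
  have key : ∀ y ∈ zpowers (w * v), x * y = y * x := by
    rintro _ ⟨n, rfl⟩
    exact ((show Commute x (w * v) from hx').zpow_right n)
  exact mem_inf.2 ⟨mem_C.2 (key w hwmem), mem_C.2 (key v hvmem)⟩

theorem dvd_orderOf_mul [Finite G] {p : ℕ} [hp : Fact p.Prime] {w v : G} (hw : (orderOf w).Coprime p)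
    (hv : PE p v) (hv1 : v ≠ 1) (h : w * v = v * w) : p ∣ orderOf (w * v) := by
  obtain ⟨k, hk⟩ := hv
  have hcop : (orderOf w).Coprime (orderOf v) := by rw [hk]; exact Nat.Coprime.pow_right _ hw
  rw [(show Commute w v from h).orderOf_mul_eq_mul_orderOf_of_coprime hcop]
  exact Dvd.dvd.mul_left (PE.dvd (x := v) ⟨k, hk⟩ hv1) _

/-- union argument for the centralizers of Sylow `p`-subgroups -/
theorem union1 {K : Type*} [Group K] [Finite K] {p : ℕ} [hp : Fact p.Prime] (P : Sylow p K)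
    (h : ∀ w : K, (orderOf w).Coprime p → ¬ p ∣ (C w).index) :
    (P : Subgroup K) ⊔ centralizer ((P : Subgroup K) : Set K) = ⊤ := by
  apply eq_top_of_forall_conj_mem
  intro x
  obtain ⟨i, j, hx, hi, hj⟩ := exists_pPart_decomp p x
  have hc : x ^ i ∈ C (x ^ j) := by
    rw [mem_C, ← pow_add, ← pow_add, add_comm]
  obtain ⟨Q, hQ, hxQ⟩ := exists_sylow (h _ hj) hi hc
  obtain ⟨g, hg⟩ := sylow_conj P Q
  refine ⟨g⁻¹, ?_⟩
  have e : g⁻¹ * x * g⁻¹⁻¹ = (g⁻¹ * x ^ i * g) * (g⁻¹ * x ^ j * g) := by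
    conv_lhs => rw [hx]
    group
  rw [e]
  refine mul_mem (mem_sup_left ((hg _).1 hxQ)) (mem_sup_right ?_)
  rw [mem_centralizer_iff]
  intro y hy
  have hy' : g * y * g⁻¹ ∈ (Q : Subgroup K) := by
    rw [hg]
    have : g⁻¹ * (g * y * g⁻¹) * g = y := by group
    rwa [this]
  have h2 := mem_C.1 (hQ hy')
  calc y * (g⁻¹ * x ^ j * g) = g⁻¹ * ((g * y * g⁻¹) * x ^ j) * g := by group
    _ = g⁻¹ * (x ^ j * (g * y * g⁻¹)) * g := by rw [h2]
    _ = g⁻¹ * x ^ j * g * y := by group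

theorem union2 {K : Type*} [Group K] [Finite K] {p s : ℕ} [hp : Fact p.Prime] [hs : Fact s.Prime]
    (P : Subgroup K) (hP : ∀ x : K, PE p x → x ∈ P) (hPn : P.Normal) (S : Sylow s K)
    (h : ∀ w : K, (orderOf w).Coprime p → ¬ s ∣ (C w).index) :
    P ⊔ centralizer ((S : Subgroup K) : Set K) = ⊤ := by
  apply eq_top_of_forall_conj_mem
  intro x
  obtain ⟨i, j, hx, hi, hj⟩ := exists_pPart_decomp p x
  obtain ⟨Q, hQ, -⟩ := exists_sylow (h _ hj) PE.one (one_mem _)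
  obtain ⟨g, hg⟩ := sylow_conj S Q
  refine ⟨g⁻¹, ?_⟩
  have e : g⁻¹ * x * g⁻¹⁻¹ = (g⁻¹ * x ^ i * g⁻¹⁻¹) * (g⁻¹ * x ^ j * g) := by
    conv_lhs => rw [hx]
    group
  rw [e]
  refine mul_mem (mem_sup_left (hPn.conj_mem _ (hP _ hi) _)) (mem_sup_right ?_)
  rw [mem_centralizer_iff]
  intro y hy
  have hy' : g * y * g⁻¹ ∈ (Q : Subgroup K) := by
    rw [hg]
    have : g⁻¹ * (g * y * g⁻¹) * g = y := by group
    rwa [this]
  have h2 := mem_C.1 (hQ hy')
  calc y * (g⁻¹ * x ^ j * g) = g⁻¹ * ((g * y * g⁻¹) * x ^ j) * g := by group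
    _ = g⁻¹ * (x ^ j * (g * y * g⁻¹)) * g := by rw [h2]
    _ = g⁻¹ * x ^ j * g * y := by group

/-- the index of `C w ⊓ C b` controls the index of `C w` inside `C b` -/
theorem index_sub_dvd {b : G} (w : C b) : (C w).index ∣ (C (w : G) ⊓ C b).index := by
  have h1 : C w = (C (w : G)).subgroupOf (C b) := (subgroupOf_centralizer_singleton _ w).symm
  rw [h1]
  have h2 : (C (w : G) ⊓ C b).relIndex (C b) * (C b).index = (C (w : G) ⊓ C b).index :=
    relIndex_mul_index inf_le_right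
  rw [inf_relIndex_right] at h2
  exact ⟨_, h2.symm⟩

end Cfsg.Agent.H10.PS
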