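import Cfsg.Agent.H10.PS1

set_option autoImplicit false
open Cfsg

namespace Cfsg.Agent.H10.PS

open Subgroup Cfsg.Agent.H25 Cfsg.Agent.H24

variable {G : Type*} [Group G] [Finite G]

theorem idx_pos (x : G) : 0 < (C x).index := Nat.pos_of_ne_zero index_ne_zero_of_finite

/-- one half of the `p'`-case -/
theorem p_dvd_of_coprime {p : ℕ} [hp : Fact p.Prime] {b c : G} (hb : PE p b)
    (hb1 : (C b).index ≠ 1) (hco : (C b).index.Coprime (C c).index)
    (hd : (C (b * c)).index.Coprime (C b).index) : p ∣ (C c).index := by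
  have h1 := index_mul_dvd hco
  have h2 : (C (b * c)).index ∣ (C c).index := hd.dvd_of_dvd_mul_left h1
  have h3 := index_le_index_mul hco
  have heq : (C (b * c)).index = (C c).index := le_antisymm (Nat.le_of_dvd (idx_pos c) h2) h3
  set Y := classStab c with hY
  have hYn : Y.Normal := inferInstance
  have hYd : Nat.card Y ∣ (C c).index := card_classStab_dvd c
  have h4 : (C b).relIndex Y ∣ (C b).index := relIndex_dvd_index_of_normal_right _ _
  have h5 : (C b).relIndex Y ∣ Nat.card Y := by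
    have : ((C b).subgroupOf Y).index ∣ Nat.card Y := index_dvd_card _
    exact this
  have h6 : (C b).relIndex Y = 1 := by
    have := Nat.dvd_gcd h4 (h5.trans hYd)
    rw [hco] at this
    exact Nat.dvd_one.1 this
  have h7 : Y ≤ C b := relIndex_eq_one.1 h6
  -- a conjugate different from b
  obtain ⟨g, hg⟩ : ∃ g : G, g * b * g⁻¹ ≠ b := by
    by_contra hcon
    push Not at hcon
    apply hb1
    rw [index_eq_one, eq_top_iff]
    intro g _
    rw [mem_C]
    calc g * b = (g * b * g⁻¹) * g := by group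
      _ = b * g := by rw [hcon g]
  have h8 : b⁻¹ * (g * b * g⁻¹) ∈ Y :=
    inv_mul_mem_classStab hco heq (IsConj.refl b) (isConj_iff.2 ⟨g, rfl⟩)
  have h9 := mem_C.1 (h7 h8)
  have h10 : b⁻¹ * (g * b * g⁻¹) = (g * b * g⁻¹) * b⁻¹ := by
    calc b⁻¹ * (g * b * g⁻¹) = b⁻¹ * ((b⁻¹ * (g * b * g⁻¹)) * b)⁻¹⁻¹ * 1 := by rw [h9]; group
      _ = (g * b * g⁻¹) * b⁻¹ := by
        have : b⁻¹ * (g * b * g⁻¹) * b = g * b * g⁻¹ := by rw [h9]; group
        rw [this]
        have e : b⁻¹ * (g * b * g⁻¹) = g * b * g⁻¹ * b⁻¹ := by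
          rw [eq_mul_inv_iff_mul_eq]; exact this
        rw [inv_inv, mul_one, e]
  have h11 : PE p (b⁻¹ * (g * b * g⁻¹)) := PE.mul hb.inv (hb.conj g) h10
  have h12 : b⁻¹ * (g * b * g⁻¹) ≠ 1 := by
    intro h0
    apply hg
    rw [inv_mul_eq_one] at h0
    exact h0.symm
  have h13 := h11.dvd h12
  have h14 : orderOf (b⁻¹ * (g * b * g⁻¹)) ∣ Nat.card Y := by
    have := orderOf_dvd_natCard (⟨_, h8⟩ : Y)
    rwa [Subgroup.orderOf_mk] at this
  exact (h13.trans h14).trans hYd

/-- the main case -/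
theorem main_case {p : ℕ} [hp : Fact p.Prime] {b c : G} (hb : PE p b) (hc : PE p c)
    (hb1 : (C b).index ≠ 1) (hc1 : (C c).index ≠ 1) (hpb : ¬ p ∣ (C b).index) (hpc : p ∣ (C c).index)
    (hco : (C b).index.Coprime (C c).index)
    (hno : ∀ d : G, p ∣ orderOf d → (C d).index.Coprime (C b).index ∨ (C d).index.Coprime (C c).index) :
    False := by
  -- helper: `not coprime` from a common prime
  have hnc : ∀ (q m n : ℕ), q.Prime → q ∣ m → q ∣ n → ¬ m.Coprime n := by
    intro q m n hq h1 h2 h3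
    have := Nat.dvd_gcd h1 h2
    rw [h3] at this
    exact hq.one_lt.ne' (Nat.dvd_one.1 this)
  have hnd : ∀ (m n : ℕ), n ≠ 1 → n ∣ m → ¬ m.Coprime n := by
    intro m n hn h1 h3
    have := Nat.Coprime.eq_one_of_dvd h3.symm h1
    exact hn this
  have hb0 : b ≠ 1 := by
    rintro rfl
    apply hb1
    rw [index_eq_one, eq_top_iff]
    intro g _
    rw [mem_C]; simp
  have hc0 : c ≠ 1 := by
    rintro rfl
    apply hc1
    rw [index_eq_one, eq_top_iff]
    intro g _
    rw [mem_C]; simp
  obtain ⟨P, hPb, hbP⟩ := exists_sylow hpb hb (mem_C.2 rfl)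
  -- step 3
  have hfac : ∀ g ∈ C b, ∃ x ∈ (P : Subgroup G), ∃ y ∈ centralizer ((P : Subgroup G) : Set G), g = x * y := by
    have h1 := union1 (P.subtype hPb) (by
      intro w hw hpw
      have hw' : (orderOf (w : G)).Coprime p := by rwa [Subgroup.orderOf_coe]
      have hcomm : (w : G) * b = b * (w : G) := mem_C.1 w.2
      have h2 := hno ((w : G) * b) (dvd_orderOf_mul hw' hb hb0 hcomm)
      have h3 := index_dvd_of_le (C_mul_le hw' hb hcomm)
      rcases h2 with h4 | h4
      · exact hnd _ _ hb1 ((index_dvd_of_le inf_le_right).trans h3) h4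
      · exact hnc p _ _ hp.out ((hpw.trans (index_sub_dvd w)).trans h3) hpc h4)
    intro g hg
    have h2 : (⟨g, hg⟩ : C b) ∈ (P.subtype hPb : Subgroup (C b)) ⊔
        centralizer ((P.subtype hPb : Subgroup (C b)) : Set (C b)) := by
      rw [h1]; exact mem_top _
    rw [H1.mem_sup_iff_of_le_normalizer (centralizer_le_normalizer _)] at h2
    obtain ⟨x, hx, y, hy, hxy⟩ := h2
    refine ⟨x, hx, y, ?_, (congrArg Subtype.val hxy).symm⟩
    rw [mem_centralizer_iff]
    intro z hz
    have := mem_centralizer_iff.1 hy (⟨z, hPb hz⟩ : C b) hz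
    exact congrArg Subtype.val this
  have hCbN : C b ≤ normalizer ((P : Subgroup G) : Set G) := by
    intro g hg
    obtain ⟨x, hx, y, hy, rfl⟩ := hfac g hg
    have a1 : x ∈ normalizer ((P : Subgroup G) : Set G) :=
      (le_normalizer : (P : Subgroup G) ≤ normalizer ((P : Subgroup G) : Set G)) hx
    have a2 : y ∈ normalizer ((P : Subgroup G) : Set G) :=
      (centralizer_le_normalizer ((P : Subgroup G) : Set G)) hy
    exact mul_mem a1 a2
  have hPE : ∀ v : G, PE p v → v ∈ C b → v ∈ (P : Subgroup G) := fun v hv hvb => hv.mem_sylow P (hCbN hvb)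
  -- claim V
  have hV : ∀ v : G, PE p v → p ∣ (C v).index → (C v).index.Coprime (C b).index := by
    intro v hv hpv
    have hv0 : v ≠ 1 := by
      rintro rfl
      have h1 : C (1 : G) = ⊤ := by
        rw [eq_top_iff]; intro g _; rw [mem_C]; simp
      rw [h1, index_top] at hpv
      exact hp.out.one_lt.ne' (Nat.dvd_one.1 hpv)
    rcases hno v (hv.dvd hv0) with h1 | h1
    · exact h1
    · exact absurd h1 (hnc p _ _ hp.out hpv hpc)
  have hVP : ∀ v : G, PE p v → p ∣ (C v).index → ∀ g : G, g * v * g⁻¹ ∈ (P : Subgroup G) := by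
    intro v hv hpv g
    exact hPE _ (hv.conj g) (commute_of_coprime hpb hv (hV v hv hpv).symm g)
  have hPmem : ∀ v ∈ (P : Subgroup G), PE p v := fun v hv => exists_orderOf_eq_pow_of_mem P.isPGroup' hv
  have hcP : c ∈ (P : Subgroup G) := by simpa using hVP c hc hpc 1
  -- normal closure of c
  have hN : normalClosure ({c} : Set G) ≤ (P : Subgroup G) := by
    rw [normalClosure]
    rw [closure_le]
    intro x hx
    rw [Group.mem_conjugatesOfSet_iff] at hx
    obtain ⟨a, ha, hax⟩ := hx
    rw [Set.mem_singleton_iff] at ha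
    subst ha
    obtain ⟨g, rfl⟩ := isConj_iff.1 hax
    exact hVP _ hc hpc g
  have hcN : c ∈ normalClosure ({c} : Set G) := subset_normalClosure (Set.mem_singleton c)
  have hNp : ∀ Q : Sylow p G, c ∈ (Q : Subgroup G) := by
    intro Q
    obtain ⟨g, hg⟩ := sylow_conj P Q
    rw [hg]
    apply hN
    have := (normalClosure_normal (s := ({c} : Set G))).conj_mem c hcN g⁻¹
    simpa using this
  have hPc : ¬ (P : Subgroup G) ≤ C c := fun h => not_dvd_of_sylow_le P h hpc
  -- step 4
  have hcent : ∀ v : G, PE p v → (∃ g : G, g * v * g⁻¹ ∉ (P : Subgroup G)) → v ∈ C c := by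
    rintro v hv ⟨g, hg⟩
    have h1 : ¬ p ∣ (C v).index := fun h => hg (hVP v hv h g)
    obtain ⟨Q, hQ, hvQ⟩ := exists_sylow h1 hv (mem_C.2 rfl)
    exact mem_C_symm (hQ (hNp Q))
  have hPn : (P : Subgroup G).Normal := by
    constructor
    intro v₀ hv₀ g
    by_contra hcon
    apply hPc
    have h0 := hcent v₀ (hPmem v₀ hv₀) ⟨g, hcon⟩
    intro u hu
    by_cases hu1 : g * u * g⁻¹ ∈ (P : Subgroup G)
    · have h1 : g * (u * v₀) * g⁻¹ ∉ (P : Subgroup G) := by
        intro h2
        apply hcon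
        have h3 := mul_mem (inv_mem hu1) h2
        have e : (g * u * g⁻¹)⁻¹ * (g * (u * v₀) * g⁻¹) = g * v₀ * g⁻¹ := by group
        rwa [e] at h3
      have h2 := hcent (u * v₀) (hPmem _ (mul_mem hu hv₀)) ⟨g, h1⟩
      have h3 := mul_mem h2 (inv_mem h0)
      rwa [mul_inv_cancel_right] at h3
    · exact hcent u (hPmem u hu) ⟨g, hu1⟩
  have hPE' : ∀ v : G, PE p v → v ∈ (P : Subgroup G) := by
    intro v hv
    apply hv.mem_sylow P
    rw [normalizer_eq_top_iff.2 hPn]
    exact mem_top _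
  -- step 5
  obtain ⟨s, hs, hsb⟩ := Nat.exists_prime_and_dvd hb1
  haveI : Fact s.Prime := ⟨hs⟩
  have hsc : ¬ s ∣ (C c).index := fun h => hnc s _ _ hs hsb h hco
  obtain ⟨S, hSc, -⟩ := exists_sylow (p := s) hsc PE.one (one_mem _)
  have hfac2 : ∀ g ∈ C c, ∃ x ∈ (P : Subgroup G), ∃ y ∈ centralizer ((S : Subgroup G) : Set G), g = x * y := by
    have hn : ((P : Subgroup G).subgroupOf (C c)).Normal := inferInstance
    have h1 := union2 (p := p) ((P : Subgroup G).subgroupOf (C c)) (by
      intro x hx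
      rw [mem_subgroupOf]
      apply hPE'
      obtain ⟨k, hk⟩ := hx
      exact ⟨k, by rw [Subgroup.orderOf_coe, hk]⟩) hn (S.subtype hSc) (by
      intro w hw hpw
      have hw' : (orderOf (w : G)).Coprime p := by rwa [Subgroup.orderOf_coe]
      have hcomm : (w : G) * c = c * (w : G) := mem_C.1 w.2
      have h2 := hno ((w : G) * c) (dvd_orderOf_mul hw' hc hc0 hcomm)
      have h3 := index_dvd_of_le (C_mul_le hw' hc hcomm)
      rcases h2 with h4 | h4
      · exact hnc s _ _ hs ((hpw.trans (index_sub_dvd w)).trans h3) hsb h4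
      · exact hnd _ _ hc1 ((index_dvd_of_le inf_le_right).trans h3) h4)
    intro g hg
    have h2 : (⟨g, hg⟩ : C c) ∈ ((P : Subgroup G).subgroupOf (C c)) ⊔
        centralizer ((S.subtype hSc : Subgroup (C c)) : Set (C c)) := by
      rw [h1]; exact mem_top _
    rw [H1.mem_sup_iff_of_le_normalizer (by rw [normalizer_eq_top_iff.2 hn]; exact le_top)] at h2
    obtain ⟨x, hx, y, hy, hxy⟩ := h2
    refine ⟨x, hx, y, ?_, (congrArg Subtype.val hxy).symm⟩
    rw [mem_centralizer_iff]
    intro z hz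
    have := mem_centralizer_iff.1 hy (⟨z, hSc hz⟩ : C c) hz
    exact congrArg Subtype.val this
  have hfac3 : ∀ g : G, ∃ x ∈ (P : Subgroup G), ∃ y ∈ centralizer ((S : Subgroup G) : Set G), g = x * y := by
    intro g
    obtain ⟨u, hu, v, hv, rfl⟩ := H1.factor_of_coprime_index hco g
    obtain ⟨x, hx, y, hy, rfl⟩ := hfac u hu
    have hyc : y ∈ C c := by
      rw [mem_C]
      exact (mem_centralizer_iff.1 hy c hcP).symm
    obtain ⟨x', hx', y', hy', h1⟩ := hfac2 (y * v) (mul_mem hyc hv)
    exact ⟨x * x', mul_mem hx hx', y', hy', by rw [mul_assoc, h1, ← mul_assoc]⟩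
  -- conjugating elements into C(S) by P
  have hconjS : ∀ v : G, ¬ s ∣ (C v).index → ∃ x ∈ (P : Subgroup G),
      x⁻¹ * v * x ∈ centralizer ((S : Subgroup G) : Set G) := by
    intro v hv
    obtain ⟨Q, hQ, -⟩ := exists_sylow (p := s) hv PE.one (one_mem _)
    obtain ⟨g, hg⟩ := sylow_conj S Q
    obtain ⟨x, hx, y, hy, rfl⟩ := hfac3 g
    refine ⟨x, hx, ?_⟩
    rw [mem_centralizer_iff]
    intro z hz
    have hz' : x * z * x⁻¹ ∈ (Q : Subgroup G) := by
      rw [hg]
      have h1 := mem_centralizer_iff.1 hy z hz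
      have : (x * y)⁻¹ * (x * z * x⁻¹) * (x * y) = z := by
        calc (x * y)⁻¹ * (x * z * x⁻¹) * (x * y) = y⁻¹ * (z * y) := by group
          _ = z := by rw [h1]; group
      rwa [this]
    have h2 := mem_C.1 (hQ hz')
    calc z * (x⁻¹ * v * x) = x⁻¹ * ((x * z * x⁻¹) * v) * x := by group
      _ = x⁻¹ * (v * (x * z * x⁻¹)) * x := by rw [h2]
      _ = x⁻¹ * v * x * z := by group
  -- step 6
  have hdec : ∀ v ∈ (P : Subgroup G), ∃ z ∈ (P : Subgroup G), ∃ y ∈ centralizer ((S : Subgroup G) : Set G),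
      (∀ u ∈ (P : Subgroup G), z * u = u * z) ∧ v = z * y := by
    have h1 : center ↥(P : Subgroup G) ⊔
        (centralizer ((S : Subgroup G) : Set G)).subgroupOf (P : Subgroup G) = ⊤ := by
      apply eq_top_of_forall_conj_mem
      intro v
      by_cases hv : p ∣ (C (v : G)).index
      · have h2 := hV v (hPmem _ v.2) hv
        obtain ⟨x, hx, hxv⟩ := hconjS (v : G) (fun h => hnc s _ _ hs h hsb h2)
        refine ⟨⟨x, hx⟩⁻¹, mem_sup_right ?_⟩
        rw [mem_subgroupOf]
        simpa using hxv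
      · obtain ⟨Q, hQ, -⟩ := exists_sylow hv PE.one (one_mem _)
        refine ⟨1, mem_sup_left ?_⟩
        rw [one_mul, inv_one, mul_one, mem_center_iff]
        intro u
        apply Subtype.ext
        obtain ⟨g, hg⟩ := sylow_conj P Q
        have hu : (u : G) ∈ (Q : Subgroup G) := by
          rw [hg]
          have := hPn.conj_mem (u : G) u.2 g⁻¹
          simpa using this
        exact mem_C.1 (hQ hu)
    intro v hv
    have h2 : (⟨v, hv⟩ : ↥(P : Subgroup G)) ∈ center ↥(P : Subgroup G) ⊔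
        (centralizer ((S : Subgroup G) : Set G)).subgroupOf (P : Subgroup G) := by
      rw [h1]; exact mem_top _
    rw [H1.mem_sup_iff_of_le_normalizer (by
      rw [normalizer_eq_top_iff.2 (inferInstance : (center ↥(P : Subgroup G)).Normal)]; exact le_top)] at h2
    obtain ⟨z, hz, y, hy, hzy⟩ := h2
    refine ⟨z, z.2, y, hy, ?_, (congrArg Subtype.val hzy).symm⟩
    intro u hu
    exact (congrArg Subtype.val (mem_center_iff.1 hz ⟨u, hu⟩)).symm
  -- step 7
  have hbc : b * c = c * b := (mem_C.1 (hPb hcP)).symm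
  have hdP : b * c ∈ (P : Subgroup G) := mul_mem hbP hcP
  have hpd : p ∣ (C (b * c)).index := by
    by_contra h0
    apply hPc
    obtain ⟨Q, hQ, -⟩ := exists_sylow h0 PE.one (one_mem _)
    obtain ⟨g, hg⟩ := sylow_conj P Q
    intro u hu
    have hu' : u ∈ (Q : Subgroup G) := by
      rw [hg]
      have := hPn.conj_mem u hu g⁻¹
      simpa using this
    have h1 := mem_C.1 (hQ hu')
    have h2 := mem_C.1 (hPb hu)
    rw [mem_C]
    calc u * c = b⁻¹ * ((b * u) * c) := by group
      _ = b⁻¹ * (u * (b * c)) := by rw [← h2]; group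
      _ = b⁻¹ * (b * c * u) := by rw [h1]
      _ = c * u := by group
  have h1 := hV _ (hPmem _ hdP) hpd
  obtain ⟨x, hx, hxd⟩ := hconjS (b * c) (fun h => hnc s _ _ hs h hsb h1)
  obtain ⟨z, hz, y, hy, hzc, rfl⟩ := hdec x hx
  have hcS : c ∈ centralizer ((S : Subgroup G) : Set G) := by
    rw [mem_centralizer_iff]
    intro u hu
    exact mem_C.1 (hSc hu)
  have hxb := mem_C.1 (hPb hx)
  have hzc' := hzc c hcP
  have e1 : (z * y)⁻¹ * (b * c) * (z * y) = b * (y⁻¹ * c * y) := by
    calc (z * y)⁻¹ * (b * c) * (z * y) = ((z * y)⁻¹ * (b * (z * y))) * ((z * y)⁻¹ * c * (z * y)) := by group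
      _ = b * (y⁻¹ * (z⁻¹ * (c * z)) * y) := by rw [← hxb]; group
      _ = b * (y⁻¹ * c * y) := by rw [← hzc']; group
  rw [e1] at hxd
  have h2 : y⁻¹ * c * y ∈ centralizer ((S : Subgroup G) : Set G) := mul_mem (mul_mem (inv_mem hy) hcS) hy
  have h3 : b ∈ centralizer ((S : Subgroup G) : Set G) := by
    have := mul_mem hxd (inv_mem h2)
    rwa [mul_inv_cancel_right] at this
  apply not_dvd_of_sylow_le S _ hsb
  intro u hu
  rw [mem_C]
  exact mem_centralizer_iff.1 h3 u hu

theorem exists_link {p : ℕ} [hp : Fact p.Prime] {b c : G} (hb : PE p b) (hc : PE p c)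
    (hb1 : (C b).index ≠ 1) (hc1 : (C c).index ≠ 1)
    (hco : (C b).index.Coprime (C c).index) :
    ∃ d : G, p ∣ orderOf d ∧ ¬ (C d).index.Coprime (C b).index ∧ ¬ (C d).index.Coprime (C c).index := by
  by_contra hcon
  have hno : ∀ d : G, p ∣ orderOf d → (C d).index.Coprime (C b).index ∨ (C d).index.Coprime (C c).index := by
    intro d hd
    by_contra h
    push Not at h
    exact hcon ⟨d, hd, h.1, h.2⟩
  by_cases h1 : p ∣ (C b).index
  · have h2 : ¬ p ∣ (C c).index := by
      intro h2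
      have := Nat.dvd_gcd h1 h2
      rw [hco] at this
      exact hp.out.one_lt.ne' (Nat.dvd_one.1 this)
    exact main_case hc hb hc1 hb1 h2 h1 hco.symm (fun d hd => (hno d hd).symm)
  · by_cases h2 : p ∣ (C c).index
    · exact main_case hb hc hb1 hc1 h1 h2 hco hno
    · have h3 : c ∈ C b := by
        have := commute_of_coprime h1 hc hco 1
        simpa using this
      have h4 := mem_C.1 h3
      have hd : PE p (b * c) := PE.mul hb hc h4.symm
      have hd1 : b * c ≠ 1 := by
        intro h0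
        have h5 := index_le_index_mul hco
        rw [h0] at h5
        have h6 : C (1 : G) = ⊤ := by
          rw [eq_top_iff]; intro g _; rw [mem_C]; simp
        have h7 : (centralizer ({(1 : G)} : Set G)).index = 1 := by
          rw [show centralizer ({(1 : G)} : Set G) = ⊤ from h6, index_top]
        rw [h7] at h5
        have := idx_pos c
        exact hc1 (le_antisymm h5 this)
      rcases hno (b * c) (hd.dvd hd1) with h5 | h5
      · exact h2 (p_dvd_of_coprime hb hb1 hco h5)
      · rw [← h4] at h5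
        exact h1 (p_dvd_of_coprime hc hc1 hco.symm h5)

end Cfsg.Agent.H10.PS
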