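import Mathlib
import Cfsg.Agent.H22.MinNormal
import Cfsg.Agent.H22.Perm

set_option autoImplicit false
set_option linter.all false

/-!
# H10.Perm10: centralizers of transitive groups
-/

namespace Cfsg.Agent.H10

open MulAction Cfsg.Agent.H22
open scoped Pointwise

section
variable {α : Type*}

theorem mem_centr {G : Subgroup (Equiv.Perm α)} {c : Equiv.Perm α} :
    c ∈ Subgroup.centralizer (G : Set (Equiv.Perm α)) ↔ ∀ g ∈ G, ∀ x : α, c (g x) = g (c x) := by
  rw [Subgroup.mem_centralizer_iff]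
  constructor
  · intro h g hg x
    exact (DFunLike.congr_fun (h g hg) x).symm
  · intro h g hg
    ext x
    exact (h g hg x).symm

/-- the centralizer of a transitive group is semiregular -/
theorem centr_semireg {G : Subgroup (Equiv.Perm α)} (ht : IsPretransitive G α) {c : Equiv.Perm α}
    (hc : ∀ g ∈ G, ∀ x : α, c (g x) = g (c x)) {a : α} (ha : c a = a) : c = 1 := by
  ext b
  obtain ⟨⟨g, hg⟩, rfl⟩ := ht.exists_smul_eq a b
  show c (g a) = g a
  rw [hc g hg, ha]

theorem centr_semireg' {G : Subgroup (Equiv.Perm α)} (ht : IsPretransitive G α) {c d : Equiv.Perm α}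
    (hc : ∀ g ∈ G, ∀ x : α, c (g x) = g (c x)) (hd : ∀ g ∈ G, ∀ x : α, d (g x) = g (d x))
    {a : α} (ha : c a = d a) : c = d := by
  ext b
  obtain ⟨⟨g, hg⟩, rfl⟩ := ht.exists_smul_eq a b
  show c (g a) = d (g a)
  rw [hc g hg, hd g hg, ha]

theorem map_subtype_comm {G : Subgroup (Equiv.Perm α)} {M : Subgroup G} {c : Equiv.Perm α} :
    (c ∈ Subgroup.centralizer ((M.map G.subtype : Subgroup (Equiv.Perm α)) : Set (Equiv.Perm α))) ↔
      ∀ m ∈ M, ∀ x : α, c ((m : Equiv.Perm α) x) = (m : Equiv.Perm α) (c x) := by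
  rw [mem_centr]
  constructor
  · intro h m hm x
    exact h m ⟨m, hm, rfl⟩ x
  · rintro h _ ⟨m, hm, rfl⟩ x
    exact h m hm x

theorem sub_semireg {G : Subgroup (Equiv.Perm α)} {M : Subgroup G} (ht : IsPretransitive M α)
    {c d : Equiv.Perm α} (hc : ∀ m ∈ M, ∀ x : α, c ((m : Equiv.Perm α) x) = (m : Equiv.Perm α) (c x))
    (hd : ∀ m ∈ M, ∀ x : α, d ((m : Equiv.Perm α) x) = (m : Equiv.Perm α) (d x))
    {a : α} (ha : c a = d a) : c = d := by
  ext b
  obtain ⟨⟨g, hg⟩, rfl⟩ := ht.exists_smul_eq a b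
  show c ((g : Equiv.Perm α) a) = d ((g : Equiv.Perm α) a)
  rw [hc g hg, hd g hg, ha]

/-- distinct minimal normal subgroups commute -/
theorem min_commute {G : Type*} [Group G] {M N : Subgroup G} [hMn : M.Normal] [hNn : N.Normal]
    (hMmin : ∀ L : Subgroup G, L.Normal → L ≤ M → L = ⊥ ∨ L = M)
    (hNmin : ∀ L : Subgroup G, L.Normal → L ≤ N → L = ⊥ ∨ L = N) (hMN : M ≠ N) (hM : M ≠ ⊥) (hN : N ≠ ⊥) :
    M ⊓ N = ⊥ ∧ ∀ a ∈ M, ∀ b ∈ N, a * b = b * a := by
  have h1 : M ⊓ N = ⊥ := by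
    rcases hMmin (M ⊓ N) inferInstance inf_le_left with h | h
    · exact h
    · rcases hNmin (M ⊓ N) inferInstance inf_le_right with h' | h'
      · exact h'
      · exact absurd (h.symm.trans h') hMN
  refine ⟨h1, commute_of_inf_eq_bot (N := ⊤) le_top le_top (fun n _ t ht => hMn.conj_mem t ht n)
    (fun n _ t ht => hNn.conj_mem t ht n) h1⟩

end

end Cfsg.Agent.H10
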