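import Mathlib
import Cfsg.Agent.H10.Perm18

set_option autoImplicit false
set_option linter.all false
set_option maxHeartbeats 400000

/-!
# H10.Perm21: linear groups regular on nonzero vectors: normal abelian subgroups
-/

namespace Cfsg.Agent.H10

open MulAction

section
variable {p : ℕ} [hp : Fact p.Prime] {V : Type*} [AddCommGroup V] [Module (ZMod p) V]
  {H : Subgroup (V ≃ₗ[ZMod p] V)}

/-- `A`-invariant subspaces -/
def AInv (A : Subgroup H) (W : Submodule (ZMod p) V) : Prop :=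
  ∀ a ∈ A, ∀ v ∈ W, ((a : H) : V ≃ₗ[ZMod p] V) v ∈ W

/-- the algebra generated by `A` -/
def EA (A : Subgroup H) : Subalgebra (ZMod p) (Module.End (ZMod p) V) :=
  Algebra.adjoin (ZMod p) {f | ∃ a ∈ A, f = (((a : H) : V ≃ₗ[ZMod p] V) : V →ₗ[ZMod p] V)}

theorem mem_EA {A : Subgroup H} {a : H} (ha : a ∈ A) :
    (((a : H) : V ≃ₗ[ZMod p] V) : V →ₗ[ZMod p] V) ∈ EA A :=
  Algebra.subset_adjoin ⟨a, ha, rfl⟩

theorem EA_inv {A : Subgroup H} {W : Submodule (ZMod p) V} (hW : AInv A W) {e : Module.End (ZMod p) V}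
    (he : e ∈ EA A) : ∀ v ∈ W, e v ∈ W := by
  induction he using Algebra.adjoin_induction with
  | mem x hx => obtain ⟨a, ha, rfl⟩ := hx; exact hW a ha
  | algebraMap r => intro v hv; exact W.smul_mem r hv
  | add x y _ _ hx hy => intro v hv; exact W.add_mem (hx v hv) (hy v hv)
  | mul x y _ _ hx hy => intro v hv; exact hx _ (hy v hv)

theorem EA_comm {A : Subgroup H} (hA : ∀ a ∈ A, ∀ b ∈ A, a * b = b * a) {e f : Module.End (ZMod p) V}
    (he : e ∈ EA A) (hf : f ∈ EA A) : e * f = f * e := by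
  have h1 : ∀ a ∈ A, ∀ f ∈ EA A, (((a : H) : V ≃ₗ[ZMod p] V) : V →ₗ[ZMod p] V) * f =
      f * (((a : H) : V ≃ₗ[ZMod p] V) : V →ₗ[ZMod p] V) := by
    intro a ha f hf
    induction hf using Algebra.adjoin_induction with
    | mem x hx =>
      obtain ⟨b, hb, rfl⟩ := hx
      ext v
      exact congrArg (fun h : H => (h : V ≃ₗ[ZMod p] V) v) (hA a ha b hb)
    | algebraMap r => exact (Algebra.commutes r _).symm
    | add x y _ _ hx hy => rw [mul_add, add_mul, hx, hy]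
    | mul x y _ _ hx hy => rw [← mul_assoc, hx, mul_assoc, hy, mul_assoc]
  induction he using Algebra.adjoin_induction with
  | mem x hx => obtain ⟨a, ha, rfl⟩ := hx; exact h1 a ha f hf
  | algebraMap r => exact Algebra.commutes r _
  | add x y _ _ hx hy => rw [mul_add, add_mul, hx, hy]
  | mul x y _ _ hx hy => rw [mul_assoc, hy, ← mul_assoc, hx, mul_assoc]

theorem EA_conj {A : Subgroup H} [hAn : A.Normal] (h : H) {e : Module.End (ZMod p) V} (he : e ∈ EA A) :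
    (((h : H) : V ≃ₗ[ZMod p] V) : V →ₗ[ZMod p] V) * e * (((h⁻¹ : H) : V ≃ₗ[ZMod p] V) : V →ₗ[ZMod p] V) ∈ EA A := by
  have hinv : (((h⁻¹ : H) : V ≃ₗ[ZMod p] V) : V →ₗ[ZMod p] V) * (((h : H) : V ≃ₗ[ZMod p] V) : V →ₗ[ZMod p] V) = 1 := by
    ext v
    show ((h : V ≃ₗ[ZMod p] V)⁻¹) ((h : V ≃ₗ[ZMod p] V) v) = v
    exact (h : V ≃ₗ[ZMod p] V).symm_apply_apply v
  have hinv' : (((h : H) : V ≃ₗ[ZMod p] V) : V →ₗ[ZMod p] V) * (((h⁻¹ : H) : V ≃ₗ[ZMod p] V) : V →ₗ[ZMod p] V) = 1 := by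
    ext v
    show ((h : V ≃ₗ[ZMod p] V)) ((h : V ≃ₗ[ZMod p] V)⁻¹ v) = v
    exact (h : V ≃ₗ[ZMod p] V).apply_symm_apply v
  induction he using Algebra.adjoin_induction with
  | mem x hx =>
    obtain ⟨a, ha, rfl⟩ := hx
    exact mem_EA (hAn.conj_mem a ha h)
  | algebraMap r =>
    rw [← Algebra.commutes r, mul_assoc, hinv', mul_one]
    exact Subalgebra.algebraMap_mem _ r
  | add x y _ _ hx hy => rw [mul_add, add_mul]; exact add_mem hx hy
  | mul x y _ _ hx hy =>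
    have := mul_mem hx hy
    have e1 : (((h : H) : V ≃ₗ[ZMod p] V) : V →ₗ[ZMod p] V) * x * (((h⁻¹ : H) : V ≃ₗ[ZMod p] V) : V →ₗ[ZMod p] V) *
        ((((h : H) : V ≃ₗ[ZMod p] V) : V →ₗ[ZMod p] V) * y * (((h⁻¹ : H) : V ≃ₗ[ZMod p] V) : V →ₗ[ZMod p] V)) =
        (((h : H) : V ≃ₗ[ZMod p] V) : V →ₗ[ZMod p] V) * (x * y) * (((h⁻¹ : H) : V ≃ₗ[ZMod p] V) : V →ₗ[ZMod p] V) := by
      calc _ = (((h : H) : V ≃ₗ[ZMod p] V) : V →ₗ[ZMod p] V) * x * ((((h⁻¹ : H) : V ≃ₗ[ZMod p] V) : V →ₗ[ZMod p] V) *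
          (((h : H) : V ≃ₗ[ZMod p] V) : V →ₗ[ZMod p] V)) * y * (((h⁻¹ : H) : V ≃ₗ[ZMod p] V) : V →ₗ[ZMod p] V) := by
            simp only [mul_assoc]
        _ = _ := by rw [hinv, mul_one]; simp only [mul_assoc]
    rwa [e1] at this

/-- the orbit space `E y` -/
def Ey (A : Subgroup H) (y : V) : Submodule (ZMod p) V :=
  (Subalgebra.toSubmodule (EA A)).map (LinearMap.applyₗ y)

theorem mem_Ey {A : Subgroup H} {y x : V} : x ∈ Ey A y ↔ ∃ e ∈ EA A, e y = x := by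
  constructor
  · rintro ⟨e, he, rfl⟩; exact ⟨e, he, rfl⟩
  · rintro ⟨e, he, rfl⟩; exact ⟨e, he, rfl⟩

theorem self_mem_Ey {A : Subgroup H} (y : V) : y ∈ Ey A y := mem_Ey.2 ⟨1, one_mem _, rfl⟩

theorem Ey_inv {A : Subgroup H} (y : V) : AInv A (Ey A y) := by
  intro a ha v hv
  obtain ⟨e, he, rfl⟩ := mem_Ey.1 hv
  exact mem_Ey.2 ⟨_, mul_mem (mem_EA ha) he, rfl⟩

theorem Ey_le {A : Subgroup H} {W : Submodule (ZMod p) V} (hW : AInv A W) {y : V} (hy : y ∈ W) : Ey A y ≤ W := by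
  intro x hx
  obtain ⟨e, he, rfl⟩ := mem_Ey.1 hx
  exact EA_inv hW he y hy

/-- existence of minimal invariant subspaces -/
theorem exists_min_inv [Finite V] (A : Subgroup H) (W₀ : Submodule (ZMod p) V) (h0 : W₀ ≠ ⊥) (hW₀ : AInv A W₀) :
    ∃ W ≤ W₀, W ≠ ⊥ ∧ AInv A W ∧ ∀ U : Submodule (ZMod p) V, U ≤ W → AInv A U → U = ⊥ ∨ U = W := by
  let P : Set (Submodule (ZMod p) V) := {W | W ≤ W₀ ∧ W ≠ ⊥ ∧ AInv A W}
  haveI : Finite (Submodule (ZMod p) V) := Finite.of_injective (fun W : Submodule (ZMod p) V => (W : Set V)) SetLike.coe_injective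
  obtain ⟨W, hW⟩ := (Set.toFinite P).exists_minimal ⟨W₀, le_rfl, h0, hW₀⟩
  refine ⟨W, hW.prop.1, hW.prop.2.1, hW.prop.2.2, fun U hU hUi => ?_⟩
  by_cases hU0 : U = ⊥
  · exact Or.inl hU0
  · right
    exact le_antisymm hU (hW.le_of_le ⟨hU.trans hW.prop.1, hU0, hUi⟩ hU)

variable [Finite V] (hreg : ∀ v w : V, v ≠ 0 → w ≠ 0 → ∃! h : H, (h : V ≃ₗ[ZMod p] V) v = w)

include hreg

theorem EA_inverse {A : Subgroup H} [hAn : A.Normal] {y : V} (hy : y ≠ 0) {f : Module.End (ZMod p) V}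
    (hf : f ∈ EA A) (hfy : f y ≠ 0) : ∃ g ∈ EA A, g (f y) = y := by
  have htop : (⊤ : Submodule (ZMod p) V) ≠ ⊥ := by
    intro h
    apply hy
    have : y ∈ (⊤ : Submodule (ZMod p) V) := trivial
    rw [h] at this
    exact (Submodule.mem_bot _).1 this
  obtain ⟨W, -, hW0, hWi, hWm⟩ := exists_min_inv A ⊤ htop (fun a _ v _ => trivial)
  obtain ⟨w₀, hw₀, hw₀0⟩ := Submodule.exists_mem_ne_zero_of_ne_bot hW0
  obtain ⟨h, hh, -⟩ := hreg w₀ y hw₀0 hy
  -- W_h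
  have key : ∀ U : Submodule (ZMod p) V, U ≤ W.map (((h : H) : V ≃ₗ[ZMod p] V) : V →ₗ[ZMod p] V) → AInv A U →
      U ≠ ⊥ → U = W.map (((h : H) : V ≃ₗ[ZMod p] V) : V →ₗ[ZMod p] V) := by
    intro U hU hUi hU0
    have h1 : U.comap (((h : H) : V ≃ₗ[ZMod p] V) : V →ₗ[ZMod p] V) ≤ W := by
      intro x hx
      obtain ⟨w, hw, hwx⟩ := hU hx
      have : w = x := (h : V ≃ₗ[ZMod p] V).injective hwx
      rw [← this]; exact hw
    have h2 : AInv A (U.comap (((h : H) : V ≃ₗ[ZMod p] V) : V →ₗ[ZMod p] V)) := by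
      intro a ha v hv
      have h3 := hUi (h * a * h⁻¹) (hAn.conj_mem a ha h) _ hv
      have h4 : ((h * a * h⁻¹ : H) : V ≃ₗ[ZMod p] V) ((h : V ≃ₗ[ZMod p] V) v) = (h : V ≃ₗ[ZMod p] V) ((a : V ≃ₗ[ZMod p] V) v) := by
        show ((h : V ≃ₗ[ZMod p] V) * (a : V ≃ₗ[ZMod p] V) * (h : V ≃ₗ[ZMod p] V)⁻¹) ((h : V ≃ₗ[ZMod p] V) v) = _
        show (h : V ≃ₗ[ZMod p] V) ((a : V ≃ₗ[ZMod p] V) ((h : V ≃ₗ[ZMod p] V).symm ((h : V ≃ₗ[ZMod p] V) v))) = _
        rw [LinearEquiv.symm_apply_apply]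
      show (h : V ≃ₗ[ZMod p] V) ((a : V ≃ₗ[ZMod p] V) v) ∈ U
      rw [← h4]; exact h3
    rcases hWm _ h1 h2 with h5 | h5
    · exfalso
      apply hU0
      rw [eq_bot_iff]
      intro x hx
      obtain ⟨w, hw, hwx⟩ := hU hx
      have h6 : w ∈ U.comap (((h : H) : V ≃ₗ[ZMod p] V) : V →ₗ[ZMod p] V) := by
        show (((h : H) : V ≃ₗ[ZMod p] V) : V →ₗ[ZMod p] V) w ∈ U
        rw [hwx]; exact hx
      rw [h5, Submodule.mem_bot] at h6
      rw [h6, map_zero] at hwx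
      rw [← hwx]; exact Submodule.zero_mem _
    · apply le_antisymm hU
      rintro _ ⟨w, hw, rfl⟩
      rw [← h5] at hw
      exact hw
  have hyW : y ∈ W.map (((h : H) : V ≃ₗ[ZMod p] V) : V →ₗ[ZMod p] V) := ⟨w₀, hw₀, hh⟩
  have hWhi : AInv A (W.map (((h : H) : V ≃ₗ[ZMod p] V) : V →ₗ[ZMod p] V)) := by
    rintro a ha _ ⟨w, hw, rfl⟩
    have h3 : h⁻¹ * a * h ∈ A := by simpa using hAn.conj_mem a ha h⁻¹
    refine ⟨_, hWi _ h3 w hw, ?_⟩
    show (h : V ≃ₗ[ZMod p] V) ((h : V ≃ₗ[ZMod p] V).symm ((a : V ≃ₗ[ZMod p] V) ((h : V ≃ₗ[ZMod p] V) w))) = _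
    rw [LinearEquiv.apply_symm_apply]; rfl
  have h1 := key (Ey A (f y)) (Ey_le hWhi (EA_inv hWhi hf y hyW)) (Ey_inv _) (by
    intro h2
    have := self_mem_Ey (A := A) (f y)
    rw [h2] at this
    exact hfy ((Submodule.mem_bot _).1 this))
  rw [← h1] at hyW
  exact mem_Ey.1 hyW

theorem EA_injective {A : Subgroup H} [hAn : A.Normal] (hA : ∀ a ∈ A, ∀ b ∈ A, a * b = b * a)
    {f : Module.End (ZMod p) V} (hf : f ∈ EA A) {v : V} (hv : v ≠ 0) (hfv : f v = 0) : f = 0 := by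
  by_contra hf0
  obtain ⟨w, hw⟩ : ∃ w, f w ≠ 0 := by
    by_contra hcon
    push Not at hcon
    exact hf0 (LinearMap.ext hcon)
  have hvw : v + w ≠ 0 := by
    intro h
    have := congrArg f h
    rw [map_add, hfv, zero_add, map_zero] at this
    exact hw this
  obtain ⟨g, hg, hgf⟩ := EA_inverse hreg hvw hf (by rw [map_add, hfv, zero_add]; exact hw)
  rw [map_add, hfv, zero_add] at hgf
  -- s = 1 - g f
  have hs : (1 - g * f) ∈ EA A := sub_mem (one_mem _) (mul_mem hg hf)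
  have hsw : (1 - g * f) w = -v := by
    show w - g (f w) = -v
    rw [hgf]; abel
  have hw0 : w ≠ 0 := by rintro rfl; rw [map_zero] at hw; exact hw rfl
  obtain ⟨q, hq, hqs⟩ := EA_inverse hreg hw0 hs (by rw [hsw]; exact neg_ne_zero.2 hv)
  rw [hsw, map_neg] at hqs
  apply hw
  rw [← hqs, map_neg]
  have : f (q v) = q (f v) := congrArg (fun t : Module.End (ZMod p) V => t v) (EA_comm hA hf hq)
  rw [this, hfv, map_zero, neg_zero]

theorem EA_noZero {A : Subgroup H} [hAn : A.Normal] (hA : ∀ a ∈ A, ∀ b ∈ A, a * b = b * a) :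
    NoZeroDivisors (EA A) := by
  constructor
  rintro ⟨e, he⟩ ⟨f, hf⟩ hef
  have hef' : e * f = 0 := congrArg Subtype.val hef
  by_cases hf0 : f = 0
  · right; exact Subtype.ext hf0
  · left
    apply Subtype.ext
    obtain ⟨w, hw⟩ : ∃ w, f w ≠ 0 := by
      by_contra hcon
      push Not at hcon
      exact hf0 (LinearMap.ext hcon)
    exact EA_injective hreg hA he hw (congrArg (fun t : Module.End (ZMod p) V => t w) hef')

omit hreg in
/-- the commutative ring structure -/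
@[reducible] def EAring {A : Subgroup H} (hA : ∀ a ∈ A, ∀ b ∈ A, a * b = b * a) : CommRing (EA A) :=
  { (inferInstance : Ring (EA A)) with mul_comm := fun e f => Subtype.ext (EA_comm hA e.2 f.2) }

theorem cyclic_of_reg {A : Subgroup H} [hAn : A.Normal] [Nontrivial V] (hA : ∀ a ∈ A, ∀ b ∈ A, a * b = b * a) :
    IsCyclic A := by
  letI := EAring hA
  haveI := EA_noZero hreg hA
  haveI : Nontrivial (EA A) := inferInstance
  haveI : IsDomain (EA A) := NoZeroDivisors.to_isDomain _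
  haveI : Finite A := by
    haveI : Finite (V ≃ₗ[ZMod p] V) := Finite.of_injective (fun e : V ≃ₗ[ZMod p] V => (e : V → V)) DFunLike.coe_injective
    infer_instance
  let f : A →* EA A :=
    { toFun := fun a => ⟨_, mem_EA a.2⟩
      map_one' := rfl
      map_mul' := fun a b => rfl }
  refine isCyclic_of_injective_ringHom (R := EA A) f ?_
  intro a b hab
  have h1 : ((((a : H) : V ≃ₗ[ZMod p] V)) : V →ₗ[ZMod p] V) = ((((b : H) : V ≃ₗ[ZMod p] V)) : V →ₗ[ZMod p] V) :=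
    congrArg Subtype.val hab
  apply Subtype.ext; apply Subtype.ext
  exact LinearEquiv.toLinearMap_injective h1

end

end Cfsg.Agent.H10
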