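import Mathlib

set_option autoImplicit false
set_option linter.all false
set_option maxHeartbeats 400000

/-!
# H10.Perm22: table-checked sharply transitive subgroups of GL(2,q)
-/

namespace Cfsg.Agent.H10

/-- generic criterion -/
theorem exc_main {q : ℕ} [hq : Fact q.Prime] (S : Set (Matrix.GeneralLinearGroup (Fin 2) (ZMod q)))
    (T : (Fin 2 → ZMod q) → (Fin 2 → ZMod q)) (hT1 : T ![1, 0] = ![0, 1])
    (hT : ∀ g ∈ S, ∀ v : Fin 2 → ZMod q, v ≠ 0 →
      T (Matrix.mulVec (g : Matrix (Fin 2) (Fin 2) (ZMod q)) v) = Matrix.mulVec (g : Matrix (Fin 2) (Fin 2) (ZMod q)) (T v))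
    (D : (Fin 2 → ZMod q) → ℕ)
    (hD : ∀ v : Fin 2 → ZMod q, v ≠ 0 → v ≠ ![1, 0] → ∃ g ∈ S, ∃ w : Fin 2 → ZMod q,
      Matrix.mulVec (g : Matrix (Fin 2) (Fin 2) (ZMod q)) w = v ∧ D w < D v) :
    Nat.card (Subgroup.closure S) = q ^ 2 - 1 ∧
    ∀ v w : Fin 2 → ZMod q, v ≠ 0 → w ≠ 0 → ∃! h : Subgroup.closure S,
      Matrix.mulVec ((h : Matrix.GeneralLinearGroup (Fin 2) (ZMod q)) : Matrix (Fin 2) (Fin 2) (ZMod q)) v = w := by
  classical
  -- notation for the action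
  have hmul : ∀ (g h : Matrix.GeneralLinearGroup (Fin 2) (ZMod q)) (v : Fin 2 → ZMod q),
      Matrix.mulVec ((g * h : Matrix.GeneralLinearGroup (Fin 2) (ZMod q)) : Matrix (Fin 2) (Fin 2) (ZMod q)) v =
      Matrix.mulVec (g : Matrix (Fin 2) (Fin 2) (ZMod q)) (Matrix.mulVec (h : Matrix (Fin 2) (Fin 2) (ZMod q)) v) := by
    intro g h v
    rw [Matrix.mulVec_mulVec]; rfl
  have hone : ∀ v : Fin 2 → ZMod q, Matrix.mulVec ((1 : Matrix.GeneralLinearGroup (Fin 2) (ZMod q)) : Matrix (Fin 2) (Fin 2) (ZMod q)) v = v := by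
    intro v
    have : ((1 : Matrix.GeneralLinearGroup (Fin 2) (ZMod q)) : Matrix (Fin 2) (Fin 2) (ZMod q)) = 1 := rfl
    rw [this, Matrix.one_mulVec]
  have hinv : ∀ (g : Matrix.GeneralLinearGroup (Fin 2) (ZMod q)) (v : Fin 2 → ZMod q),
      Matrix.mulVec (g : Matrix (Fin 2) (Fin 2) (ZMod q)) (Matrix.mulVec ((g⁻¹ : Matrix.GeneralLinearGroup (Fin 2) (ZMod q)) : Matrix (Fin 2) (Fin 2) (ZMod q)) v) = v := by
    intro g v
    rw [← hmul, mul_inv_cancel, hone]
  have hinv' : ∀ (g : Matrix.GeneralLinearGroup (Fin 2) (ZMod q)) (v : Fin 2 → ZMod q),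
      Matrix.mulVec ((g⁻¹ : Matrix.GeneralLinearGroup (Fin 2) (ZMod q)) : Matrix (Fin 2) (Fin 2) (ZMod q)) (Matrix.mulVec (g : Matrix (Fin 2) (Fin 2) (ZMod q)) v) = v := by
    intro g v
    rw [← hmul, inv_mul_cancel, hone]
  have hne : ∀ (g : Matrix.GeneralLinearGroup (Fin 2) (ZMod q)) (v : Fin 2 → ZMod q), v ≠ 0 →
      Matrix.mulVec (g : Matrix (Fin 2) (Fin 2) (ZMod q)) v ≠ 0 := by
    intro g v hv h0
    apply hv
    rw [← hinv' g v, h0, Matrix.mulVec_zero]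
  have hTcl : ∀ g ∈ Subgroup.closure S, ∀ v : Fin 2 → ZMod q, v ≠ 0 →
      T (Matrix.mulVec (g : Matrix (Fin 2) (Fin 2) (ZMod q)) v) = Matrix.mulVec (g : Matrix (Fin 2) (Fin 2) (ZMod q)) (T v) := by
    intro g hg
    induction hg using Subgroup.closure_induction with
    | mem x hx => exact hT x hx
    | one => intro v _; rw [hone, hone]
    | mul x y _ _ hx hy =>
      intro v hv
      rw [hmul, hmul, hx _ (hne y v hv), hy v hv]
    | inv x _ hx =>
      intro v hv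
      have h1 := hx _ (hne x⁻¹ v hv)
      rw [hinv] at h1
      rw [h1, hinv']
  have he1 : (![1, 0] : Fin 2 → ZMod q) ≠ 0 := by
    intro h
    have := congrFun h 0
    simp at this
  -- transitivity from e1
  have htr : ∀ n : ℕ, ∀ v : Fin 2 → ZMod q, D v = n → v ≠ 0 → ∃ g ∈ Subgroup.closure S,
      Matrix.mulVec (g : Matrix (Fin 2) (Fin 2) (ZMod q)) ![1, 0] = v := by
    intro n
    induction n using Nat.strong_induction_on with
    | _ n ih =>
      intro v hv hv0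
      by_cases hv1 : v = ![1, 0]
      · exact ⟨1, one_mem _, by rw [hv1, hone]⟩
      · obtain ⟨g, hg, w, hw, hwv⟩ := hD v hv0 hv1
        have hw0 : w ≠ 0 := by
          rintro rfl
          rw [Matrix.mulVec_zero] at hw
          exact hv0 hw.symm
        obtain ⟨k, hk, hkw⟩ := ih (D w) (hv ▸ hwv) w rfl hw0
        refine ⟨g * k, mul_mem (Subgroup.subset_closure hg) hk, ?_⟩
        rw [hmul, hkw, hw]
  -- uniqueness from e1
  have hun : ∀ g ∈ Subgroup.closure S, ∀ h ∈ Subgroup.closure S,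
      Matrix.mulVec (g : Matrix (Fin 2) (Fin 2) (ZMod q)) ![1, 0] = Matrix.mulVec (h : Matrix (Fin 2) (Fin 2) (ZMod q)) ![1, 0] → g = h := by
    intro g hg h hh hgh
    have h1 := hTcl g hg _ he1
    have h2 := hTcl h hh _ he1
    rw [hT1] at h1 h2
    have h3 : Matrix.mulVec (g : Matrix (Fin 2) (Fin 2) (ZMod q)) ![0, 1] = Matrix.mulVec (h : Matrix (Fin 2) (Fin 2) (ZMod q)) ![0, 1] := by
      rw [← h1, ← h2, hgh]
    apply Units.ext
    ext i j
    fin_cases j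
    · have := congrFun hgh i
      simpa [Matrix.mulVec, dotProduct, Fin.sum_univ_two] using this
    · have := congrFun h3 i
      simpa [Matrix.mulVec, dotProduct, Fin.sum_univ_two] using this
  have hreg : ∀ v w : Fin 2 → ZMod q, v ≠ 0 → w ≠ 0 → ∃! h : Subgroup.closure S,
      Matrix.mulVec ((h : Matrix.GeneralLinearGroup (Fin 2) (ZMod q)) : Matrix (Fin 2) (Fin 2) (ZMod q)) v = w := by
    intro v w hv hw
    obtain ⟨g, hg, hgv⟩ := htr _ v rfl hv
    obtain ⟨k, hk, hkw⟩ := htr _ w rfl hw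
    refine ⟨⟨k * g⁻¹, mul_mem hk (inv_mem hg)⟩, ?_, ?_⟩
    · show Matrix.mulVec ((k * g⁻¹ : Matrix.GeneralLinearGroup (Fin 2) (ZMod q)) : Matrix (Fin 2) (Fin 2) (ZMod q)) v = w
      rw [hmul, ← hgv, hinv', hkw]
    · rintro ⟨h, hh⟩ hhv
      apply Subtype.ext
      have hhv' : Matrix.mulVec (h : Matrix (Fin 2) (Fin 2) (ZMod q)) v = w := hhv
      have : h * g = k := by
        apply hun _ (mul_mem hh hg) _ hk
        rw [hmul, hgv, hhv', hkw]
      show h = k * g⁻¹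
      rw [← this, mul_inv_cancel_right]
  refine ⟨?_, hreg⟩
  have hc : Nat.card {v : Fin 2 → ZMod q // v ≠ 0} = q ^ 2 - 1 := by
    rw [Nat.card_eq_fintype_card, Fintype.card_subtype_compl, Fintype.card_subtype_eq, Fintype.card_fun, ZMod.card, Fintype.card_fin]
  rw [← hc]
  refine Nat.card_congr (Equiv.ofBijective (fun h => ⟨Matrix.mulVec ((h : Matrix.GeneralLinearGroup (Fin 2) (ZMod q)) : Matrix (Fin 2) (Fin 2) (ZMod q)) ![1, 0], hne _ _ he1⟩) ⟨?_, ?_⟩)
  · intro h k hhk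
    have := congrArg Subtype.val hhk
    exact Subtype.ext (hun _ h.2 _ k.2 this)
  · rintro ⟨v, hv⟩
    obtain ⟨g, hg, hgv⟩ := htr _ v rfl hv
    exact ⟨⟨g, hg⟩, Subtype.ext hgv⟩

/-- table lookup, 12-bit entries -/
def tget (tbl i : ℕ) : ℕ := (tbl >>> (12 * i)) % 4096

/-- binary-splitting conjunction -/
def allB (f : ℕ → Bool) : ℕ → ℕ → Bool
  | 0, s => f s
  | n + 1, s => allB f n s && allB f n (s + 2 ^ n)

theorem allB_spec (f : ℕ → Bool) (n s : ℕ) (h : allB f n s = true) : ∀ i, s ≤ i → i < s + 2 ^ n → f i = true := by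
  induction n generalizing s with
  | zero =>
    intro i h1 h2
    have : i = s := by simp at h2; omega
    rw [this]; exact h
  | succ n ih =>
    intro i h1 h2
    simp only [allB, Bool.and_eq_true] at h
    rw [pow_succ] at h2
    by_cases h3 : i < s + 2 ^ n
    · exact ih s h.1 i h1 h3
    · exact ih _ h.2 i (by omega) (by omega)

/-- the equivariance check -/
def chkT (q tbl m0 m1 m2 m3 i : ℕ) : Bool :=
  Nat.beq (tget tbl (((m0 * (i / q) + m1 * (i % q)) % q) * q + (m2 * (i / q) + m3 * (i % q)) % q))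
    (((m0 * (tget tbl i / q) + m1 * (tget tbl i % q)) % q) * q + (m2 * (tget tbl i / q) + m3 * (tget tbl i % q)) % q)

/-- the table function -/
def TF (q tbl : ℕ) (v : Fin 2 → ZMod q) : Fin 2 → ZMod q :=
  ![((tget tbl ((v 0).val * q + (v 1).val) / q : ℕ) : ZMod q), ((tget tbl ((v 0).val * q + (v 1).val) % q : ℕ) : ZMod q)]

theorem vec_cases {q : ℕ} [hq : Fact q.Prime] (v : Fin 2 → ZMod q) : ∃ a < q, ∃ c < q, v = ![(a : ZMod q), (c : ZMod q)] ∧ (v 0).val = a ∧ (v 1).val = c := by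
  haveI : NeZero q := ⟨hq.out.ne_zero⟩
  refine ⟨(v 0).val, ZMod.val_lt _, (v 1).val, ZMod.val_lt _, ?_, rfl, rfl⟩
  funext i
  fin_cases i
  · simp [ZMod.natCast_zmod_val]
  · simp [ZMod.natCast_zmod_val]

theorem mulVec_cast {q : ℕ} [hq : Fact q.Prime] (m0 m1 m2 m3 a c : ℕ) :
    Matrix.mulVec (!![(m0 : ZMod q), m1; m2, m3]) ![(a : ZMod q), (c : ZMod q)] =
      ![((m0 * a + m1 * c : ℕ) : ZMod q), ((m2 * a + m3 * c : ℕ) : ZMod q)] := by
  funext i
  fin_cases i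
  · simp [Matrix.mulVec, dotProduct, Fin.sum_univ_two]
  · simp [Matrix.mulVec, dotProduct, Fin.sum_univ_two]

theorem TF_cast {q : ℕ} [hq : Fact q.Prime] (tbl a c : ℕ) : TF q tbl ![(a : ZMod q), (c : ZMod q)] =
    ![((tget tbl ((a % q) * q + c % q) / q : ℕ) : ZMod q), ((tget tbl ((a % q) * q + c % q) % q : ℕ) : ZMod q)] := by
  unfold TF
  simp only [Matrix.cons_val_zero, Matrix.cons_val_one, ZMod.val_natCast]

theorem TF_equiv {q : ℕ} [hq : Fact q.Prime] (tbl m0 m1 m2 m3 : ℕ) (n : ℕ) (hn : q * q ≤ 2 ^ n)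
    (h : allB (fun i => (Nat.ble (q * q) i) || (Nat.beq i 0) || chkT q tbl m0 m1 m2 m3 i) n 0 = true)
    (v : Fin 2 → ZMod q) (hv : v ≠ 0) :
    TF q tbl (Matrix.mulVec (!![(m0 : ZMod q), m1; m2, m3]) v) = Matrix.mulVec (!![(m0 : ZMod q), m1; m2, m3]) (TF q tbl v) := by
  have hq0 : 0 < q := hq.out.pos
  obtain ⟨a, ha, c, hc, hvac, -, -⟩ := vec_cases v
  have hi : a * q + c < q * q := by nlinarith
  have h1 := allB_spec _ n 0 h (a * q + c) (Nat.zero_le _) (by omega)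
  have hne : ¬ (a * q + c = 0) := by
    intro h0
    apply hv
    have ha0 : a = 0 := by
      rcases Nat.eq_zero_or_pos a with h | h
      · exact h
      · nlinarith
    have hc0 : c = 0 := by omega
    rw [hvac, ha0, hc0]; simp
  have h2 : chkT q tbl m0 m1 m2 m3 (a * q + c) = true := by
    have e1 : Nat.ble (q * q) (a * q + c) = false := by
      rw [← Bool.not_eq_true, Nat.ble_eq]; omega
    have e2 : Nat.beq (a * q + c) 0 = false := by
      rw [← Bool.not_eq_true, Nat.beq_eq]; exact hne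
    simpa [e1, e2] using h1
  unfold chkT at h2
  rw [Nat.beq_eq] at h2
  have hd1 : (a * q + c) / q = a := by
    rw [Nat.add_comm, Nat.add_mul_div_right _ _ hq0, Nat.div_eq_of_lt hc, Nat.zero_add]
  have hd2 : (a * q + c) % q = c := by
    rw [Nat.add_comm, Nat.add_mul_mod_self_right, Nat.mod_eq_of_lt hc]
  rw [hd1, hd2] at h2
  rw [hvac, mulVec_cast, TF_cast, TF_cast, Nat.mod_eq_of_lt ha, Nat.mod_eq_of_lt hc, h2, mulVec_cast]
  obtain ⟨t, ht⟩ : ∃ t, t = tget tbl (a * q + c) := ⟨_, rfl⟩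
  rw [← ht]
  have hY : (m2 * (t / q) + m3 * (t % q)) % q < q := Nat.mod_lt _ hq0
  rw [show ((m0 * (t / q) + m1 * (t % q)) % q * q + (m2 * (t / q) + m3 * (t % q)) % q) / q = (m0 * (t / q) + m1 * (t % q)) % q by
      rw [Nat.add_comm, Nat.add_mul_div_right _ _ hq0, Nat.div_eq_of_lt hY, Nat.zero_add],
    show ((m0 * (t / q) + m1 * (t % q)) % q * q + (m2 * (t / q) + m3 * (t % q)) % q) % q = (m2 * (t / q) + m3 * (t % q)) % q by
      rw [Nat.add_comm, Nat.add_mul_mod_self_right, Nat.mod_eq_of_lt hY]]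
  rw [ZMod.natCast_mod, ZMod.natCast_mod]

/-- depth function -/
def DF (q tbl : ℕ) (v : Fin 2 → ZMod q) : ℕ := tget tbl ((v 0).val * q + (v 1).val)

/-- the depth check for one (inverse) generator -/
def chkD (q tbl m0 m1 m2 m3 i : ℕ) : Bool :=
  Nat.blt (tget tbl (((m0 * (i / q) + m1 * (i % q)) % q) * q + (m2 * (i / q) + m3 * (i % q)) % q)) (tget tbl i)

theorem DF_of_chk {q : ℕ} [hq : Fact q.Prime] (tbl m0 m1 m2 m3 a c : ℕ) (ha : a < q) (hc : c < q)
    (h : chkD q tbl m0 m1 m2 m3 (a * q + c) = true) :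
    DF q tbl (Matrix.mulVec (!![(m0 : ZMod q), m1; m2, m3]) ![(a : ZMod q), (c : ZMod q)]) < DF q tbl ![(a : ZMod q), (c : ZMod q)] := by
  have hq0 : 0 < q := hq.out.pos
  unfold chkD at h
  have h2 := h
  rw [Nat.blt_eq] at h2
  have hd1 : (a * q + c) / q = a := by
    rw [Nat.add_comm, Nat.add_mul_div_right _ _ hq0, Nat.div_eq_of_lt hc, Nat.zero_add]
  have hd2 : (a * q + c) % q = c := by
    rw [Nat.add_comm, Nat.add_mul_mod_self_right, Nat.mod_eq_of_lt hc]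
  rw [hd1, hd2] at h2
  rw [mulVec_cast]
  unfold DF
  simp only [Matrix.cons_val_zero, Matrix.cons_val_one, ZMod.val_natCast]
  rw [Nat.mod_eq_of_lt ha, Nat.mod_eq_of_lt hc]
  exact h2

theorem DF_step {q : ℕ} [hq : Fact q.Prime] (tbl m0 m1 m2 m3 : ℕ) (g : Matrix (Fin 2) (Fin 2) (ZMod q))
    (hg : g * !![(m0 : ZMod q), m1; m2, m3] = 1) (v : Fin 2 → ZMod q) (a c : ℕ) (ha : a < q) (hc : c < q)
    (hv : v = ![(a : ZMod q), (c : ZMod q)])
    (h : chkD q tbl m0 m1 m2 m3 (a * q + c) = true) :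
    ∃ w : Fin 2 → ZMod q, Matrix.mulVec g w = v ∧ DF q tbl w < DF q tbl v := by
  refine ⟨Matrix.mulVec (!![(m0 : ZMod q), m1; m2, m3]) v, ?_, ?_⟩
  · rw [Matrix.mulVec_mulVec, hg, Matrix.one_mulVec]
  · rw [hv]; exact DF_of_chk tbl m0 m1 m2 m3 a c ha hc h

theorem idx_ne {q : ℕ} [hq : Fact q.Prime] (v : Fin 2 → ZMod q) (hv : v ≠ 0) (hv1 : v ≠ ![1, 0]) :
    ∃ a < q, ∃ c < q, v = ![(a : ZMod q), (c : ZMod q)] ∧ a * q + c < q * q ∧ a * q + c ≠ 0 ∧ a * q + c ≠ q := by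
  have hq0 : 0 < q := hq.out.pos
  obtain ⟨a, ha, c, hc, hvac, -, -⟩ := vec_cases v
  refine ⟨a, ha, c, hc, hvac, by nlinarith, ?_, ?_⟩
  · intro h0
    apply hv
    have ha0 : a = 0 := by
      rcases Nat.eq_zero_or_pos a with h | h
      · exact h
      · nlinarith
    have hc0 : c = 0 := by omega
    rw [hvac, ha0, hc0]; simp
  · intro h0
    apply hv1
    have ha1 : a = 1 := by
      rcases Nat.lt_trichotomy a 1 with h | h | h
      · exfalso
        have : a = 0 := by omega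
        rw [this] at h0; omega
      · exact h
      · exfalso; nlinarith
    have hc0 : c = 0 := by rw [ha1] at h0; omega
    rw [hvac, ha1, hc0]; simp

end Cfsg.Agent.H10
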