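import Mathlib

set_option autoImplicit false
set_option linter.all false
set_option maxHeartbeats 400000

/-!
# H10.Perm24: Witt's lemma on transitive extensions
-/

namespace Cfsg.Agent.H10.WittExt

open MulAction

section
variable {α : Type*} (t : ℕ) (q : ℕ → α) (G : Subgroup (Equiv.Perm α)) (s : ℕ → Equiv.Perm α)

/-- the chain -/
def M : ℕ → Subgroup (Equiv.Perm α)
  | 0 => G ⊓ MulAction.stabilizer (Equiv.Perm α) (q 2)
  | n + 1 => Subgroup.closure ((M n : Set (Equiv.Perm α)) ∪ {s (n + 1)})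

theorem M_le_succ (n : ℕ) : M q G s n ≤ M q G s (n + 1) := by
  intro x hx
  exact Subgroup.subset_closure (Or.inl hx)

theorem s_mem (n : ℕ) : s (n + 1) ∈ M q G s (n + 1) := Subgroup.subset_closure (Or.inr rfl)

theorem M_mono {m n : ℕ} (h : m ≤ n) : M q G s m ≤ M q G s n := by
  induction h with
  | refl => exact le_rfl
  | step _ ih => exact ih.trans (M_le_succ q G s _)

/-- the hypotheses -/
structure Hyp (H : Subgroup (Equiv.Perm α)) : Prop where
  ht : 2 ≤ t
  hq : ∀ i j : ℕ, 1 ≤ i → i ≤ t → 1 ≤ j → j ≤ t → q i = q j → i = j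
  hfix : ∀ g ∈ G, ∀ i : ℕ, 3 ≤ i → i ≤ t → g (q i) = q i
  h2 : ∀ a b c d : α, (∀ i, 3 ≤ i → i ≤ t → a ≠ q i ∧ b ≠ q i ∧ c ≠ q i ∧ d ≠ q i) → a ≠ b → c ≠ d → ∃ g ∈ G, g a = c ∧ g b = d
  hs1 : s 1 ∈ G
  hs1q : s 1 (q 1) = q 2 ∧ s 1 (q 2) = q 1
  hsq : ∀ i : ℕ, 2 ≤ i → i + 1 ≤ t → s i (q i) = q (i + 1) ∧ s i (q (i + 1)) = q i ∧ ∀ j : ℕ, 1 ≤ j → j ≤ t → j ≠ i → j ≠ i + 1 → s i (q j) = q j
  hH : H = G ⊓ MulAction.stabilizer (Equiv.Perm α) (q 1) ⊓ MulAction.stabilizer (Equiv.Perm α) (q 2)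
  hsq2 : ∀ i : ℕ, 1 ≤ i → i + 1 ≤ t → s i ^ 2 ∈ H
  hbraid : ∀ i : ℕ, 1 ≤ i → i + 2 ≤ t → (s i * s (i + 1)) ^ 3 ∈ H
  hcomm : ∀ i j : ℕ, 1 ≤ i → i + 2 ≤ j → j + 1 ≤ t → (s i * s j) ^ 2 ∈ H ∧ (s j * s i) ^ 2 ∈ H
  hnorm : ∀ i : ℕ, 2 ≤ i → i + 1 ≤ t → ∀ g ∈ G ⊓ MulAction.stabilizer (Equiv.Perm α) (q 2), s i * g * (s i)⁻¹ ∈ G ⊓ MulAction.stabilizer (Equiv.Perm α) (q 2)

variable {t q G s} {H : Subgroup (Equiv.Perm α)} (hh : Hyp t q G s H)
include hh

theorem H_le (n : ℕ) : H ≤ M q G s n := by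
  refine le_trans ?_ (M_mono q G s (Nat.zero_le n))
  rw [hh.hH]
  exact le_inf (inf_le_left.trans inf_le_left) inf_le_right

theorem s_swap (i : ℕ) (hi : 1 ≤ i) (hit : i + 1 ≤ t) : s i (q i) = q (i + 1) ∧ s i (q (i + 1)) = q i := by
  rcases Nat.eq_or_lt_of_le hi with h | h
  · rw [← h]; exact hh.hs1q
  · exact ⟨(hh.hsq i h hit).1, (hh.hsq i h hit).2.1⟩

theorem M_fix (i : ℕ) : ∀ g ∈ M q G s i, ∀ j, i + 2 ≤ j → j ≤ t → g (q j) = q j := by
  induction i with
  | zero =>
    intro g hg j hj hjt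
    rcases Nat.eq_or_lt_of_le hj with h | h
    · rw [← h]; exact hg.2
    · exact hh.hfix g hg.1 j h hjt
  | succ i ih =>
    intro g hg j hj hjt
    induction hg using Subgroup.closure_induction with
    | mem x hx =>
      rcases hx with hx | hx
      · exact ih x hx j (by omega) hjt
      · rw [Set.mem_singleton_iff] at hx
        rw [hx]
        rcases Nat.eq_zero_or_pos i with h | h
        · rw [h]
          exact hh.hfix _ hh.hs1 j (by omega) hjt
        · exact (hh.hsq (i + 1) (by omega) (by omega)).2.2 j (by omega) hjt (by omega) (by omega)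
    | one => rfl
    | mul x y _ _ hx hy => rw [Equiv.Perm.mul_apply, hy, hx]
    | inv x _ hx => rw [Equiv.Perm.inv_eq_iff_eq]; exact hx.symm

theorem M_norm (i : ℕ) : ∀ j, i + 2 ≤ j → j + 1 ≤ t → ∀ g ∈ M q G s i, s j * g * (s j)⁻¹ ∈ M q G s i := by
  induction i with
  | zero =>
    intro j hj hjt g hg
    exact hh.hnorm j hj hjt g hg
  | succ i ih =>
    intro j hj hjt g hg
    induction hg using Subgroup.closure_induction with
    | mem x hx =>
      rcases hx with hx | hx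
      · exact M_le_succ q G s i (ih j (by omega) hjt x hx)
      · rw [Set.mem_singleton_iff] at hx
        rw [hx]
        have h1 := (hh.hcomm (i + 1) j (by omega) (by omega) hjt).2
        have h2 := hh.hsq2 j (by omega) hjt
        have h3 : s j * s (i + 1) * (s j)⁻¹ = (s j * s (i + 1)) ^ 2 * (s (i + 1))⁻¹ * (s j ^ 2)⁻¹ := by
          rw [pow_two, pow_two]; group
        rw [h3]
        exact mul_mem (mul_mem (H_le hh _ h1) (inv_mem (s_mem q G s i))) (inv_mem (H_le hh _ h2))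
    | one => simp
    | mul x y _ _ hx hy =>
      have : s j * (x * y) * (s j)⁻¹ = (s j * x * (s j)⁻¹) * (s j * y * (s j)⁻¹) := by group
      rw [this]; exact mul_mem hx hy
    | inv x _ hx =>
      have : s j * x⁻¹ * (s j)⁻¹ = (s j * x * (s j)⁻¹)⁻¹ := by group
      rw [this]; exact inv_mem hx

/-- `M 0` is transitive off the fixed points -/
theorem M_trans (i : ℕ) (hi : i + 1 ≤ t) : ∀ x : α, (∀ j, i + 2 ≤ j → j ≤ t → x ≠ q j) → ∃ g ∈ M q G s i, g x = q (i + 1) := by
  induction i with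
  | zero =>
    intro x hx
    have ht := hh.ht
    have e2 : ∀ i, 3 ≤ i → i ≤ t → q 2 ≠ q i := by
      intro i hi hit h; have := hh.hq 2 i (by omega) (by omega) (by omega) hit h; omega
    have e1 : ∀ i, 3 ≤ i → i ≤ t → q 1 ≠ q i := by
      intro i hi hit h; have := hh.hq 1 i (by omega) (by omega) (by omega) hit h; omega
    have e3 : q 1 ≠ q 2 := by
      intro h; have := hh.hq 1 2 (by omega) (by omega) (by omega) (by omega) h; omega
    obtain ⟨g, hg, hgx, hg2⟩ := hh.h2 x (q 2) (q 1) (q 2) (fun i hi hit => ⟨hx i (by omega) hit, e2 i hi hit, e1 i hi hit, e2 i hi hit⟩) (hx 2 (by omega) (by omega)) e3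
    exact ⟨g, ⟨hg, hg2⟩, hgx⟩
  | succ i ih =>
    intro x hx
    by_cases hxq : x = q (i + 2)
    · exact ⟨1, one_mem _, by rw [hxq]; rfl⟩
    · obtain ⟨g, hg, hgx⟩ := ih (by omega) x (by
        intro j hj hjt
        rcases Nat.eq_or_lt_of_le hj with h | h
        · rw [← h]; exact hxq
        · exact hx j (by omega) hjt)
      refine ⟨s (i + 1) * g, mul_mem (s_mem q G s i) (M_le_succ q G s i hg), ?_⟩
      rw [Equiv.Perm.mul_apply, hgx]
      exact (s_swap hh (i + 1) (by omega) hi).1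

theorem G_le : G ≤ M q G s 1 := by
  intro g hg
  have ht := hh.ht
  by_cases h : g (q 2) = q 2
  · exact M_le_succ q G s 0 ⟨hg, h⟩
  · obtain ⟨a, ha, hax⟩ := M_trans hh 0 (by omega) (g (q 2)) (by
      intro j hj hjt
      rcases Nat.eq_or_lt_of_le hj with h1 | h1
      · rw [← h1]; exact h
      · intro h2
        have h3 := hh.hfix g hg j (by omega) hjt
        rw [← h3] at h2
        have := g.injective h2
        have := hh.hq 2 j (by omega) (by omega) (by omega) hjt this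
        omega)
    have h1 : (s 1)⁻¹ * a * g ∈ M q G s 0 := by
      refine ⟨G.mul_mem (G.mul_mem (G.inv_mem hh.hs1) ha.1) hg, ?_⟩
      show (s 1)⁻¹ (a (g (q 2))) = q 2
      rw [hax, Equiv.Perm.inv_eq_iff_eq]
      exact hh.hs1q.2.symm
    have h2 : g = a⁻¹ * s 1 * ((s 1)⁻¹ * a * g) := by group
    rw [h2]
    exact mul_mem (mul_mem (inv_mem (M_le_succ q G s 0 ha)) (s_mem q G s 0)) (M_le_succ q G s 0 h1)

theorem M1_le : M q G s 1 ≤ G := by
  refine (Subgroup.closure_le _).2 ?_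
  rintro x (hx | hx)
  · exact hx.1
  · rw [Set.mem_singleton_iff] at hx
    rw [hx]; exact hh.hs1

/-- closure from a double coset condition -/
theorem closure_double (A : Subgroup (Equiv.Perm α)) (x : Equiv.Perm α) (hx2 : x ^ 2 ∈ A)
    (hx : ∀ a ∈ A, x * a * x ∈ A ∨ ∃ b ∈ A, ∃ c ∈ A, x * a * x = b * x * c) :
    ∀ g ∈ Subgroup.closure ((A : Set (Equiv.Perm α)) ∪ {x}), g ∈ A ∨ ∃ b ∈ A, ∃ c ∈ A, g = b * x * c := by
  intro g hg
  induction hg using Subgroup.closure_induction with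
  | mem y hy =>
    rcases hy with hy | hy
    · exact Or.inl hy
    · rw [Set.mem_singleton_iff] at hy
      right
      exact ⟨1, one_mem _, 1, one_mem _, by rw [hy]; group⟩
  | one => exact Or.inl (one_mem _)
  | mul y z _ _ hy hz =>
    rcases hy with hy | ⟨b, hb, c, hc, rfl⟩
    · rcases hz with hz | ⟨b', hb', c', hc', rfl⟩
      · exact Or.inl (mul_mem hy hz)
      · right; exact ⟨y * b', mul_mem hy hb', c', hc', by group⟩
    · rcases hz with hz | ⟨b', hb', c', hc', rfl⟩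
      · right; exact ⟨b, hb, c * z, mul_mem hc hz, by group⟩
      · have h1 : b * x * c * (b' * x * c') = b * (x * (c * b') * x) * c' := by group
        rw [h1]
        rcases hx (c * b') (mul_mem hc hb') with h | ⟨d, hd, e, he, h⟩
        · left; exact mul_mem (mul_mem hb h) hc'
        · right; rw [h]; exact ⟨b * d, mul_mem hb hd, e * c', mul_mem he hc', by group⟩
  | inv y _ hy =>
    rcases hy with hy | ⟨b, hb, c, hc, rfl⟩
    · exact Or.inl (inv_mem hy)
    · right
      refine ⟨c⁻¹ * (x ^ 2)⁻¹, mul_mem (inv_mem hc) (inv_mem hx2), b⁻¹, inv_mem hb, ?_⟩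
      rw [pow_two]; group

theorem M_double (i : ℕ) (hi : i + 2 ≤ t) : ∀ g ∈ M q G s (i + 1), g ∈ M q G s i ∨
    ∃ b ∈ M q G s i, ∃ c ∈ M q G s i, g = b * s (i + 1) * c := by
  induction i with
  | zero =>
    intro g hg
    have hgG := M1_le hh hg
    by_cases h : g (q 2) = q 2
    · exact Or.inl ⟨hgG, h⟩
    · right
      obtain ⟨a, ha, hax⟩ := M_trans hh 0 (by omega) (g (q 2)) (by
        intro j hj hjt
        rcases Nat.eq_or_lt_of_le hj with h1 | h1
        · rw [← h1]; exact h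
        · intro h2
          have h3 := hh.hfix g hgG j (by omega) hjt
          rw [← h3] at h2
          have := g.injective h2
          have := hh.hq 2 j (by omega) (by omega) (by omega) hjt this
          omega)
      refine ⟨a⁻¹, inv_mem ha, (s 1)⁻¹ * a * g, ?_, by group⟩
      refine ⟨G.mul_mem (G.mul_mem (G.inv_mem hh.hs1) ha.1) hgG, ?_⟩
      show (s 1)⁻¹ (a (g (q 2))) = q 2
      rw [hax, Equiv.Perm.inv_eq_iff_eq]
      exact hh.hs1q.2.symm
  | succ i ih =>
    have hn := M_norm hh i (i + 2) le_rfl (by omega)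
    have hs2 := hh.hsq2 (i + 2) (by omega) (by omega)
    apply closure_double hh (M q G s (i + 1)) (s (i + 2)) (H_le hh _ hs2)
    intro a ha
    have hn' : ∀ g ∈ M q G s i, (s (i + 2))⁻¹ * g * s (i + 2) ∈ M q G s i := by
      intro g hg
      have h1 : (s (i + 2))⁻¹ * g * s (i + 2) = (s (i + 2) ^ 2)⁻¹ * (s (i + 2) * g * (s (i + 2))⁻¹) * (s (i + 2) ^ 2) := by
        rw [pow_two]; group
      rw [h1]
      exact mul_mem (mul_mem (inv_mem (H_le hh _ hs2)) (hn g hg)) (H_le hh _ hs2)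
    rcases ih (by omega) a ha with h | ⟨b, hb, c, hc, rfl⟩
    · left
      have h1 : s (i + 2) * a * s (i + 2) = (s (i + 2) * a * (s (i + 2))⁻¹) * s (i + 2) ^ 2 := by
        rw [pow_two]; group
      rw [h1]
      exact mul_mem (M_le_succ q G s i (hn a h)) (H_le hh _ hs2)
    · right
      have hbr := hh.hbraid (i + 1) (by omega) (by omega)
      refine ⟨(s (i + 2) * b * (s (i + 2))⁻¹) * ((s (i + 1))⁻¹ * (s (i + 1) * s (i + 2)) ^ 3 * (s (i + 2) ^ 2)⁻¹), ?_,
        (s (i + 1))⁻¹ * ((s (i + 2))⁻¹ * c * s (i + 2)), ?_, ?_⟩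
      · exact mul_mem (M_le_succ q G s i (hn b hb)) (mul_mem (mul_mem (inv_mem (s_mem q G s i)) (H_le hh _ hbr)) (inv_mem (H_le hh _ hs2)))
      · exact mul_mem (inv_mem (s_mem q G s i)) (M_le_succ q G s i (hn' c hc))
      · rw [pow_succ, pow_two, pow_two]; group

theorem M_stab (i : ℕ) (hi : i + 2 ≤ t) (g : Equiv.Perm α) (hg : g ∈ M q G s (i + 1)) (hgq : g (q (i + 2)) = q (i + 2)) :
    g ∈ M q G s i := by
  rcases M_double hh i hi g hg with h | ⟨b, hb, c, hc, rfl⟩
  · exact h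
  · exfalso
    rw [Equiv.Perm.mul_apply, Equiv.Perm.mul_apply, M_fix hh i c hc (i + 2) le_rfl hi, (s_swap hh (i + 1) (by omega) hi).2] at hgq
    have h1 := M_fix hh i b hb (i + 2) le_rfl hi
    rw [← h1] at hgq
    have h2 : q (i + 1) = b (q (i + 2)) := b.injective (by rw [hgq, h1, h1])
    rw [h1] at h2
    have := hh.hq (i + 1) (i + 2) (by omega) (by omega) (by omega) (by omega) h2
    omega

theorem M_multi (i : ℕ) (hi : i + 1 ≤ t) (x : ℕ → α) (hinj : ∀ j k, 1 ≤ j → j ≤ i + 1 → 1 ≤ k → k ≤ i + 1 → x j = x k → j = k)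
    (hx : ∀ j, 1 ≤ j → j ≤ i + 1 → ∀ k, i + 2 ≤ k → k ≤ t → x j ≠ q k) :
    ∃ g ∈ M q G s i, ∀ j, 1 ≤ j → j ≤ i + 1 → g (x j) = q j := by
  induction i generalizing x with
  | zero =>
    obtain ⟨g, hg, hgx⟩ := M_trans hh 0 hi (x 1) (hx 1 le_rfl le_rfl)
    refine ⟨g, hg, fun j hj hj1 => ?_⟩
    have : j = 1 := by omega
    rw [this]; exact hgx
  | succ i ih =>
    obtain ⟨g, hg, hgx⟩ := M_trans hh (i + 1) hi (x (i + 2)) (hx (i + 2) (by omega) le_rfl)
    obtain ⟨g', hg', hgx'⟩ := ih (by omega) (fun j => g (x j)) (by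
      intro j k hj hj' hk hk' h
      exact hinj j k hj (by omega) hk (by omega) (g.injective h)) (by
      intro j hj hj' k hk hkt h
      have h : g (x j) = q k := h
      rcases Nat.eq_or_lt_of_le hk with h1 | h1
      · rw [← h1, ← hgx] at h
        have := hinj j (i + 2) hj (by omega) (by omega) (by omega) (g.injective h)
        omega
      · rw [← M_fix hh (i + 1) g hg k (by omega) hkt] at h
        exact hx j hj (by omega) k (by omega) hkt (g.injective h))
    refine ⟨g' * g, mul_mem (M_le_succ q G s i hg') hg, fun j hj hj1 => ?_⟩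
    rw [Equiv.Perm.mul_apply]
    rcases Nat.eq_or_lt_of_le hj1 with h | h
    · rw [h, hgx]
      exact M_fix hh i g' hg' (i + 2) le_rfl (by omega)
    · exact hgx' j hj (by omega)

theorem M_point (i : ℕ) (hi : i + 1 ≤ t) (g : Equiv.Perm α) (hg : g ∈ M q G s i) (hgx : ∀ j, 1 ≤ j → j ≤ t → g (q j) = q j) : g ∈ H := by
  induction i with
  | zero =>
    rw [hh.hH]
    exact ⟨⟨hg.1, hgx 1 le_rfl (by omega)⟩, hg.2⟩
  | succ i ih => exact ih (by omega) (M_stab hh i hi g hg (hgx _ (by omega) hi))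

theorem K_eq : Subgroup.closure ((G : Set (Equiv.Perm α)) ∪ {x | ∃ i : ℕ, 2 ≤ i ∧ i + 1 ≤ t ∧ x = s i}) = M q G s (t - 1) := by
  have ht := hh.ht
  apply le_antisymm
  · refine (Subgroup.closure_le _).2 ?_
    rintro x (hx | ⟨i, hi, hit, rfl⟩)
    · exact M_mono q G s (by omega) (G_le hh hx)
    · obtain ⟨j, rfl⟩ : ∃ j, i = j + 1 := ⟨i - 1, by omega⟩
      exact M_mono q G s (by omega) (s_mem q G s j)
  · have : ∀ i, i + 1 ≤ t → M q G s i ≤ Subgroup.closure ((G : Set (Equiv.Perm α)) ∪ {x | ∃ i : ℕ, 2 ≤ i ∧ i + 1 ≤ t ∧ x = s i}) := by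
      intro i
      induction i with
      | zero => intro _ x hx; exact Subgroup.subset_closure (Or.inl hx.1)
      | succ i ih =>
        intro hi
        refine (Subgroup.closure_le _).2 ?_
        rintro x (hx | hx)
        · exact ih (by omega) hx
        · rw [Set.mem_singleton_iff] at hx
          rw [hx]
          rcases Nat.eq_zero_or_pos i with h | h
          · rw [h]; exact Subgroup.subset_closure (Or.inl hh.hs1)
          · exact Subgroup.subset_closure (Or.inr ⟨i + 1, by omega, hi, rfl⟩)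
    exact this (t - 1) (by omega)

theorem main : MulAction.IsMultiplyPretransitive ↥(Subgroup.closure ((G : Set (Equiv.Perm α)) ∪ {x | ∃ i : ℕ, 2 ≤ i ∧ i + 1 ≤ t ∧ x = s i})) α t ∧ Subgroup.closure ((G : Set (Equiv.Perm α)) ∪ {x | ∃ i : ℕ, 2 ≤ i ∧ i + 1 ≤ t ∧ x = s i}) ⊓ fixingSubgroup (Equiv.Perm α) {x | ∃ i : ℕ, 1 ≤ i ∧ i ≤ t ∧ x = q i} = H := by
  have ht := hh.ht
  rw [K_eq hh]
  constructor
  · have key : ∀ x : Fin t ↪ α, ∃ g ∈ M q G s (t - 1), ∀ j : Fin t, g (x j) = q (j + 1) := by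
      intro x
      obtain ⟨g, hg, hgx⟩ := M_multi hh (t - 1) (by omega) (fun j => if h : j - 1 < t then x ⟨j - 1, h⟩ else q 1) (by
        intro j k hj hj' hk hk' h
        have h1 : j - 1 < t := by omega
        have h2 : k - 1 < t := by omega
        simp only [h1, h2, dif_pos] at h
        have := congrArg Fin.val (x.injective h)
        simp only at this
        omega) (by
        intro j hj hj' k hk hkt
        omega)
      refine ⟨g, hg, fun j => ?_⟩
      have := hgx (j + 1) (by omega) (by omega)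
      simp only [Nat.add_sub_cancel, j.2, dif_pos] at this
      exact this
    constructor
    intro x y
    obtain ⟨g, hg, hgx⟩ := key x
    obtain ⟨k, hk, hky⟩ := key y
    refine ⟨⟨k⁻¹ * g, mul_mem (inv_mem hk) hg⟩, ?_⟩
    apply DFunLike.ext
    intro j
    show k⁻¹ (g (x j)) = y j
    rw [hgx, Equiv.Perm.inv_eq_iff_eq, hky]
  · ext g
    constructor
    · rintro ⟨hg, hgf⟩
      have hgf' := (mem_fixingSubgroup_iff (Equiv.Perm α)).1 hgf
      exact M_point hh (t - 1) (by omega) g hg (fun j hj hjt => hgf' (q j) ⟨j, hj, hjt, rfl⟩)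
    · intro hg
      refine Subgroup.mem_inf.2 ⟨H_le hh _ hg, ?_⟩
      rw [mem_fixingSubgroup_iff]
      rintro _ ⟨i, hi, hit, rfl⟩
      rw [hh.hH] at hg
      show g (q i) = q i
      rcases Nat.lt_or_ge i 3 with h | h
      · interval_cases i
        · exact hg.1.2
        · exact hg.2
      · exact hh.hfix g hg.1.1 i h hit

end

end Cfsg.Agent.H10.WittExt
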