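import Mathlib
import Cfsg.Agent.H3.Perm
import Cfsg.Agent.H3.Equivalence
import Cfsg.Agent.H3.Core4
import Cfsg.Agent.H3.Basic2
import Cfsg.Agent.H3.Integral

set_option autoImplicit false
set_option linter.all false
set_option maxHeartbeats 400000

/-!
# H10.Perm31: central idempotent operators of a representation
-/

open Cfsg
open scoped ComplexConjugate

namespace Cfsg.Agent.H10

open Cfsg.Agent.H3

universe u v w

section EE
variable {G : Type u} [Group G] [Fintype G]

/-- the projection onto the `χ`-isotypic component -/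
noncomputable def EE {V : Type*} [AddCommGroup V] [Module ℂ V] (ρ : Representation ℂ G V) (χ : G → ℂ) : V →ₗ[ℂ] V :=
  (χ 1 / (Nat.card G : ℂ)) • classOp χ ρ

theorem EE_apply {V : Type*} [AddCommGroup V] [Module ℂ V] (ρ : Representation ℂ G V) (χ : G → ℂ) (v : V) :
    EE ρ χ v = (χ 1 / (Nat.card G : ℂ)) • ∑ g : G, χ g • ρ g⁻¹ v := by
  rw [EE, LinearMap.smul_apply, classOp_apply]

open Classical in
theorem EE_irr {V : Type*} [AddCommGroup V] [Module ℂ V] [FiniteDimensional ℂ V] (ρ : Representation ℂ G V)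
    [ρ.IsIrreducible] {χ : G → ℂ} (hχ : IsIrrCharacter G χ) :
    EE ρ χ = if χ = ρ.character then LinearMap.id else 0 := by
  have hG := card_ne_zeroC (G := G)
  haveI := nontrivial_of_irr ρ
  have hV : (Module.finrank ℂ V : ℂ) ≠ 0 := by
    exact_mod_cast (Module.finrank_pos (R := ℂ) (M := V)).ne'
  rw [EE, classOp_irr χ (irr_classFun hχ) ρ, classInner_irr hχ (isIrrCharacter_of_rep ρ), smul_smul]
  split_ifs with h
  · have h1 : χ 1 = (Module.finrank ℂ V : ℂ) := by rw [h, Representation.char_one]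
    rw [h1, mul_one]
    have : (Module.finrank ℂ V : ℂ) / (Nat.card G : ℂ) * ((Nat.card G : ℂ) / (Module.finrank ℂ V : ℂ)) = 1 := by
      field_simp
    rw [this, one_smul]
  · simp

theorem EE_sub {V : Type*} [AddCommGroup V] [Module ℂ V] (ρ : Representation ℂ G V) (U : Subrepresentation ρ)
    (χ : G → ℂ) (x : U.toSubmodule) : ((EE U.toRepresentation χ x : U.toSubmodule) : V) = EE ρ χ (x : V) := by
  rw [EE_apply, EE_apply]
  simp only [Submodule.coe_sum, Submodule.coe_smul]
  rfl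

theorem EE_comm {V : Type*} [AddCommGroup V] [Module ℂ V] {W : Type*} [AddCommGroup W] [Module ℂ W]
    (ρ : Representation ℂ G V) (σ : Representation ℂ G W) (T : V →ₗ[ℂ] W)
    (hT : ∀ g v, T (ρ g v) = σ g (T v)) (χ : G → ℂ) (v : V) : T (EE ρ χ v) = EE σ χ (T v) := by
  rw [EE_apply, EE_apply, map_smul, map_sum]
  congr 1
  refine Finset.sum_congr rfl fun g _ => ?_
  rw [map_smul, hT]

theorem EE_inter {V : Type*} [AddCommGroup V] [Module ℂ V] (ρ : Representation ℂ G V) {χ : G → ℂ}
    (hχ : IsClassFunction G χ) (g : G) (v : V) : EE ρ χ (ρ g v) = ρ g (EE ρ χ v) := by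
  rw [EE, LinearMap.smul_apply, LinearMap.smul_apply, classOp_comm χ hχ, map_smul]

open Classical in
theorem EE_mul {V : Type v} [AddCommGroup V] [Module ℂ V] [FiniteDimensional ℂ V] (ρ : Representation ℂ G V)
    {χ ψ : G → ℂ} (hχ : IsIrrCharacter G χ) (hψ : IsIrrCharacter G ψ) (v : V) :
    EE ρ χ (EE ρ ψ v) = if χ = ψ then EE ρ χ v else 0 := by
  have hG := card_ne_zeroC (G := G)
  haveI : NeZero (Nat.card G : ℂ) := ⟨hG⟩
  revert v
  refine rep_induction (k := ℂ) (G := G) (motive := fun V _ _ _ ρ => ∀ v : V, EE ρ χ (EE ρ ψ v) = if χ = ψ then EE ρ χ v else 0)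
    ?_ ?_ ?_ V ρ
  · intro V _ _ _ ρ hV v
    exact Subsingleton.elim _ _
  · intro V _ _ _ ρ hirr v
    rw [EE_irr ρ hχ, EE_irr ρ hψ]
    by_cases h1 : χ = ψ
    · subst h1
      rw [if_pos rfl]
      split_ifs with h
      · rfl
      · simp
    · rw [if_neg h1]
      by_cases h2 : χ = ρ.character
      · have h3 : ¬ ψ = ρ.character := fun h => h1 (h2.trans h.symm)
        rw [if_pos h2, if_neg h3]; simp
      · rw [if_neg h2]; simp
  · intro V _ _ _ ρ U W hc hU hW v
    obtain ⟨x, hx, y, hy, rfl⟩ : ∃ x ∈ U.toSubmodule, ∃ y ∈ W.toSubmodule, x + y = v := by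
      rw [← Submodule.mem_sup, hc.sup_eq_top]; trivial
    have h1 := congrArg (fun z : U.toSubmodule => (z : V)) (hU (⟨x, hx⟩ : U.toSubmodule))
    have h2 := congrArg (fun z : W.toSubmodule => (z : V)) (hW (⟨y, hy⟩ : W.toSubmodule))
    simp only [EE_sub] at h1 h2
    rw [map_add, map_add, h1, h2, map_add]
    split_ifs with h
    · rw [EE_sub, EE_sub]
    · simp

open Classical in
theorem sum_EE {V : Type v} [AddCommGroup V] [Module ℂ V] [FiniteDimensional ℂ V] (ρ : Representation ℂ G V)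
    [Fintype (IrrCharacter G)] (v : V) : ∑ χ : IrrCharacter G, EE ρ (χ : G → ℂ) v = v := by
  have hG := card_ne_zeroC (G := G)
  haveI : NeZero (Nat.card G : ℂ) := ⟨hG⟩
  revert v
  refine rep_induction (k := ℂ) (G := G) (motive := fun V _ _ _ ρ => ∀ v : V, ∑ χ : IrrCharacter G, EE ρ (χ : G → ℂ) v = v)
    ?_ ?_ ?_ V ρ
  · intro V _ _ _ ρ hV v
    exact Subsingleton.elim _ _
  · intro V _ _ _ ρ hirr v
    rw [Finset.sum_eq_single (⟨ρ.character, isIrrCharacter_of_rep ρ⟩ : IrrCharacter G)]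
    · rw [EE_irr ρ (isIrrCharacter_of_rep ρ), if_pos rfl]; rfl
    · intro χ _ hne
      rw [EE_irr ρ χ.2, if_neg (fun h => hne (Subtype.ext h))]; rfl
    · intro h; exact absurd (Finset.mem_univ _) h
  · intro V _ _ _ ρ U W hc hU hW v
    obtain ⟨x, hx, y, hy, rfl⟩ : ∃ x ∈ U.toSubmodule, ∃ y ∈ W.toSubmodule, x + y = v := by
      rw [← Submodule.mem_sup, hc.sup_eq_top]; trivial
    have h1 := congrArg (fun z : U.toSubmodule => (z : V)) (hU (⟨x, hx⟩ : U.toSubmodule))
    have h2 := congrArg (fun z : W.toSubmodule => (z : V)) (hW (⟨y, hy⟩ : W.toSubmodule))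
    simp only [Submodule.coe_sum, EE_sub] at h1 h2
    simp only [map_add, Finset.sum_add_distrib]
    rw [h1, h2]

theorem char_sub_add {V : Type v} [AddCommGroup V] [Module ℂ V] [FiniteDimensional ℂ V] (ρ : Representation ℂ G V)
    (U : Subrepresentation ρ) : ∃ W : Subrepresentation ρ, IsCompl U.toSubmodule W.toSubmodule ∧
      ρ.character = U.toRepresentation.character + W.toRepresentation.character := by
  have hG := card_ne_zeroC (G := G)
  haveI : NeZero (Nat.card G : ℂ) := ⟨hG⟩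
  obtain ⟨W, hW⟩ := exists_isCompl_subrep ρ U
  exact ⟨W, hW, character_eq_add_of_isCompl ρ U W hW⟩

theorem trace_EE {V : Type v} [AddCommGroup V] [Module ℂ V] [FiniteDimensional ℂ V] (ρ : Representation ℂ G V)
    {χ : G → ℂ} (hχ : IsIrrCharacter G χ) : LinearMap.trace ℂ V (EE ρ χ) = χ 1 * classInner ρ.character χ := by
  have hG := card_ne_zeroC (G := G)
  rw [classInner_char_symm (isCharacter_of_rep ρ) (irr_isChar hχ)]
  rw [EE, map_smul, classOp, map_sum, classInner]
  have h1 : ∀ g : G, LinearMap.trace ℂ V (χ g • ρ g⁻¹) = χ g * conj (ρ.character g) := by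
    intro g
    rw [map_smul, smul_eq_mul, ← rep_char_inv]; rfl
  rw [Finset.sum_congr rfl (fun g _ => h1 g), smul_eq_mul]
  rw [div_eq_mul_inv]; ring

theorem EE_ne_zero {V : Type v} [AddCommGroup V] [Module ℂ V] [FiniteDimensional ℂ V] (ρ : Representation ℂ G V)
    {χ : G → ℂ} (hχ : IsIrrCharacter G χ) (h : classInner ρ.character χ ≠ 0) : EE ρ χ ≠ 0 := by
  intro h0
  have h1 := trace_EE ρ hχ
  rw [h0, map_zero] at h1
  obtain ⟨n, hn, hn1⟩ := irr_one_eq_nat hχ
  rcases mul_eq_zero.1 h1.symm with h2 | h2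
  · rw [hn1] at h2
    exact hn.ne' (by exact_mod_cast h2)
  · exact h h2

theorem EE_eq_zero {V : Type v} [AddCommGroup V] [Module ℂ V] [FiniteDimensional ℂ V] (ρ : Representation ℂ G V)
    {χ : G → ℂ} (hχ : IsIrrCharacter G χ) (h : classInner ρ.character χ = 0) : EE ρ χ = 0 := by
  classical
  have hG := card_ne_zeroC (G := G)
  haveI : NeZero (Nat.card G : ℂ) := ⟨hG⟩
  revert h
  refine rep_induction (k := ℂ) (G := G) (motive := fun V _ _ _ ρ => classInner ρ.character χ = 0 → EE ρ χ = 0)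
    ?_ ?_ ?_ V ρ
  · intro V _ _ _ ρ hV _
    ext v; exact Subsingleton.elim _ _
  · intro V _ _ _ ρ hirr h
    rw [EE_irr ρ hχ, if_neg]
    intro h1
    rw [← h1, classInner_self_of_irr hχ] at h
    exact one_ne_zero h
  · intro V _ _ _ ρ U W hc hU hW h
    rw [character_eq_add_of_isCompl ρ U W hc, classInner_add_left] at h
    obtain ⟨m, hm⟩ := classInner_char_nat (isCharacter_of_rep U.toRepresentation) (irr_isChar hχ)
    obtain ⟨n, hn⟩ := classInner_char_nat (isCharacter_of_rep W.toRepresentation) (irr_isChar hχ)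
    rw [hm, hn] at h
    have hmn : m + n = 0 := by exact_mod_cast h
    have hm0 : m = 0 := by omega
    have hn0 : n = 0 := by omega
    have e1 := hU (by rw [hm, hm0]; simp)
    have e2 := hW (by rw [hn, hn0]; simp)
    ext v
    obtain ⟨x, hx, y, hy, rfl⟩ : ∃ x ∈ U.toSubmodule, ∃ y ∈ W.toSubmodule, x + y = v := by
      rw [← Submodule.mem_sup, hc.sup_eq_top]; trivial
    have h1 := EE_sub ρ U χ ⟨x, hx⟩
    have h2 := EE_sub ρ W χ ⟨y, hy⟩
    rw [e1] at h1
    rw [e2] at h2
    rw [map_add]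
    have h1' : EE ρ χ x = 0 := h1.symm
    have h2' : EE ρ χ y = 0 := h2.symm
    rw [h1', h2', add_zero]; rfl

/-- multiplicity-free: the intertwining operators are spanned by the central idempotents -/
theorem exists_expand {V : Type v} [AddCommGroup V] [Module ℂ V] [FiniteDimensional ℂ V] (ρ : Representation ℂ G V)
    [Fintype (IrrCharacter G)]
    (hmf : ∀ χ : G → ℂ, IsIrrCharacter G χ → classInner ρ.character χ = 0 ∨ classInner ρ.character χ = 1)
    (T : V →ₗ[ℂ] V) (hT : ∀ g v, T (ρ g v) = ρ g (T v)) :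
    ∃ c : IrrCharacter G → ℂ, T = ∑ χ : IrrCharacter G, c χ • EE ρ (χ : G → ℂ) := by
  classical
  let I := {χ : IrrCharacter G // classInner ρ.character (χ : G → ℂ) ≠ 0}
  let E : I → Representation.IntertwiningMap ρ ρ := fun χ =>
    ⟨EE ρ (χ.1 : G → ℂ), fun g => LinearMap.ext fun v => EE_inter ρ (irr_classFun χ.1.2) g v⟩
  have hE : ∀ χ : I, ∀ v, E χ v = EE ρ (χ.1 : G → ℂ) v := fun _ _ => rfl
  have hlin : LinearIndependent ℂ E := by
    rw [Fintype.linearIndependent_iff]
    intro c hc χ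
    obtain ⟨v, hv⟩ : ∃ v, EE ρ (χ.1 : G → ℂ) v ≠ 0 := by
      by_contra hcon
      push Not at hcon
      exact EE_ne_zero ρ χ.1.2 χ.2 (LinearMap.ext hcon)
    have h1 : ∑ ψ : I, c ψ • EE ρ (ψ.1 : G → ℂ) v = 0 := by
      have h2 : (∑ ψ : I, c ψ • E ψ : Representation.IntertwiningMap ρ ρ) v = 0 := by rw [hc]; rfl
      rw [Representation.IntertwiningMap.sum_apply] at h2
      exact h2
    have h3 := congrArg (EE ρ (χ.1 : G → ℂ)) h1
    rw [map_sum, map_zero, Finset.sum_eq_single χ] at h3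
    · rw [map_smul, EE_mul ρ χ.1.2 χ.1.2, if_pos rfl] at h3
      exact (smul_eq_zero.1 h3).resolve_right hv
    · intro ψ _ hne
      rw [map_smul, EE_mul ρ χ.1.2 ψ.1.2, if_neg, smul_zero]
      intro h; exact hne (Subtype.ext (Subtype.ext h.symm))
    · intro h; exact absurd (Finset.mem_univ _) h
  have hcard : Fintype.card I = Module.finrank ℂ (Representation.IntertwiningMap ρ ρ) := by
    have h1 := classInner_eq_finrank ρ ρ
    rw [classInner_eq_sum (char_classFun (isCharacter_of_rep ρ))] at h1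
    have h2 : ∀ χ : IrrCharacter G, classInner ρ.character (χ : G → ℂ) * conj (classInner ρ.character (χ : G → ℂ)) =
        if classInner ρ.character (χ : G → ℂ) ≠ 0 then (1 : ℂ) else 0 := by
      intro χ
      rcases hmf χ χ.2 with h | h
      · rw [h]; simp
      · rw [h]; simp
    rw [Finset.sum_congr rfl (fun χ _ => h2 χ), Finset.sum_boole] at h1
    have h3 : (Finset.univ.filter (fun χ : IrrCharacter G => classInner ρ.character (χ : G → ℂ) ≠ 0)).card = Fintype.card I := by
      rw [Fintype.card_subtype]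
    rw [← h3]
    exact_mod_cast h1
  have hspan := hlin.span_eq_top_of_card_eq_finrank' hcard
  have hTmem : (⟨T, fun g => LinearMap.ext fun v => hT g v⟩ : Representation.IntertwiningMap ρ ρ) ∈ Submodule.span ℂ (Set.range E) := by
    rw [hspan]; trivial
  rw [Submodule.mem_span_range_iff_exists_fun] at hTmem
  obtain ⟨c, hc⟩ := hTmem
  refine ⟨fun χ => if h : classInner ρ.character (χ : G → ℂ) ≠ 0 then c ⟨χ, h⟩ else 0, ?_⟩
  ext v
  have h1 := congrArg (fun F : Representation.IntertwiningMap ρ ρ => F v) hc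
  have h2 : (⟨T, fun g => LinearMap.ext fun v => hT g v⟩ : Representation.IntertwiningMap ρ ρ) v = T v := rfl
  simp only [h2] at h1
  rw [← h1, LinearMap.sum_apply]
  have h3 : (∑ i : I, c i • E i : Representation.IntertwiningMap ρ ρ) v = ∑ i : I, c i • EE ρ (i.1 : G → ℂ) v := by
    rw [Representation.IntertwiningMap.sum_apply]; rfl
  rw [h3]
  have h4 : ∑ i : I, c i • EE ρ (i.1 : G → ℂ) v =
      ∑ i : I, (fun χ : IrrCharacter G => (if h : classInner ρ.character (χ : G → ℂ) ≠ 0 then c ⟨χ, h⟩ else 0) • EE ρ (χ : G → ℂ) v) i.1 := by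
    refine Finset.sum_congr rfl fun i _ => ?_
    simp only [dif_pos i.2]
    rfl
  rw [h4, ← Finset.sum_subtype (Finset.univ.filter (fun χ : IrrCharacter G => classInner ρ.character (χ : G → ℂ) ≠ 0))
    (fun x => by simp) (fun χ : IrrCharacter G => (if h : classInner ρ.character (χ : G → ℂ) ≠ 0 then c ⟨χ, h⟩ else 0) • EE ρ (χ : G → ℂ) v)]
  rw [Finset.sum_filter]
  refine Finset.sum_congr rfl fun χ _ => ?_
  simp only [LinearMap.smul_apply]
  split_ifs with h
  · rfl
  · rw [zero_smul]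

end EE

end Cfsg.Agent.H10
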