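import Mathlib
import Cfsg.Prelude.Def_Perm
import Cfsg.Agent.H10.Perm31

set_option autoImplicit false
set_option linter.all false
set_option maxHeartbeats 400000

/-!
# H10.Perm32: the permutation representation and its centraliser algebra
-/

open Cfsg
open scoped ComplexConjugate

namespace Cfsg.Agent.H10

open Cfsg.Agent.H3

universe u v w

section
variable {G : Type u} [Group G] {Ω : Type w} [Fintype Ω] [MulAction G Ω]

theorem permRep_ap (g : G) (f : Ω → ℂ) (x : Ω) : permRep ℂ G Ω g f x = f (g⁻¹ • x) := rfl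

theorem permRep_char : (permRep ℂ G Ω).character = fun g : G => (Nat.card (MulAction.fixedBy Ω g) : ℂ) := by
  classical
  ext g
  rw [Representation.character, LinearMap.trace_eq_matrix_trace ℂ (Pi.basisFun ℂ Ω), Matrix.trace]
  have h1 : ∀ x : Ω, (LinearMap.toMatrix (Pi.basisFun ℂ Ω) (Pi.basisFun ℂ Ω) (permRep ℂ G Ω g)).diag x =
      if g • x = x then (1 : ℂ) else 0 := by
    intro x
    rw [Matrix.diag_apply, LinearMap.toMatrix_apply, Pi.basisFun_apply, Pi.basisFun_repr, permRep_ap, Pi.single_apply]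
    have : g⁻¹ • x = x ↔ g • x = x := by rw [inv_smul_eq_iff, eq_comm]
    simp only [this]
  rw [Finset.sum_congr rfl (fun x _ => h1 x), Finset.sum_boole]
  congr 1
  have h2 : Nat.card (MulAction.fixedBy Ω g) = Nat.card {x : Ω // g • x = x} := rfl
  rw [h2, Nat.card_eq_fintype_card, Fintype.card_subtype]

theorem mem_inv_iff {T : (Ω → ℂ) →ₗ[ℂ] (Ω → ℂ)} :
    T ∈ ((permRep ℂ G Ω).linHom (permRep ℂ G Ω)).invariants ↔ ∀ g v, T (permRep ℂ G Ω g v) = permRep ℂ G Ω g (T v) := by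
  rw [Representation.mem_invariants]
  constructor
  · intro h g v
    have h1 := congrArg (fun F : (Ω → ℂ) →ₗ[ℂ] (Ω → ℂ) => F (permRep ℂ G Ω g v)) (h g)
    rw [← h1]
    show permRep ℂ G Ω g (T (permRep ℂ G Ω g⁻¹ (permRep ℂ G Ω g v))) = _
    rw [Representation.inv_self_apply]
  · intro h g
    ext1 v
    ext1 x
    show permRep ℂ G Ω g (T (permRep ℂ G Ω g⁻¹ _)) _ = _
    rw [h, Representation.self_inv_apply]

/-- commutation in the multiplicity-free case -/
theorem comm_of_mf [Fintype G]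
    (hmf : ∀ χ : G → ℂ, IsIrrCharacter G χ → classInner (permRep ℂ G Ω).character χ = 0 ∨ classInner (permRep ℂ G Ω).character χ = 1)
    (S T : (Ω → ℂ) →ₗ[ℂ] (Ω → ℂ)) (hS : ∀ g v, S (permRep ℂ G Ω g v) = permRep ℂ G Ω g (S v))
    (hT : ∀ g v, T (permRep ℂ G Ω g v) = permRep ℂ G Ω g (T v)) : S ∘ₗ T = T ∘ₗ S := by
  haveI : Fintype (IrrCharacter G) := Fintype.ofFinite _
  obtain ⟨c, hc⟩ := exists_expand (permRep ℂ G Ω) hmf T hT
  apply LinearMap.ext
  intro v
  rw [LinearMap.comp_apply, LinearMap.comp_apply, hc, LinearMap.sum_apply, LinearMap.sum_apply, map_sum]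
  refine Finset.sum_congr rfl fun χ _ => ?_
  rw [LinearMap.smul_apply, LinearMap.smul_apply, map_smul, EE_comm _ _ S hS]

/-- commutativity forces multiplicities at most one -/
theorem mf_of_comm [Fintype G] {V : Type v} [AddCommGroup V] [Module ℂ V] [FiniteDimensional ℂ V] (ρ : Representation ℂ G V)
    (hcomm : ∀ S T : V →ₗ[ℂ] V, (∀ g v, S (ρ g v) = ρ g (S v)) → (∀ g v, T (ρ g v) = ρ g (T v)) → S ∘ₗ T = T ∘ₗ S)
    {χ : G → ℂ} (hχ : IsIrrCharacter G χ) : classInner ρ.character χ = 0 ∨ classInner ρ.character χ = 1 := by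
  by_contra hcon
  push Not at hcon
  obtain ⟨h0, h1⟩ := hcon
  have hπ : IsCharacter G ρ.character := isCharacter_of_rep ρ
  have hθ1 := isChar_sub_irr hπ hχ h0
  have h2 : classInner (ρ.character - χ) χ ≠ 0 := by
    rw [classInner_sub_left, classInner_self_of_irr hχ]
    exact sub_ne_zero.2 h1
  obtain ⟨m, τ, hτ⟩ := isChar_sub_irr hθ1 hχ h2
  obtain ⟨n, σ, hσ, hσχ⟩ := hχ
  haveI := hσ
  haveI := nontrivial_of_irr σ
  have hprod : ∀ {A B : Type} [AddCommGroup A] [Module ℂ A] [FiniteDimensional ℂ A] [AddCommGroup B] [Module ℂ B]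
      [FiniteDimensional ℂ B] (α : Representation ℂ G A) (β : Representation ℂ G B), (α.prod β).character = α.character + β.character := by
    intro A B _ _ _ _ _ _ α β
    ext g
    exact LinearMap.trace_prodMap' (α g) (β g)
  have hchar : ρ.character = (σ.prod (σ.prod τ)).character := by
    rw [hprod, hprod, hσχ, hτ]
    ext g; simp
  obtain ⟨e⟩ := equiv_of_char_eq ρ (σ.prod (σ.prod τ)) hchar
  have he : ∀ g v, e (ρ g v) = (σ.prod (σ.prod τ)) g (e v) := fun g v => Representation.IntertwiningMap.isIntertwining _ _ e.toIntertwiningMap g v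
  have he' : ∀ g v, e.symm ((σ.prod (σ.prod τ)) g v) = ρ g (e.symm v) := fun g v => Representation.IntertwiningMap.isIntertwining _ _ e.symm.toIntertwiningMap g v
  have hee : ∀ v, e (e.symm v) = v := fun v => e.toLinearEquiv.apply_symm_apply v
  let W := Fin n → ℂ
  let X := Fin m → ℂ
  let S' : (W × (W × X)) →ₗ[ℂ] (W × (W × X)) :=
    LinearMap.inl ℂ W (W × X) ∘ₗ LinearMap.fst ℂ W X ∘ₗ LinearMap.snd ℂ W (W × X)
  let T' : (W × (W × X)) →ₗ[ℂ] (W × (W × X)) :=
    LinearMap.inr ℂ W (W × X) ∘ₗ LinearMap.inl ℂ W X ∘ₗ LinearMap.fst ℂ W (W × X)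
  have hS' : ∀ g v, S' ((σ.prod (σ.prod τ)) g v) = (σ.prod (σ.prod τ)) g (S' v) := by
    rintro g ⟨x, y, z⟩
    show ((σ g y, (0, 0)) : W × (W × X)) = (σ g y, (σ g 0, τ g 0))
    rw [map_zero, map_zero]
  have hT' : ∀ g v, T' ((σ.prod (σ.prod τ)) g v) = (σ.prod (σ.prod τ)) g (T' v) := by
    rintro g ⟨x, y, z⟩
    show ((0, (σ g x, 0)) : W × (W × X)) = (σ g 0, (σ g x, τ g 0))
    rw [map_zero, map_zero]
  let S : V →ₗ[ℂ] V := e.symm.toLinearMap ∘ₗ S' ∘ₗ e.toLinearMap
  let T : V →ₗ[ℂ] V := e.symm.toLinearMap ∘ₗ T' ∘ₗ e.toLinearMap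
  have hSap : ∀ v, S v = e.symm (S' (e v)) := fun v => rfl
  have hTap : ∀ v, T v = e.symm (T' (e v)) := fun v => rfl
  have h3 := hcomm S T (fun g v => by rw [hSap, hSap, he, hS', he']) (fun g v => by rw [hTap, hTap, he, hT', he'])
  obtain ⟨w, hw⟩ := exists_ne (0 : W)
  have h4 := congrArg (fun F : V →ₗ[ℂ] V => e (F (e.symm (w, (0, 0))))) h3
  simp only [LinearMap.comp_apply, hSap, hTap, hee] at h4
  have h5 : (w, ((0 : W), (0 : X))) = ((0 : W), ((0 : W), (0 : X))) := h4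
  exact hw (congrArg Prod.fst h5)

end

end Cfsg.Agent.H10
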