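import Mathlib
import Cfsg.Agent.H10.Perm32

set_option autoImplicit false
set_option linter.all false
set_option maxHeartbeats 400000

/-!
# H10.Perm33: matrix entries of intertwining operators; orbital operators
-/

open Cfsg
open scoped ComplexConjugate

namespace Cfsg.Agent.H10

open Cfsg.Agent.H3

universe u v w

section
variable {G : Type u} [Group G] {Ω : Type w} [Fintype Ω] [DecidableEq Ω] [MulAction G Ω]

theorem permRep_single (g : G) (y : Ω) : permRep ℂ G Ω g (Pi.single y 1) = Pi.single (g • y) 1 := by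
  ext x
  rw [permRep_ap, Pi.single_apply, Pi.single_apply]
  have : g⁻¹ • x = y ↔ x = g • y := inv_smul_eq_iff
  simp only [this]

/-- matrix entry -/
noncomputable def ent (T : (Ω → ℂ) →ₗ[ℂ] (Ω → ℂ)) (x y : Ω) : ℂ := T (Pi.single y 1) x

theorem ent_smul {T : (Ω → ℂ) →ₗ[ℂ] (Ω → ℂ)} (hT : ∀ (g : G) v, T (permRep ℂ G Ω g v) = permRep ℂ G Ω g (T v)) (g : G) (x y : Ω) :
    ent T (g • x) (g • y) = ent T x y := by
  unfold ent
  rw [← permRep_single, hT, permRep_ap, inv_smul_smul]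

theorem sum_single (v : Ω → ℂ) : v = ∑ y, v y • (Pi.single y 1 : Ω → ℂ) := by
  ext x
  rw [Finset.sum_apply]
  simp [Pi.single_apply]

theorem apply_eq_ent (T : (Ω → ℂ) →ₗ[ℂ] (Ω → ℂ)) (v : Ω → ℂ) (x : Ω) : T v x = ∑ y, ent T x y * v y := by
  conv_lhs => rw [sum_single v]
  rw [map_sum, Finset.sum_apply]
  refine Finset.sum_congr rfl fun y _ => ?_
  rw [map_smul, Pi.smul_apply, smul_eq_mul, mul_comm]; rfl

theorem ent_ext {S T : (Ω → ℂ) →ₗ[ℂ] (Ω → ℂ)} (h : ∀ x y, ent S x y = ent T x y) : S = T := by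
  apply LinearMap.ext
  intro v
  ext x
  rw [apply_eq_ent, apply_eq_ent]
  exact Finset.sum_congr rfl fun y _ => by rw [h]

theorem ent_comp (S T : (Ω → ℂ) →ₗ[ℂ] (Ω → ℂ)) (x y : Ω) : ent (S ∘ₗ T) x y = ∑ z, ent S x z * ent T z y := by
  show S (T (Pi.single y 1)) x = _
  rw [apply_eq_ent]; rfl

theorem trace_ent (T : (Ω → ℂ) →ₗ[ℂ] (Ω → ℂ)) : LinearMap.trace ℂ (Ω → ℂ) T = ∑ x, ent T x x := by
  rw [LinearMap.trace_eq_matrix_trace ℂ (Pi.basisFun ℂ Ω), Matrix.trace]
  refine Finset.sum_congr rfl fun x _ => ?_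
  rw [Matrix.diag_apply, LinearMap.toMatrix_apply, Pi.basisFun_apply, Pi.basisFun_repr]; rfl

theorem ent_EE [Fintype G] (χ : G → ℂ) (x y : Ω) :
    ent (EE (permRep ℂ G Ω) χ) x y = (χ 1 / (Nat.card G : ℂ)) * ∑ g : G, if g • x = y then χ g else 0 := by
  unfold ent
  rw [EE_apply, Pi.smul_apply, Finset.sum_apply, smul_eq_mul]
  congr 1
  refine Finset.sum_congr rfl fun g _ => ?_
  rw [Pi.smul_apply, permRep_ap, inv_inv, Pi.single_apply, smul_eq_mul]
  split_ifs <;> simp

theorem ent_EE_symm [Fintype G] {χ : G → ℂ} (hχ : IsIrrCharacter G χ) (x y : Ω) :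
    ent (EE (permRep ℂ G Ω) χ) y x = ent (EE (permRep ℂ G Ω) (fun g => conj (χ g))) x y := by
  rw [ent_EE, ent_EE]
  obtain ⟨n, hn, hn1⟩ := irr_one_eq_nat hχ
  have h1 : conj (χ 1) = χ 1 := by rw [hn1, Complex.conj_natCast]
  rw [h1]
  congr 1
  refine Fintype.sum_equiv (Equiv.inv G) _ _ fun g => ?_
  rw [Equiv.inv_apply]
  have h2 : g • y = x ↔ g⁻¹ • x = y := by rw [inv_smul_eq_iff, eq_comm]
  simp only [h2]
  split_ifs with h
  · rw [char_inv (irr_isChar hχ), Complex.conj_conj]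
  · rfl

/-- the operator of an invariant relation -/
noncomputable def relOp (R : Ω → Ω → Prop) : (Ω → ℂ) →ₗ[ℂ] (Ω → ℂ) := by
  classical
  exact
  { toFun := fun v x => ∑ y, if R x y then v y else 0
    map_add' := fun v w => by
      ext x
      simp only [Pi.add_apply, ← Finset.sum_add_distrib]
      refine Finset.sum_congr rfl fun y _ => ?_
      split_ifs <;> simp
    map_smul' := fun c v => by
      ext x
      simp only [Pi.smul_apply, smul_eq_mul, RingHom.id_apply, Finset.mul_sum]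
      refine Finset.sum_congr rfl fun y _ => ?_
      split_ifs <;> simp }

open Classical in
theorem relOp_apply (R : Ω → Ω → Prop) (v : Ω → ℂ) (x : Ω) : relOp R v x = ∑ y, if R x y then v y else 0 := by
  unfold relOp
  rfl

open Classical in
theorem ent_relOp (R : Ω → Ω → Prop) (x y : Ω) : ent (relOp R) x y = if R x y then 1 else 0 := by
  unfold ent
  rw [relOp_apply, Finset.sum_eq_single y]
  · rw [Pi.single_eq_same]
  · intro z _ hz
    rw [Pi.single_eq_of_ne hz]; simp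
  · intro h; exact absurd (Finset.mem_univ _) h

theorem relOp_comm (R : Ω → Ω → Prop) (hR : ∀ (g : G) x y, R (g • x) (g • y) ↔ R x y) (g : G) (v : Ω → ℂ) :
    relOp R (permRep ℂ G Ω g v) = permRep ℂ G Ω g (relOp R v) := by
  classical
  ext x
  rw [relOp_apply, permRep_ap, relOp_apply]
  refine (Fintype.sum_equiv (MulAction.toPerm g) _ _ fun y => ?_).symm
  rw [MulAction.toPerm_apply, permRep_ap, inv_smul_smul]
  have := hR g (g⁻¹ • x) y
  rw [smul_inv_smul] at this
  simp only [this]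

/-- all intertwining operators symmetric when all suborbits are self-paired -/
theorem ent_symm_of_gen (hgen : ∀ a b : Ω, ∃ g : G, g • a = b ∧ g • b = a)
    {T : (Ω → ℂ) →ₗ[ℂ] (Ω → ℂ)} (hT : ∀ (g : G) v, T (permRep ℂ G Ω g v) = permRep ℂ G Ω g (T v)) (x y : Ω) :
    ent T x y = ent T y x := by
  obtain ⟨g, hgx, hgy⟩ := hgen x y
  rw [← ent_smul hT g x y, hgx, hgy]

end

end Cfsg.Agent.H10
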