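import Mathlib
import Cfsg.Agent.H10.Perm33

set_option autoImplicit false
set_option linter.all false
set_option maxHeartbeats 400000

/-!
# H10.Perm34: subdegrees and constituent degrees
-/

open Cfsg
open scoped ComplexConjugate

namespace Cfsg.Agent.H10

open Cfsg.Agent.H3

universe u v w

theorem trace_sum_eig {V : Type*} [AddCommGroup V] [Module ℂ V] [FiniteDimensional ℂ V] (T : Module.End ℂ V) :
    LinearMap.trace ℂ V T = ∑ μ ∈ T.charpoly.roots.toFinset, (Module.finrank ℂ (T.maxGenEigenspace μ) : ℂ) * μ := by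
  rw [Module.End.trace_eq_sum_roots_charpoly_of_splits (IsAlgClosed.splits _), Finset.sum_multiset_count]
  refine Finset.sum_congr rfl fun μ _ => ?_
  rw [LinearMap.finrank_maxGenEigenspace_eq, Polynomial.count_roots, nsmul_eq_mul]

section
variable {G : Type u} [Group G] [Fintype G] {V : Type v} [AddCommGroup V] [Module ℂ V] [FiniteDimensional ℂ V]

/-- generalised eigenspaces are subrepresentations -/
noncomputable def gsub (ρ : Representation ℂ G V) (T : Module.End ℂ V) (hT : ∀ g v, T (ρ g v) = ρ g (T v)) (μ : ℂ) :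
    Subrepresentation ρ where
  toSubmodule := T.maxGenEigenspace μ
  apply_mem_toSubmodule g v hv := by
    have hc : Commute T (ρ g) := by
      apply LinearMap.ext
      intro w
      exact hT g w
    exact (Module.End.mapsTo_maxGenEigenspace_of_comm hc μ) hv

/-- principal multiplicity zero when there are no fixed vectors -/
theorem inner_one_zero (ρ : Representation ℂ G V) (h : ∀ v : V, (∀ g, ρ g v = v) → v = 0) :
    classInner ρ.character (fun _ => 1) = 0 := by
  have h1 := trace_EE ρ (isIrr_one (G := G))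
  have h2 : EE ρ (fun _ => (1 : ℂ)) = 0 := by
    apply LinearMap.ext
    intro v
    apply h
    intro g
    rw [EE_apply, map_smul, map_sum]
    congr 1
    refine Fintype.sum_equiv (Equiv.mulRight g⁻¹) _ _ fun x => ?_
    rw [one_smul, one_smul, Equiv.coe_mulRight, mul_inv_rev, inv_inv, map_mul]
    rfl
  rw [h2, map_zero, one_mul] at h1
  exact h1.symm

/-- dimension modulo `f` -/
theorem finrank_mod (ρ : Representation ℂ G V) (f : ℕ)
    (hf : ∀ χ : G → ℂ, IsIrrCharacter G χ → χ ≠ (fun _ => 1) → classInner ρ.character χ ≠ 0 → ∃ m : ℕ, χ 1 = (f : ℂ) * m)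
    (U : Subrepresentation ρ) (m₁ : ℕ) (hm₁ : classInner U.toRepresentation.character (fun _ => 1) = m₁) :
    ∃ k : ℕ, Module.finrank ℂ U.toSubmodule = m₁ + f * k := by
  classical
  haveI : Fintype (IrrCharacter G) := Fintype.ofFinite _
  obtain ⟨W, -, hW⟩ := char_sub_add ρ U
  obtain ⟨m, hm, hexp⟩ := char_expand (isCharacter_of_rep U.toRepresentation)
  have hdvd : ∀ ψ : IrrCharacter G, ∃ j : ℕ, ψ ≠ ⟨fun _ => 1, isIrr_one⟩ → (m ψ : ℂ) * (ψ : G → ℂ) 1 = (f : ℂ) * j := by
    intro ψ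
    by_cases hψ : ψ = ⟨fun _ => 1, isIrr_one⟩
    · exact ⟨0, fun h => absurd hψ h⟩
    by_cases h0 : m ψ = 0
    · exact ⟨0, fun _ => by rw [h0]; simp⟩
    · obtain ⟨n, hn⟩ := classInner_char_nat (isCharacter_of_rep W.toRepresentation) (irr_isChar ψ.2)
      have h1 : classInner ρ.character (ψ : G → ℂ) ≠ 0 := by
        rw [hW, classInner_add_left, hm, hn]
        intro h
        have : m ψ + n = 0 := by exact_mod_cast h
        omega
      obtain ⟨j, hj⟩ := hf ψ ψ.2 (fun h => hψ (Subtype.ext h)) h1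
      exact ⟨m ψ * j, fun _ => by rw [hj]; push_cast; ring⟩
  choose j hj using hdvd
  have h1 : (Module.finrank ℂ U.toSubmodule : ℂ) = ∑ ψ : IrrCharacter G, (m ψ : ℂ) * (ψ : G → ℂ) 1 := by
    have h2 := congrFun hexp 1
    rw [Representation.char_one, Finset.sum_apply] at h2
    exact h2
  rw [← Finset.add_sum_erase Finset.univ _ (Finset.mem_univ (⟨fun _ => 1, isIrr_one⟩ : IrrCharacter G))] at h1
  have h3 : (m ⟨fun _ => 1, isIrr_one⟩ : ℂ) = m₁ := by rw [← hm, ← hm₁]
  rw [Finset.sum_congr rfl (fun ψ hψ => hj ψ (Finset.ne_of_mem_erase hψ)), h3, ← Finset.mul_sum] at h1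
  refine ⟨∑ ψ ∈ Finset.univ.erase (⟨fun _ => 1, isIrr_one⟩ : IrrCharacter G), j ψ, ?_⟩
  have h4 : (Module.finrank ℂ U.toSubmodule : ℂ) = ((m₁ + f * ∑ ψ ∈ Finset.univ.erase (⟨fun _ => 1, isIrr_one⟩ : IrrCharacter G), j ψ : ℕ) : ℂ) := by
    rw [h1]; push_cast; simp
  exact_mod_cast h4

end

section
variable {G : Type u} [Group G] {Ω : Type w} [Fintype Ω] [DecidableEq Ω] [MulAction G Ω]

theorem relOp_root_integral (R : Ω → Ω → Prop) (μ : ℂ) (hμ : μ ∈ (relOp R : Module.End ℂ (Ω → ℂ)).charpoly.roots) :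
    IsIntegral ℤ μ := by
  classical
  let M : Matrix Ω Ω ℤ := Matrix.of fun x y => if R x y then 1 else 0
  have h1 : LinearMap.toMatrix (Pi.basisFun ℂ Ω) (Pi.basisFun ℂ Ω) (relOp R) = M.map (Int.castRingHom ℂ) := by
    ext x y
    rw [LinearMap.toMatrix_apply, Pi.basisFun_apply, Pi.basisFun_repr]
    have h2 : relOp R (Pi.single y 1) x = ent (relOp R) x y := rfl
    have hM : M x y = if R x y then 1 else 0 := rfl
    rw [h2, ent_relOp, Matrix.map_apply, hM]
    split_ifs <;> simp
  have h2 : (relOp R : Module.End ℂ (Ω → ℂ)).charpoly = M.charpoly.map (Int.castRingHom ℂ) := by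
    rw [← LinearMap.charpoly_toMatrix _ (Pi.basisFun ℂ Ω), h1, Matrix.charpoly_map]
  rw [h2, Polynomial.mem_roots (by exact ((Matrix.charpoly_monic M).map _).ne_zero), Polynomial.IsRoot.def, Polynomial.eval_map] at hμ
  exact ⟨M.charpoly, Matrix.charpoly_monic M, hμ⟩

theorem relOp_const (R : Ω → Ω → Prop) (c : ℂ) (x : Ω) : relOp R (fun _ => c) x = (Nat.card {y // R x y} : ℂ) * c := by
  classical
  rw [relOp_apply, Nat.card_eq_fintype_card, Fintype.card_subtype]
  simp only [Finset.sum_ite, Finset.sum_const, Finset.sum_const_zero, add_zero, nsmul_eq_mul, mul_zero]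

theorem fixed_const [MulAction.IsPretransitive G Ω] (v : Ω → ℂ) (hv : ∀ g : G, permRep ℂ G Ω g v = v) (x y : Ω) : v x = v y := by
  obtain ⟨g, hg⟩ := MulAction.exists_smul_eq G x y
  have := congrFun (hv g) y
  rw [permRep_ap, ← hg, inv_smul_smul] at this
  rw [this, hg]

/-- valency of the orbital relation -/
theorem card_orbital [MulAction.IsPretransitive G Ω] (a b : Ω) (x : Ω) :
    Nat.card {y // ∃ g : G, g • a = x ∧ g • b = y} = Nat.card (MulAction.orbit (MulAction.stabilizer G a) b) := by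
  obtain ⟨g, rfl⟩ := MulAction.exists_smul_eq G a x
  refine Nat.card_congr ⟨fun y => ⟨g⁻¹ • y.1, ?_⟩, fun z => ⟨g • z.1, ?_⟩, fun y => ?_, fun z => ?_⟩
  · obtain ⟨y, k, hk1, hk2⟩ := y
    refine ⟨⟨g⁻¹ * k, ?_⟩, ?_⟩
    · rw [MulAction.mem_stabilizer_iff, mul_smul, hk1, inv_smul_smul]
    · show (g⁻¹ * k) • b = g⁻¹ • y
      rw [mul_smul, hk2]
  · obtain ⟨z, ⟨⟨k, hk⟩, hkz⟩⟩ := z
    refine ⟨g * k, by rw [mul_smul, MulAction.mem_stabilizer_iff.1 hk], ?_⟩
    rw [mul_smul]
    congr 1
  · apply Subtype.ext; simp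
  · apply Subtype.ext; simp

theorem subdegree_dvd [Fintype G] [MulAction.IsPretransitive G Ω] (f : ℕ)
    (hf : ∀ χ : G → ℂ, IsIrrCharacter G χ → χ ≠ (fun _ => 1) → classInner (permRep ℂ G Ω).character χ ≠ 0 → ∃ m : ℕ, χ 1 = (f : ℂ) * m)
    (a b : Ω) (hab : b ≠ a) : f ∣ Nat.card (MulAction.orbit (MulAction.stabilizer G a) b) := by
  classical
  haveI : Nonempty Ω := ⟨a⟩
  obtain ⟨d, hd⟩ : ∃ d, d = Nat.card (MulAction.orbit (MulAction.stabilizer G a) b) := ⟨_, rfl⟩
  rw [← hd]
  let R : Ω → Ω → Prop := fun x y => ∃ g : G, g • a = x ∧ g • b = y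
  have hR : ∀ (g : G) x y, R (g • x) (g • y) ↔ R x y := by
    intro g x y
    constructor
    · rintro ⟨k, hk1, hk2⟩
      exact ⟨g⁻¹ * k, by rw [mul_smul, hk1, inv_smul_smul], by rw [mul_smul, hk2, inv_smul_smul]⟩
    · rintro ⟨k, hk1, hk2⟩
      exact ⟨g * k, by rw [mul_smul, hk1], by rw [mul_smul, hk2]⟩
  let T : Module.End ℂ (Ω → ℂ) := relOp R
  have hT : ∀ (g : G) v, T (permRep ℂ G Ω g v) = permRep ℂ G Ω g (T v) := relOp_comm R hR
  let ρ := permRep ℂ G Ω
  -- constants
  have hT1 : ∀ c : ℂ, T (fun _ => c) = (d : ℂ) • (fun _ => c : Ω → ℂ) := by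
    intro c
    ext x
    show relOp R (fun _ => c) x = _
    rw [relOp_const, Pi.smul_apply, smul_eq_mul, hd, ← card_orbital a b x]
  have hconst_mem : ∀ c : ℂ, (fun _ => c : Ω → ℂ) ∈ T.maxGenEigenspace (d : ℂ) := by
    intro c
    have : (fun _ => c : Ω → ℂ) ∈ T.eigenspace (d : ℂ) := Module.End.mem_eigenspace_iff.2 (hT1 c)
    exact (T.genEigenspace (d : ℂ)).monotone (le_top : (1 : ℕ∞) ≤ ⊤) this
  -- trace zero
  have htr : LinearMap.trace ℂ (Ω → ℂ) T = 0 := by
    rw [trace_ent]
    apply Finset.sum_eq_zero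
    intro x _
    show ent (relOp R) x x = 0
    rw [ent_relOp, if_neg]
    rintro ⟨g, h1, h2⟩
    exact hab (MulAction.injective g (h2.trans h1.symm))
  -- multiplicities
  have hinner1 : classInner ρ.character (fun _ => 1) = 1 := by
    have h1 : ρ.character = permChar G Ω := permRep_char
    rw [h1, classInner_permChar_one, card_orbits_eq_one, Nat.cast_one]
  have hm : ∀ μ : ℂ, classInner (gsub ρ T hT μ).toRepresentation.character (fun _ => 1) = ((if μ = d then 1 else 0 : ℕ) : ℂ) := by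
    intro μ
    split_ifs with hμ
    · subst hμ
      obtain ⟨W, hc, hW⟩ := char_sub_add ρ (gsub ρ T hT d)
      have h1 : classInner W.toRepresentation.character (fun _ => 1) = 0 := by
        apply inner_one_zero
        rintro ⟨v, hv⟩ hfix
        have hfix' : ∀ g : G, ρ g v = v := fun g => congrArg Subtype.val (hfix g)
        have hconst : v = fun _ => v a := by
          ext x; exact fixed_const v hfix' x a
        have h2 : v ∈ (gsub ρ T hT d).toSubmodule := by
          rw [hconst]; exact hconst_mem _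
        have h3 : v ∈ (gsub ρ T hT d).toSubmodule ⊓ W.toSubmodule := ⟨h2, hv⟩
        rw [hc.inf_eq_bot] at h3
        exact Subtype.ext ((Submodule.mem_bot ℂ).1 h3)
      rw [hW, classInner_add_left, h1, add_zero] at hinner1
      rw [hinner1]; simp
    · rw [Nat.cast_zero]
      apply inner_one_zero
      rintro ⟨v, hv⟩ hfix
      have hfix' : ∀ g : G, ρ g v = v := fun g => congrArg Subtype.val (hfix g)
      have hconst : v = fun _ => v a := by
        ext x; exact fixed_const v hfix' x a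
      have h2 : v ∈ T.maxGenEigenspace (d : ℂ) := by
        rw [hconst]; exact hconst_mem _
      have h3 := (T.disjoint_genEigenspace hμ ⊤ ⊤)
      have h4 : v ∈ T.maxGenEigenspace μ ⊓ T.maxGenEigenspace (d : ℂ) := ⟨hv, h2⟩
      rw [Module.End.maxGenEigenspace, Module.End.maxGenEigenspace, h3.eq_bot] at h4
      exact Subtype.ext ((Submodule.mem_bot ℂ).1 h4)
  choose k hk using fun μ : ℂ => finrank_mod ρ f hf (gsub ρ T hT μ) _ (hm μ)
  have hk' : ∀ μ : ℂ, Module.finrank ℂ (T.maxGenEigenspace μ) = (if μ = d then 1 else 0) + f * k μ := hk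
  have hsum := trace_sum_eig T
  rw [htr] at hsum
  have hdS : (d : ℂ) ∈ T.charpoly.roots.toFinset := by
    rw [Multiset.mem_toFinset, Polynomial.mem_roots (LinearMap.charpoly_monic T).ne_zero, ← Module.End.hasEigenvalue_iff_isRoot_charpoly]
    apply Module.End.hasEigenvalue_of_hasEigenvector (x := fun _ => (1 : ℂ))
    rw [Module.End.hasEigenvector_iff, Module.End.mem_eigenspace_iff]
    refine ⟨hT1 1, ?_⟩
    intro h
    exact one_ne_zero (congrFun h a)
  have hsum2 : (0 : ℂ) = d + f * ∑ μ ∈ T.charpoly.roots.toFinset, (k μ : ℂ) * μ := by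
    rw [hsum, Finset.mul_sum]
    have h1 : ∀ μ ∈ T.charpoly.roots.toFinset, (Module.finrank ℂ (T.maxGenEigenspace μ) : ℂ) * μ =
        (if μ = d then μ else 0) + f * ((k μ : ℂ) * μ) := by
      intro μ _
      rw [hk' μ]
      push_cast
      split_ifs <;> ring
    rw [Finset.sum_congr rfl h1, Finset.sum_add_distrib, Finset.sum_ite_eq' , if_pos hdS]
  by_cases hf0 : f = 0
  · rw [hf0, Nat.cast_zero, zero_mul, add_zero] at hsum2
    have : d = 0 := by exact_mod_cast hsum2.symm
    rw [this]; exact dvd_zero _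
  · apply nat_dvd_of_isIntegral hf0
    have hfC : (f : ℂ) ≠ 0 := by exact_mod_cast hf0
    have h1 : (d : ℂ) / f = -∑ μ ∈ T.charpoly.roots.toFinset, (k μ : ℂ) * μ := by
      rw [div_eq_iff hfC]; linear_combination -hsum2
    rw [h1]
    apply IsIntegral.neg
    apply IsIntegral.sum
    intro μ hμ
    apply IsIntegral.mul
    · exact isIntegral_natCast _
    · exact relOp_root_integral R μ (Multiset.mem_toFinset.1 hμ)

end

end Cfsg.Agent.H10
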