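import Mathlib
import Cfsg.Agent.H10.Perm34

set_option autoImplicit false
set_option linter.all false
set_option maxHeartbeats 400000

/-!
# H10.Perm35: rank and multiplicities
-/

open Cfsg
open scoped ComplexConjugate

namespace Cfsg.Agent.H10

open Cfsg.Agent.H3

universe u v w

section
variable {G : Type u} [Group G] {Ω : Type w} [Fintype Ω] [DecidableEq Ω] [MulAction G Ω]

/-- rank equals the norm of the permutation character -/
theorem rank_eq [Fintype G] [MulAction.IsPretransitive G Ω] (a : Ω) :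
    classInner (permRep ℂ G Ω).character (permRep ℂ G Ω).character =
      (Nat.card (MulAction.orbitRel.Quotient (MulAction.stabilizer G a) Ω) : ℂ) := by
  classical
  haveI : Fintype (MulAction.stabilizer G a) := Fintype.ofFinite _
  have h1 : (permRep ℂ G Ω).character = permChar G Ω := permRep_char
  rw [h1]
  conv_lhs => rw [show permChar G Ω = indFun (MulAction.stabilizer G a) (fun _ => 1) from permChar_eq_indFun Ω a]
  have h2 : indFun (MulAction.stabilizer G a) (fun _ => 1) = permChar G Ω := (permChar_eq_indFun Ω a).symm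
  rw [frobenius_reciprocity _ _ (by rw [h2]; exact char_classFun (isChar_permChar Ω)), h2]
  rw [← classInner_conj_symm]
  have h3 : (fun h : MulAction.stabilizer G a => permChar G Ω h) = permChar (MulAction.stabilizer G a) Ω := by
    ext h; rfl
  rw [h3, classInner_permChar_one]
  simp

/-- sum of orbit sizes -/
theorem card_eq_sum_orbits {H : Type*} [Group H] [MulAction H Ω] [Fintype (MulAction.orbitRel.Quotient H Ω)] :
    Nat.card Ω = ∑ q : MulAction.orbitRel.Quotient H Ω, Nat.card q.orbit := by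
  rw [Nat.card_congr (MulAction.selfEquivSigmaOrbits' H Ω), Nat.card_sigma]

theorem mf_same_degree [Fintype G] [MulAction.IsPretransitive G Ω] (a : Ω) (f : ℕ)
    (hf : ∀ χ : G → ℂ, IsIrrCharacter G χ → χ ≠ (fun _ => 1) → classInner (permRep ℂ G Ω).character χ ≠ 0 → χ 1 = f) :
    (∀ χ : G → ℂ, IsIrrCharacter G χ → classInner (permRep ℂ G Ω).character χ = 0 ∨ classInner (permRep ℂ G Ω).character χ = 1) ∧
    ∀ b : Ω, b ≠ a → Nat.card (MulAction.orbit (MulAction.stabilizer G a) b) = f := by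
  classical
  haveI : Nonempty Ω := ⟨a⟩
  haveI : Fintype (IrrCharacter G) := Fintype.ofFinite _
  let ρ := permRep ℂ G Ω
  let H := MulAction.stabilizer G a
  haveI : Fintype (MulAction.orbitRel.Quotient H Ω) := Fintype.ofFinite _
  have hsub : ∀ b : Ω, b ≠ a → f ∣ Nat.card (MulAction.orbit H b) := fun b hb =>
    subdegree_dvd f (fun χ hχ h1 h0 => ⟨1, by rw [hf χ hχ h1 h0]; simp⟩) a b hb
  have hsub' : ∀ b : Ω, b ≠ a → f ≤ Nat.card (MulAction.orbit H b) := fun b hb =>
    by
      haveI : Nonempty (MulAction.orbit H b) := ⟨⟨b, MulAction.mem_orbit_self b⟩⟩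
      exact Nat.le_of_dvd Nat.card_pos (hsub b hb)
  obtain ⟨m, hm, hexp⟩ := char_expand (isCharacter_of_rep ρ)
  let one : IrrCharacter G := ⟨fun _ => 1, isIrr_one⟩
  have hm1 : m one = 1 := by
    have h1 : classInner ρ.character (fun _ => 1) = 1 := by
      have h1 : ρ.character = permChar G Ω := permRep_char
      rw [h1, classInner_permChar_one, card_orbits_eq_one, Nat.cast_one]
    have h2 := hm one
    have h3 : (m one : ℂ) = 1 := by rw [← h2]; exact h1
    exact_mod_cast h3
  -- degree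
  have hdeg : Nat.card Ω = 1 + f * ∑ ψ ∈ Finset.univ.erase one, m ψ := by
    have h1 : ((Nat.card Ω : ℕ) : ℂ) = ∑ ψ : IrrCharacter G, (m ψ : ℂ) * (ψ : G → ℂ) 1 := by
      have h2 := congrFun hexp 1
      rw [Representation.char_one, Finset.sum_apply, Module.finrank_fintype_fun_eq_card, ← Nat.card_eq_fintype_card] at h2
      exact h2
    rw [← Finset.add_sum_erase Finset.univ _ (Finset.mem_univ one), hm1] at h1
    have h2 : ∀ ψ ∈ Finset.univ.erase one, (m ψ : ℂ) * (ψ : G → ℂ) 1 = (f : ℂ) * m ψ := by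
      intro ψ hψ
      by_cases h0 : m ψ = 0
      · rw [h0]; simp
      · rw [hf ψ ψ.2 (fun h => Finset.ne_of_mem_erase hψ (Subtype.ext h)) (by rw [hm]; exact_mod_cast h0), mul_comm]
    rw [Finset.sum_congr rfl h2, ← Finset.mul_sum] at h1
    have h3 : ((Nat.card Ω : ℕ) : ℂ) = ((1 + f * ∑ ψ ∈ Finset.univ.erase one, m ψ : ℕ) : ℂ) := by
      rw [h1]; push_cast; simp [one]
    exact_mod_cast h3
  -- rank
  have hrank : Fintype.card (MulAction.orbitRel.Quotient H Ω) = 1 + ∑ ψ ∈ Finset.univ.erase one, m ψ ^ 2 := by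
    have h1 := rank_eq (G := G) a
    rw [classInner_eq_sum (char_classFun (isCharacter_of_rep (permRep ℂ G Ω)))] at h1
    have h2 : ∀ χ : IrrCharacter G, classInner (permRep ℂ G Ω).character (χ : G → ℂ) * conj (classInner (permRep ℂ G Ω).character (χ : G → ℂ)) =
        ((m χ ^ 2 : ℕ) : ℂ) := by
      intro χ
      rw [hm, Complex.conj_natCast]; push_cast; ring
    rw [Finset.sum_congr rfl (fun χ _ => h2 χ), ← Finset.add_sum_erase Finset.univ _ (Finset.mem_univ one), hm1] at h1
    rw [← Nat.card_eq_fintype_card]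
    have h3 : ((Nat.card (MulAction.orbitRel.Quotient H Ω) : ℕ) : ℂ) = ((1 + ∑ ψ ∈ Finset.univ.erase one, m ψ ^ 2 : ℕ) : ℂ) := by
      rw [← h1]; push_cast; simp
    exact_mod_cast h3
  -- orbits
  let qa : MulAction.orbitRel.Quotient H Ω := Quotient.mk'' a
  have hqa : Nat.card qa.orbit = 1 := by
    have h1 : qa.orbit = MulAction.orbit H a := MulAction.orbitRel.Quotient.orbit_mk a
    rw [h1]
    have h2 : MulAction.orbit H a = {a} := by
      ext x
      constructor
      · rintro ⟨⟨h, hh⟩, rfl⟩; exact hh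
      · intro hx
        rw [Set.mem_singleton_iff] at hx
        rw [hx]; exact MulAction.mem_orbit_self a
    rw [h2]; simp
  have hqb : ∀ q ∈ Finset.univ.erase qa, f ≤ Nat.card q.orbit := by
    intro q hq
    induction q using Quotient.inductionOn' with | _ b => ?_
    have h1 : MulAction.orbitRel.Quotient.orbit (Quotient.mk'' b : MulAction.orbitRel.Quotient H Ω) = MulAction.orbit H b := MulAction.orbitRel.Quotient.orbit_mk b
    rw [h1]
    apply hsub'
    rintro rfl
    exact Finset.ne_of_mem_erase hq rfl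
  have hcount := card_eq_sum_orbits (Ω := Ω) (H := H)
  rw [← Finset.add_sum_erase Finset.univ _ (Finset.mem_univ qa), hqa] at hcount
  have hlower : (Finset.univ.erase qa).card * f ≤ ∑ q ∈ Finset.univ.erase qa, Nat.card q.orbit := by
    rw [← smul_eq_mul]
    exact Finset.card_nsmul_le_sum _ _ _ hqb
  have hcard : (Finset.univ.erase qa).card = ∑ ψ ∈ Finset.univ.erase one, m ψ ^ 2 := by
    rw [Finset.card_erase_of_mem (Finset.mem_univ _), Finset.card_univ, hrank]
    omega
  have hmle : ∑ ψ ∈ Finset.univ.erase one, m ψ ≤ ∑ ψ ∈ Finset.univ.erase one, m ψ ^ 2 :=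
    Finset.sum_le_sum (fun ψ _ => Nat.le_self_pow (by norm_num) _)
  rw [hcard] at hlower
  have e1 : ∑ q ∈ Finset.univ.erase qa, Nat.card q.orbit = f * ∑ ψ ∈ Finset.univ.erase one, m ψ := by omega
  rw [e1, mul_comm] at hlower
  -- f = 0 impossible unless trivial
  by_cases hf0 : f = 0
  · have hΩ : Nat.card Ω = 1 := by rw [hdeg, hf0]; simp
    have hsubs : ∀ b : Ω, b = a := by
      intro b
      haveI := (Nat.card_eq_one_iff_unique.1 hΩ).1
      exact Subsingleton.elim _ _
    refine ⟨?_, fun b hb => absurd (hsubs b) hb⟩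
    intro χ hχ
    by_cases h0 : classInner ρ.character χ = 0
    · exact Or.inl h0
    · right
      by_cases h1 : χ = fun _ => 1
      · have := hm ⟨χ, hχ⟩
        have h2 : (⟨χ, hχ⟩ : IrrCharacter G) = one := Subtype.ext h1
        rw [h2, hm1, Nat.cast_one] at this
        rw [h1]; exact this
      · exfalso
        have h2 := hf χ hχ h1 h0
        obtain ⟨n, hn, hn1⟩ := irr_one_eq_nat hχ
        rw [hn1, hf0] at h2
        exact hn.ne' (by exact_mod_cast h2)
  · have hfpos : 0 < f := Nat.pos_of_ne_zero hf0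
    have hle2 : ∑ ψ ∈ Finset.univ.erase one, m ψ ^ 2 ≤ ∑ ψ ∈ Finset.univ.erase one, m ψ :=
      Nat.le_of_mul_le_mul_left hlower hfpos
    have heq : ∑ ψ ∈ Finset.univ.erase one, m ψ = ∑ ψ ∈ Finset.univ.erase one, m ψ ^ 2 := le_antisymm hmle hle2
    have hall := (Finset.sum_eq_sum_iff_of_le (fun ψ _ => Nat.le_self_pow (by norm_num) _)).1 heq
    constructor
    · intro χ hχ
      by_cases h1 : χ = fun _ => 1
      · right
        have := hm ⟨χ, hχ⟩
        have h2 : (⟨χ, hχ⟩ : IrrCharacter G) = one := Subtype.ext h1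
        rw [h2, hm1, Nat.cast_one] at this
        rw [h1]; exact this
      · have h2 := hall ⟨χ, hχ⟩ (Finset.mem_erase.2 ⟨fun h => h1 (congrArg Subtype.val h), Finset.mem_univ _⟩)
        have h3 : m ⟨χ, hχ⟩ ≤ 1 := by
          by_contra hcon
          push Not at hcon
          have : m ⟨χ, hχ⟩ < m ⟨χ, hχ⟩ ^ 2 := by
            rw [pow_two]; nlinarith
          omega
        have h4 := hm ⟨χ, hχ⟩
        have h4' : classInner ρ.character χ = (m ⟨χ, hχ⟩ : ℂ) := h4
        interval_cases hmv : m ⟨χ, hχ⟩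
        · left; rw [h4']; simp
        · right; rw [h4']; simp
    · intro b hb
      have hsumeq : ∑ q ∈ Finset.univ.erase qa, Nat.card q.orbit = ∑ q ∈ Finset.univ.erase qa, f := by
        rw [Finset.sum_const, smul_eq_mul, hcard, e1, heq, mul_comm]
      have hall2 := (Finset.sum_eq_sum_iff_of_le hqb).1 hsumeq.symm
      let qb : MulAction.orbitRel.Quotient H Ω := Quotient.mk'' b
      have hne : qb ≠ qa := by
        intro h
        have h1 : b ∈ MulAction.orbit H a := MulAction.orbitRel_apply.1 (Quotient.eq''.1 h)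
        obtain ⟨⟨h, hh⟩, hh2⟩ := h1
        exact hb (hh2.symm.trans hh)
      have h2 := hall2 qb (Finset.mem_erase.2 ⟨hne, Finset.mem_univ _⟩)
      have h1 : qb.orbit = MulAction.orbit H b := MulAction.orbitRel.Quotient.orbit_mk b
      rw [h1] at h2
      exact h2.symm

theorem mf_rank_five [Fintype G] [MulAction.IsPretransitive G Ω] (a : Ω)
    (hr : Nat.card (MulAction.orbitRel.Quotient (MulAction.stabilizer G a) Ω) ≤ 5) :
    ∀ χ : G → ℂ, IsIrrCharacter G χ → classInner (permRep ℂ G Ω).character χ = 0 ∨ classInner (permRep ℂ G Ω).character χ = 1 := by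
  classical
  haveI : Nonempty Ω := ⟨a⟩
  haveI : Fintype (IrrCharacter G) := Fintype.ofFinite _
  let ρ := permRep ℂ G Ω
  obtain ⟨m, hm, hexp⟩ := char_expand (isCharacter_of_rep ρ)
  let one : IrrCharacter G := ⟨fun _ => 1, isIrr_one⟩
  have hm1 : m one = 1 := by
    have h1 : classInner ρ.character (fun _ => 1) = 1 := by
      have h1 : ρ.character = permChar G Ω := permRep_char
      rw [h1, classInner_permChar_one, card_orbits_eq_one, Nat.cast_one]
    have h2 := hm one
    have h3 : (m one : ℂ) = 1 := by rw [← h2]; exact h1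
    exact_mod_cast h3
  have hrank : ∑ ψ ∈ Finset.univ.erase one, m ψ ^ 2 ≤ 4 := by
    have h1 := rank_eq (G := G) a
    rw [classInner_eq_sum (char_classFun (isCharacter_of_rep (permRep ℂ G Ω)))] at h1
    have h2 : ∀ χ : IrrCharacter G, classInner (permRep ℂ G Ω).character (χ : G → ℂ) * conj (classInner (permRep ℂ G Ω).character (χ : G → ℂ)) =
        ((m χ ^ 2 : ℕ) : ℂ) := by
      intro χ
      rw [hm, Complex.conj_natCast]; push_cast; ring
    rw [Finset.sum_congr rfl (fun χ _ => h2 χ), ← Finset.add_sum_erase Finset.univ _ (Finset.mem_univ one), hm1] at h1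
    have h3 : ((Nat.card (MulAction.orbitRel.Quotient (MulAction.stabilizer G a) Ω) : ℕ) : ℂ) = ((1 + ∑ ψ ∈ Finset.univ.erase one, m ψ ^ 2 : ℕ) : ℂ) := by
      rw [← h1]; push_cast; simp
    have h4 : Nat.card (MulAction.orbitRel.Quotient (MulAction.stabilizer G a) Ω) = 1 + ∑ ψ ∈ Finset.univ.erase one, m ψ ^ 2 := by exact_mod_cast h3
    omega
  by_contra hcon
  push Not at hcon
  obtain ⟨χ, hχ, h0, h1⟩ := hcon
  have hχm := hm ⟨χ, hχ⟩
  have hχm' : classInner ρ.character χ = (m ⟨χ, hχ⟩ : ℂ) := hχm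
  have hne : (⟨χ, hχ⟩ : IrrCharacter G) ≠ one := by
    intro h
    rw [h, hm1, Nat.cast_one] at hχm'
    exact h1 hχm'
  have hm2 : 2 ≤ m ⟨χ, hχ⟩ := by
    by_contra hc
    push Not at hc
    interval_cases hmv : m ⟨χ, hχ⟩
    · exact h0 (by rw [hχm']; simp)
    · exact h1 (by rw [hχm']; simp)
  have hmem : (⟨χ, hχ⟩ : IrrCharacter G) ∈ Finset.univ.erase one := Finset.mem_erase.2 ⟨hne, Finset.mem_univ _⟩
  have h4 : 4 ≤ m ⟨χ, hχ⟩ ^ 2 := by rw [pow_two]; nlinarith
  have hrest : ∑ ψ ∈ (Finset.univ.erase one).erase (⟨χ, hχ⟩ : IrrCharacter G), m ψ ^ 2 = 0 := by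
    have key : m ⟨χ, hχ⟩ ^ 2 + ∑ ψ ∈ (Finset.univ.erase one).erase (⟨χ, hχ⟩ : IrrCharacter G), m ψ ^ 2 = ∑ ψ ∈ Finset.univ.erase one, m ψ ^ 2 :=
      Finset.add_sum_erase (Finset.univ.erase one) (fun ψ => m ψ ^ 2) hmem
    omega
  rw [Finset.sum_eq_zero_iff] at hrest
  obtain ⟨n, hn, hn1⟩ := irr_one_eq_nat hχ
  have hsame := (mf_same_degree (G := G) a n (by
    intro ψ hψ hψ1 hψ0
    by_cases hψχ : ψ = χ
    · rw [hψχ]; exact hn1
    · exfalso
      have h5 := hrest ⟨ψ, hψ⟩ (Finset.mem_erase.2 ⟨fun h => hψχ (congrArg Subtype.val h), Finset.mem_erase.2 ⟨fun h => hψ1 (congrArg Subtype.val h), Finset.mem_univ _⟩⟩)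
      have h6 : m ⟨ψ, hψ⟩ = 0 := by simpa using h5
      have h7 := hm ⟨ψ, hψ⟩
      rw [h6] at h7
      apply hψ0
      rw [← Nat.cast_zero (R := ℂ)]
      exact h7)).1 χ hχ
  rcases hsame with h | h
  · exact h0 h
  · exact h1 h

end

end Cfsg.Agent.H10
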