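import Mathlib
import Cfsg.Agent.H10.Perm35

set_option autoImplicit false
set_option linter.all false
set_option maxHeartbeats 400000

/-!
# H10.Perm36: rank three groups of Wielandt type
-/

open Cfsg
open scoped ComplexConjugate

namespace Cfsg.Agent.H10

open Cfsg.Agent.H3

universe u v w

section
variable {G : Type u} [Group G] {Ω : Type w} [Fintype Ω] [DecidableEq Ω] [MulAction G Ω]

theorem rank3_orbits {a₀ : Ω} (hrank : Nat.card (MulAction.orbitRel.Quotient (MulAction.stabilizer G a₀) Ω) = 3)
    {b c : Ω} (hb : b ≠ a₀) (hc : c ≠ a₀) (hbc : c ∉ MulAction.orbit (MulAction.stabilizer G a₀) b) :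
    (∀ x, x = a₀ ∨ x ∈ MulAction.orbit (MulAction.stabilizer G a₀) b ∨ x ∈ MulAction.orbit (MulAction.stabilizer G a₀) c) ∧
    Nat.card Ω = 1 + Nat.card (MulAction.orbit (MulAction.stabilizer G a₀) b) + Nat.card (MulAction.orbit (MulAction.stabilizer G a₀) c) := by
  classical
  let H := MulAction.stabilizer G a₀
  haveI : Fintype (MulAction.orbitRel.Quotient H Ω) := Fintype.ofFinite _
  let q : Ω → MulAction.orbitRel.Quotient H Ω := fun x => Quotient.mk'' x
  have hq : ∀ x y, q x = q y → x ∈ MulAction.orbit H y := fun x y h => MulAction.orbitRel_apply.1 (Quotient.eq''.1 h)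
  have hfix : ∀ x, x ∈ MulAction.orbit H a₀ → x = a₀ := by
    rintro x ⟨⟨h, hh⟩, rfl⟩; exact hh
  have h1 : q b ≠ q a₀ := fun h => hb (hfix _ (hq _ _ h))
  have h2 : q c ≠ q a₀ := fun h => hc (hfix _ (hq _ _ h))
  have h3 : q c ≠ q b := fun h => hbc (hq _ _ h)
  have hcard : (({q a₀, q b, q c} : Finset (MulAction.orbitRel.Quotient H Ω))).card = 3 :=
    Finset.card_eq_three.2 ⟨_, _, _, h1.symm, h2.symm, h3.symm, rfl⟩
  have huniv : (Finset.univ : Finset (MulAction.orbitRel.Quotient H Ω)) = {q a₀, q b, q c} := by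
    symm
    apply Finset.eq_of_subset_of_card_le (Finset.subset_univ _)
    rw [hcard, Finset.card_univ, ← Nat.card_eq_fintype_card]
    exact hrank.le
  constructor
  · intro x
    have hx : q x ∈ ({q a₀, q b, q c} : Finset (MulAction.orbitRel.Quotient H Ω)) := huniv ▸ Finset.mem_univ _
    simp only [Finset.mem_insert, Finset.mem_singleton] at hx
    rcases hx with hx | hx | hx
    · exact Or.inl (hfix _ (hq _ _ hx))
    · exact Or.inr (Or.inl (hq _ _ hx))
    · exact Or.inr (Or.inr (hq _ _ hx))
  · rw [card_eq_sum_orbits (Ω := Ω) (H := H), huniv, Finset.sum_insert, Finset.sum_insert, Finset.sum_singleton]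
    · have e : ∀ x, MulAction.orbitRel.Quotient.orbit (q x) = MulAction.orbit H x := fun x => MulAction.orbitRel.Quotient.orbit_mk x
      rw [e, e, e]
      have h4 : MulAction.orbit H a₀ = {a₀} := by
        ext x
        exact ⟨fun h => hfix x h, fun h => by rw [Set.mem_singleton_iff] at h; rw [h]; exact MulAction.mem_orbit_self a₀⟩
      have h5 : Nat.card ({a₀} : Set Ω) = 1 := by simp
      rw [h4, h5]
      exact (add_assoc _ _ _).symm
    · rw [Finset.mem_singleton]; exact h3.symm
    · rw [Finset.mem_insert, Finset.mem_singleton]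
      rintro (h | h)
      · exact h1 h.symm
      · exact h2 h.symm

theorem rank3_exists {a₀ : Ω} (hrank : Nat.card (MulAction.orbitRel.Quotient (MulAction.stabilizer G a₀) Ω) = 3)
    (b : Ω) : ∃ c, c ≠ a₀ ∧ c ∉ MulAction.orbit (MulAction.stabilizer G a₀) b := by
  classical
  let H := MulAction.stabilizer G a₀
  haveI : Fintype (MulAction.orbitRel.Quotient H Ω) := Fintype.ofFinite _
  let q : Ω → MulAction.orbitRel.Quotient H Ω := fun x => Quotient.mk'' x
  by_contra hcon
  push Not at hcon
  have huniv : (Finset.univ : Finset (MulAction.orbitRel.Quotient H Ω)) ⊆ {q a₀, q b} := by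
    intro z _
    induction z using Quotient.inductionOn' with | _ x => ?_
    by_cases hx : x = a₀
    · rw [hx]; simp [q]
    · have := hcon x hx
      have h2 : q x = q b := Quotient.eq''.2 (MulAction.orbitRel_apply.2 this)
      show q x ∈ _
      rw [h2]; simp
  have h1 := Finset.card_le_card huniv
  have h2 : ({q a₀, q b} : Finset (MulAction.orbitRel.Quotient H Ω)).card ≤ 2 := Finset.card_le_two
  rw [Finset.card_univ, ← Nat.card_eq_fintype_card] at h1
  have h3 : Nat.card (MulAction.orbitRel.Quotient H Ω) = 3 := hrank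
  omega

/-- a primitive group with a nontrivial subdegree 1 has all stabilisers trivial on points -/
theorem prim_subdegree_one (hprim : MulAction.IsPreprimitive G Ω) {a₀ b : Ω} (hb : b ≠ a₀)
    (h1 : Nat.card (MulAction.orbit (MulAction.stabilizer G a₀) b) = 1) (x : Ω) :
    ∀ h ∈ MulAction.stabilizer G a₀, h • x = x := by
  haveI : Nontrivial Ω := ⟨b, a₀, hb⟩
  have hle : MulAction.stabilizer G a₀ ≤ MulAction.stabilizer G b := by
    intro h hh
    haveI := (Nat.card_eq_one_iff_unique.1 h1).1
    have := Subsingleton.elim (⟨h • b, ⟨⟨h, hh⟩, rfl⟩⟩ : MulAction.orbit (MulAction.stabilizer G a₀) b) ⟨b, MulAction.mem_orbit_self b⟩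
    exact congrArg Subtype.val this
  have hmax : IsCoatom (MulAction.stabilizer G a₀) := MulAction.IsPreprimitive.isCoatom_stabilizer_of_isPreprimitive G a₀
  have hmaxb : IsCoatom (MulAction.stabilizer G b) := MulAction.IsPreprimitive.isCoatom_stabilizer_of_isPreprimitive G b
  have heq : MulAction.stabilizer G a₀ = MulAction.stabilizer G b := by
    by_contra hne
    exact hmaxb.1 (hmax.2 _ (lt_of_le_of_ne hle hne))
  have hnorm : (MulAction.stabilizer G a₀).Normal := by
    rw [← Subgroup.normalizer_eq_top_iff]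
    obtain ⟨g, hg⟩ := MulAction.exists_smul_eq G a₀ b
    have hgn : g ∈ Subgroup.normalizer (MulAction.stabilizer G a₀ : Set G) := by
      rw [Subgroup.mem_normalizer_iff]
      intro h
      have h2 : g * h * g⁻¹ ∈ MulAction.stabilizer G b ↔ h ∈ MulAction.stabilizer G a₀ := by
        rw [MulAction.mem_stabilizer_iff, MulAction.mem_stabilizer_iff, mul_smul, mul_smul, ← hg, inv_smul_smul]
        exact (MulAction.injective g).eq_iff
      rw [← h2, ← heq]
    have hg0 : g ∉ MulAction.stabilizer G a₀ := fun h => hb (hg.symm.trans h)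
    by_contra hne
    have hlt : MulAction.stabilizer G a₀ < Subgroup.normalizer (MulAction.stabilizer G a₀ : Set G) :=
      lt_of_le_of_ne Subgroup.le_normalizer (fun h => hg0 (h ▸ hgn))
    exact hne (hmax.2 _ hlt)
  obtain ⟨g, rfl⟩ := MulAction.exists_smul_eq G a₀ x
  intro h hh
  have := hnorm.conj_mem h hh g⁻¹
  rw [inv_inv, MulAction.mem_stabilizer_iff, mul_smul, mul_smul, inv_smul_eq_iff] at this
  exact this

/-- arithmetic of Wielandt type -/
theorem wielandt_arith {d m x y : ℤ} (hd : 1 ≤ d) (hdm : d ≤ m - 1) (h1 : d + (m - 1) * x + m * y = 0)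
    (h2 : d ^ 2 + (m - 1) * x ^ 2 + m * y ^ 2 = 2 * m * d) (hd1 : d ≠ 1 ∨ x ≠ 1) :
    m = 2 * (m - d - 1) ^ 2 + 2 * (m - d - 1) + 1 := by
  obtain ⟨w, hw⟩ : ∃ w, w = -(x + y) := ⟨_, rfl⟩
  have hx : x = d - m * w := by rw [hw]; linear_combination -h1
  have hy : y = (m - 1) * w - d := by
    have : y = -w - x := by rw [hw]; ring
    rw [this, hx]; ring
  have hm : 0 < m := by linarith
  have h3 : 2 * d ^ 2 + w ^ 2 * ((m - 1) * (2 * m - 1)) - 4 * d * (m - 1) * w - 2 * d = 0 := by
    have h4 : m * (2 * d ^ 2 + w ^ 2 * ((m - 1) * (2 * m - 1)) - 4 * d * (m - 1) * w - 2 * d) = 0 := by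
      rw [hx, hy] at h2
      linear_combination h2
    rcases mul_eq_zero.1 h4 with h | h
    · exact absurd h hm.ne'
    · exact h
  have hm2 : 2 ≤ m := by linarith
  have hw1 : w = 1 := by
    rcases lt_trichotomy w 1 with h | h | h
    · exfalso
      have hw0 : w ≤ 0 := by linarith
      have e1 : 0 ≤ 2 * d * (d - 1) := by nlinarith
      have e2 : 0 ≤ w ^ 2 * ((m - 1) * (2 * m - 1)) := by
        apply mul_nonneg (sq_nonneg _); nlinarith
      have e3 : 0 ≤ 4 * d * (m - 1) * (-w) := by
        apply mul_nonneg _ (by linarith); nlinarith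
      have e4 : 4 * d * (m - 1) * (-w) = 0 := by nlinarith
      have e5 : 2 * d * (d - 1) = 0 := by nlinarith
      have hw00 : w = 0 := by
        have h5 : 4 * d * (m - 1) ≠ 0 := by
          apply mul_ne_zero <;> [linarith; linarith] <;> omega
        rcases mul_eq_zero.1 e4 with h6 | h6
        · exact absurd h6 h5
        · linarith
      have hd11 : d = 1 := by
        rcases mul_eq_zero.1 e5 with h6 | h6
        · linarith
        · linarith
      have hx1 : x = 1 := by rw [hx, hw00, hd11]; ring
      rcases hd1 with h7 | h7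
      · exact h7 hd11
      · exact h7 hx1
    · exact h
    · exfalso
      have hw2 : 2 ≤ w := by linarith
      have e1 : 0 ≤ 2 * d * (d - 1) := by nlinarith
      have e2 : 0 < w * (2 * m - 1) - 4 * d := by nlinarith
      have e3 : 0 < w * (m - 1) * (w * (2 * m - 1) - 4 * d) := by
        apply mul_pos _ e2
        apply mul_pos <;> linarith
      nlinarith
  rw [hw1] at h3
  linear_combination -h3

end

end Cfsg.Agent.H10
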