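import Mathlib
import Cfsg.Agent.H10.Perm36

set_option autoImplicit false
set_option linter.all false
set_option maxHeartbeats 400000

/-!
# H10.Perm37: rank three groups, permutation character 1 + χ₁ + χ₂
-/

open Cfsg
open scoped ComplexConjugate

namespace Cfsg.Agent.H10

open Cfsg.Agent.H3

universe u v w

section
variable {G : Type u} [Group G] [Fintype G] {V : Type v} [AddCommGroup V] [Module ℂ V] [FiniteDimensional ℂ V]

open Classical in
theorem expand3 (ρ : Representation ℂ G V) {χ₁ χ₂ : G → ℂ} (h₁ : IsIrrCharacter G χ₁) (h₂ : IsIrrCharacter G χ₂)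
    (h12 : χ₁ ≠ χ₂) (h10 : χ₁ ≠ fun _ => 1) (h20 : χ₂ ≠ fun _ => 1)
    (hπ : ρ.character = fun g => 1 + χ₁ g + χ₂ g) (T : V →ₗ[ℂ] V) (hT : ∀ g v, T (ρ g v) = ρ g (T v)) :
    ∃ c₀ c₁ c₂ : ℂ, T = c₀ • EE ρ (fun _ => 1) + c₁ • EE ρ χ₁ + c₂ • EE ρ χ₂ := by
  haveI : Fintype (IrrCharacter G) := Fintype.ofFinite _
  have h₀ : IsIrrCharacter G (fun _ => (1 : ℂ)) := isIrr_one
  have hin : ∀ χ : G → ℂ, IsIrrCharacter G χ → classInner ρ.character χ =
      (if (fun _ => (1 : ℂ)) = χ then 1 else 0) + (if χ₁ = χ then 1 else 0) + (if χ₂ = χ then 1 else 0) := by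
    intro χ hχ
    rw [hπ, show (fun g => 1 + χ₁ g + χ₂ g) = ((fun _ => (1 : ℂ)) + χ₁) + χ₂ from rfl, classInner_add_left,
      classInner_add_left, classInner_irr h₀ hχ, classInner_irr h₁ hχ, classInner_irr h₂ hχ]
  have hmf : ∀ χ : G → ℂ, IsIrrCharacter G χ → classInner ρ.character χ = 0 ∨ classInner ρ.character χ = 1 := by
    intro χ hχ
    rw [hin χ hχ]
    by_cases a : (fun _ => (1 : ℂ)) = χ
    · have b : χ₁ ≠ χ := fun h => h10 (h.trans a.symm)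
      have c : χ₂ ≠ χ := fun h => h20 (h.trans a.symm)
      rw [if_pos a, if_neg b, if_neg c]; right; ring
    · by_cases b : χ₁ = χ
      · have c : χ₂ ≠ χ := fun h => h12 (b.trans h.symm)
        rw [if_neg a, if_pos b, if_neg c]; right; ring
      · by_cases c : χ₂ = χ
        · rw [if_neg a, if_neg b, if_pos c]; right; ring
        · rw [if_neg a, if_neg b, if_neg c]; left; ring
  obtain ⟨c, hc⟩ := exists_expand ρ hmf T hT
  let x0 : IrrCharacter G := ⟨_, h₀⟩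
  let x1 : IrrCharacter G := ⟨_, h₁⟩
  let x2 : IrrCharacter G := ⟨_, h₂⟩
  refine ⟨c x0, c x1, c x2, ?_⟩
  rw [hc]
  have h3 : ∑ χ ∈ ({x0, x1, x2} : Finset (IrrCharacter G)), c χ • EE ρ (χ : G → ℂ) = ∑ χ : IrrCharacter G, c χ • EE ρ (χ : G → ℂ) := by
    apply Finset.sum_subset (Finset.subset_univ _)
    intro χ _ hχ
    simp only [Finset.mem_insert, Finset.mem_singleton, not_or] at hχ
    rw [EE_eq_zero ρ χ.2, smul_zero]
    rw [hin χ χ.2, if_neg, if_neg, if_neg]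
    · ring
    · intro h; exact hχ.2.2 (Subtype.ext h.symm)
    · intro h; exact hχ.2.1 (Subtype.ext h.symm)
    · intro h; exact hχ.1 (Subtype.ext h.symm)
  rw [← h3, Finset.sum_insert, Finset.sum_insert, Finset.sum_singleton]
  · exact (add_assoc _ _ _).symm
  · rw [Finset.mem_singleton]
    intro h; exact h12 (congrArg Subtype.val h)
  · rw [Finset.mem_insert, Finset.mem_singleton]
    rintro (h | h)
    · exact h10 (congrArg Subtype.val h).symm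
    · exact h20 (congrArg Subtype.val h).symm

/-- the basic relations -/
theorem expand3_rel (ρ : Representation ℂ G V) {χ₁ χ₂ : G → ℂ} (h₁ : IsIrrCharacter G χ₁) (h₂ : IsIrrCharacter G χ₂)
    (h12 : χ₁ ≠ χ₂) (h10 : χ₁ ≠ fun _ => 1) (h20 : χ₂ ≠ fun _ => 1)
    (hπ : ρ.character = fun g => 1 + χ₁ g + χ₂ g) (T : V →ₗ[ℂ] V) (hT : ∀ g v, T (ρ g v) = ρ g (T v)) :
    ∃ c₀ c₁ c₂ : ℂ, (∀ v, EE ρ (fun _ => 1) v = v → T v = c₀ • v) ∧
      (∃ v, v ≠ 0 ∧ EE ρ (fun _ => 1) v = 0 ∧ T v = c₁ • v) ∧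
      (∃ v, v ≠ 0 ∧ EE ρ (fun _ => 1) v = 0 ∧ T v = c₂ • v) ∧
      LinearMap.trace ℂ V T = c₀ + χ₁ 1 * c₁ + χ₂ 1 * c₂ ∧
      LinearMap.trace ℂ V (T ∘ₗ T) = c₀ ^ 2 + χ₁ 1 * c₁ ^ 2 + χ₂ 1 * c₂ ^ 2 := by
  classical
  obtain ⟨c₀, c₁, c₂, hc⟩ := expand3 ρ h₁ h₂ h12 h10 h20 hπ T hT
  have h₀ : IsIrrCharacter G (fun _ => (1 : ℂ)) := isIrr_one
  have hin : ∀ χ : G → ℂ, IsIrrCharacter G χ → classInner ρ.character χ =
      (if (fun _ => (1 : ℂ)) = χ then 1 else 0) + (if χ₁ = χ then 1 else 0) + (if χ₂ = χ then 1 else 0) := by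
    intro χ hχ
    rw [hπ, show (fun g => 1 + χ₁ g + χ₂ g) = ((fun _ => (1 : ℂ)) + χ₁) + χ₂ from rfl, classInner_add_left,
      classInner_add_left, classInner_irr h₀ hχ, classInner_irr h₁ hχ, classInner_irr h₂ hχ]
  have i0 : classInner ρ.character (fun _ => 1) = 1 := by
    rw [hin _ h₀, if_pos rfl, if_neg h10, if_neg h20]; ring
  have i1 : classInner ρ.character χ₁ = 1 := by
    rw [hin _ h₁, if_neg h10.symm, if_pos rfl, if_neg h12.symm]; ring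
  have i2 : classInner ρ.character χ₂ = 1 := by
    rw [hin _ h₂, if_neg h20.symm, if_neg h12, if_pos rfl]; ring
  have t0 := trace_EE ρ h₀
  have t1 := trace_EE ρ h₁
  have t2 := trace_EE ρ h₂
  rw [i0, mul_one] at t0
  rw [i1, mul_one] at t1
  rw [i2, mul_one] at t2
  have hTap : ∀ v, T v = c₀ • EE ρ (fun _ => 1) v + c₁ • EE ρ χ₁ v + c₂ • EE ρ χ₂ v := by
    intro v; rw [hc]; rfl
  have m00 : ∀ v, EE ρ (fun _ => 1) (EE ρ (fun _ => 1) v) = EE ρ (fun _ => 1) v := fun v => by rw [EE_mul ρ h₀ h₀, if_pos rfl]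
  have m01 : ∀ v, EE ρ (fun _ => 1) (EE ρ χ₁ v) = 0 := fun v => by rw [EE_mul ρ h₀ h₁, if_neg h10.symm]
  have m02 : ∀ v, EE ρ (fun _ => 1) (EE ρ χ₂ v) = 0 := fun v => by rw [EE_mul ρ h₀ h₂, if_neg h20.symm]
  have m10 : ∀ v, EE ρ χ₁ (EE ρ (fun _ => 1) v) = 0 := fun v => by rw [EE_mul ρ h₁ h₀, if_neg h10]
  have m11 : ∀ v, EE ρ χ₁ (EE ρ χ₁ v) = EE ρ χ₁ v := fun v => by rw [EE_mul ρ h₁ h₁, if_pos rfl]
  have m12 : ∀ v, EE ρ χ₁ (EE ρ χ₂ v) = 0 := fun v => by rw [EE_mul ρ h₁ h₂, if_neg h12]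
  have m20 : ∀ v, EE ρ χ₂ (EE ρ (fun _ => 1) v) = 0 := fun v => by rw [EE_mul ρ h₂ h₀, if_neg h20]
  have m21 : ∀ v, EE ρ χ₂ (EE ρ χ₁ v) = 0 := fun v => by rw [EE_mul ρ h₂ h₁, if_neg h12.symm]
  have m22 : ∀ v, EE ρ χ₂ (EE ρ χ₂ v) = EE ρ χ₂ v := fun v => by rw [EE_mul ρ h₂ h₂, if_pos rfl]
  refine ⟨c₀, c₁, c₂, ?_, ?_, ?_, ?_, ?_⟩
  · intro v hv
    rw [hTap, ← hv, m00, m10, m20]; simp
  · have hne := EE_ne_zero ρ h₁ (by rw [i1]; exact one_ne_zero)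
    obtain ⟨w, hw⟩ : ∃ w, EE ρ χ₁ w ≠ 0 := by
      by_contra hcon
      push Not at hcon
      exact hne (LinearMap.ext hcon)
    refine ⟨_, hw, m01 w, ?_⟩
    rw [hTap, m01, m11, m21]; simp
  · have hne := EE_ne_zero ρ h₂ (by rw [i2]; exact one_ne_zero)
    obtain ⟨w, hw⟩ : ∃ w, EE ρ χ₂ w ≠ 0 := by
      by_contra hcon
      push Not at hcon
      exact hne (LinearMap.ext hcon)
    refine ⟨_, hw, m02 w, ?_⟩
    rw [hTap, m02, m12, m22]; simp
  · rw [hc, map_add, map_add, map_smul, map_smul, map_smul, t0, t1, t2, smul_eq_mul, smul_eq_mul, smul_eq_mul]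
    ring
  · have h4 : T ∘ₗ T = (c₀ ^ 2) • EE ρ (fun _ => 1) + (c₁ ^ 2) • EE ρ χ₁ + (c₂ ^ 2) • EE ρ χ₂ := by
      apply LinearMap.ext
      intro v
      show T (T v) = _
      rw [hTap v, map_add, map_add, map_smul, map_smul, map_smul, hTap (EE ρ (fun _ => 1) v), hTap (EE ρ χ₁ v),
        hTap (EE ρ χ₂ v), m00, m10, m20, m01, m11, m21, m02, m12, m22]
      simp only [LinearMap.add_apply, LinearMap.smul_apply, smul_zero, add_zero, zero_add, smul_smul, pow_two]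
    rw [h4, map_add, map_add, map_smul, map_smul, map_smul, t0, t1, t2, smul_eq_mul, smul_eq_mul, smul_eq_mul]
    ring

end

section
variable {G : Type u} [Group G] {Ω : Type w} [Fintype Ω] [DecidableEq Ω] [MulAction G Ω]

theorem EE_one_sum [Fintype G] (v : Ω → ℂ) : ∑ x, EE (permRep ℂ G Ω) (fun _ => 1) v x = ∑ x, v x := by
  have hG := card_ne_zeroC (G := G)
  rw [EE_apply]
  simp only [Pi.smul_apply, Finset.sum_apply, smul_eq_mul, one_mul, permRep_ap, inv_inv]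
  rw [← Finset.mul_sum, Finset.sum_comm]
  have h1 : ∀ g : G, ∑ x, v (g • x) = ∑ x, v x := fun g =>
    Fintype.sum_equiv (MulAction.toPerm g) _ _ fun x => rfl
  rw [Finset.sum_congr rfl fun g _ => h1 g, Finset.sum_const, Finset.card_univ, nsmul_eq_mul, ← mul_assoc, one_div,
    Nat.card_eq_fintype_card, inv_mul_cancel₀, one_mul]
  rw [← Nat.card_eq_fintype_card]; exact hG

theorem EE_one_const [Fintype G] (c : ℂ) : EE (permRep ℂ G Ω) (fun _ => 1) (fun _ => c) = fun _ => c := by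
  have hG := card_ne_zeroC (G := G)
  ext x
  rw [EE_apply]
  simp only [Pi.smul_apply, Finset.sum_apply, smul_eq_mul, one_mul, permRep_ap]
  rw [Finset.sum_const, Finset.card_univ, nsmul_eq_mul, ← mul_assoc, one_div,
    Nat.card_eq_fintype_card, inv_mul_cancel₀, one_mul]
  rw [← Nat.card_eq_fintype_card]; exact hG

end

end Cfsg.Agent.H10
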