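import Mathlib
import Cfsg.Agent.H10.Perm37

set_option autoImplicit false
set_option linter.all false
set_option maxHeartbeats 800000

/-!
# H10.Perm38: rank three groups of even degree
-/

open Cfsg
open scoped ComplexConjugate

namespace Cfsg.Agent.H10

open Cfsg.Agent.H3

universe u v w

section
variable {G : Type u} [Group G] [Fintype G] {Ω : Type w} [Fintype Ω] [DecidableEq Ω] [MulAction G Ω]

theorem paired_card (a b : Ω) (g : G) (hg : g • b = a) :
    Nat.card (MulAction.orbit (MulAction.stabilizer G a) (g • a)) = Nat.card (MulAction.orbit (MulAction.stabilizer G a) b) := by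
  classical
  have e1 := MulAction.card_orbit_mul_card_stabilizer_eq_card_group (MulAction.stabilizer G a) (g • a)
  have e2 := MulAction.card_orbit_mul_card_stabilizer_eq_card_group (MulAction.stabilizer G a) b
  have e3 : Nat.card (MulAction.stabilizer (MulAction.stabilizer G a) (g • a)) =
      Nat.card (MulAction.stabilizer (MulAction.stabilizer G a) b) := by
    refine Nat.card_congr ⟨fun h => ⟨⟨g⁻¹ * h.1.1 * g, ?_⟩, ?_⟩, fun h => ⟨⟨g * h.1.1 * g⁻¹, ?_⟩, ?_⟩, fun h => ?_, fun h => ?_⟩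
    · have h1 : h.1.1 • (g • a) = g • a := h.2
      show (g⁻¹ * h.1.1 * g) • a = a
      rw [mul_smul, mul_smul, h1, inv_smul_smul]
    · have h1 : h.1.1 • a = a := h.1.2
      show (g⁻¹ * h.1.1 * g) • b = b
      rw [mul_smul, mul_smul, hg, h1, ← hg, inv_smul_smul]
    · have h1 : h.1.1 • b = b := h.2
      have h2 : g⁻¹ • a = b := by rw [← hg, inv_smul_smul]
      show (g * h.1.1 * g⁻¹) • a = a
      rw [mul_smul, mul_smul, h2, h1, hg]
    · have h1 : h.1.1 • a = a := h.1.2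
      show (g * h.1.1 * g⁻¹) • (g • a) = g • a
      rw [mul_smul, mul_smul, inv_smul_smul, h1]
    · apply Subtype.ext; apply Subtype.ext; show g * (g⁻¹ * h.1.1 * g) * g⁻¹ = h.1.1; group
    · apply Subtype.ext; apply Subtype.ext; show g⁻¹ * (g * h.1.1 * g⁻¹) * g = h.1.1; group
  rw [← Nat.card_eq_fintype_card, ← Nat.card_eq_fintype_card, ← Nat.card_eq_fintype_card] at e1 e2
  rw [e3, ← e2] at e1
  exact Nat.eq_of_mul_eq_mul_right Nat.card_pos e1

theorem rank3_swap [MulAction.IsPretransitive G Ω] {a₀ : Ω} (hrank : Nat.card (MulAction.orbitRel.Quotient (MulAction.stabilizer G a₀) Ω) = 3)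
    (heven : Even (Nat.card Ω)) {b : Ω} (hb : b ≠ a₀) : ∃ t : G, t • a₀ = b ∧ t • b = a₀ := by
  obtain ⟨g, hg⟩ := MulAction.exists_smul_eq G b a₀
  have hne : g • a₀ ≠ a₀ := by
    intro h
    exact hb (MulAction.injective g (hg.trans h.symm))
  by_cases hc : g • a₀ ∈ MulAction.orbit (MulAction.stabilizer G a₀) b
  · obtain ⟨⟨h, hh⟩, hhb⟩ := hc
    have hhb' : h • b = g • a₀ := hhb
    refine ⟨h⁻¹ * g, ?_, ?_⟩
    · rw [mul_smul, ← hhb', inv_smul_smul]
    · rw [mul_smul, hg]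
      exact (inv_smul_eq_iff).2 (MulAction.mem_stabilizer_iff.1 hh).symm
  · exfalso
    obtain ⟨-, h2⟩ := rank3_orbits hrank hb hne hc
    rw [paired_card a₀ b g hg] at h2
    obtain ⟨r, hr⟩ := heven
    omega

theorem card_two_walk [MulAction.IsPretransitive G Ω] {a₀ b c : Ω}
    (hall : ∀ x, x = a₀ ∨ x ∈ MulAction.orbit (MulAction.stabilizer G a₀) b ∨ x ∈ MulAction.orbit (MulAction.stabilizer G a₀) c)
    (hb : b ≠ a₀) (hc : c ≠ a₀)
    (hbc : c ∉ MulAction.orbit (MulAction.stabilizer G a₀) b)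
    (hswap : ∃ t : G, t • a₀ = b ∧ t • b = a₀) :
    ∃ l m : ℕ, ∀ x y : Ω, (ent (relOp (fun x y : Ω => ∃ g : G, g • a₀ = x ∧ g • b = y) ∘ₗ relOp (fun x y : Ω => ∃ g : G, g • a₀ = x ∧ g • b = y)) x y : ℂ) =
      (if x = y then (Nat.card (MulAction.orbit (MulAction.stabilizer G a₀) b) : ℂ) - m else 0) +
      ((l : ℂ) - m) * ent (relOp (fun x y : Ω => ∃ g : G, g • a₀ = x ∧ g • b = y)) x y + m := by
  classical
  obtain ⟨R, hRdef⟩ : ∃ R : Ω → Ω → Prop, R = fun x y : Ω => ∃ g : G, g • a₀ = x ∧ g • b = y := ⟨_, rfl⟩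
  rw [← hRdef]
  have hR : ∀ (g : G) x y, R (g • x) (g • y) ↔ R x y := by
    intro g x y
    rw [hRdef]
    constructor
    · rintro ⟨k, hk1, hk2⟩
      exact ⟨g⁻¹ * k, by rw [mul_smul, hk1, inv_smul_smul], by rw [mul_smul, hk2, inv_smul_smul]⟩
    · rintro ⟨k, hk1, hk2⟩
      exact ⟨g * k, by rw [mul_smul, hk1], by rw [mul_smul, hk2]⟩
  have hsym : ∀ x y, R x y → R y x := by
    intro x y h
    rw [hRdef] at h ⊢
    obtain ⟨g, hg1, hg2⟩ := h
    obtain ⟨t, ht1, ht2⟩ := hswap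
    exact ⟨g * t, by rw [mul_smul, ht1, hg2], by rw [mul_smul, ht2, hg1]⟩
  have hirr : ∀ x, ¬ R x x := by
    intro x h
    rw [hRdef] at h
    obtain ⟨g, hg1, hg2⟩ := h
    exact hb (MulAction.injective g (hg2.trans hg1.symm))
  have hT : ∀ (g : G) v, relOp R (permRep ℂ G Ω g v) = permRep ℂ G Ω g (relOp R v) := relOp_comm R hR
  have hTT : ∀ (g : G) v, (relOp R ∘ₗ relOp R) (permRep ℂ G Ω g v) = permRep ℂ G Ω g ((relOp R ∘ₗ relOp R) v) := by
    intro g v
    show relOp R (relOp R _) = permRep ℂ G Ω g (relOp R (relOp R _))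
    rw [hT, hT]
  -- entries natural
  have hnat : ∀ x y, ∃ n : ℕ, ent (relOp R ∘ₗ relOp R) x y = n := by
    intro x y
    refine ⟨∑ z, if R x z ∧ R z y then 1 else 0, ?_⟩
    rw [ent_comp]
    push_cast
    refine Finset.sum_congr rfl fun z _ => ?_
    rw [ent_relOp, ent_relOp]
    by_cases h1 : R x z
    · by_cases h2 : R z y
      · rw [if_pos h1, if_pos h2, if_pos ⟨h1, h2⟩, mul_one]
      · rw [if_pos h1, if_neg h2, if_neg (fun h => h2 h.2), mul_zero]
    · have h3 : ¬ (R x z ∧ R z y) := fun h => h1 h.1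
      rw [if_neg h1, if_neg h3, zero_mul]
  obtain ⟨l, hl⟩ := hnat a₀ b
  obtain ⟨m, hm⟩ := hnat a₀ c
  refine ⟨l, m, ?_⟩
  intro x y
  by_cases hxy : x = y
  · subst hxy
    rw [if_pos rfl, ent_relOp, if_neg (hirr x), mul_zero, add_zero, sub_add_cancel, ent_comp, ← card_orbital a₀ b x,
      Nat.card_eq_fintype_card, Fintype.card_subtype, Finset.card_filter]
    push_cast
    refine Finset.sum_congr rfl fun z _ => ?_
    rw [ent_relOp, ent_relOp]
    have e : (∃ g : G, g • a₀ = x ∧ g • b = z) ↔ R x z := by rw [hRdef]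
    by_cases h1 : R x z
    · rw [if_pos h1, if_pos (hsym _ _ h1), if_pos (e.2 h1), mul_one]
    · rw [if_neg h1, if_neg (fun h => h1 (e.1 h)), zero_mul]
  · rw [if_neg hxy, zero_add, ent_relOp]
    obtain ⟨g, rfl⟩ := MulAction.exists_smul_eq G a₀ x
    rcases hall (g⁻¹ • y) with h | h | h
    · exact absurd (by rw [← h, smul_inv_smul]) hxy
    · obtain ⟨⟨h, hh⟩, hhb⟩ := h
      have hhb' : h • b = g⁻¹ • y := hhb
      have hha : h • a₀ = a₀ := hh
      have e1 : g • a₀ = (g * h) • a₀ := by rw [mul_smul, hha]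
      have e2 : y = (g * h) • b := by rw [mul_smul, hhb', smul_inv_smul]
      rw [e2, e1, ent_smul hTT, hl, if_pos]
      · ring
      · rw [hRdef]; exact ⟨g * h, rfl, rfl⟩
    · obtain ⟨⟨h, hh⟩, hhb⟩ := h
      have hhb' : h • c = g⁻¹ • y := hhb
      have hha : h • a₀ = a₀ := hh
      have e1 : g • a₀ = (g * h) • a₀ := by rw [mul_smul, hha]
      have e2 : y = (g * h) • c := by rw [mul_smul, hhb', smul_inv_smul]
      rw [e2, e1, ent_smul hTT, hm, if_neg]
      · ring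
      · rw [hR]
        rw [hRdef]
        rintro ⟨k, hk1, hk2⟩
        exact hbc ⟨⟨k, hk1⟩, hk2⟩

end

end Cfsg.Agent.H10
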