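import Mathlib
import Cfsg.Agent.H10.Perm38

set_option autoImplicit false
set_option linter.all false
set_option maxHeartbeats 800000

/-!
# H10.Perm39: Wielandt type rank three groups
-/

open Cfsg
open scoped ComplexConjugate

namespace Cfsg.Agent.H10

open Cfsg.Agent.H3

universe u v w

section
variable {G : Type u} [Group G] [Fintype G] {Ω : Type w} [Fintype Ω] [DecidableEq Ω] [MulAction G Ω]

theorem wielandt_main_aux (hprim : MulAction.IsPreprimitive G Ω) {m : ℕ} (hm : Nat.card Ω = 2 * m) {a₀ b c : Ω}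
    (hrank : Nat.card (MulAction.orbitRel.Quotient (MulAction.stabilizer G a₀) Ω) = 3)
    (χ₁ χ₂ : G → ℂ) (h₁ : Cfsg.IsIrrCharacter G χ₁) (h₂ : Cfsg.IsIrrCharacter G χ₂)
    (hπ : (permRep ℂ G Ω).character = fun g => 1 + χ₁ g + χ₂ g) (hd₁ : χ₁ 1 = (m : ℂ) - 1) (hd₂ : χ₂ 1 = m)
    (hb : b ≠ a₀) (hc : c ≠ a₀) (hbc : c ∉ MulAction.orbit (MulAction.stabilizer G a₀) b)
    (hle : Nat.card (MulAction.orbit (MulAction.stabilizer G a₀) b) ≤ Nat.card (MulAction.orbit (MulAction.stabilizer G a₀) c)) :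
    ∃ a : ℕ, 0 < a ∧ m = 2 * a ^ 2 + 2 * a + 1 ∧
      Nat.card (MulAction.orbit (MulAction.stabilizer G a₀) b) = a * (2 * a + 1) ∧
      Nat.card (MulAction.orbit (MulAction.stabilizer G a₀) c) = (a + 1) * (2 * a + 1) := by
  classical
  haveI := hprim.toIsPretransitive
  haveI : Nonempty Ω := ⟨a₀⟩
  obtain ⟨hall, hsum⟩ := rank3_orbits hrank hb hc hbc
  have hswap := rank3_swap hrank (by rw [hm]; exact even_two_mul m) hb
  obtain ⟨l, μ, hwalk⟩ := card_two_walk hall hb hc hbc hswap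
  obtain ⟨d, hd⟩ : ∃ d, d = Nat.card (MulAction.orbit (MulAction.stabilizer G a₀) b) := ⟨_, rfl⟩
  rw [← hd] at hsum hwalk hle
  have hdpos : 1 ≤ d := by
    rw [hd]
    haveI : Nonempty (MulAction.orbit (MulAction.stabilizer G a₀) b) := ⟨⟨b, MulAction.mem_orbit_self b⟩⟩
    exact Nat.card_pos
  have hdm : d ≤ m - 1 := by omega
  have hm2 : 2 ≤ m := by omega
  -- characters
  have hχ12 : χ₁ ≠ χ₂ := by
    intro h
    rw [h, hd₂] at hd₁
    have : (1 : ℂ) = 0 := by linear_combination hd₁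
    exact one_ne_zero this
  have hh₀ : IsIrrCharacter G (fun _ => (1 : ℂ)) := isIrr_one
  have hχ20 : χ₂ ≠ fun _ => 1 := by
    intro h
    rw [h] at hd₂
    have hd₂' : (1 : ℂ) = m := hd₂
    have : (m : ℕ) = 1 := by exact_mod_cast hd₂'.symm
    omega
  have hχ10 : χ₁ ≠ fun _ => 1 := by
    intro h
    have hinner1 : classInner (permRep ℂ G Ω).character (fun _ => 1) = 1 := by
      have h1 : (permRep ℂ G Ω).character = permChar G Ω := permRep_char
      rw [h1, classInner_permChar_one, card_orbits_eq_one, Nat.cast_one]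
    rw [hπ, show (fun g => 1 + χ₁ g + χ₂ g) = ((fun _ => (1 : ℂ)) + χ₁) + χ₂ from rfl, classInner_add_left,
      classInner_add_left, classInner_irr hh₀ hh₀, classInner_irr h₁ hh₀, classInner_irr h₂ hh₀, if_pos rfl, if_pos h,
      if_neg hχ20] at hinner1
    have : (1 : ℂ) = 0 := by linear_combination hinner1
    exact one_ne_zero this
  -- the operator
  obtain ⟨R, hRdef⟩ : ∃ R : Ω → Ω → Prop, R = fun x y : Ω => ∃ g : G, g • a₀ = x ∧ g • b = y := ⟨_, rfl⟩
  rw [← hRdef] at hwalk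
  have hR : ∀ (g : G) x y, R (g • x) (g • y) ↔ R x y := by
    intro g x y
    rw [hRdef]
    constructor
    · rintro ⟨k, hk1, hk2⟩
      exact ⟨g⁻¹ * k, by rw [mul_smul, hk1, inv_smul_smul], by rw [mul_smul, hk2, inv_smul_smul]⟩
    · rintro ⟨k, hk1, hk2⟩
      exact ⟨g * k, by rw [mul_smul, hk1], by rw [mul_smul, hk2]⟩
  have hirr : ∀ x, ¬ R x x := by
    intro x h
    rw [hRdef] at h
    obtain ⟨g, hg1, hg2⟩ := h
    exact hb (MulAction.injective g (hg2.trans hg1.symm))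
  have hT : ∀ (g : G) v, relOp R (permRep ℂ G Ω g v) = permRep ℂ G Ω g (relOp R v) := relOp_comm R hR
  obtain ⟨c₀, c₁, c₂, hc0, ⟨v₁, hv₁, hv₁0, hv₁T⟩, ⟨v₂, hv₂, hv₂0, hv₂T⟩, htr, htr2⟩ :=
    expand3_rel (permRep ℂ G Ω) h₁ h₂ hχ12 hχ10 hχ20 hπ (relOp R) hT
  have hval : ∀ x, Nat.card {y // R x y} = d := by
    intro x
    rw [hd, ← card_orbital a₀ b x, hRdef]
  have hc0d : c₀ = d := by
    have h3 := congrFun (hc0 (fun _ => 1) (EE_one_const 1)) a₀
    rw [relOp_const, hval, mul_one] at h3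
    rw [h3, Pi.smul_apply, smul_eq_mul, mul_one]
  have htr0 : LinearMap.trace ℂ (Ω → ℂ) (relOp R) = 0 := by
    rw [trace_ent]
    apply Finset.sum_eq_zero
    intro x _
    rw [ent_relOp, if_neg (hirr x)]
  have htr20 : LinearMap.trace ℂ (Ω → ℂ) (relOp R ∘ₗ relOp R) = 2 * m * d := by
    rw [trace_ent]
    have h3 : ∀ x : Ω, ent (relOp R ∘ₗ relOp R) x x = (d : ℂ) := by
      intro x
      rw [hwalk, if_pos rfl, ent_relOp, if_neg (hirr x)]; ring
    rw [Finset.sum_congr rfl fun x _ => h3 x, Finset.sum_const, Finset.card_univ, nsmul_eq_mul, ← Nat.card_eq_fintype_card, hm]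
    push_cast; ring
  rw [htr0, hc0d, hd₁, hd₂] at htr
  rw [htr20, hc0d, hd₁, hd₂] at htr2
  -- quadratic
  have hquad : ∀ (e : ℂ) (v : Ω → ℂ), v ≠ 0 → EE (permRep ℂ G Ω) (fun _ => 1) v = 0 → relOp R v = e • v →
      e ^ 2 = (d - μ) + (l - μ) * e := by
    intro e v hv hv0 hvT
    have hs : ∑ x, v x = 0 := by
      rw [← EE_one_sum (G := G) v, hv0]; simp
    obtain ⟨x, hx⟩ : ∃ x, v x ≠ 0 := by
      by_contra hcon
      push Not at hcon
      exact hv (funext hcon)
    have h3 : (relOp R ∘ₗ relOp R) v x = e ^ 2 * v x := by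
      show relOp R (relOp R v) x = _
      rw [hvT, map_smul, hvT, smul_smul, Pi.smul_apply, smul_eq_mul, pow_two]
    have h4 : relOp R v x = e * v x := by rw [hvT]; rfl
    rw [apply_eq_ent] at h3 h4
    have h5 : ∑ y, ent (relOp R ∘ₗ relOp R) x y * v y = (d - μ) * v x + (l - μ) * ∑ y, ent (relOp R) x y * v y + μ * ∑ y, v y := by
      rw [Finset.mul_sum, Finset.mul_sum, show ((d : ℂ) - μ) * v x = ∑ y, if x = y then ((d : ℂ) - μ) * v y else 0 by
        rw [Finset.sum_ite_eq, if_pos (Finset.mem_univ _)], ← Finset.sum_add_distrib, ← Finset.sum_add_distrib]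
      refine Finset.sum_congr rfl fun y _ => ?_
      rw [hwalk]
      split_ifs <;> ring
    rw [h3, h4, hs] at h5
    have h6 : (e ^ 2 - ((d - μ) + (l - μ) * e)) * v x = 0 := by linear_combination h5
    rcases mul_eq_zero.1 h6 with h | h
    · linear_combination h
    · exact absurd h hx
  have q1 := hquad c₁ v₁ hv₁ hv₁0 hv₁T
  have q2 := hquad c₂ v₂ hv₂ hv₂0 hv₂T
  have hmC : (m : ℂ) ≠ 0 := by exact_mod_cast (by omega : m ≠ 0)
  have hdC : (d : ℂ) ≠ 0 := by exact_mod_cast (by omega : d ≠ 0)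
  have hne : c₁ ≠ c₂ := by
    intro h
    rw [← h] at htr htr2
    have e1 : (2 * (m : ℂ) - 1) * c₁ = - d := by linear_combination -htr
    have e2 : (2 * (m : ℂ) - 1) * (2 * m * d) = (2 * m - 1) * d ^ 2 + d ^ 2 := by
      linear_combination (2 * (m : ℂ) - 1) * htr2 + ((2 * (m : ℂ) - 1) * c₁ - d) * e1
    have e3 : (2 * (m : ℂ) * d) * ((2 * m - 1) - d) = 0 := by linear_combination e2
    have e4 : (2 * (m : ℂ) * d) ≠ 0 := mul_ne_zero (mul_ne_zero two_ne_zero hmC) hdC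
    rcases mul_eq_zero.1 e3 with h5 | h5
    · exact e4 h5
    · have h6 : (2 * (m : ℂ)) = (d : ℂ) + 1 := by linear_combination h5
      have h7 : 2 * m = d + 1 := by exact_mod_cast h6
      omega
  have hsumc : c₁ + c₂ = l - μ := by
    have e1 : (c₁ - c₂) * ((c₁ + c₂) - (l - μ)) = 0 := by linear_combination q1 - q2
    rcases mul_eq_zero.1 e1 with h | h
    · exact absurd (sub_eq_zero.1 h) hne
    · exact sub_eq_zero.1 h
  obtain ⟨y, hy⟩ : ∃ y : ℤ, y = - (d : ℤ) - ((m : ℤ) - 1) * ((l : ℤ) - μ) := ⟨_, rfl⟩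
  obtain ⟨x, hx⟩ : ∃ x : ℤ, x = ((l : ℤ) - μ) - y := ⟨_, rfl⟩
  have hyC : c₂ = (y : ℂ) := by
    rw [hy]; push_cast
    linear_combination -htr - ((m : ℂ) - 1) * hsumc
  have hxC : c₁ = (x : ℂ) := by
    rw [hx]; push_cast
    rw [← hyC]; linear_combination hsumc
  rw [hyC, hxC] at htr htr2
  have htrZ : (d : ℤ) + ((m : ℤ) - 1) * x + m * y = 0 := by exact_mod_cast htr.symm
  have htr2Z : (d : ℤ) ^ 2 + ((m : ℤ) - 1) * x ^ 2 + m * y ^ 2 = 2 * m * d := by exact_mod_cast htr2.symm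
  have hd1 : d ≠ 1 := by
    intro h
    have hfix := prim_subdegree_one hprim hb (hd.symm.trans h)
    have hcard : Nat.card (MulAction.orbit (MulAction.stabilizer G a₀) c) = 1 := by
      have : MulAction.orbit (MulAction.stabilizer G a₀) c = {c} := by
        ext z
        constructor
        · rintro ⟨⟨k, hk⟩, rfl⟩
          exact hfix c k hk
        · intro hz
          rw [Set.mem_singleton_iff] at hz
          rw [hz]; exact MulAction.mem_orbit_self c
      rw [this]; simp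
    rw [hcard] at hsum
    omega
  have harith := wielandt_arith (d := d) (m := m) (x := x) (y := y) (by exact_mod_cast hdpos) (by
    have : (d : ℤ) ≤ ((m - 1 : ℕ) : ℤ) := by exact_mod_cast hdm
    rw [Nat.cast_sub (by omega)] at this
    exact_mod_cast this) htrZ htr2Z (Or.inl (by exact_mod_cast hd1))
  obtain ⟨a, ha⟩ : ∃ a : ℕ, a + d + 1 = m := ⟨m - d - 1, by omega⟩
  have haZ : (m : ℤ) - d - 1 = a := by rw [← ha]; push_cast; ring
  rw [haZ] at harith
  have hm' : m = 2 * a ^ 2 + 2 * a + 1 := by exact_mod_cast harith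
  have hdd : d = a * (2 * a + 1) := by
    have : a + d + 1 = 2 * a ^ 2 + 2 * a + 1 := ha.trans hm'
    have h2 : a * (2 * a + 1) = 2 * a ^ 2 + a := by ring
    omega
  refine ⟨a, ?_, hm', hd.symm.trans hdd, ?_⟩
  · rcases Nat.eq_zero_or_pos a with h | h
    · rw [h] at hdd; omega
    · exact h
  · have h2 : a * (2 * a + 1) = 2 * a ^ 2 + a := by ring
    have h3 : (a + 1) * (2 * a + 1) = 2 * a ^ 2 + 3 * a + 1 := by ring
    omega

end

end Cfsg.Agent.H10
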