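import Mathlib
import Cfsg.Agent.H10.Perm5
import Cfsg.Agent.H1.Hall

set_option autoImplicit false
set_option linter.all false

/-!
# H10.Perm6: Fisher's inequality and blocks of 3-transitive groups
-/

namespace Cfsg.Agent.H10

open MulAction
open scoped Pointwise

/-- Fisher's inequality -/
theorem fisher_lin {ι κ : Type*} [Fintype ι] [Fintype κ] [DecidableEq ι] (n : ι → κ → ℚ) (r l : ℚ)
    (hl : 0 ≤ l) (hrl : l < r) (hd : ∀ i, ∑ k, n i k * n i k = r)
    (ho : ∀ i j, i ≠ j → ∑ k, n i k * n j k = l) : Fintype.card ι ≤ Fintype.card κ := by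
  have hli : LinearIndependent ℚ n := by
    rw [Fintype.linearIndependent_iff]
    intro g hg
    have h1 : ∑ i, ∑ j, g i * g j * (∑ k, n i k * n j k) = 0 := by
      have h2 : ∀ k, ∑ i, g i * n i k = 0 := by
        intro k
        have := congrFun hg k
        simpa using this
      calc ∑ i, ∑ j, g i * g j * (∑ k, n i k * n j k)
          = ∑ i, ∑ j, ∑ k, (g i * n i k) * (g j * n j k) := by
            refine Finset.sum_congr rfl fun i _ => Finset.sum_congr rfl fun j _ => ?_
            rw [Finset.mul_sum]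
            exact Finset.sum_congr rfl fun k _ => by ring
        _ = ∑ k, ∑ i, ∑ j, (g i * n i k) * (g j * n j k) := by
            have e : ∀ i, ∑ j, ∑ k, (g i * n i k) * (g j * n j k) =
                ∑ k, ∑ j, (g i * n i k) * (g j * n j k) := fun i => Finset.sum_comm
            simp only [e]
            exact Finset.sum_comm
        _ = ∑ k, (∑ i, g i * n i k) * (∑ j, g j * n j k) := by
            simp only [Finset.sum_mul_sum]
        _ = 0 := by simp only [h2, mul_zero, Finset.sum_const_zero]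
    have h3 : ∑ i, ∑ j, g i * g j * (∑ k, n i k * n j k) =
        (r - l) * ∑ i, g i ^ 2 + l * (∑ i, g i) ^ 2 := by
      have h4 : ∀ i j, g i * g j * (∑ k, n i k * n j k) =
          g i * g j * l + if i = j then g i * g j * (r - l) else 0 := by
        intro i j
        by_cases hij : i = j
        · subst hij; rw [if_pos rfl, hd]; ring
        · rw [if_neg hij, ho i j hij, add_zero]
      simp only [h4, Finset.sum_add_distrib, Finset.sum_ite_eq, Finset.mem_univ, if_true]
      rw [add_comm]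
      congr 1
      · rw [Finset.mul_sum]
        exact Finset.sum_congr rfl fun i _ => by ring
      · rw [pow_two, Finset.sum_mul_sum, Finset.mul_sum]
        refine Finset.sum_congr rfl fun i _ => ?_
        rw [Finset.mul_sum]
        exact Finset.sum_congr rfl fun j _ => by ring
    rw [h3] at h1
    have h5 : 0 ≤ l * (∑ i, g i) ^ 2 := mul_nonneg hl (sq_nonneg _)
    have h6 : 0 ≤ (r - l) * ∑ i, g i ^ 2 :=
      mul_nonneg (by linarith) (Finset.sum_nonneg fun i _ => sq_nonneg _)
    have h7 : (r - l) * ∑ i, g i ^ 2 = 0 := by linarith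
    have h8 : ∑ i, g i ^ 2 = 0 := (mul_eq_zero.1 h7).resolve_left (by linarith)
    intro i
    have h9 := (Finset.sum_eq_zero_iff_of_nonneg (fun i _ => sq_nonneg (g i))).1 h8 i (Finset.mem_univ i)
    exact pow_eq_zero_iff (two_ne_zero) |>.1 h9
  have := hli.fintype_card_le_finrank
  rwa [Module.finrank_fintype_fun_eq_card] at this

theorem sum_sub {κ : Type*} [Fintype κ] (p : κ → Prop) [DecidablePred p] (F : κ → ℚ) :
    ∑ q : {q // p q}, F q.1 = ∑ q, if p q then F q else 0 := by
  rw [← Finset.sum_filter]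
  exact (Finset.sum_subtype _ (by simp) _).symm

/-- blocks of a 3-transitive group: if there are as many blocks as points then blocks are large -/
theorem block_large {G : Type*} [Group G] {Ω B : Type*} [Fintype Ω] [Fintype B] [DecidableEq Ω]
    [MulAction G Ω] [MulAction G B] [IsPretransitive G B] (h3 : IsMultiplyPretransitive G Ω 3)
    (hcard : Fintype.card B = Fintype.card Ω) (I : Ω → B → Prop)
    (hI : ∀ (g : G) x q, I (g • x) (g • q) ↔ I x q) (q₀ : B) {a b c : Ω} (hab : a ≠ b)
    (ha : I a q₀) (hb : I b q₀) (hc : ¬ I c q₀) :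
    Fintype.card Ω ≤ Nat.card {x // I x q₀} + 1 := by
  classical
  have hac : a ≠ c := by rintro rfl; exact hc ha
  have hbc : b ≠ c := by rintro rfl; exact hc hb
  have h3' := three_trans_iff.1 h3
  let I' : Ω → B → ℚ := fun x q => if I x q then 1 else 0
  have hI' : ∀ (g : G) x q, I' (g • x) (g • q) = I' x q := fun g x q => by simp only [I', hI]
  have hsq : ∀ x q, I' x q * I' x q = I' x q := by
    intro x q; simp only [I']; split_ifs <;> norm_num
  have hI0 : ∀ x q, 0 ≤ I' x q := by
    intro x q; simp only [I']; split_ifs <;> norm_num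
  have hI1 : ∀ x q, I' x q ≤ 1 := by
    intro x q; simp only [I']; split_ifs <;> norm_num
  have hif : ∀ x q (t : ℚ), (if I x q then t else 0) = I' x q * t := by
    intro x q t; simp only [I']; split_ifs <;> simp
  have hsumB : ∀ (g : G) (F : B → ℚ), ∑ q, F (g • q) = ∑ q, F q := fun g F =>
    Fintype.sum_equiv (MulAction.toPerm g) _ _ (fun x => rfl)
  have hsumΩ : ∀ (g : G) (F : Ω → ℚ), ∑ q, F (g • q) = ∑ q, F q := fun g F =>
    Fintype.sum_equiv (MulAction.toPerm g) _ _ (fun x => rfl)
  -- pairs and triples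
  have hpair2 : ∀ x, x ≠ c → ∑ q, I' c q * I' x q = ∑ q, I' a q * I' b q := by
    intro x hx
    -- choose a third point
    obtain ⟨z, hzc, hzx⟩ : ∃ z, z ≠ c ∧ z ≠ x := by
      by_cases h : a = x
      · exact ⟨b, hbc, fun e => hab (h.trans e.symm)⟩
      · exact ⟨a, hac, h⟩
    obtain ⟨g, h1, h2, -⟩ := h3' a b c c x z hab hac hbc (Ne.symm hx) (Ne.symm hzc) (Ne.symm hzx)
    rw [← hsumB g, ← h1, ← h2]; simp only [hI']
  obtain ⟨lam, hlam⟩ : ∃ lam, lam = ∑ q, I' a q * I' b q := ⟨_, rfl⟩
  have htri : ∀ x y z, x ≠ y → x ≠ z → y ≠ z →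
      ∑ q, I' x q * I' y q * I' z q = ∑ q, I' a q * I' b q * I' c q := by
    intro x y z h1 h2 h4
    obtain ⟨g, rfl, rfl, rfl⟩ := h3' a b c x y z hab hac hbc h1 h2 h4
    rw [← hsumB g]; simp only [hI']
  obtain ⟨mu, hmu⟩ : ∃ mu, mu = ∑ q, I' a q * I' b q * I' c q := ⟨_, rfl⟩
  have hmu0 : 0 ≤ mu := by
    rw [hmu]
    exact Finset.sum_nonneg fun q _ => mul_nonneg (mul_nonneg (hI0 _ _) (hI0 _ _)) (hI0 _ _)
  have hlt : mu < lam := by
    rw [hmu, hlam]
    refine Finset.sum_lt_sum (fun q _ => ?_) ⟨q₀, Finset.mem_univ _, ?_⟩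
    · exact mul_le_of_le_one_right (mul_nonneg (hI0 _ _) (hI0 _ _)) (hI1 _ _)
    · simp only [I', if_pos ha, if_pos hb, if_neg hc]; norm_num
  -- Fisher for the blocks through `c`
  have h5 : Fintype.card {x // x ≠ c} ≤ Fintype.card {q // I c q} := by
    refine fisher_lin (fun (x : {x // x ≠ c}) (q : {q // I c q}) => I' x.1 q.1) lam mu hmu0 hlt ?_ ?_
    · rintro ⟨x, hx⟩
      rw [sum_sub (fun q => I c q) (fun q => I' x q * I' x q)]
      simp only [hif, hsq]
      rw [hpair2 x hx, hlam]
    · rintro ⟨x, hx⟩ ⟨y, hy⟩ hxy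
      have hxy' : x ≠ y := fun h => hxy (Subtype.ext h)
      rw [sum_sub (fun q => I c q) (fun q => I' x q * I' y q)]
      simp only [hif]
      rw [hmu, ← htri c x y (Ne.symm hx) (Ne.symm hy) hxy']
      exact Finset.sum_congr rfl fun q _ => by ring
  have h6 : Fintype.card {x // x ≠ c} + 1 = Fintype.card Ω := by
    rw [Fintype.card_subtype_compl, Fintype.card_subtype_eq]
    have : 0 < Fintype.card Ω := Fintype.card_pos_iff.2 ⟨c⟩
    omega
  -- double counting
  have hr : ∀ x, ∑ q, I' x q = ∑ q, I' c q := by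
    intro x
    obtain ⟨g, h1⟩ : ∃ g : G, g • c = x := by
      by_cases h : x = c
      · exact ⟨1, by rw [one_smul, h]⟩
      · obtain ⟨z, hzc, hzx⟩ : ∃ z, z ≠ c ∧ z ≠ x := by
          by_cases h' : a = x
          · exact ⟨b, hbc, fun e => hab (h'.trans e.symm)⟩
          · exact ⟨a, hac, h'⟩
        obtain ⟨g, h1, -, -⟩ := h3' c x z x c z (Ne.symm h) (Ne.symm hzc) (Ne.symm hzx) h
          (Ne.symm hzx) (Ne.symm hzc)
        exact ⟨g, h1⟩
    rw [← h1, ← hsumB g]; simp only [hI']
  have hk : ∀ q, ∑ x, I' x q = ∑ x, I' x q₀ := by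
    intro q
    obtain ⟨g, rfl⟩ := exists_smul_eq G q₀ q
    rw [← hsumΩ g]; simp only [hI']
  have hdc : ∑ x, ∑ q, I' x q = ∑ q, ∑ x, I' x q := Finset.sum_comm
  simp only [hr, hk, Finset.sum_const, Finset.card_univ, hcard, nsmul_eq_mul] at hdc
  have hpos : (0 : ℚ) < Fintype.card Ω := by
    exact_mod_cast Fintype.card_pos_iff.2 ⟨c⟩
  have hrk : ∑ q, I' c q = ∑ x, I' x q₀ := mul_left_cancel₀ hpos.ne' hdc
  have e1 : ∑ q, I' c q = (Fintype.card {q // I c q} : ℚ) := by
    simp only [I']
    rw [Finset.sum_boole, Fintype.card_subtype]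
  have e2 : ∑ x, I' x q₀ = (Nat.card {x // I x q₀} : ℚ) := by
    simp only [I']
    rw [Finset.sum_boole, Nat.card_eq_fintype_card, Fintype.card_subtype]
  rw [e1, e2] at hrk
  have hrk' : Fintype.card {q // I c q} = Nat.card {x // I x q₀} := by exact_mod_cast hrk
  omega

end Cfsg.Agent.H10
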