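import Cfsg.Agent.H10.AB1
import Cfsg.Agent.H23.RankOne
import Mathlib

set_option autoImplicit false

namespace Cfsg.Agent.H10.RQ
open Subgroup

section
variable {q : ℕ} [Fact q.Prime] {V : Type*} [AddCommGroup V] [Module (ZMod q) V] [Finite V] [Nontrivial V]
    {G : Type*} [Group G] [Finite G] {p : ℕ} [Fact p.Prime]

/-- The fixed space of `x`. -/
def fixS (ρ : G →* (V ≃ₗ[ZMod q] V)) (x : G) : Submodule (ZMod q) V where
  carrier := {v | ρ x v = v}
  add_mem' := by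
    intro a b ha hb
    show ρ x (a + b) = a + b
    rw [map_add, show ρ x a = a from ha, show ρ x b = b from hb]
  zero_mem' := by show ρ x 0 = 0; rw [map_zero]
  smul_mem' := by
    intro c a ha
    show ρ x (c • a) = c • a
    rw [map_smul, show ρ x a = a from ha]

theorem mem_fixS (ρ : G →* (V ≃ₗ[ZMod q] V)) (x : G) (v : V) : v ∈ fixS ρ x ↔ ρ x v = v := Iff.rfl

theorem mulv (ρ : G →* (V ≃ₗ[ZMod q] V)) (g h : G) (v : V) : ρ (g * h) v = ρ g (ρ h v) := by
  rw [map_mul]; rfl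

theorem onev (ρ : G →* (V ≃ₗ[ZMod q] V)) (v : V) : ρ 1 v = v := by rw [map_one]; rfl

/-- The norm sum. -/
noncomputable def Nm (p : ℕ) (ρ : G →* (V ≃ₗ[ZMod q] V)) (x : G) (v : V) : V := ∑ k ∈ Finset.range p, ρ (x ^ k) v

theorem Nm_mem (ρ : G →* (V ≃ₗ[ZMod q] V)) {x : G} (hx : x ^ p = 1) (v : V) : Nm p ρ x v ∈ fixS ρ x := by
  rw [mem_fixS, Nm, map_sum]
  have h1 : ∀ k, ρ x (ρ (x ^ k) v) = ρ (x ^ (k + 1)) v := by
    intro k; rw [← mulv, ← pow_succ']
  simp only [h1]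
  have h2 := Finset.sum_range_succ' (fun k => ρ (x ^ k) v) p
  have h3 := Finset.sum_range_succ (fun k => ρ (x ^ k) v) p
  rw [h2] at h3
  simp only [pow_zero, hx] at h3
  exact add_right_cancel h3

theorem Nm_eq_smul (ρ : G →* (V ≃ₗ[ZMod q] V)) {x : G} {v : V} (hv : v ∈ fixS ρ x) : Nm p ρ x v = (p : ℕ) • v := by
  have h1 : ∀ k : ℕ, ρ (x ^ k) v = v := by
    intro k
    induction k with
    | zero => rw [pow_zero, onev]
    | succ k ih => rw [pow_succ, mulv, show ρ x v = v from hv, ih]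
  rw [Nm]
  simp only [h1, Finset.sum_const, Finset.card_range]

theorem Nm_zero (ρ : G →* (V ≃ₗ[ZMod q] V)) {x : G} (hx : x ^ p = 1) (hf : fixS ρ x = ⊥) (v : V) : Nm p ρ x v = 0 := by
  have := Nm_mem ρ hx v
  rwa [hf, Submodule.mem_bot] at this

/-- the identity `∑_i N(e z^i) = p`. -/
theorem sum_Nm (ρ : G →* (V ≃ₗ[ZMod q] V)) {e z : G} (hez : e * z = z * e) (hz : z ^ p = 1) (hz1 : z ≠ 1)
    (hf : ∀ k : ℕ, z ^ k ≠ 1 → fixS ρ (z ^ k) = ⊥) (v : V) :
    ∑ i ∈ Finset.range p, Nm p ρ (e * z ^ i) v = (p : ℕ) • v := by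
  have hp : p.Prime := Fact.out
  have hoz : orderOf z = p := orderOf_eq_prime hz hz1
  simp only [Nm]
  rw [Finset.sum_comm]
  have h1 : ∀ k ∈ Finset.range p, k ≠ 0 → ∑ i ∈ Finset.range p, ρ ((e * z ^ i) ^ k) v = 0 := by
    intro k hk hk0
    have h2 : ∀ i, ρ ((e * z ^ i) ^ k) v = ρ (e ^ k) (ρ ((z ^ k) ^ i) v) := by
      intro i
      have hc : Commute e (z ^ i) := (show Commute e z from hez).pow_right i
      rw [hc.mul_pow, mulv, ← pow_mul, ← pow_mul, mul_comm]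
    simp only [h2]
    rw [← map_sum]
    have hzk : z ^ k ≠ 1 := by
      intro h
      have := orderOf_dvd_of_pow_eq_one h
      rw [hoz] at this
      have hlt := Finset.mem_range.1 hk
      exact absurd (Nat.le_of_dvd (Nat.pos_of_ne_zero hk0) this) (by omega)
    have h3 := Nm_zero (p := p) ρ (x := z ^ k) (by rw [← pow_mul, mul_comm, pow_mul, hz, one_pow]) (hf k hzk) v
    rw [Nm] at h3
    rw [h3, map_zero]
  rw [Finset.sum_eq_single_of_mem 0 (Finset.mem_range.2 hp.pos) (fun k hk hk0 => h1 k hk hk0)]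
  simp only [pow_zero, onev, Finset.sum_const, Finset.card_range]

theorem Nm_kill (ρ : G →* (V ≃ₗ[ZMod q] V)) {x y : G} (hxy : x * y = y * x) (hyp : y ^ p = 1) 
    (hf : fixS ρ y = ⊥) {v : V} (hv : v ∈ fixS ρ x) : Nm p ρ (x * y) v = 0 := by
  have h1 : ∀ k : ℕ, ρ ((x * y) ^ k) v = ρ (y ^ k) v := by
    intro k
    have hc : Commute x y := hxy
    rw [hc.mul_pow, (hc.pow_pow k k).eq, mulv]
    congr 1
    induction k with
    | zero => rw [pow_zero, onev]
    | succ k ih => rw [pow_succ, mulv, show ρ x v = v from hv, ih]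
  have h2 := Nm_zero (p := p) ρ hyp hf v
  rw [Nm] at h2 ⊢
  simp only [h1]
  exact h2

end

end Cfsg.Agent.H10.RQ
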