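import Mathlib
import Cfsg.Agent.H10.Rank
import Cfsg.Agent.H10.Sig
import Cfsg.Agent.H23.RankOne2

set_option autoImplicit false
set_option linter.all false
set_option maxHeartbeats 400000

/-!
# H10.RankP: commuting graph of elementary abelian subgroups of a p-group
-/

open Cfsg

namespace Cfsg.Agent.H10

variable {P : Type*} [Group P]

theorem card_le_inf_mul [Finite P] {n : ℕ} {C E : Subgroup P}
    (hi : C.index ≤ n) : Nat.card E ≤ Nat.card ↥(C ⊓ E) * n := by
  have h1 : Nat.card ↥(C ⊓ E) * C.relIndex E = Nat.card E := by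
    have h2 := (C.subgroupOf E).card_mul_index
    rw [← h2]
    congr 1
    rw [← Subgroup.inf_subgroupOf_right C E]
    exact (Nat.card_congr (Subgroup.subgroupOfEquivOfLe (inf_le_right : C ⊓ E ≤ E)).toEquiv).symm
  have h2 : C.relIndex E ≤ n := by
    have h3 : C.relIndex ⊤ ≠ 0 := by rw [Subgroup.relIndex_top_right]; exact Subgroup.index_ne_zero_of_finite
    refine (Subgroup.relIndex_le_of_le_right le_top h3).trans ?_
    rw [Subgroup.relIndex_top_right]; exact hi
  rw [← h1]
  exact Nat.mul_le_mul_left _ h2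

theorem elab_card_le_of_cyclic_index [Finite P] {p : ℕ} [hp : Fact p.Prime] {C E : Subgroup P} (hC : IsCyclic C)
    (hi : C.index ≤ p) (hE : IsElementaryAbelian p E) : Nat.card E ≤ p ^ 2 := by
  classical
  have h1 : Nat.card ↥(C ⊓ E) * C.relIndex E = Nat.card E := by
    have := Subgroup.relIndex_inf_mul_relIndex (⊥ : Subgroup P) C E
    have h2 := (C.subgroupOf E).card_mul_index
    rw [← h2]
    congr 1
    rw [← Subgroup.inf_subgroupOf_right C E]
    exact (Nat.card_congr (Subgroup.subgroupOfEquivOfLe (inf_le_right : C ⊓ E ≤ E)).toEquiv).symm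
  have h2 : C.relIndex E ≤ p := by
    have h3 : C.relIndex ⊤ ≠ 0 := by rw [Subgroup.relIndex_top_right]; exact Subgroup.index_ne_zero_of_finite
    refine (Subgroup.relIndex_le_of_le_right le_top h3).trans ?_
    rw [Subgroup.relIndex_top_right]; exact hi
  have h3 : Nat.card ↥(C ⊓ E) ≤ p := by
    have hcyc : IsCyclic ↥(C ⊓ E) := by
      haveI := hC
      exact isCyclic_of_injective (Subgroup.inclusion (inf_le_left : C ⊓ E ≤ C)) (Subgroup.inclusion_injective _)
    haveI := Fintype.ofFinite ↥(C ⊓ E)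
    have h4 := IsCyclic.card_pow_eq_one_le (α := ↥(C ⊓ E)) hp.out.pos
    rw [Nat.card_eq_fintype_card, ← Finset.card_univ]
    refine le_trans (Finset.card_le_card ?_) h4
    intro x _
    rw [Finset.mem_filter]
    refine ⟨Finset.mem_univ _, ?_⟩
    exact Subtype.ext (hE.2 x x.2.2)
  calc Nat.card E = Nat.card ↥(C ⊓ E) * C.relIndex E := h1.symm
    _ ≤ p * p := Nat.mul_le_mul h3 h2
    _ = p ^ 2 := (pow_two p).symm

theorem exists_normal_sq_of_rank [Finite P] {p : ℕ} [hp : Fact p.Prime] (hP : IsPGroup p P) (hrk : ¬ PRankLE p 2 P) :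
    ∃ U : Subgroup P, U.Normal ∧ IsElementaryAbelian p U ∧ Nat.card U = p ^ 2 := by
  have hE : ∃ E : Subgroup P, IsElementaryAbelian p E ∧ p ^ 2 < Nat.card E := by
    unfold PRankLE at hrk
    push Not at hrk
    obtain ⟨E, h1, h2, h3⟩ := hrk
    exact ⟨E, ⟨h1, h2⟩, h3⟩
  obtain ⟨E, hE, hE2⟩ := hE
  by_contra hcon
  push Not at hcon
  have h := H23.cyclic_or_dqs hP (fun U hU hUc hUp => hcon U hU ⟨?_, hUp⟩ hUc)
  · rcases h with h | ⟨h2, n, hn⟩
    · have h1 := elab_card_le_of_cyclic_index (C := (⊤ : Subgroup P)) ?_ (by rw [Subgroup.index_top]; exact hp.out.one_le) hE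
      · omega
      · haveI := h
        exact isCyclic_of_injective (Subgroup.topEquiv (G := P)).toMonoidHom Subgroup.topEquiv.injective
    · obtain ⟨-, u, x, -, hi, -⟩ := hn
      have h1 := elab_card_le_of_cyclic_index (C := Subgroup.zpowers u) inferInstance (by rw [hi, h2]) hE
      omega
  · exact H23.isMulCommutative_of_card_le_sq (hP.to_subgroup U) hUc.le

theorem elab_sup [Finite P] {p : ℕ} {E F : Subgroup P} (hE : IsElementaryAbelian p E) (hF : IsElementaryAbelian p F)
    (hEF : ∀ a ∈ E, ∀ b ∈ F, a * b = b * a) : IsElementaryAbelian p (E ⊔ F) := by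
  have hEF' : F ≤ Subgroup.centralizer (E : Set P) := by
    intro a ha
    rw [Subgroup.mem_centralizer_iff]
    intro b hb; exact (hEF b hb a ha)
  have hmem : ∀ x ∈ E ⊔ F, ∃ a ∈ E, ∃ b ∈ F, a * b = x := by
    intro x hx
    have hn : F ≤ Subgroup.normalizer (E : Set P) := hEF'.trans (Subgroup.centralizer_le_normalizer _)
    exact (H23.mem_sup_iff_of_le_normalizer hn).1 hx
  have hEc := fun a ha b hb => elab_comm hE (a := a) (b := b) ha hb
  have hFc := fun a ha b hb => elab_comm hF (a := a) (b := b) ha hb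
  refine elab_of_comm ?_ ?_
  · intro x hx y hy
    obtain ⟨a, ha, b, hb, rfl⟩ := hmem x hx
    obtain ⟨c, hc, d, hd, rfl⟩ := hmem y hy
    have e1 := hEc a ha c hc
    have e2 := hFc b hb d hd
    have e3 := hEF c hc b hb
    have e4 := hEF a ha d hd
    calc a * b * (c * d) = a * (b * c) * d := by group
      _ = a * (c * b) * d := by rw [e3]
      _ = (a * c) * (b * d) := by group
      _ = (c * a) * (d * b) := by rw [e1, e2]
      _ = c * (a * d) * b := by group
      _ = c * (d * a) * b := by rw [e4]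
      _ = c * d * (a * b) := by group
  · intro x hx
    obtain ⟨a, ha, b, hb, rfl⟩ := hmem x hx
    have h1 : Commute a b := hEF a ha b hb
    rw [h1.mul_pow, hE.2 a ha, hF.2 b hb, one_mul]

/-- S1337, key step: vertices whose centraliser has rank > 2 are connected to the normal `U` -/
theorem cent_normal_sq [Finite P] {p : ℕ} [hp : Fact p.Prime] (hP : IsPGroup p P) {U : Subgroup P} (hUn : U.Normal)
    (hU : IsElementaryAbelian p U) (hUc : Nat.card U = p ^ 2) {E : Subgroup P} (hE : IsElementaryAbelian p E)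
    (hE2 : p ^ 2 < Nat.card E) : p ^ 2 ≤ Nat.card ↥(Subgroup.centralizer (U : Set P) ⊓ E) ∧
      ¬ PRankLE p 2 ↥(Subgroup.centralizer (U : Set P)) := by
  have hi := H23.index_centralizer_sq_le hP hUc
  obtain ⟨m, hm⟩ := IsPGroup.iff_card.mp (elab_isPGroup hE)
  have hm3 : 3 ≤ m := by
    rw [hm] at hE2
    exact (Nat.pow_lt_pow_iff_right hp.out.one_lt).mp hE2
  have h1 := card_le_inf_mul (E := E) hi
  have h2 : p ^ 2 ≤ Nat.card ↥(Subgroup.centralizer (U : Set P) ⊓ E) := by
    rw [hm] at h1
    have h3 : p ^ 2 * p ≤ Nat.card ↥(Subgroup.centralizer (U : Set P) ⊓ E) * p := by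
      refine le_trans ?_ h1
      rw [← pow_succ]
      exact Nat.pow_le_pow_right hp.out.pos hm3
    exact Nat.le_of_mul_le_mul_right h3 hp.out.pos
  refine ⟨h2, ?_⟩
  rw [not_pRankLE_iff]
  have hUU : U ≤ Subgroup.centralizer (U : Set P) := by
    intro a ha
    rw [Subgroup.mem_centralizer_iff]
    intro b hb; exact elab_comm hU hb ha
  have hF : IsElementaryAbelian p (Subgroup.centralizer (U : Set P) ⊓ E) := elab_mono hE inf_le_right
  by_cases hEU : E ≤ Subgroup.centralizer (U : Set P)
  · exact ⟨E, hEU, hE, hE2⟩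
  refine ⟨(Subgroup.centralizer (U : Set P) ⊓ E) ⊔ U, sup_le inf_le_left hUU, ?_, ?_⟩
  · refine elab_sup hF hU ?_
    intro a ha b hb
    exact ((Subgroup.mem_centralizer_iff.1 ha.1) b hb).symm
  · -- strict
    have hne : Subgroup.centralizer (U : Set P) ⊓ E ≠ (Subgroup.centralizer (U : Set P) ⊓ E) ⊔ U := by
      intro h
      apply hEU
      intro e he
      rw [Subgroup.mem_centralizer_iff]
      intro u hu
      have : u ∈ Subgroup.centralizer (U : Set P) ⊓ E := by rw [h]; exact (le_sup_right : U ≤ _) hu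
      exact elab_comm hE this.2 he
    have hlt := lt_of_le_of_ne (le_sup_left : Subgroup.centralizer (U : Set P) ⊓ E ≤ _) hne
    exact lt_of_le_of_lt h2 (Set.ncard_lt_ncard (s := ((Subgroup.centralizer (U : Set P) ⊓ E : Subgroup P) : Set P)) hlt (Set.toFinite _))

end Cfsg.Agent.H10
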