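import Mathlib
import Cfsg.Agent.H3.Equivalence
import Cfsg.Agent.H3.Ind

/-!
# Characters realised over a subfield
-/

set_option autoImplicit false

namespace Cfsg.Agent.H10.Rz

open Cfsg Cfsg.Agent.H3

universe u

variable {G : Type u} [Group G] (K : Type) [Field K] [Algebra K ℂ]

/-- `χ` is afforded by a representation over `K` -/
def RealK (χ : G → ℂ) : Prop := ∃ (n : ℕ) (ρ : Representation K G (Fin n → K)),
  ∀ g, χ g = algebraMap K ℂ (ρ.character g)

variable {K}

theorem real_of_rep {V : Type*} [AddCommGroup V] [Module K V] [FiniteDimensional K V]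
    (ρ : Representation K G V) : RealK K (fun g => algebraMap K ℂ (ρ.character g)) := by
  obtain ⟨σ, ⟨e⟩⟩ := exists_coord_equiv ρ
  exact ⟨_, σ, fun g => by rw [Representation.char_iso e]⟩

theorem real_proj {V : Type*} [AddCommGroup V] [Module K V] [FiniteDimensional K V]
    (ρ : Representation K G V) (P : V →ₗ[K] V) (hPP : ∀ v, P (P v) = P v) (hc : ∀ g v, P (ρ g v) = ρ g (P v)) :
    RealK K (fun g => algebraMap K ℂ (LinearMap.trace K V (P ∘ₗ ρ g))) := by
  classical
  let W : Submodule K V := LinearMap.range P
  have hW : ∀ v ∈ W, P v = v := by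
    rintro v ⟨w, rfl⟩
    exact hPP w
  have hst : ∀ g, ∀ v ∈ W, ρ g v ∈ W := by
    rintro g v hv
    refine ⟨ρ g v, ?_⟩
    rw [hc, hW v hv]
  let ρW : Representation K G W :=
    { toFun := fun g => (ρ g).restrict (hst g)
      map_one' := by
        apply LinearMap.ext
        intro v
        apply Subtype.ext
        simp [LinearMap.restrict_apply]
      map_mul' := fun g h => by
        apply LinearMap.ext
        intro v
        apply Subtype.ext
        simp [LinearMap.restrict_apply] }
  have hchar : ρW.character = fun g => LinearMap.trace K V (P ∘ₗ ρ g) := by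
    ext g
    have hf : ∀ x, (P ∘ₗ ρ g) x ∈ W := fun x => ⟨ρ g x, rfl⟩
    rw [← LinearMap.trace_restrict_eq_of_forall_mem W (P ∘ₗ ρ g) hf]
    change LinearMap.trace K W ((ρ g).restrict (hst g)) = _
    congr 1
    apply LinearMap.ext
    intro v
    apply Subtype.ext
    simp only [LinearMap.restrict_apply, LinearMap.comp_apply]
    rw [hW _ (hst g v v.2)]
  have h := real_of_rep ρW
  rw [hchar] at h
  exact h

theorem real_add {χ ψ : G → ℂ} (h1 : RealK K χ) (h2 : RealK K ψ) : RealK K (χ + ψ) := by
  obtain ⟨n, ρ, h1⟩ := h1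
  obtain ⟨m, σ, h2⟩ := h2
  have h := real_of_rep (ρ.prod σ)
  have e : (fun g => algebraMap K ℂ ((ρ.prod σ).character g)) = χ + ψ := by
    funext g
    rw [Pi.add_apply, h1, h2, ← map_add]
    congr 1
    exact LinearMap.trace_prodMap' (ρ g) (σ g)
  rw [e] at h
  exact h

theorem real_zero : RealK K (0 : G → ℂ) := by
  have h := real_of_rep (K := K) (G := G) (V := PUnit) (1 : Representation K G PUnit)
  have e : (fun g : G => algebraMap K ℂ ((1 : Representation K G PUnit).character g)) = 0 := by
    funext g
    rw [Pi.zero_apply, Representation.character]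
    have : (1 : Representation K G PUnit) g = 0 := Subsingleton.elim _ _
    rw [this, map_zero, map_zero]
  rw [e] at h
  exact h

/-- induced linear characters -/
theorem real_ind [Fintype G] [CharZero K] (H : Subgroup G) (μ : H →* ℂˣ) (hμ : ∀ h, ∃ a : K, algebraMap K ℂ a = μ h) :
    RealK K (indFun H (fun h => (μ h : ℂ))) := by
  classical
  haveI := Fintype.ofFinite H
  choose a ha using hμ
  have hinj : Function.Injective (algebraMap K ℂ) := (algebraMap K ℂ).injective
  have hmul : ∀ h k, a (h * k) = a h * a k := by
    intro h k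
    apply hinj
    rw [map_mul, ha, ha, ha, map_mul, Units.val_mul]
  have hone : a 1 = 1 := by
    apply hinj
    rw [ha, map_one, map_one, Units.val_one]
  let ρ : Representation K G (G → K) :=
    { toFun := fun g => { toFun := fun f x => f (g⁻¹ * x), map_add' := fun f f' => rfl, map_smul' := fun c f => rfl }
      map_one' := by ext f x; simp
      map_mul' := fun g h => by
        apply LinearMap.ext
        intro f
        funext x
        simp [mul_assoc] }
  have hρ : ∀ g f x, ρ g f x = f (g⁻¹ * x) := fun g f x => rfl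
  let P : (G → K) →ₗ[K] (G → K) :=
    { toFun := fun f x => (Nat.card H : K)⁻¹ * ∑ h : H, a h * f (x * h)
      map_add' := fun f f' => by
        funext x
        simp only [Pi.add_apply, mul_add, Finset.sum_add_distrib]
      map_smul' := fun c f => by
        funext x
        simp only [Pi.smul_apply, smul_eq_mul, RingHom.id_apply]
        have h0 : ∀ h : H, a h * (c * f (x * h)) = c * (a h * f (x * h)) := fun h => by ring
        rw [Finset.sum_congr rfl (fun h _ => h0 h), ← Finset.mul_sum]
        ring }
  have hP : ∀ f x, P f x = (Nat.card H : K)⁻¹ * ∑ h : H, a h * f (x * h) := fun f x => rfl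
  have hN : (Nat.card H : K) ≠ 0 := by exact_mod_cast Nat.card_pos.ne'
  have hPP : ∀ v, P (P v) = P v := by
    intro v
    funext x
    rw [hP]
    have e : ∀ h : H, a h * P v (x * h) = (Nat.card H : K)⁻¹ * ∑ k : H, a k * v (x * k) := by
      intro h
      have e2 : ∑ i : H, a h * (a i * v (x * h * i)) = ∑ k : H, a k * v (x * k) :=
        Fintype.sum_equiv (Equiv.mulLeft h) _ _ (fun i => by
          change a h * (a i * v (x * h * i)) = a (h * i) * v (x * (h * i : H))
          rw [hmul, Subgroup.coe_mul]; simp only [mul_assoc])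
      rw [hP, mul_left_comm, Finset.mul_sum, e2]
    rw [Finset.sum_congr rfl (fun h _ => e h), Finset.sum_const, Finset.card_univ, nsmul_eq_mul, hP,
      ← Nat.card_eq_fintype_card, ← mul_assoc, inv_mul_cancel₀ hN, one_mul]
  have hc : ∀ g v, P (ρ g v) = ρ g (P v) := by
    intro g v
    funext x
    rw [hP, hρ, hP]
    simp only [hρ, mul_assoc]
  have h := real_proj ρ P hPP hc
  have e : (fun g => algebraMap K ℂ (LinearMap.trace K (G → K) (P ∘ₗ ρ g))) = indFun H (fun h => (μ h : ℂ)) := by
    funext g
    rw [LinearMap.trace_eq_matrix_trace K (Pi.basisFun K G), Matrix.trace]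
    have e1 : ∀ x : G, (LinearMap.toMatrix (Pi.basisFun K G) (Pi.basisFun K G) (P ∘ₗ ρ g)).diag x =
        (Nat.card H : K)⁻¹ * ∑ h : H, (if x⁻¹ * g * x = h then a h else 0) := by
      intro x
      rw [Matrix.diag_apply, LinearMap.toMatrix_apply, Pi.basisFun_apply, Pi.basisFun_repr, LinearMap.comp_apply, hP]
      congr 1
      apply Finset.sum_congr rfl
      intro h _
      rw [hρ, Pi.single_apply]
      by_cases hx : x⁻¹ * g * x = h
      · rw [if_pos hx, if_pos (by rw [← hx]; group), mul_one]
      · rw [if_neg hx, if_neg (fun h' => hx (by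
          have : (h : G) = x⁻¹ * g * (g⁻¹ * (x * h)) := by group
          rw [this, h'])), mul_zero]
    rw [Finset.sum_congr rfl (fun x _ => e1 x), ← Finset.mul_sum, map_mul, map_inv₀, map_natCast, map_sum]
    unfold indFun
    congr 1
    apply Finset.sum_congr rfl
    intro x _
    rw [map_sum]
    by_cases hx : x⁻¹ * g * x ∈ H
    · rw [extendByZero_mem H _ hx, Finset.sum_eq_single (⟨_, hx⟩ : H)]
      · rw [if_pos rfl, ha]
      · intro b _ hb
        rw [if_neg (fun h' => hb (Subtype.ext h'.symm)), map_zero]
      · intro h'; exact absurd (Finset.mem_univ _) h'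
    · rw [extendByZero_not_mem H _ hx]
      apply Finset.sum_eq_zero
      intro b _
      rw [if_neg (fun h' => hx (by rw [h']; exact b.2)), map_zero]
  rw [e] at h
  exact h

end Cfsg.Agent.H10.Rz
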