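import Cfsg.Agent.H10.Rz1

/-!
# Descent of embeddings (Noether–Deuring)
-/

set_option autoImplicit false

namespace Cfsg.Agent.H10.Rz

open Cfsg Cfsg.Agent.H3

universe u

variable {G : Type u} [Group G] {K : Type} [Field K] [Algebra K ℂ]

/-- matrices: a complex intertwiner with a left inverse gives one over `K` -/
theorem descend [CharZero K] {I : Type u} {a b : ℕ} (R1 : I → Matrix (Fin a) (Fin a) K) (R2 : I → Matrix (Fin b) (Fin b) K)
    (T : Matrix (Fin a) (Fin b) ℂ) (L : Matrix (Fin b) (Fin a) ℂ) (hLT : L * T = 1)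
    (hT : ∀ g, (R1 g).map (algebraMap K ℂ) * T = T * (R2 g).map (algebraMap K ℂ)) :
    ∃ T' : Matrix (Fin a) (Fin b) K, (∀ g, R1 g * T' = T' * R2 g) ∧ Function.Injective T'.mulVec := by
  classical
  have hinj : Function.Injective (algebraMap K ℂ) := (algebraMap K ℂ).injective
  -- the `K`-span of the entries
  let S : Submodule K ℂ := Submodule.span K (Set.range (fun p : Fin a × Fin b => T p.1 p.2))
  haveI : FiniteDimensional K S := FiniteDimensional.span_of_finite K (Set.finite_range _)
  let B := Module.finBasis K S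
  set r := Module.finrank K S with hr
  have hmem : ∀ i j, T i j ∈ S := fun i j => Submodule.subset_span ⟨(i, j), rfl⟩
  let t : Fin r → Matrix (Fin a) (Fin b) K := fun k i j => B.repr ⟨T i j, hmem i j⟩ k
  let lam : Fin r → ℂ := fun k => (B k : ℂ)
  have hTsum : ∀ i j, T i j = ∑ k, algebraMap K ℂ (t k i j) * lam k := by
    intro i j
    have h := congrArg Subtype.val (B.sum_repr ⟨T i j, hmem i j⟩)
    rw [Submodule.coe_sum] at h
    refine (h.symm : T i j = _).trans ?_
    apply Finset.sum_congr rfl
    intro k _
    rw [Submodule.coe_smul, Algebra.smul_def]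
  have hli : ∀ c : Fin r → K, ∑ k, algebraMap K ℂ (c k) * lam k = 0 → ∀ k, c k = 0 := by
    intro c hc
    have h1 := Fintype.linearIndependent_iff.1 B.linearIndependent c
    apply h1
    apply Subtype.ext
    rw [Submodule.coe_sum, Submodule.coe_zero, ← hc]
    apply Finset.sum_congr rfl
    intro k _
    rw [Submodule.coe_smul, Algebra.smul_def]
  have htk : ∀ g k, R1 g * t k = t k * R2 g := by
    intro g k
    ext i j
    rw [← sub_eq_zero]
    apply hli (fun k => (R1 g * t k) i j - (t k * R2 g) i j)
    have h1 := congrFun (congrFun (hT g) i) j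
    rw [Matrix.mul_apply, Matrix.mul_apply] at h1
    simp only [Matrix.map_apply, hTsum] at h1
    have h2 : ∀ k, algebraMap K ℂ ((R1 g * t k) i j - (t k * R2 g) i j) * lam k =
        ∑ x, algebraMap K ℂ (R1 g i x) * (algebraMap K ℂ (t k x j) * lam k) -
        ∑ x, algebraMap K ℂ (t k i x) * lam k * algebraMap K ℂ (R2 g x j) := by
      intro k
      rw [map_sub, Matrix.mul_apply, Matrix.mul_apply, map_sum, map_sum, sub_mul, Finset.sum_mul, Finset.sum_mul]
      congr 1
      · apply Finset.sum_congr rfl; intro x _; rw [map_mul]; ring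
      · apply Finset.sum_congr rfl; intro x _; rw [map_mul]; ring
    rw [Finset.sum_congr rfl (fun k _ => h2 k), Finset.sum_sub_distrib, Finset.sum_comm, sub_eq_zero]
    rw [Finset.sum_comm (s := Finset.univ (α := Fin r))]
    simp only [Finset.mul_sum, Finset.sum_mul] at h1 ⊢
    exact h1
  -- the determinant polynomial
  let M : Matrix (Fin b) (Fin b) (MvPolynomial (Fin r) ℂ) :=
    fun i j => ∑ k, MvPolynomial.C ((L * (t k).map (algebraMap K ℂ)) i j) * MvPolynomial.X k
  have heval : ∀ x : Fin r → ℂ, MvPolynomial.eval x M.det =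
      (∑ k, x k • (L * (t k).map (algebraMap K ℂ))).det := by
    intro x
    rw [RingHom.map_det]
    congr 1
    ext i j
    rw [RingHom.mapMatrix_apply, Matrix.map_apply, Matrix.sum_apply]
    simp only [M, map_sum, map_mul, MvPolynomial.eval_C, MvPolynomial.eval_X, Matrix.smul_apply, smul_eq_mul]
    apply Finset.sum_congr rfl
    intro k _
    ring
  have hTlam : T = ∑ k, lam k • (t k).map (algebraMap K ℂ) := by
    ext i j
    rw [hTsum, Matrix.sum_apply]
    apply Finset.sum_congr rfl
    intro k _
    rw [Matrix.smul_apply, Matrix.map_apply, smul_eq_mul, mul_comm]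
  have hne : M.det ≠ 0 := by
    intro h
    have h1 := heval lam
    rw [h, map_zero] at h1
    have h2 : (∑ k, lam k • (L * (t k).map (algebraMap K ℂ))) = 1 := by
      rw [← hLT]
      conv_rhs => rw [hTlam]
      rw [Matrix.mul_sum]
      apply Finset.sum_congr rfl
      intro k _
      rw [Matrix.mul_smul]
    rw [h2, Matrix.det_one] at h1
    exact one_ne_zero h1.symm
  obtain ⟨c, hc⟩ : ∃ c : Fin r → K, MvPolynomial.eval (fun k => algebraMap K ℂ (c k)) M.det ≠ 0 := by
    by_contra hcon
    push Not at hcon
    apply hne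
    apply MvPolynomial.funext_set (fun _ => Set.range (algebraMap K ℂ))
      (fun _ => Set.infinite_range_of_injective hinj)
    intro x hx
    choose c hc using fun i => hx i (Set.mem_univ i)
    have : x = fun k => algebraMap K ℂ (c k) := by funext k; exact (hc k).symm
    rw [this, hcon c, map_zero]
  refine ⟨∑ k, c k • t k, ?_, ?_⟩
  · intro g
    rw [Matrix.mul_sum, Matrix.sum_mul]
    apply Finset.sum_congr rfl
    intro k _
    rw [Matrix.mul_smul, Matrix.smul_mul, htk]
  · rw [heval] at hc
    have hmap : (∑ k, (algebraMap K ℂ (c k)) • (L * (t k).map (algebraMap K ℂ))) =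
        L * (∑ k, c k • t k).map (algebraMap K ℂ) := by
      rw [show (∑ k, c k • t k).map (algebraMap K ℂ) = ∑ k, (algebraMap K ℂ (c k)) • (t k).map (algebraMap K ℂ) from by
        ext i j
        simp only [Matrix.map_apply, Matrix.sum_apply, Matrix.smul_apply, smul_eq_mul, map_sum, map_mul]]
      rw [Matrix.mul_sum]
      apply Finset.sum_congr rfl
      intro k _
      rw [Matrix.mul_smul]
    rw [hmap] at hc
    rw [← Matrix.coe_mulVecLin, ← LinearMap.ker_eq_bot, LinearMap.ker_eq_bot']
    intro v hv
    rw [Matrix.mulVecLin_apply] at hv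
    have h3 : (L * (∑ k, c k • t k).map (algebraMap K ℂ)).mulVec (fun i => algebraMap K ℂ (v i)) = 0 := by
      rw [← Matrix.mulVec_mulVec]
      have h4 : ((∑ k, c k • t k).map (algebraMap K ℂ)).mulVec (fun i => algebraMap K ℂ (v i)) = 0 := by
        funext i
        have h5 := congrArg (algebraMap K ℂ) (congrFun hv i)
        rw [Pi.zero_apply, map_zero] at h5
        rw [Pi.zero_apply, ← h5]
        simp only [Matrix.mulVec, dotProduct, map_sum, map_mul, Matrix.map_apply]
      rw [h4, Matrix.mulVec_zero]
    have h6 := Matrix.eq_zero_of_mulVec_eq_zero hc h3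
    funext i
    apply hinj
    rw [Pi.zero_apply, map_zero]
    exact congrFun h6 i

end Cfsg.Agent.H10.Rz
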