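import Cfsg.Agent.H10.Rz2

set_option autoImplicit false

namespace Cfsg.Agent.H10.Rz

open Cfsg Cfsg.Agent.H3

universe u

variable {G : Type u} [Group G] {K : Type} [Field K] [Algebra K ℂ]

/-- complexification -/
noncomputable def cx {n : ℕ} (ρ : Representation K G (Fin n → K)) : Representation ℂ G (Fin n → ℂ) where
  toFun g := Matrix.toLin' ((LinearMap.toMatrix' (ρ g)).map (algebraMap K ℂ))
  map_one' := by
    rw [map_one]
    change Matrix.toLin' ((LinearMap.toMatrix' (LinearMap.id)).map (algebraMap K ℂ)) = LinearMap.id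
    rw [LinearMap.toMatrix'_id, Matrix.map_one _ (map_zero _) (map_one _), Matrix.toLin'_one]
  map_mul' g h := by
    rw [map_mul, LinearMap.toMatrix'_mul, Matrix.map_mul, Matrix.toLin'_mul]
    rfl

theorem cx_mat {n : ℕ} (ρ : Representation K G (Fin n → K)) (g : G) :
    LinearMap.toMatrix' (cx ρ g) = (LinearMap.toMatrix' (ρ g)).map (algebraMap K ℂ) :=
  LinearMap.toMatrix'_toLin' _

theorem cx_char {n : ℕ} (ρ : Representation K G (Fin n → K)) (g : G) :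
    (cx ρ).character g = algebraMap K ℂ (ρ.character g) := by
  unfold Representation.character
  rw [LinearMap.trace_eq_matrix_trace ℂ (Pi.basisFun ℂ (Fin n)), LinearMap.trace_eq_matrix_trace K (Pi.basisFun K (Fin n)),
    LinearMap.toMatrix_eq_toMatrix', LinearMap.toMatrix_eq_toMatrix', cx_mat]
  simp only [Matrix.trace, Matrix.diag_apply, Matrix.map_apply, map_sum]

theorem real_sub [Finite G] [CharZero K] {χ θ₁ θ₂ : G → ℂ} (hχ : IsCharacter G χ) (h1 : RealK K θ₁) (h2 : RealK K θ₂)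
    (h : θ₁ = χ + θ₂) : RealK K χ := by
  classical
  haveI := Fintype.ofFinite G
  obtain ⟨m, τ, rfl⟩ := hχ
  obtain ⟨a, ρ₁, h1⟩ := h1
  obtain ⟨b, ρ₂, h2⟩ := h2
  have hch : (τ.prod (cx ρ₂)).character = (cx ρ₁).character := by
    funext g
    rw [cx_char, ← h1, h, Pi.add_apply, h2, ← cx_char]
    exact LinearMap.trace_prodMap' (τ g) (cx ρ₂ g)
  obtain ⟨e⟩ := equiv_of_char_eq _ _ hch
  have hE : ∀ g, e.toLinearEquiv.toLinearMap ∘ₗ ((τ.prod (cx ρ₂)) g) = (cx ρ₁ g) ∘ₗ e.toLinearEquiv.toLinearMap :=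
    fun g => e.toIntertwiningMap.isIntertwining' g
  set E := e.toLinearEquiv with hEdef
  let Tl : (Fin b → ℂ) →ₗ[ℂ] (Fin a → ℂ) := E.toLinearMap ∘ₗ LinearMap.inr ℂ _ _
  let Ll : (Fin a → ℂ) →ₗ[ℂ] (Fin b → ℂ) := LinearMap.snd ℂ _ _ ∘ₗ E.symm.toLinearMap
  have hLT : LinearMap.toMatrix' Ll * LinearMap.toMatrix' Tl = 1 := by
    rw [← LinearMap.toMatrix'_comp]
    have : Ll ∘ₗ Tl = LinearMap.id := by
      apply LinearMap.ext
      intro v
      simp [Ll, Tl]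
    rw [this, LinearMap.toMatrix'_id]
  have hTR : ∀ g, (LinearMap.toMatrix' (ρ₁ g)).map (algebraMap K ℂ) * LinearMap.toMatrix' Tl =
      LinearMap.toMatrix' Tl * (LinearMap.toMatrix' (ρ₂ g)).map (algebraMap K ℂ) := by
    intro g
    rw [← cx_mat, ← cx_mat, ← LinearMap.toMatrix'_comp, ← LinearMap.toMatrix'_comp]
    congr 1
    apply LinearMap.ext
    intro v
    have h3 := LinearMap.congr_fun (hE g) ((0 : Fin m → ℂ), v)
    simp only [LinearMap.comp_apply] at h3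
    change cx ρ₁ g (E (0, v)) = E (0, cx ρ₂ g v)
    rw [LinearEquiv.coe_coe] at h3
    rw [← h3]
    congr 1
    change (τ g 0, cx ρ₂ g v) = (0, cx ρ₂ g v)
    rw [map_zero]
  obtain ⟨T', hT', hTi⟩ := descend (fun g => LinearMap.toMatrix' (ρ₁ g)) (fun g => LinearMap.toMatrix' (ρ₂ g))
    (LinearMap.toMatrix' Tl) (LinearMap.toMatrix' Ll) hLT hTR
  let t : (Fin b → K) →ₗ[K] (Fin a → K) := Matrix.toLin' T'
  have htR : ∀ g, ρ₁ g ∘ₗ t = t ∘ₗ ρ₂ g := by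
    intro g
    apply LinearMap.toMatrix'.injective
    rw [LinearMap.toMatrix'_comp, LinearMap.toMatrix'_comp, LinearMap.toMatrix'_toLin', hT' g]
  obtain ⟨L0, hL0⟩ := t.exists_leftInverse_of_injective (LinearMap.ker_eq_bot.2 hTi)
  have hN : (Nat.card G : K) ≠ 0 := by exact_mod_cast Nat.card_pos.ne'
  let π : (Fin a → K) →ₗ[K] (Fin b → K) := (Nat.card G : K)⁻¹ • ∑ g : G, ρ₂ g ∘ₗ L0 ∘ₗ ρ₁ g⁻¹
  have hπd : ∀ v, π v = (Nat.card G : K)⁻¹ • ∑ g : G, ρ₂ g (L0 (ρ₁ g⁻¹ v)) := by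
    intro v
    simp only [π, LinearMap.smul_apply, LinearMap.sum_apply, LinearMap.comp_apply]
  have hπt : π ∘ₗ t = LinearMap.id := by
    apply LinearMap.ext
    intro v
    rw [LinearMap.comp_apply, hπd, LinearMap.id_apply]
    have h4 : ∀ g : G, ρ₂ g (L0 (ρ₁ g⁻¹ (t v))) = v := by
      intro g
      have e1 : ρ₁ g⁻¹ (t v) = t (ρ₂ g⁻¹ v) := LinearMap.congr_fun (htR g⁻¹) v
      have e2 : L0 (t (ρ₂ g⁻¹ v)) = ρ₂ g⁻¹ v := LinearMap.congr_fun hL0 _
      have e3 : ρ₂ g (ρ₂ g⁻¹ v) = (ρ₂ g * ρ₂ g⁻¹) v := rfl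
      rw [e1, e2, e3, ← map_mul, mul_inv_cancel, map_one]
      rfl
    rw [Finset.sum_congr rfl (fun g _ => h4 g), Finset.sum_const,
      Finset.card_univ, ← Nat.card_eq_fintype_card, ← Nat.cast_smul_eq_nsmul K, smul_smul, inv_mul_cancel₀ hN, one_smul]
  have hπR : ∀ g, π ∘ₗ ρ₁ g = ρ₂ g ∘ₗ π := by
    intro h
    apply LinearMap.ext
    intro v
    rw [LinearMap.comp_apply, LinearMap.comp_apply, hπd, hπd, map_smul, map_sum]
    congr 1
    refine (Fintype.sum_equiv (Equiv.mulLeft h) _ _ (fun g => ?_)).symm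
    change ρ₂ h (ρ₂ g (L0 (ρ₁ g⁻¹ v))) = ρ₂ (h * g) (L0 (ρ₁ (h * g)⁻¹ (ρ₁ h v)))
    have e1 : ρ₁ (h * g)⁻¹ (ρ₁ h v) = ρ₁ g⁻¹ v := by
      change (ρ₁ (h * g)⁻¹ * ρ₁ h) v = ρ₁ g⁻¹ v
      rw [← map_mul]; congr 2; group
    have e2 : ρ₂ (h * g) (L0 (ρ₁ g⁻¹ v)) = ρ₂ h (ρ₂ g (L0 (ρ₁ g⁻¹ v))) := by rw [map_mul]; rfl
    rw [e1, e2]
  let P : (Fin a → K) →ₗ[K] (Fin a → K) := LinearMap.id - t ∘ₗ π
  have hP : ∀ v, P v = v - t (π v) := fun v => rfl
  have hπt' : ∀ v, π (t v) = v := fun v => LinearMap.congr_fun hπt v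
  have h5 := real_proj ρ₁ P (by
      intro v
      rw [hP, hP, map_sub, hπt', sub_self, map_zero, sub_zero]) (by
      intro g v
      have e1 : π (ρ₁ g v) = ρ₂ g (π v) := LinearMap.congr_fun (hπR g) v
      have e2 : ρ₁ g (t (π v)) = t (ρ₂ g (π v)) := LinearMap.congr_fun (htR g) (π v)
      rw [hP, hP, map_sub, e1, e2])
  have e : (fun g => algebraMap K ℂ (LinearMap.trace K (Fin a → K) (P ∘ₗ ρ₁ g))) = τ.character := by
    funext g
    have e3 : LinearMap.trace K (Fin a → K) (P ∘ₗ ρ₁ g) = ρ₁.character g - ρ₂.character g := by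
      change LinearMap.trace K (Fin a → K) ((LinearMap.id - t ∘ₗ π) ∘ₗ ρ₁ g) = _
      rw [LinearMap.sub_comp, LinearMap.id_comp, map_sub, LinearMap.comp_assoc, hπR, LinearMap.trace_comp_comm',
        LinearMap.comp_assoc, hπt, LinearMap.comp_id]
      rfl
    rw [e3, map_sub, ← h1, ← h2, h, Pi.add_apply, add_sub_cancel_right]
  rw [e] at h5
  exact h5

end Cfsg.Agent.H10.Rz
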