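import Cfsg.Agent.H19.IsoFocal
import Cfsg.Agent.H4.ZStarF
import Cfsg.Agent.H2.Frat
import Cfsg.Agent.H18.FrattiniP
import Cfsg.Agent.H10.TW1
import Cfsg.Agent.S0206

set_option autoImplicit false
open Cfsg

/-!
# H10.SF1: simple groups with Sylow 2-centralizer of small Frattini subgroup (S5435)
-/

namespace Cfsg.Agent.H10.SF

variable {L : Type*} [Group L]

/-- centralizer of an element -/
abbrev C (z : L) : Subgroup L := Subgroup.centralizer ({z} : Set L)

theorem mem_C {z x : L} : x ∈ C z ↔ x * z = z * x := Subgroup.mem_centralizer_singleton_iff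

/-- centralizer of `z` is "large Frattini" -/
structure P1 (z : L) : Prop where
  z2 : z * z = 1
  z1 : z ≠ 1
  sqz : ∀ x ∈ C z, x * x = 1 ∨ x * x = z
  comm : ∀ x ∈ C z, ∀ y ∈ C z, x * y = y * x ∨ x * y = y * x * z
  nel : ∃ r ∈ C z, r * r = z

theorem mem_C_conj {z x g : L} : x ∈ C (g * z * g⁻¹) ↔ g⁻¹ * x * g ∈ C z := by
  rw [mem_C, mem_C]
  constructor
  · intro h
    calc g⁻¹ * x * g * z = g⁻¹ * (x * (g * z * g⁻¹)) * g := by group
      _ = g⁻¹ * (g * z * g⁻¹ * x) * g := by rw [h]
      _ = z * (g⁻¹ * x * g) := by group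
  · intro h
    calc x * (g * z * g⁻¹) = g * (g⁻¹ * x * g * z) * g⁻¹ := by group
      _ = g * (z * (g⁻¹ * x * g)) * g⁻¹ := by rw [h]
      _ = g * z * g⁻¹ * x := by group

theorem P1.conj {z : L} (h : P1 z) (g : L) : P1 (g * z * g⁻¹) where
  z2 := by
    calc g * z * g⁻¹ * (g * z * g⁻¹) = g * (z * z) * g⁻¹ := by group
      _ = 1 := by rw [h.z2]; group
  z1 := by
    intro h0
    apply h.z1
    calc z = g⁻¹ * (g * z * g⁻¹) * g := by group
      _ = 1 := by rw [h0]; group
  sqz := by
    intro x hx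
    rw [mem_C_conj] at hx
    have e : x * x = g * ((g⁻¹ * x * g) * (g⁻¹ * x * g)) * g⁻¹ := by group
    rcases h.sqz _ hx with h1 | h1
    · left; rw [e, h1]; group
    · right; rw [e, h1]
  comm := by
    intro x hx y hy
    rw [mem_C_conj] at hx hy
    have e1 : x * y = g * ((g⁻¹ * x * g) * (g⁻¹ * y * g)) * g⁻¹ := by group
    have e2 : y * x = g * ((g⁻¹ * y * g) * (g⁻¹ * x * g)) * g⁻¹ := by group
    rcases h.comm _ hx _ hy with h1 | h1
    · left; rw [e1, e2, h1]
    · right; rw [e1, e2, h1]; group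
  nel := by
    obtain ⟨r, hr, hrz⟩ := h.nel
    refine ⟨g * r * g⁻¹, ?_, ?_⟩
    · rw [mem_C_conj]
      have : g⁻¹ * (g * r * g⁻¹) * g = r := by group
      rwa [this]
    · calc g * r * g⁻¹ * (g * r * g⁻¹) = g * (r * r) * g⁻¹ := by group
        _ = _ := by rw [hrz]

structure GD (z : L) (H : Subgroup L) : Prop where
  p1 : P1 z
  le : H ≤ C z
  sq : ∀ x ∈ H, x * x = 1
  idx : ∀ a ∈ C z, ∀ b ∈ C z, a ∉ H → b ∉ H → a * b ∈ H

theorem comm_of_sq {H : Subgroup L} (h : ∀ x ∈ H, x * x = 1) {x y : L} (hx : x ∈ H) (hy : y ∈ H) :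
    x * y = y * x := by
  have h1 := h _ (H.mul_mem hx hy)
  have h2 := h x hx
  have h3 := h y hy
  have e1 : x⁻¹ = x := by rw [inv_eq_iff_mul_eq_one]; exact h2
  have e2 : y⁻¹ = y := by rw [inv_eq_iff_mul_eq_one]; exact h3
  calc x * y = (x * y)⁻¹ := by rw [eq_inv_iff_mul_eq_one]; exact h1
    _ = y⁻¹ * x⁻¹ := by group
    _ = y * x := by rw [e1, e2]

theorem GD.mem {z : L} {H : Subgroup L} (h : GD z H) : z ∈ H := by
  obtain ⟨r, hr, hrz⟩ := h.p1.nel
  rw [← hrz]
  apply h.idx r hr r hr <;>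
  · intro h0
    have := h.sq r h0
    rw [hrz] at this
    exact h.p1.z1 this

theorem GD.conj {z : L} {H : Subgroup L} (h : GD z H) {x : L} (hx : x ∈ Subgroup.normalizer (H : Set L)) :
    GD (x * z * x⁻¹) H := by
  have hm : ∀ y, y ∈ H ↔ x⁻¹ * y * x ∈ H := fun y => by
    have := Subgroup.mem_normalizer_iff.mp ((Subgroup.normalizer (H : Set L)).inv_mem hx) y
    simpa using this
  refine ⟨h.p1.conj x, ?_, h.sq, ?_⟩
  · intro y hy
    rw [mem_C_conj]
    exact h.le ((hm y).1 hy)
  · intro a ha b hb haH hbH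
    rw [mem_C_conj] at ha hb
    rw [hm] at haH hbH ⊢
    have := h.idx _ ha _ hb haH hbH
    convert this using 1; group

theorem GD.norm {z : L} {H : Subgroup L} (h : GD z H) : C z ≤ Subgroup.normalizer (H : Set L) := by
  apply le_normalizer_of_conj_mem
  intro s hs x hx
  rcases h.p1.comm s hs x (h.le hx) with h1 | h1
  · rw [h1]; simpa using hx
  · rw [h1]
    have e : x * s * z * s⁻¹ = x * z := by
      have := mem_C.1 hs
      calc x * s * z * s⁻¹ = x * (s * z) * s⁻¹ := by group
        _ = x * z := by rw [this]; group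
    rw [e]
    exact H.mul_mem hx h.mem

theorem GD.sep {u v : L} {H : Subgroup L} (hu : GD u H) (hv : GD v H) (huv : u ≠ v) {s : L}
    (hs : s ∈ C u) (hsH : s ∉ H) : s * v * s⁻¹ = v * u := by
  rcases hu.p1.comm s hs v (hu.le hv.mem) with h1 | h1
  · exfalso
    have hle : ∀ x ∈ C u, x * v = v * x := by
      intro x hx
      by_cases hxH : x ∈ H
      · exact comm_of_sq hu.sq hxH hv.mem
      · have h2 := hu.idx s⁻¹ ((C u).inv_mem hs) x hx (fun h => hsH (by simpa using H.inv_mem h)) hxH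
        have h3 := comm_of_sq hu.sq h2 hv.mem
        calc x * v = s * (s⁻¹ * x * v) := by group
          _ = s * (v * (s⁻¹ * x)) := by rw [h3]
          _ = (s * v) * (s⁻¹ * x) := by group
          _ = v * x := by rw [h1]; group
    obtain ⟨r, hr, hrz⟩ := hu.p1.nel
    rcases hv.p1.sqz r (mem_C.2 (hle r hr)) with h2 | h2
    · exact hu.p1.z1 (hrz.symm.trans h2)
    · exact huv (hrz.symm.trans h2)
  · have := mem_C.1 hs
    calc s * v * s⁻¹ = v * (s * u) * s⁻¹ := by rw [h1]; group
      _ = v * u := by rw [this]; group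

theorem GD.exists_not_mem {z : L} {H : Subgroup L} (h : GD z H) : ∃ s ∈ C z, s ∉ H := by
  obtain ⟨r, hr, hrz⟩ := h.p1.nel
  refine ⟨r, hr, fun h0 => ?_⟩
  have := h.sq r h0
  rw [hrz] at this
  exact h.p1.z1 this

theorem GD.mul {u v : L} {H : Subgroup L} (hu : GD u H) (hv : GD v H) (huv : u ≠ v) : GD (v * u) H := by
  obtain ⟨s, hs, hsH⟩ := hu.exists_not_mem
  rw [← hu.sep hv huv hs hsH]
  exact hv.conj (hu.norm hs)

theorem GD.three {u v y : L} {H : Subgroup L} (hu : GD u H) (hv : GD v H) (hy : GD y H)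
    (h1 : v ≠ u) (h2 : y ≠ u) (h3 : y ≠ v) : y = v * u := by
  obtain ⟨s, hs, hsH⟩ := hu.exists_not_mem
  have e1 := hu.sep hv h1.symm hs hsH
  have e2 := hu.sep hy h2.symm hs hsH
  have hvy : GD (v * y) H := hy.mul hv h3
  have huH := hu.mem
  have hvH := hv.mem
  have hyH := hy.mem
  have e3 : s * (v * y) * s⁻¹ = v * y := by
    calc s * (v * y) * s⁻¹ = (s * v * s⁻¹) * (s * y * s⁻¹) := by group
      _ = v * (u * y) * u := by rw [e1, e2]; group
      _ = v * (y * u) * u := by rw [comm_of_sq hu.sq huH hyH]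
      _ = v * y * (u * u) := by group
      _ = v * y := by rw [hu.p1.z2, mul_one]
  have e4 : v * y = u := by
    by_contra hne
    have := hu.sep hvy (fun h => hne h.symm) hs hsH
    rw [e3] at this
    exact hu.p1.z1 (by simpa using this.symm)
  calc y = (v * v) * y := by rw [hv.p1.z2, one_mul]
    _ = v * u := by rw [mul_assoc, e4]

/-- the commutators of `N(H)` with `H` lie in a small subgroup -/
theorem GD.main {z : L} {H : Subgroup L} (h : GD z H) :
    ∃ v ∈ H, ∀ x ∈ Subgroup.normalizer (H : Set L), ∀ a ∈ H,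
      a⁻¹ * (x⁻¹ * a * x) ∈ Subgroup.closure ({z, v} : Set L) := by
  -- choose v
  obtain ⟨v, hvH, hv⟩ : ∃ v ∈ H, ∀ w, GD w H → w ∈ Subgroup.closure ({z, v} : Set L) := by
    by_cases hex : ∃ v, GD v H ∧ v ≠ z
    · obtain ⟨v, hv, hvz⟩ := hex
      refine ⟨v, hv.mem, ?_⟩
      intro w hw
      have hzc : z ∈ Subgroup.closure ({z, v} : Set L) := Subgroup.subset_closure (by simp)
      have hvc : v ∈ Subgroup.closure ({z, v} : Set L) := Subgroup.subset_closure (by simp)
      by_cases h1 : w = z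
      · rw [h1]; exact hzc
      by_cases h2 : w = v
      · rw [h2]; exact hvc
      rw [h.three hv hw hvz h1 h2]
      exact mul_mem hvc hzc
    · push Not at hex
      refine ⟨z, h.mem, ?_⟩
      intro w hw
      rw [hex w hw]
      exact Subgroup.subset_closure (by simp)
  refine ⟨v, hvH, ?_⟩
  set V := Subgroup.closure ({z, v} : Set L) with hV
  have hzV : z ∈ V := hv z h
  intro x hx a ha
  have hw : GD (x⁻¹ * z * x) H := by
    have := h.conj ((Subgroup.normalizer (H : Set L)).inv_mem hx)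
    simpa using this
  have haz : a ∈ C z := h.le ha
  by_cases hwz : x⁻¹ * z * x = z
  · have hxz : x ∈ C z := by
      rw [mem_C]
      calc x * z = x * (x⁻¹ * z * x) := by rw [hwz]
        _ = z * x := by group
    rcases h.p1.comm a haz x hxz with e | e
    · have : a⁻¹ * (x⁻¹ * a * x) = 1 := by
        calc a⁻¹ * (x⁻¹ * a * x) = a⁻¹ * x⁻¹ * (a * x) := by group
          _ = 1 := by rw [e]; group
      rw [this]; exact V.one_mem
    · have : a⁻¹ * (x⁻¹ * a * x) = z := by
        calc a⁻¹ * (x⁻¹ * a * x) = a⁻¹ * x⁻¹ * (a * x) := by group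
          _ = z := by rw [e]; group
      rw [this]; exact hzV
  · set w := x⁻¹ * z * x with hwdef
    have hu : GD (w * z) H := h.mul hw (fun h => hwz h.symm)
    have hne : w * z ≠ z := by
      intro h0
      exact hw.p1.z1 (by simpa using h0)
    obtain ⟨s, hs, hsH⟩ := hu.exists_not_mem
    have e1 : s * z * s⁻¹ = z * (w * z) := hu.sep h hne hs hsH
    have e2 : z * (w * z) = w := by
      have := comm_of_sq h.sq h.mem hw.mem
      calc z * (w * z) = z * w * z := by group
        _ = w * z * z := by rw [this]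
        _ = w * (z * z) := by group
        _ = w := by rw [h.p1.z2, mul_one]
    have hr : x * s ∈ C z := by
      rw [mem_C]
      calc x * s * z = x * (s * z * s⁻¹) * s := by group
        _ = x * w * s := by rw [e1, e2]
        _ = z * (x * s) := by rw [hwdef]; group
    have haw := hv w hw
    have hauV := hv _ hu
    -- r⁻¹ a r
    set r := x * s with hrdef
    have e3 : r⁻¹ * a * r = a ∨ r⁻¹ * a * r = a * z := by
      rcases h.p1.comm a haz r hr with e | e
      · left
        calc r⁻¹ * a * r = r⁻¹ * (a * r) := by group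
          _ = a := by rw [e]; group
      · right
        calc r⁻¹ * a * r = r⁻¹ * (a * r) := by group
          _ = a * z := by rw [e]; group
    have hau : a ∈ C (w * z) := hu.le ha
    have e4 : s * a * s⁻¹ = a ∨ s * a * s⁻¹ = a * (w * z) := by
      rcases hu.p1.comm s hs a hau with e | e
      · left; rw [e]; group
      · right
        have := mem_C.1 hs
        calc s * a * s⁻¹ = a * (s * (w * z)) * s⁻¹ := by rw [e]; group
          _ = a * (w * z) := by rw [this]; group
    have e5 : x⁻¹ * a * x = s * (r⁻¹ * a * r) * s⁻¹ := by rw [hrdef]; group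
    have e6 : a⁻¹ * (s * a * s⁻¹) ∈ V := by
      rcases e4 with e | e
      · rw [e]; simpa using V.one_mem
      · rw [e]; simpa using hauV
    rw [e5]
    rcases e3 with e | e
    · rw [e]; exact e6
    · rw [e]
      have : a⁻¹ * (s * (a * z) * s⁻¹) = (a⁻¹ * (s * a * s⁻¹)) * (s * z * s⁻¹) := by group
      rw [this, e1, e2]
      exact V.mul_mem e6 haw

end Cfsg.Agent.H10.SF
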