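import Cfsg.Agent.H10.SF1

set_option autoImplicit false
open Cfsg

namespace Cfsg.Agent.H10.SF

variable {L : Type*} [Group L]

theorem inv_of_sq {x : L} (h : x * x = 1) : x⁻¹ = x := by
  rw [inv_eq_iff_mul_eq_one]; exact h

/-- the centralizer of a noncentral element of `C z` has index 2 there -/
theorem idx_cent {z : L} (h : P1 z) {t a b : L} (ht : t ∈ C z) (ha : a ∈ C z) (hb : b ∈ C z)
    (ha' : a ∉ C t) (hb' : b ∉ C t) : a * b ∈ C t := by
  rw [mem_C] at ha' hb' ⊢
  have h1 : a * t = t * a * z := (h.comm a ha t ht).resolve_left ha'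
  have h2 : b * t = t * b * z := (h.comm b hb t ht).resolve_left hb'
  have hza := mem_C.1 ha
  have hzb := mem_C.1 hb
  calc a * b * t = a * (b * t) := by group
    _ = (a * t) * (b * z) := by rw [h2]; group
    _ = t * a * (z * b) * z := by rw [h1]; group
    _ = t * a * (b * z) * z := by rw [hzb]
    _ = t * (a * b) * (z * z) := by group
    _ = t * (a * b) := by rw [h.z2, mul_one]

structure Setup (z u : L) (A : Subgroup L) : Prop where
  p1 : P1 z
  pu : P1 u
  ne : u ≠ z
  huz : u ∈ C z
  hA : A = C z ⊓ C u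

theorem Setup.gd {z u : L} {A : Subgroup L} (h : Setup z u A) : GD z A := by
  refine ⟨h.p1, ?_, ?_, ?_⟩
  · rw [h.hA]; exact inf_le_left
  · intro x hx
    rw [h.hA] at hx
    obtain ⟨h1, h2⟩ := Subgroup.mem_inf.1 hx
    rcases h.p1.sqz x h1 with e | e
    · exact e
    · rcases h.pu.sqz x h2 with e' | e'
      · exact e'
      · exact absurd (e'.symm.trans e) h.ne
  · intro a ha b hb ha' hb'
    rw [h.hA, Subgroup.mem_inf] at ha' hb' ⊢
    push Not at ha' hb'
    exact ⟨(C z).mul_mem ha hb, idx_cent h.p1 h.huz ha hb (ha' ha) (hb' hb)⟩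

theorem Setup.memA {z u : L} {A : Subgroup L} (h : Setup z u A) : u ∈ A := by
  rw [h.hA]; exact Subgroup.mem_inf.2 ⟨h.huz, mem_C.2 rfl⟩

/-- an element of `C z` commuting with a good `H` lies in `H` -/
theorem Setup.cent {z u : L} {A : Subgroup L} (h : Setup z u A) {H : Subgroup L} (hH : GD z H)
    {x : L} (hx : x ∈ C z) (hxH : ∀ y ∈ H, x * y = y * x) : x ∈ H := by
  by_contra hn
  -- C z is abelian
  have hab : ∀ a ∈ C z, ∀ b ∈ C z, a * b = b * a := by
    have h1 : ∀ a ∈ C z, ∀ y ∈ H, a * y = y * a := by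
      intro a ha y hy
      by_cases haH : a ∈ H
      · exact comm_of_sq hH.sq haH hy
      · have h2 := hH.idx x⁻¹ ((C z).inv_mem hx) a ha (fun h => hn (by simpa using H.inv_mem h)) haH
        have h3 := comm_of_sq hH.sq h2 hy
        calc a * y = x * (x⁻¹ * a * y) := by group
          _ = x * y * (x⁻¹ * a) := by rw [h3]; group
          _ = y * x * (x⁻¹ * a) := by rw [hxH y hy]
          _ = y * a := by group
    have h1' : ∀ a ∈ C z, a * x = x * a := by
      intro a ha
      by_cases haH : a ∈ H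
      · exact (hxH a haH).symm
      · have h2 := hH.idx x⁻¹ ((C z).inv_mem hx) a ha (fun h => hn (by simpa using H.inv_mem h)) haH
        have h3 := hxH _ h2
        calc a * x = x * (x⁻¹ * a * x) := by group
          _ = x * (x * (x⁻¹ * a)) := by rw [h3]
          _ = x * a := by group
    intro a ha b hb
    by_cases hbH : b ∈ H
    · exact h1 a ha b hbH
    · have h2 := hH.idx x⁻¹ ((C z).inv_mem hx) b hb (fun h => hn (by simpa using H.inv_mem h)) hbH
      have h3 := h1 a ha _ h2
      have h4 := h1' a ha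
      calc a * b = (a * x) * (x⁻¹ * b) := by group
        _ = x * (a * (x⁻¹ * b)) := by rw [h4]; group
        _ = x * ((x⁻¹ * b) * a) := by rw [h3]
        _ = b * a := by group
  obtain ⟨r, hr, hrz⟩ := h.p1.nel
  have h5 : r ∈ A := by
    rw [h.hA]
    exact Subgroup.mem_inf.2 ⟨hr, mem_C.2 (hab r hr u h.huz)⟩
  have h6 := h.gd.sq r h5
  exact h.p1.z1 (hrz.symm.trans h6)

theorem GD.eq_of_le {z : L} {H K : Subgroup L} (hH : GD z H) (hK : GD z K) (hle : H ≤ K) : H = K := by
  apply le_antisymm hle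
  intro a ha
  by_contra haH
  obtain ⟨r, hr, hrK⟩ := hK.exists_not_mem
  have h1 := hH.idx a (hK.le ha) r hr haH (fun h => hrK (hle h))
  apply hrK
  have h2 := K.mul_mem (K.inv_mem ha) (hle h1)
  simpa using h2

/-- at most two good subgroups -/
theorem Setup.two {z u : L} {A : Subgroup L} (h : Setup z u A) {H K : Subgroup L} (hH : GD z H)
    (hK : GD z K) (hHA : H ≠ A) (hKA : K ≠ A) : H = K := by
  by_contra hHK
  have hA := h.gd
  obtain ⟨t, htH, htA⟩ : ∃ t ∈ H, t ∉ A := by
    by_contra hcon
    push Not at hcon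
    exact hHA (hH.eq_of_le hA hcon)
  obtain ⟨k₁, hk₁, hk₁A⟩ : ∃ t ∈ K, t ∉ A := by
    by_contra hcon
    push Not at hcon
    exact hKA (hK.eq_of_le hA hcon)
  obtain ⟨k₂, hk₂, hk₂H⟩ : ∃ t ∈ K, t ∉ H := by
    by_contra hcon
    push Not at hcon
    exact hHK (hK.eq_of_le hH hcon).symm
  obtain ⟨k, hk, hkA, hkH⟩ : ∃ k ∈ K, k ∉ A ∧ k ∉ H := by
    by_cases h1 : k₁ ∈ H
    · by_cases h2 : k₂ ∈ A
      · refine ⟨k₁ * k₂, K.mul_mem hk₁ hk₂, ?_, ?_⟩
        · intro h3
          apply hk₁A
          have := A.mul_mem h3 (A.inv_mem h2)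
          simpa using this
        · intro h3
          apply hk₂H
          have := H.mul_mem (H.inv_mem h1) h3
          simpa using this
      · exact ⟨k₂, hk₂, h2, hk₂H⟩
    · exact ⟨k₁, hk₁, hk₁A, h1⟩
  have htz := hH.le htH
  have hkz := hK.le hk
  have haA : t * k ∈ A := hA.idx t htz k hkz htA hkA
  have ht2 := hH.sq t htH
  have hk2 := hK.sq k hk
  have ha2 := hA.sq _ haA
  -- t * k commutes with t
  have hcomm : (t * k) * t = t * (t * k) := by
    have e1 := inv_of_sq ht2
    have e2 := inv_of_sq hk2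
    have e3 := inv_of_sq ha2
    have e4 : t * k = k * t := by
      calc t * k = (t * k)⁻¹ := e3.symm
        _ = k⁻¹ * t⁻¹ := by group
        _ = k * t := by rw [e1, e2]
    calc t * k * t = t * (k * t) := by group
      _ = t * (t * k) := by rw [e4]
  have hmem : t * k ∈ H := by
    apply h.cent hH (hA.le haA)
    intro y hy
    by_cases hyA : y ∈ A
    · exact comm_of_sq hA.sq haA hyA
    · have h2 := hA.idx t⁻¹ ((C z).inv_mem htz) y (hH.le hy)
        (fun h => htA (by simpa using A.inv_mem h)) hyA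
      have h3 := comm_of_sq hA.sq haA h2
      calc (t * k) * y = ((t * k) * t) * (t⁻¹ * y) := by group
        _ = t * ((t * k) * (t⁻¹ * y)) := by rw [hcomm]; group
        _ = t * ((t⁻¹ * y) * (t * k)) := by rw [h3]
        _ = y * (t * k) := by group
  apply hkH
  have := H.mul_mem (H.inv_mem htH) hmem
  simpa using this

/-- an exponent two subgroup with small centralizer is good -/
theorem Setup.gd_of_cent {z u : L} {A : Subgroup L} (h : Setup z u A) {H : Subgroup L}
    (hle : H ≤ C z) (hsq : ∀ x ∈ H, x * x = 1) (hcen : ∀ x ∈ C z, (∀ y ∈ H, x * y = y * x) → x ∈ H) :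
    GD z H := by
  have hA := h.gd
  by_cases hHA : H ≤ A
  · have : H = A := by
      apply le_antisymm hHA
      intro a ha
      exact hcen a (hA.le ha) (fun y hy => comm_of_sq hA.sq ha (hHA hy))
    rw [this]; exact hA
  · obtain ⟨t, htH, htA⟩ : ∃ t ∈ H, t ∉ A := by
      by_contra hcon
      push Not at hcon
      exact hHA hcon
    have htz := hle htH
    have key : ∀ a ∈ A, a * t = t * a → ∀ y ∈ H, a * y = y * a := by
      intro a ha hat y hy
      by_cases hyA : y ∈ A
      · exact comm_of_sq hA.sq ha hyA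
      · have h2 := hA.idx t⁻¹ ((C z).inv_mem htz) y (hle hy)
          (fun h => htA (by simpa using A.inv_mem h)) hyA
        have h3 := comm_of_sq hA.sq ha h2
        calc a * y = (a * t) * (t⁻¹ * y) := by group
          _ = t * (a * (t⁻¹ * y)) := by rw [hat]; group
          _ = t * ((t⁻¹ * y) * a) := by rw [h3]
          _ = y * a := by group
    have hEq : ∀ x ∈ C z, x ∈ C t → x ∈ H := by
      intro x hx hxt
      rw [mem_C] at hxt
      apply hcen x hx
      by_cases hxA : x ∈ A
      · exact key x hxA hxt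
      · have h2 := hA.idx t⁻¹ ((C z).inv_mem htz) x hx
          (fun h => htA (by simpa using A.inv_mem h)) hxA
        have h3 : (t⁻¹ * x) * t = t * (t⁻¹ * x) := by
          calc (t⁻¹ * x) * t = t⁻¹ * (x * t) := by group
            _ = t * (t⁻¹ * x) := by rw [hxt]; group
        intro y hy
        have h4 := key _ h2 h3 y hy
        have h5 := comm_of_sq hsq htH hy
        calc x * y = t * ((t⁻¹ * x) * y) := by group
          _ = (t * y) * (t⁻¹ * x) := by rw [h4]; group
          _ = y * x := by rw [h5]; group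
    refine ⟨h.p1, hle, hsq, ?_⟩
    intro a ha b hb haH hbH
    apply hEq _ ((C z).mul_mem ha hb)
    apply idx_cent h.p1 htz ha hb
    · intro h0; exact haH (hEq a ha h0)
    · intro h0; exact hbH (hEq b hb h0)

theorem card_zpowers_le {x : L} (h : x * x = 1) : Nat.card (Subgroup.zpowers x) ≤ 2 := by
  rw [Nat.card_zpowers]
  exact Nat.le_of_dvd (by norm_num) (orderOf_dvd_of_pow_eq_one (by rw [pow_two]; exact h))

theorem card_sup_le [Finite L] {A B : Subgroup L} (h : A ≤ Subgroup.normalizer (B : Set L)) :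
    Nat.card ↥(A ⊔ B) ≤ Nat.card A * Nat.card B := by
  have h1 := H1.card_sup_mul_card_inf_of_le_normalizer h
  have h2 : 0 < Nat.card ↥(B ⊓ A) := Nat.card_pos
  rw [sup_comm]
  nlinarith

theorem zpowers_le_normalizer_of {z v : L} (h : P1 z) {B : Subgroup L} (hB : B ≤ C z) (hzB : z ∈ B)
    (hv : v ∈ C z) : Subgroup.zpowers v ≤ Subgroup.normalizer (B : Set L) := by
  have h0 : C z ≤ Subgroup.normalizer (B : Set L) := by
    apply le_normalizer_of_conj_mem
    intro s hs x hx
    rcases h.comm s hs x (hB hx) with h1 | h1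
    · rw [h1]; simpa using hx
    · rw [h1]
      have e : x * s * z * s⁻¹ = x * z := by
        have := mem_C.1 hs
        calc x * s * z * s⁻¹ = x * (s * z) * s⁻¹ := by group
          _ = x * z := by rw [this]; group
      rw [e]
      exact B.mul_mem hx hzB
  rw [Subgroup.zpowers_le]
  exact h0 hv

theorem card_three [Finite L] {z v w : L} (h : P1 z) (hv : v ∈ C z) (hw : w ∈ C z) (hv2 : v * v = 1)
    (hw2 : w * w = 1) :
    Nat.card ↥(Subgroup.zpowers v ⊔ (Subgroup.zpowers w ⊔ Subgroup.zpowers z)) ≤ 8 := by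
  have hzz : z ∈ C z := mem_C.2 rfl
  have h1 : Nat.card ↥(Subgroup.zpowers w ⊔ Subgroup.zpowers z) ≤ 4 := by
    refine (card_sup_le ?_).trans ?_
    · apply zpowers_le_normalizer_of h _ (Subgroup.mem_zpowers z) hw
      rw [Subgroup.zpowers_le]; exact hzz
    · have a1 := card_zpowers_le hw2
      have a2 := card_zpowers_le h.z2
      nlinarith
  refine (card_sup_le ?_).trans ?_
  · apply zpowers_le_normalizer_of h _ (le_sup_right (α := Subgroup L) (Subgroup.mem_zpowers z)) hv
    rw [sup_le_iff, Subgroup.zpowers_le, Subgroup.zpowers_le]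
    exact ⟨hw, hzz⟩
  · have a1 := card_zpowers_le hv2
    nlinarith

end Cfsg.Agent.H10.SF
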