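import Cfsg.Agent.H10.SF2

set_option autoImplicit false
open Cfsg
open scoped commutatorElement

namespace Cfsg.Agent.H10.SF

variable {L : Type*} [Group L]

theorem mem_zp {z x : L} (hz : z * z = 1) (hx : x ∈ Subgroup.zpowers z) : x = 1 ∨ x = z := by
  obtain ⟨k, rfl⟩ := Subgroup.mem_zpowers_iff.1 hx
  rcases Int.even_or_odd' k with ⟨m, rfl | rfl⟩
  · left; rw [zpow_mul]
    have : z ^ (2 : ℤ) = 1 := by rw [zpow_two]; exact hz
    rw [this, one_zpow]
  · right; rw [zpow_add, zpow_mul]
    have : z ^ (2 : ℤ) = 1 := by rw [zpow_two]; exact hz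
    rw [this, one_zpow, one_mul, zpow_one]

theorem p1_of [Finite L] (z : L) (hz : orderOf z = 2) (R : Sylow 2 L)
    (hR : (R : Subgroup L) = Subgroup.centralizer ({z} : Set L))
    (hΦ : (frattini ↥(R : Subgroup L)).map (R : Subgroup L).subtype = Subgroup.zpowers z) : P1 z := by
  have hz2 : z * z = 1 := by rw [← pow_two, ← hz]; exact pow_orderOf_eq_one z
  have hz1 : z ≠ 1 := by
    intro h; rw [h, orderOf_one] at hz; omega
  have hF : ∀ y : ↥(R : Subgroup L), y ∈ frattini ↥(R : Subgroup L) → (y : L) = 1 ∨ (y : L) = z := by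
    intro y hy
    apply mem_zp hz2
    rw [← hΦ]
    exact ⟨y, hy, rfl⟩
  have hmem : ∀ x : L, x ∈ C z → x ∈ (R : Subgroup L) := fun x hx => by rw [hR]; exact hx
  refine ⟨hz2, hz1, ?_, ?_, ?_⟩
  · intro x hx
    have h1 := hF _ (H2.pow_mem_frattini R.isPGroup' ⟨x, hmem x hx⟩)
    rw [pow_two] at h1
    exact h1
  · intro x hx y hy
    have h1 := hF _ (H2.commutator_le_frattini R.isPGroup'
      (Subgroup.commutator_mem_commutator (Subgroup.mem_top ⟨x, hmem x hx⟩)
        (Subgroup.mem_top ⟨y, hmem y hy⟩)))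
    have h2 : x * y * x⁻¹ * y⁻¹ = 1 ∨ x * y * x⁻¹ * y⁻¹ = z := h1
    rcases h2 with e | e
    · left
      calc x * y = (x * y * x⁻¹ * y⁻¹) * (y * x) := by group
        _ = y * x := by rw [e, one_mul]
    · right
      have hzy := mem_C.1 hy
      have hzx := mem_C.1 hx
      calc x * y = (x * y * x⁻¹ * y⁻¹) * (y * x) := by group
        _ = (z * y) * x := by rw [e]; group
        _ = y * (z * x) := by rw [← hzy]; group
        _ = y * x * z := by rw [← hzx]; group
  · by_contra hcon
    push Not at hcon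
    have hall : ∀ x : ↥(R : Subgroup L), x ^ 2 = 1 := by
      intro x
      have hx : (x : L) ∈ C z := hR.le x.2
      have h1 := hF _ (H2.pow_mem_frattini R.isPGroup' x)
      rw [pow_two] at h1 ⊢
      rcases h1 with e | e
      · exact Subtype.ext e
      · exact absurd e (hcon _ hx)
    have h2 : frattini ↥(R : Subgroup L) ≤ ⊥ := by
      apply H18.frattini_le_of_elementary (p := 2)
      · rw [commutator_def, Subgroup.commutator_le]
        intro a _ b _
        rw [Subgroup.mem_bot, commutatorElement_eq_one_iff_mul_comm]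
        have e1 := hall (a * b)
        have e2 := hall a
        have e3 := hall b
        rw [pow_two] at e1 e2 e3
        have f1 := inv_of_sq e1
        have f2 := inv_of_sq e2
        have f3 := inv_of_sq e3
        calc a * b = (a * b)⁻¹ := f1.symm
          _ = b⁻¹ * a⁻¹ := by group
          _ = b * a := by rw [f2, f3]
      · intro x; rw [hall x]; exact Subgroup.one_mem _
    have h3 : z ∈ (frattini ↥(R : Subgroup L)).map (R : Subgroup L).subtype := by
      rw [hΦ]; exact Subgroup.mem_zpowers z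
    obtain ⟨y, hy, hyz⟩ := h3
    have h4 := h2 hy
    rw [Subgroup.mem_bot] at h4
    apply hz1
    rw [← hyz, h4]; rfl

theorem main [Finite L] [IsSimpleGroup L] (hL : ¬ IsMulCommutative L) (z : L) (hz : orderOf z = 2)
    (R : Sylow 2 L) (hR : (R : Subgroup L) = Subgroup.centralizer ({z} : Set L))
    (hΦ : (frattini ↥(R : Subgroup L)).map (R : Subgroup L).subtype = Subgroup.zpowers z) :
    Nonempty (↥(R : Subgroup L) ≃* DihedralGroup 4) := by
  have hp1 := p1_of z hz R hR hΦ
  have hcomm : commutator L = ⊤ := by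
    rcases (inferInstance : (commutator L).Normal).eq_bot_or_eq_top with h | h
    · exfalso
      apply hL
      refine ⟨⟨fun a b => ?_⟩⟩
      have : ⁅a, b⁆ ∈ commutator L :=
        Subgroup.commutator_mem_commutator (Subgroup.mem_top a) (Subgroup.mem_top b)
      rw [h, Subgroup.mem_bot, commutatorElement_eq_one_iff_mul_comm] at this
      exact this
    · exact h
  have hcen : Subgroup.center L = ⊥ := by
    rcases (inferInstance : (Subgroup.center L).Normal).eq_bot_or_eq_top with h | h
    · exact h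
    · exfalso
      apply hL
      refine ⟨⟨fun a b => ?_⟩⟩
      have : b ∈ Subgroup.center L := by rw [h]; exact Subgroup.mem_top b
      exact Subgroup.mem_center_iff.1 this a
  have hO : oddCore L = ⊥ := by
    apply H4.oddCore_eq_bot_of
    intro N hN hodd
    rcases hN.eq_bot_or_eq_top with h | h
    · exact h
    · exfalso
      rw [h, Subgroup.card_top] at hodd
      have : 2 ∣ Nat.card L := by rw [← hz]; exact orderOf_dvd_natCard z
      rw [← Nat.not_even_iff_odd] at hodd
      exact hodd (even_iff_two_dvd.2 this)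
  -- Z*
  obtain ⟨g, hg1, hg2⟩ : ∃ g : L, Commute z (g * z * g⁻¹) ∧ g * z * g⁻¹ ≠ z := by
    by_contra hcon
    push Not at hcon
    have h1 : IsIsolatedInvolution z := ⟨hz, hcon⟩
    have h2 := H4.zstar_central hO h1
    rw [hcen, Subgroup.mem_bot] at h2
    exact hp1.z1 h2
  set u := g * z * g⁻¹ with hu
  have hS : Setup z u (C z ⊓ C u) := ⟨hp1, hp1.conj g, hg2, mem_C.2 hg1.symm, rfl⟩
  set A := C z ⊓ C u with hAdef
  have hA := hS.gd
  obtain ⟨B, hB, hAB⟩ : ∃ B, GD z B ∧ ∀ H, GD z H → H = A ∨ H = B := by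
    by_cases hex : ∃ B, GD z B ∧ B ≠ A
    · obtain ⟨B, hB, hBA⟩ := hex
      refine ⟨B, hB, fun H hH => ?_⟩
      by_cases h1 : H = A
      · exact Or.inl h1
      · exact Or.inr (hS.two hH hB h1 hBA)
    · push Not at hex
      exact ⟨A, hA, fun H hH => Or.inl (hex H hH)⟩
  obtain ⟨v, hvA, hv⟩ := hA.main
  obtain ⟨w, hwB, hw⟩ := hB.main
  set F := Subgroup.zpowers v ⊔ (Subgroup.zpowers w ⊔ Subgroup.zpowers z) with hF
  have hzF : z ∈ F := (le_sup_right.trans le_sup_right : Subgroup.zpowers z ≤ F) (Subgroup.mem_zpowers z)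
  have hvF : v ∈ F := (le_sup_left : Subgroup.zpowers v ≤ F) (Subgroup.mem_zpowers v)
  have hwF : w ∈ F := (le_sup_left.trans le_sup_right : Subgroup.zpowers w ≤ F) (Subgroup.mem_zpowers w)
  have hRC : ∀ x, x ∈ (R : Subgroup L) ↔ x ∈ C z := fun x => by rw [hR]
  have hRc2 : ∀ a ∈ C z, ∀ x ∈ C z, a⁻¹ * (x⁻¹ * a * x) ∈ F := by
    intro a ha x hx
    rcases hp1.comm a ha x hx with e | e
    · have : a⁻¹ * (x⁻¹ * a * x) = 1 := by
        calc a⁻¹ * (x⁻¹ * a * x) = a⁻¹ * x⁻¹ * (a * x) := by group
          _ = 1 := by rw [e]; group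
      rw [this]; exact F.one_mem
    · have : a⁻¹ * (x⁻¹ * a * x) = z := by
        calc a⁻¹ * (x⁻¹ * a * x) = a⁻¹ * x⁻¹ * (a * x) := by group
          _ = z := by rw [e]; group
      rw [this]; exact hzF
  -- elements normalizing a subgroup of R of exponent 4
  have hnorm4 : ∀ (K : Subgroup L), K ≤ C z → (∃ h ∈ K, h * h ≠ 1) →
      ∀ x ∈ Subgroup.normalizer (K : Set L), x ∈ C z := by
    rintro K hK ⟨h, hh, hh1⟩ x hx
    have e1 : h * h = z := (hp1.sqz h (hK hh)).resolve_left hh1
    have h2 : x * h * x⁻¹ ∈ K := (Subgroup.mem_normalizer_iff.mp hx h).1 hh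
    have e2 : (x * h * x⁻¹) * (x * h * x⁻¹) = x * z * x⁻¹ := by
      calc (x * h * x⁻¹) * (x * h * x⁻¹) = x * (h * h) * x⁻¹ := by group
        _ = _ := by rw [e1]
    rcases hp1.sqz _ (hK h2) with e | e
    · exfalso
      rw [e2] at e
      apply hp1.z1
      calc z = x⁻¹ * (x * z * x⁻¹) * x := by group
        _ = 1 := by rw [e]; group
    · rw [e2] at e
      rw [mem_C]
      calc x * z = (x * z * x⁻¹) * x := by group
        _ = z * x := by rw [e]
  have hfoc : (R : Subgroup L) ⊓ commutator L ≤ F := by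
    apply H19.focal_alp (p := 2)
    · refine ⟨le_top, R.isPGroup', ?_⟩
      rw [Subgroup.relIndex_top_right]
      exact R.not_dvd_index
    · intro a ha y hy
      have hy' : y ∈ C z := by
        apply hnorm4 (R : Subgroup L) (fun x hx => (hRC x).1 hx) _ y hy
        obtain ⟨r, hr, hrz⟩ := hp1.nel
        exact ⟨r, (hRC r).2 hr, by rw [hrz]; exact hp1.z1⟩
      exact hRc2 a ((hRC a).1 ha) y hy'
    · rintro H x ⟨X, hX, hx⟩ a ha
      have hxH : x ∈ Subgroup.normalizer (H : Set L) := hX.le' (Subgroup.map_subtype_le _ hx)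
      have hHR : H ≤ C z := fun y hy => (hRC y).1 (hX.fn.1 hy)
      by_cases hex : ∃ h ∈ H, h * h ≠ 1
      · exact hRc2 a (hHR ha) x (hnorm4 H hHR hex x hxH)
      · push Not at hex
        have hgd : GD z H := by
          apply hS.gd_of_cent hHR hex
          intro y hy hyc
          apply hX.cen
          refine Subgroup.mem_inf.2 ⟨(hRC y).2 hy, ?_⟩
          rw [Subgroup.mem_centralizer_iff]
          intro m hm
          exact (hyc m hm).symm
        rcases hAB H hgd with e | e
        · rw [e] at hxH ha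
          refine (Subgroup.closure_le _).2 ?_ (hv x hxH a ha)
          intro y hy
          simp only [Set.mem_insert_iff, Set.mem_singleton_iff] at hy
          rcases hy with rfl | rfl
          · exact hzF
          · exact hvF
        · rw [e] at hxH ha
          refine (Subgroup.closure_le _).2 ?_ (hw x hxH a ha)
          intro y hy
          simp only [Set.mem_insert_iff, Set.mem_singleton_iff] at hy
          rcases hy with rfl | rfl
          · exact hzF
          · exact hwF
  rw [hcomm, inf_top_eq] at hfoc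
  have hcard : Nat.card (R : Subgroup L) ≤ 8 :=
    (Nat.le_of_dvd Nat.card_pos (Subgroup.card_dvd_of_le hfoc)).trans
      (card_three hp1 (hA.le hvA) (hB.le hwB) (hA.sq v hvA) (hB.sq w hwB))
  -- the dihedral subgroup
  obtain ⟨r, hr, hrz⟩ := hp1.nel
  have huA := hS.memA
  have hrA : r ∉ A := by
    intro h0
    have := hA.sq r h0
    rw [hrz] at this
    exact hp1.z1 this
  have hru : r * u = u * r * z := by
    rcases hp1.comm r hr u hS.huz with e | e
    · exfalso
      apply hrA
      exact Subgroup.mem_inf.2 ⟨hr, mem_C.2 e⟩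
    · exact e
  have hu2 := hS.pu.z2
  have hyz := mem_C.1 hr
  have huz := mem_C.1 hS.huz
  have hy2 : (u * r) * (u * r) = 1 := by
    calc (u * r) * (u * r) = u * (r * u) * r := by group
      _ = (u * u) * r * (z * r) := by rw [hru]; group
      _ = r * (r * z) := by rw [hu2, one_mul, hyz]
      _ = (r * r) * z := by group
      _ = 1 := by rw [hrz, hp1.z2]
  have hord : orderOf u = 2 := by
    rw [orderOf_eq_prime_iff]
    exact ⟨by rw [pow_two]; exact hu2, hS.pu.z1⟩
  have hur1 : u * r ≠ 1 := by
    intro h0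
    have : r = u := by
      calc r = (u * u) * r := by rw [hu2, one_mul]
        _ = u := by rw [mul_assoc, h0, mul_one]
    exact hrA (this ▸ huA)
  have hord2 : orderOf (u * r) = 2 := by
    rw [orderOf_eq_prime_iff]
    exact ⟨by rw [pow_two]; exact hy2, hur1⟩
  have hne : u ≠ u * r := by
    intro h0
    have : r = 1 := by simpa using h0.symm
    exact hrA (this ▸ A.one_mem)
  obtain ⟨e⟩ := Cfsg.Agent.S0206.result u (u * r) hord hord2 hne
  have hxy : u * (u * r) = r := by rw [← mul_assoc, hu2, one_mul]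
  have hordr : orderOf r = 4 := by
    have h1 : r ^ (2 ^ 2) = 1 := by
      rw [show 2 ^ 2 = 2 * 2 by norm_num, pow_mul, pow_two r, hrz, pow_two, hp1.z2]
    have h2 : ¬ r ^ (2 ^ 1) = 1 := by
      rw [pow_one, pow_two, hrz]; exact hp1.z1
    exact orderOf_eq_prime_pow h2 h1
  rw [hxy, hordr] at e
  have hD : Nat.card ↥(Subgroup.closure ({u, u * r} : Set L)) = 8 := by
    rw [Nat.card_congr e.toEquiv, DihedralGroup.nat_card]
  have hle : Subgroup.closure ({u, u * r} : Set L) ≤ (R : Subgroup L) := by
    rw [Subgroup.closure_le]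
    intro y hy
    simp only [Set.mem_insert_iff, Set.mem_singleton_iff] at hy
    rcases hy with rfl | rfl
    · exact (hRC _).2 hS.huz
    · exact (hRC _).2 ((C z).mul_mem hS.huz hr)
  have hEq : Subgroup.closure ({u, u * r} : Set L) = (R : Subgroup L) := by
    apply Subgroup.eq_of_le_of_card_ge hle
    rw [hD]; exact hcard
  rw [← hEq]
  exact ⟨e⟩

end Cfsg.Agent.H10.SF
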