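import Mathlib
import Cfsg.Agent.H10.Tri4
import Cfsg.Agent.H10.PCons

set_option autoImplicit false
set_option linter.all false
set_option maxHeartbeats 400000

/-!
# H10.Std: standard subgroups of groups without core
-/

open Cfsg
open scoped commutatorElement

namespace Cfsg.Agent.H10

variable {G : Type*} [Group G]

theorem mem_normalizer_of_tight {K : Subgroup G} (hK : IsTightlyEmbedded K) {W : Subgroup G} (hWK : W ≤ K)
    [Finite G] (hW : 2 ∣ Nat.card W) {g : G} (hg : g ∈ Subgroup.normalizer (W : Set G)) : g ∈ Subgroup.normalizer (K : Set G) := by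
  by_contra hcon
  have h1 := hK.2 g hcon
  have h2 : W ≤ K ⊓ K.map (MulAut.conj g).toMonoidHom := by
    refine le_inf hWK ?_
    have h3 : W.map (MulAut.conj g).toMonoidHom = W := map_conj_eq_iff_mem_normalizer.2 hg
    rw [← h3]
    exact Subgroup.map_mono hWK
  have h3 := hW.trans (Subgroup.card_dvd_of_le h2)
  rw [← even_iff_two_dvd, ← Nat.not_odd_iff_even] at h3
  exact h3 h1

theorem std_centralizer_le [Finite G] {A : Subgroup G} (hA : IsStandardSubgroup A) {t : G} (ht : orderOf t = 2)
    (htA : t ∈ Subgroup.centralizer (A : Set G)) : Subgroup.centralizer ({t} : Set G) ≤ Subgroup.normalizer (A : Set G) := by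
  intro g hg
  rw [hA.2.2.2]
  refine mem_normalizer_of_tight hA.2.1 (W := Subgroup.zpowers t) (by rw [Subgroup.zpowers_le]; exact htA)
    (by rw [Nat.card_zpowers, ht]) ?_
  apply Subgroup.centralizer_le_normalizer
  rw [centralizer_zpowers_eq]; exact hg

theorem std_comp [Finite G] {A : Subgroup G} (hA : IsStandardSubgroup A) {t : G} (ht : orderOf t = 2)
    (htA : t ∈ Subgroup.centralizer (A : Set G)) : A ≤ Subgroup.centralizer ({t} : Set G) ∧
      IsComponent (A.subgroupOf (Subgroup.centralizer ({t} : Set G))) := by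
  have hle : A ≤ Subgroup.centralizer ({t} : Set G) := by
    intro a ha
    rw [mem_centralizer_singleton]
    exact ((Subgroup.mem_centralizer_iff.1 htA) a ha).symm
  refine ⟨hle, ?_, qs_of_mulEquiv (Subgroup.subgroupOfEquivOfLe hle).symm hA.1⟩
  exact (normal_subgroupOf_of_le (std_centralizer_le hA ht htA)).isSubnormal

theorem std_component_normal {A : Subgroup G} (hA : IsStandardSubgroup A) (hc : IsComponent A) : A.Normal := by
  rw [← Subgroup.normalizer_eq_top_iff, eq_top_iff]
  intro g _
  rw [← map_conj_eq_iff_mem_normalizer]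
  by_contra hne
  exact hA.2.2.1 g hne (comp_commutes hc (component_map_equiv (MulAut.conj g) hc) (Ne.symm hne))

theorem normal_of_pCore_ne_bot [Finite G] {A : Subgroup G} (hA : IsStandardSubgroup A) (hAE : A ≤ layer G)
    (h : pCore 2 G ≠ ⊥) : A.Normal := by
  haveI : Fact (Nat.Prime 2) := ⟨Nat.prime_two⟩
  have hn : (pCore 2 G).Normal := H1.pCore_normal 2 G
  have h1 : ⁅pCore 2 G, layer G⁆ = ⊥ := by
    apply layer_commutes_solvable
    · haveI : Group.IsNilpotent (pCore 2 G) := (pCore_isPGroup 2 G).isNilpotent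
      infer_instance
    · rw [Subgroup.normalizer_eq_top_iff.2 hn]; exact le_top
  have h2 : pCore 2 G ≤ Subgroup.centralizer (A : Set G) :=
    (Subgroup.commutator_eq_bot_iff_le_centralizer.1 h1).trans (Subgroup.centralizer_le hAE)
  have h3 : 2 ∣ Nat.card (pCore 2 G) := by
    obtain ⟨n, hn⟩ := IsPGroup.iff_card.1 (pCore_isPGroup 2 G)
    rw [hn]
    apply dvd_pow_self
    rintro rfl
    rw [pow_zero] at hn
    exact h (Subgroup.eq_bot_of_card_eq _ hn)
  rw [← Subgroup.normalizer_eq_top_iff, eq_top_iff]
  intro g _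
  rw [hA.2.2.2]
  refine mem_normalizer_of_tight hA.2.1 h2 h3 ?_
  rw [Subgroup.normalizer_eq_top_iff.2 hn]; trivial

theorem comp_inf_eq_bot [Finite G] {p : ℕ} [hp : Fact p.Prime] (hO : pPrimeCore p G = ⊥) (hp2 : pCore p G = ⊥)
    {D E : Subgroup G} (hD : IsComponent D) (hE : IsComponent E) (hne : D ≠ E) : D ⊓ E = ⊥ := by
  rw [eq_bot_iff]
  rintro x ⟨hx1, hx2⟩
  have h1 := comp_commutes hD hE hne
  rw [Subgroup.commutator_eq_bot_iff_le_centralizer] at h1
  have h2 := Subgroup.commutator_eq_bot_iff_le_centralizer.1 (comp_commutes hE hD hne.symm)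
  have h3 := comp_center_le_pCore hO hD
  rw [hp2] at h3
  exact h3 ⟨hx1, h2 hx2⟩

theorem comp_simple [Finite G] {p : ℕ} [hp : Fact p.Prime] (hO : pPrimeCore p G = ⊥) (hp2 : pCore p G = ⊥)
    {D : Subgroup G} (hD : IsComponent D) : IsSimpleGroup D ∧ ¬ IsMulCommutative D := by
  refine ⟨?_, comp_not_comm hD⟩
  have h3 := comp_center_le_pCore hO hD
  rw [hp2, ← center_map_eq_inf_centralizer, le_bot_iff, Subgroup.map_eq_bot_iff_of_injective _ (Subgroup.subtype_injective _)] at h3
  haveI := qs_nontrivial hD.2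
  refine ⟨fun N hN => ?_⟩
  rcases qs_normal_eq_top_or_le_center hD.2 hN with h | h
  · exact Or.inr h
  · left; rw [h3, le_bot_iff] at h; exact h

theorem std_no_other [Finite G] {A D D' : Subgroup G} (hA : IsStandardSubgroup A)
    (hD : IsComponent D) (hD' : IsComponent D') (hne : D' ≠ D) (hAD' : A ≤ Subgroup.centralizer (D' : Set G)) :
    D ≤ Subgroup.normalizer (A : Set G) := by
  intro g hg
  rw [hA.2.2.2]
  refine mem_normalizer_of_tight hA.2.1 (Subgroup.le_centralizer_iff.1 hAD') (qs_even hD'.2) ?_
  have h1 := Subgroup.commutator_eq_bot_iff_le_centralizer.1 (comp_commutes hD hD' hne.symm)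
  exact Subgroup.centralizer_le_normalizer _ (h1 hg)

theorem std_trichotomy [Finite G] {A : Subgroup G} (hA : IsStandardSubgroup A) (hO : pPrimeCore 2 G = ⊥) {t : G} (ht : orderOf t = 2)
    (htA : t ∈ Subgroup.centralizer (A : Set G)) : A.Normal ∨ (∃ X : Subgroup G, IsSimpleGroup ↥X ∧ ¬ IsMulCommutative ↥X ∧
      Nonempty (↥X ≃* ↥A) ∧ (∀ a ∈ X, ∀ b ∈ X.map (MulAut.conj t).toMonoidHom, a * b = b * a) ∧
      X ⊓ X.map (MulAut.conj t).toMonoidHom = ⊥ ∧ X ⊔ X.map (MulAut.conj t).toMonoidHom = Cfsg.layer G ∧
      Subgroup.centralizer (A : Set G) = Subgroup.zpowers t) ∨ (A ≤ Cfsg.layer G ∧ IsSimpleGroup ↥(Cfsg.layer G) ∧ ¬ IsMulCommutative ↥(Cfsg.layer G)) := by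
  haveI : Fact (Nat.Prime 2) := ⟨Nat.prime_two⟩
  by_cases hAn : A.Normal
  · exact Or.inl hAn
  right
  obtain ⟨hAt, hAc⟩ := std_comp hA ht htA
  have hAE : A ≤ layer G := (comp_inv_le_pLayer ht hAt hAc).trans (pLayer_eq_layer_of_core hO)
  have hp2 : pCore 2 G = ⊥ := by
    by_contra h
    exact hAn (normal_of_pCore_ne_bot hA hAE h)
  obtain ⟨D, hD, hAD, h⟩ := trichotomy ht hAt hAc hAE
  have hcc : ∀ D' : Subgroup G, IsComponent D' → A ≤ D ⊔ D.map (MulAut.conj t).toMonoidHom → D' ≠ D → D' ≠ D.map (MulAut.conj t).toMonoidHom →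
      A ≤ Subgroup.centralizer (D' : Set G) := by
    intro D' hD' hA1 h1 h2
    refine hA1.trans (sup_le ?_ ?_)
    · exact Subgroup.commutator_eq_bot_iff_le_centralizer.1 (comp_commutes hD hD' h1.symm)
    · exact Subgroup.commutator_eq_bot_iff_le_centralizer.1 (comp_commutes (component_map_equiv (MulAut.conj t) hD) hD' h2.symm)
  rcases h with rfl | ⟨hlt, htD, -⟩ | ⟨h, hh⟩
  · exact absurd (std_component_normal hA hD) hAn
  · -- A < D
    right
    have htD' := map_conj_eq_iff_mem_normalizer.2 htD
    have huniq : ∀ D' : Subgroup G, IsComponent D' → D' = D := by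
      intro D' hD'
      by_contra hne
      have h1 := std_no_other hA hD hD' hne (hcc D' hD' (hlt.le.trans le_sup_left) hne (by rw [htD']; exact hne))
      rcases qs_normal_eq_top_or_le_center hD.2 (normal_subgroupOf_of_le h1) with h2 | h2
      · exact not_le_of_gt hlt (Subgroup.subgroupOf_eq_top.1 h2)
      · apply qs_not_comm hA.1
        refine ⟨⟨fun a b => Subtype.ext ?_⟩⟩
        have h3 := h2 (show (⟨a, hlt.le a.2⟩ : D) ∈ A.subgroupOf D from a.2)
        exact (congrArg Subtype.val (Subgroup.mem_center_iff.1 h3 ⟨b, hlt.le b.2⟩)).symm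
    have hlay : layer G = D := by
      apply le_antisymm
      · apply sSup_le
        intro K hK
        rw [huniq K hK]
      · exact le_layer hD
    rw [hlay]
    exact ⟨hlt.le, comp_simple hO hp2 hD⟩
  · -- diagonal
    left
    have hD' : IsComponent (D.map (MulAut.conj t).toMonoidHom) := component_map_equiv (MulAut.conj t) hD
    have hinf : D ⊓ D.map (MulAut.conj t).toMonoidHom = ⊥ := comp_inf_eq_bot hO hp2 hD hD' h.hne.symm
    have hAle : A ≤ D ⊔ D.map (MulAut.conj t).toMonoidHom := by rw [hh]; exact h.diag_le.trans inf_le_left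
    have hinj : Function.Injective h.diag := by
      rw [injective_iff_map_eq_one]
      intro d hd
      have hd' : (d : G) * (t * d * t⁻¹) = 1 := hd
      have h1 : (d : G) ∈ D ⊓ D.map (MulAut.conj t).toMonoidHom := by
        refine ⟨d.2, ?_⟩
        rw [SetLike.mem_coe, eq_inv_of_mul_eq_one_left hd']
        exact Subgroup.inv_mem _ ⟨d, d.2, rfl⟩
      rw [hinf, Subgroup.mem_bot] at h1
      exact Subtype.ext h1
    have hAD0 : A ⊓ D = ⊥ := by
      rw [eq_bot_iff]
      rintro x ⟨hx1, hx2⟩
      have hx1' : x ∈ h.diag.range := by rw [← hh]; exact hx1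
      obtain ⟨d, rfl⟩ := hx1'
      have hx2' : (d : G) * (t * d * t⁻¹) ∈ D := hx2
      have h1 : t * d * t⁻¹ ∈ D ⊓ D.map (MulAut.conj t).toMonoidHom := by
        refine ⟨?_, ⟨d, d.2, rfl⟩⟩
        have := D.mul_mem (D.inv_mem d.2) hx2'
        rwa [inv_mul_cancel_left] at this
      rw [hinf, Subgroup.mem_bot] at h1
      have h2 : (d : G) = 1 := by
        have h3 : (d : G) = t⁻¹ * (t * d * t⁻¹) * t := by group
        rw [h3, h1]; group
      have h4 : d = 1 := Subtype.ext h2
      rw [h4, map_one]; exact Subgroup.mem_bot.2 rfl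
    have hAlN : A ≤ Subgroup.normalizer (D : Set G) := hAE.trans (layer_le_normalizer_comp hD)
    have hDnA : ¬ D ≤ Subgroup.normalizer (A : Set G) := by
      intro h1
      apply hAD
      rw [← Subgroup.commutator_eq_bot_iff_le_centralizer, eq_bot_iff, ← hAD0]
      exact le_inf (Subgroup.le_normalizer_iff_commutator_le_left.mp h1) (Subgroup.le_normalizer_iff_commutator_le_right.mp hAlN)
    have huniq : ∀ D' : Subgroup G, IsComponent D' → D' = D ∨ D' = D.map (MulAut.conj t).toMonoidHom := by
      intro E hE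
      by_contra hne
      push Not at hne
      exact hDnA (std_no_other hA hD hE hne.1 (hcc E hE hAle hne.1 hne.2))
    have hlay : D ⊔ D.map (MulAut.conj t).toMonoidHom = layer G := by
      apply le_antisymm (sup_le (le_layer hD) (le_layer hD'))
      apply sSup_le
      intro K hK
      rcases huniq K hK with h1 | h1
      · rw [h1]; exact le_sup_left
      · rw [h1]; exact le_sup_right
    obtain ⟨hs, hnc⟩ := comp_simple hO hp2 hD
    refine ⟨D, hs, hnc, ⟨(MonoidHom.ofInjective hinj).trans (MulEquiv.subgroupCongr hh.symm)⟩, ?_, hinf, hlay, ?_⟩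
    · rintro a ha _ ⟨b, hb, rfl⟩
      exact h.comm ha hb
    · -- the centraliser
      have hC1 : Subgroup.centralizer ((D ⊔ D.map (MulAut.conj t).toMonoidHom : Subgroup G) : Set G) = ⊥ := by
        rw [hlay, eq_bot_iff]
        have hF : fittingSubgroup G = ⊥ := by rw [fitting_eq_pCore hO, hp2]
        have h1 := centralizer_genFitting_le_fitting (G := G)
        have h2 : generalizedFittingSubgroup G = layer G := by
          rw [generalizedFittingSubgroup, hF, sup_bot_eq]
        rw [hF, h2] at h1
        exact h1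
      -- elements of C(A) normalising D are trivial
      have hkey : ∀ k ∈ Subgroup.centralizer (A : Set G), k ∈ Subgroup.normalizer (D : Set G) → k = 1 := by
        intro k hk hkD
        have hkD' : k ∈ Subgroup.normalizer (D.map (MulAut.conj t).toMonoidHom : Set G) := by
          rw [← map_conj_eq_iff_mem_normalizer]
          have h1 : IsComponent ((D.map (MulAut.conj t).toMonoidHom).map (MulAut.conj k).toMonoidHom) := component_map_equiv (MulAut.conj k) hD'
          rcases huniq _ h1 with h2 | h2
          · exfalso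
            apply h.hne
            have h3 := map_conj_eq_iff_mem_normalizer.2 hkD
            have h4 : (D.map (MulAut.conj t).toMonoidHom).map (MulAut.conj k).toMonoidHom = D.map (MulAut.conj k).toMonoidHom := h2.trans h3.symm
            exact Subgroup.map_injective (f := (MulAut.conj k).toMonoidHom) (MulAut.conj k).injective h4
          · exact h2
        have h1 : k ∈ Subgroup.centralizer ((D ⊔ D.map (MulAut.conj t).toMonoidHom : Subgroup G) : Set G) := by
          have hd : ∀ d ∈ D, k * d * k⁻¹ = d ∧ k * (t * d * t⁻¹) * k⁻¹ = t * d * t⁻¹ := by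
            intro d hd
            have e1 : d * (t * d * t⁻¹) ∈ A := by rw [hh]; exact ⟨⟨d, hd⟩, rfl⟩
            have e2 : k * (d * (t * d * t⁻¹)) * k⁻¹ = d * (t * d * t⁻¹) := by
              rw [mul_inv_eq_iff_eq_mul]; exact ((Subgroup.mem_centralizer_iff.1 hk) _ e1).symm
            have e3 : (k * d * k⁻¹) * (k * (t * d * t⁻¹) * k⁻¹) = d * (t * d * t⁻¹) := by rw [← e2]; group
            have e4 : k * d * k⁻¹ ∈ D := (Subgroup.mem_normalizer_iff.1 hkD d).1 hd
            have e5 : k * (t * d * t⁻¹) * k⁻¹ ∈ D.map (MulAut.conj t).toMonoidHom := (Subgroup.mem_normalizer_iff.1 hkD' _).1 ⟨d, hd, rfl⟩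
            have e6 : d⁻¹ * (k * d * k⁻¹) = (t * d * t⁻¹) * (k * (t * d * t⁻¹) * k⁻¹)⁻¹ := by
              rw [eq_mul_inv_iff_mul_eq, mul_assoc, e3]; group
            have e7 : d⁻¹ * (k * d * k⁻¹) ∈ D ⊓ D.map (MulAut.conj t).toMonoidHom := by
              refine ⟨D.mul_mem (D.inv_mem hd) e4, ?_⟩
              rw [SetLike.mem_coe, e6]
              exact Subgroup.mul_mem _ ⟨d, hd, rfl⟩ (Subgroup.inv_mem _ e5)
            rw [hinf, Subgroup.mem_bot] at e7
            have e8 : k * d * k⁻¹ = d := by rw [inv_mul_eq_one] at e7; exact e7.symm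
            refine ⟨e8, ?_⟩
            rw [e8] at e3
            exact mul_left_cancel e3
          rw [← Subgroup.zpowers_le, Subgroup.le_centralizer_iff, sup_le_iff]
          constructor
          · intro d hd'
            rw [centralizer_zpowers_eq, mem_centralizer_singleton]
            exact (mul_inv_eq_iff_eq_mul.1 (hd d hd').1)
          · rintro _ ⟨d, hd', rfl⟩
            rw [centralizer_zpowers_eq, mem_centralizer_singleton]
            exact (mul_inv_eq_iff_eq_mul.1 (hd d hd').2)
        rw [hC1, Subgroup.mem_bot] at h1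
        exact h1
      apply le_antisymm
      · intro k hk
        by_cases hkD : k ∈ Subgroup.normalizer (D : Set G)
        · rw [hkey k hk hkD]; exact Subgroup.one_mem _
        · have h1 : IsComponent (D.map (MulAut.conj k).toMonoidHom) := component_map_equiv (MulAut.conj k) hD
          rcases huniq _ h1 with h2 | h2
          · exact absurd (map_conj_eq_iff_mem_normalizer.1 h2) hkD
          · have h3 : t⁻¹ * k ∈ Subgroup.normalizer (D : Set G) := by
              rw [← map_conj_eq_iff_mem_normalizer, map_mul]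
              have h4 : (D.map (MulAut.conj k).toMonoidHom).map (MulAut.conj t⁻¹).toMonoidHom = D := by
                rw [h2, Subgroup.map_map]
                have h5 : (MulAut.conj t⁻¹).toMonoidHom.comp (MulAut.conj t).toMonoidHom = MonoidHom.id G := by
                  ext x
                  show t⁻¹ * (t * x * t⁻¹) * t⁻¹⁻¹ = x
                  group
                rw [h5, Subgroup.map_id]
              rw [Subgroup.map_map] at h4
              exact h4
            have h4 := hkey (t⁻¹ * k) (Subgroup.mul_mem _ (Subgroup.inv_mem _ htA) hk) h3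
            rw [inv_mul_eq_one] at h4
            rw [← h4]; exact Subgroup.mem_zpowers t
      · rw [Subgroup.zpowers_le]; exact htA

end Cfsg.Agent.H10
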