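import Mathlib
import Cfsg.Agent.H10.Tri3
import Cfsg.Agent.H10.RankP

set_option autoImplicit false
set_option linter.all false
set_option maxHeartbeats 400000

/-!
# H10.Tri5: rank count in the swapped case
-/

open Cfsg
open scoped commutatorElement

namespace Cfsg.Agent.H10

variable {G : Type*} [Group G]

theorem qs_of_central_quotient {X : Type*} [Group X] {O : Subgroup X} [O.Normal] (hp : commutator X = ⊤)
    (hO : O ≤ Subgroup.center X) (h : IsQuasisimple (X ⧸ O)) : IsQuasisimple X := by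
  haveI : Nontrivial X := by
    have := qs_nontrivial h
    exact (QuotientGroup.mk'_surjective O).nontrivial
  apply qs_of_normal hp
  intro N hN
  have hMn : (N.map (QuotientGroup.mk' O)).Normal := hN.map _ (QuotientGroup.mk'_surjective _)
  rcases qs_normal_eq_top_or_le_center h hMn with h1 | h1
  · left
    rw [eq_top_iff, ← hp, commutator_def, Subgroup.commutator_le]
    intro x _ y _
    have h2 : QuotientGroup.mk' O x ∈ N.map (QuotientGroup.mk' O) := by rw [h1]; trivial
    obtain ⟨n, hn, hnx⟩ := h2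
    rw [QuotientGroup.mk'_apply, QuotientGroup.mk'_apply, QuotientGroup.eq] at hnx
    have h3 := Subgroup.mem_center_iff.1 (hO hnx)
    have h4 : ⁅x, y⁆ = n * (y * n⁻¹ * y⁻¹) := by
      have e1 : x = n * (n⁻¹ * x) := by group
      have e2 : x⁻¹ = (n⁻¹ * x)⁻¹ * n⁻¹ := by group
      have e3 : (n⁻¹ * x) * y = y * (n⁻¹ * x) := (h3 y).symm
      calc ⁅x, y⁆ = n * ((n⁻¹ * x) * y) * x⁻¹ * y⁻¹ := by rw [commutatorElement_def]; group
        _ = n * (y * (n⁻¹ * x)) * x⁻¹ * y⁻¹ := by rw [e3]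
        _ = n * (y * n⁻¹ * y⁻¹) := by group
    rw [h4]
    exact N.mul_mem hn (hN.conj_mem _ (N.inv_mem hn) y)
  · right
    have h2 : ⁅⁅N, (⊤ : Subgroup X)⁆, (⊤ : Subgroup X)⁆ = ⊥ := by
      rw [Subgroup.commutator_eq_bot_iff_le_centralizer, Subgroup.coe_top, Subgroup.centralizer_univ, Subgroup.commutator_le]
      intro n hn x _
      apply hO
      have h3 := h1 ⟨n, hn, rfl⟩
      have h4 := Subgroup.mem_center_iff.1 h3 (QuotientGroup.mk' O x)
      rw [← QuotientGroup.eq_one_iff]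
      show QuotientGroup.mk' O ⁅n, x⁆ = 1
      rw [map_commutatorElement, commutatorElement_eq_one_iff_mul_comm]
      exact h4.symm
    have h3 := commutator_eq_bot_of_perfect (K := (⊤ : Subgroup X)) (H := N) (by rw [← commutator_def, hp]) h2
    rw [Subgroup.commutator_eq_bot_iff_le_centralizer, Subgroup.coe_top, Subgroup.centralizer_univ] at h3
    exact h3

theorem pLayer_le_layer_of_commute [Finite G] {p : ℕ} [hp : Fact p.Prime] (h : ⁅pLayer p G, pPrimeCore p G⁆ = ⊥) :
    pLayer p G ≤ layer G := by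
  rw [Subgroup.commutator_eq_bot_iff_le_centralizer] at h
  apply sSup_le
  intro K hK
  have hKl : K ≤ pLayer p G := le_pLayer hK
  rw [Set.mem_setOf_eq, isPComponent_iff_pqs] at hK
  apply le_layer
  refine ⟨hK.1, ?_⟩
  have h2 := pPrimeCore_map_subtype p hK.1
  refine qs_of_central_quotient hK.2.1.commutator_eq_top ?_ hK.2.2.2
  intro x hx
  have h3 : (x : G) ∈ pPrimeCore p G := by
    have : (x : G) ∈ (pPrimeCore p K).map K.subtype := ⟨x, hx, rfl⟩
    rw [h2] at this
    exact this.1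
  rw [Subgroup.mem_center_iff]
  intro y
  exact Subtype.ext ((Subgroup.mem_centralizer_iff.1 (h (hKl y.2))) _ h3).symm

/-- the rank count -/
theorem swap_big [Finite G] {a : G} {K D B : Subgroup G} (h : Swap a D) (hK : K = h.diag.range)
    (hcard : Nat.card D ≤ Nat.card K) (hKD : ¬ K ≤ Subgroup.centralizer (D : Set G))
    (hB : IsElementaryAbelian 2 B) (haB : a ∈ B) (hBK : B ≤ Subgroup.centralizer (K : Set G))
    {V₀ : Subgroup G} (hV₀K : V₀ ≤ K) (hV₀ : IsElementaryAbelian 2 V₀) (hV₀c : 2 < Nat.card V₀) :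
    ∃ E ≤ Subgroup.centralizer (D : Set G), IsElementaryAbelian 2 E ∧ 2 * Nat.card B ≤ Nat.card E := by
  haveI : Fact (Nat.Prime 2) := ⟨Nat.prime_two⟩
  -- diag is injective
  have hinj : Function.Injective h.diag := by
    have h1 : Function.Bijective h.diag.rangeRestrict := by
      have h2 : Nat.card D = Nat.card h.diag.range := by
        apply le_antisymm (by rw [← hK]; exact hcard)
        exact Nat.card_le_card_of_surjective _ h.diag.rangeRestrict_surjective
      exact (Nat.bijective_iff_surjective_and_card _).2 ⟨h.diag.rangeRestrict_surjective, h2⟩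
    intro x y hxy
    exact h1.1 (Subtype.ext hxy)
  have hD' : IsComponent (D.map (MulAut.conj a).toMonoidHom) := component_map_equiv (MulAut.conj a) h.hD
  have hcent : ∀ b ∈ B, ∀ d ∈ D, b * (d * (a * d * a⁻¹)) * b⁻¹ = d * (a * d * a⁻¹) := by
    intro b hb d hd
    have e1 : d * (a * d * a⁻¹) ∈ K := by rw [hK]; exact ⟨⟨d, hd⟩, rfl⟩
    rw [mul_inv_eq_iff_eq_mul]; exact ((Subgroup.mem_centralizer_iff.1 (hBK hb)) _ e1).symm
  have hKle : K ≤ D ⊔ D.map (MulAut.conj a).toMonoidHom := by rw [hK]; exact h.diag_le.trans inf_le_left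
  have hperm : ∀ b ∈ B, D.map (MulAut.conj b).toMonoidHom = D ∨ D.map (MulAut.conj b).toMonoidHom = D.map (MulAut.conj a).toMonoidHom := by
    intro b hb
    by_contra hne
    push Not at hne
    have hDb : IsComponent (D.map (MulAut.conj b).toMonoidHom) := component_map_equiv (MulAut.conj b) h.hD
    have h1 : K ≤ Subgroup.centralizer ((D.map (MulAut.conj b).toMonoidHom : Subgroup G) : Set G) := by
      refine hKle.trans (sup_le ?_ ?_)
      · exact Subgroup.commutator_eq_bot_iff_le_centralizer.1 (comp_commutes h.hD hDb hne.1.symm)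
      · exact Subgroup.commutator_eq_bot_iff_le_centralizer.1 (comp_commutes hD' hDb hne.2.symm)
    apply hKD
    intro k hk
    rw [Subgroup.mem_centralizer_iff]
    intro d hd
    have h2 := (Subgroup.mem_centralizer_iff.1 (h1 hk)) (b * d * b⁻¹) ⟨d, hd, rfl⟩
    have h3 := (Subgroup.mem_centralizer_iff.1 (hBK hb)) k hk
    -- k * b = b * k
    have h4 : b⁻¹ * k = k * b⁻¹ := by
      rw [inv_mul_eq_iff_eq_mul, ← mul_assoc, ← h3, mul_inv_cancel_right]
    calc d * k = b⁻¹ * (b * d * b⁻¹ * (b * k * b⁻¹)) * b := by group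
      _ = b⁻¹ * (b * d * b⁻¹ * k) * b := by rw [← h3, mul_inv_cancel_right]
      _ = b⁻¹ * (k * (b * d * b⁻¹)) * b := by rw [h2]
      _ = (b⁻¹ * k) * b * d := by group
      _ = k * d := by rw [h4, inv_mul_cancel_right]
  obtain ⟨B₀, hB₀⟩ : ∃ B₀ : Subgroup G, B₀ = B ⊓ Subgroup.normalizer (D : Set G) := ⟨_, rfl⟩
  have hB₀B : B₀ ≤ B := by rw [hB₀]; exact inf_le_left
  have hB₀N : B₀ ≤ Subgroup.normalizer (D : Set G) := by rw [hB₀]; exact inf_le_right
  have hidx : Nat.card B ≤ 2 * Nat.card B₀ := by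
    have h1 := (B₀.subgroupOf B).card_mul_index
    have h2 : Nat.card (B₀.subgroupOf B) = Nat.card B₀ := Nat.card_congr (Subgroup.subgroupOfEquivOfLe hB₀B).toEquiv
    have h3 : (B₀.subgroupOf B).index ≤ 2 := by
      have haN : a ∉ Subgroup.normalizer (D : Set G) := fun h5 => h.hne (map_conj_eq_iff_mem_normalizer.2 h5)
      have h4 : (B₀.subgroupOf B).index = 2 := by
        rw [Subgroup.index_eq_two_iff]
        refine ⟨⟨a, haB⟩, ?_⟩
        rintro ⟨b, hb⟩
        rw [Subgroup.mem_subgroupOf, Subgroup.mem_subgroupOf]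
        have hbm : ∀ c : G, c ∈ B → (c ∈ B₀ ↔ D.map (MulAut.conj c).toMonoidHom = D) := by
          intro c hc
          rw [hB₀, Subgroup.mem_inf, map_conj_eq_iff_mem_normalizer]
          exact ⟨fun h => h.2, fun h => ⟨hc, h⟩⟩
        show Xor (b * a ∈ B₀) (b ∈ B₀)
        rw [hbm b hb, hbm (b * a) (B.mul_mem hb haB)]
        have hcomp : D.map (MulAut.conj (b * a)).toMonoidHom = (D.map (MulAut.conj b).toMonoidHom).map (MulAut.conj a).toMonoidHom := by
          rw [elab_comm hB hb haB, map_mul, Subgroup.map_map]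
          rfl
        rw [hcomp]
        rcases hperm b hb with h5 | h5
        · right
          rw [h5]
          exact ⟨rfl, h.hne⟩
        · left
          rw [h5]
          refine ⟨?_, h.hne⟩
          rw [Subgroup.map_map]
          have h6 : (MulAut.conj a).toMonoidHom.comp (MulAut.conj a).toMonoidHom = MonoidHom.id G := by
            ext x
            show a * (a * x * a⁻¹) * a⁻¹ = x
            exact h.conj_conj x
          rw [h6, Subgroup.map_id]
      omega
    rw [← h1, h2]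
    calc Nat.card B₀ * (B₀.subgroupOf B).index ≤ Nat.card B₀ * 2 := Nat.mul_le_mul_left _ h3
      _ = 2 * Nat.card B₀ := mul_comm _ _
  -- B₀ centralises D and D^a
  have hB₀C : B₀ ≤ Subgroup.centralizer (D : Set G) := by
    intro b hb
    apply mem_centralizer_of_commutator h.hD.2 (hB₀N hb)
    intro d hd
    have hbN' : b ∈ Subgroup.normalizer (D.map (MulAut.conj a).toMonoidHom : Set G) := by
      rw [← map_conj_eq_iff_mem_normalizer, Subgroup.map_map]
      have h5 : (MulAut.conj b).toMonoidHom.comp (MulAut.conj a).toMonoidHom = (MulAut.conj a).toMonoidHom.comp (MulAut.conj b).toMonoidHom := by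
        ext x
        show b * (a * x * a⁻¹) * b⁻¹ = a * (b * x * b⁻¹) * a⁻¹
        have e := elab_comm hB (hB₀B hb) haB
        calc b * (a * x * a⁻¹) * b⁻¹ = (b * a) * x * (b * a)⁻¹ := by group
          _ = (a * b) * x * (a * b)⁻¹ := by rw [e]
          _ = _ := by group
      rw [h5, ← Subgroup.map_map, map_conj_eq_iff_mem_normalizer.2 (hB₀N hb)]
    have e1 := hcent b (hB₀B hb) d hd
    have e3 : (b * d * b⁻¹) * (b * (a * d * a⁻¹) * b⁻¹) = d * (a * d * a⁻¹) := by rw [← e1]; group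
    have e5 : b * (a * d * a⁻¹) * b⁻¹ ∈ D.map (MulAut.conj a).toMonoidHom := (Subgroup.mem_normalizer_iff.1 hbN' _).1 ⟨d, hd, rfl⟩
    -- d b d⁻¹ b⁻¹
    have e6 : d * b * d⁻¹ * b⁻¹ = d * ((b * (a * d * a⁻¹) * b⁻¹) * (a * d * a⁻¹)⁻¹) * d⁻¹ := by
      have e7 : b * d⁻¹ * b⁻¹ = (b * (a * d * a⁻¹) * b⁻¹) * (d * (a * d * a⁻¹))⁻¹ := by
        rw [← e3]; group
      calc d * b * d⁻¹ * b⁻¹ = d * (b * d⁻¹ * b⁻¹) := by group
        _ = _ := by rw [e7]; group
    have hcc : ∀ y ∈ D.map (MulAut.conj a).toMonoidHom, y ∈ Subgroup.centralizer (D : Set G) := by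
      rintro _ ⟨e, he, rfl⟩
      rw [Subgroup.mem_centralizer_iff]
      intro d hd
      exact h.comm hd he
    rw [e6]
    have h9 : d ∈ Subgroup.normalizer (Subgroup.centralizer (D : Set G) : Set G) :=
      normalizer_le_normalizer_centralizer D (Subgroup.le_normalizer hd)
    refine (Subgroup.mem_normalizer_iff.1 h9 _).1 ?_
    exact Subgroup.mul_mem _ (hcc _ e5) (Subgroup.inv_mem _ (hcc _ ⟨d, hd, rfl⟩))
  -- the four-group
  let ψ : D →* G := ((MulAut.conj a).toMonoidHom).comp D.subtype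
  have hψinj : Function.Injective ψ := (MulAut.conj a).injective.comp D.subtype_injective
  obtain ⟨V₁, hV₁⟩ : ∃ V₁ : Subgroup D, V₁ = V₀.comap h.diag := ⟨_, rfl⟩
  have hV₁map : V₁.map h.diag = V₀ := by
    rw [hV₁, Subgroup.map_comap_eq, inf_eq_right.2 (hK ▸ hV₀K)]
  have hV₁e : IsElementaryAbelian 2 V₁ := by
    refine elab_of_comm ?_ ?_
    · intro x hx y hy
      apply hinj
      rw [map_mul, map_mul]
      rw [hV₁] at hx hy
      exact elab_comm hV₀ hx hy
    · intro x hx
      apply hinj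
      rw [map_pow, map_one]
      rw [hV₁] at hx
      exact hV₀.2 _ hx
  have hV₁c : Nat.card V₁ = Nat.card V₀ := by
    rw [← hV₁map]
    exact Nat.card_congr (V₁.equivMapOfInjective h.diag hinj).toEquiv
  obtain ⟨V, hV⟩ : ∃ V : Subgroup G, V = V₁.map ψ := ⟨_, rfl⟩
  have hVe : IsElementaryAbelian 2 V := by rw [hV]; exact elab_map ψ hV₁e
  have hVc : Nat.card V = Nat.card V₀ := by
    rw [hV, ← hV₁c]
    exact (Nat.card_congr (V₁.equivMapOfInjective ψ hψinj).toEquiv).symm
  have hVD : V ≤ D.map (MulAut.conj a).toMonoidHom := by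
    rw [hV]
    rintro _ ⟨x, -, rfl⟩
    exact ⟨x, x.2, rfl⟩
  have hVC : V ≤ Subgroup.centralizer (D : Set G) := by
    refine hVD.trans ?_
    rintro _ ⟨e, he, rfl⟩
    rw [Subgroup.mem_centralizer_iff]
    intro d hd
    exact h.comm hd he
  have hVB : ∀ x ∈ B₀, ∀ y ∈ V, x * y = y * x := by
    intro x hx y hy
    obtain ⟨e, he, rfl⟩ := hVD hy
    have e1 := (Subgroup.mem_centralizer_iff.1 (hB₀C hx)) e he
    -- e * x = x * e
    have e2 := elab_comm hB (hB₀B hx) haB
    show x * (a * e * a⁻¹) = (a * e * a⁻¹) * x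
    have e3 : x * a⁻¹ = a⁻¹ * x := by
      rw [eq_inv_mul_iff_mul_eq, ← mul_assoc, ← e2, mul_inv_cancel_right]
    calc x * (a * e * a⁻¹) = (x * a) * e * a⁻¹ := by group
      _ = a * (x * e) * a⁻¹ := by rw [e2]; group
      _ = a * (e * x) * a⁻¹ := by rw [e1]
      _ = a * e * (x * a⁻¹) := by group
      _ = (a * e * a⁻¹) * x := by rw [e3]; group
  have hinf : B₀ ⊓ V = ⊥ := by
    rw [eq_bot_iff]
    rintro x ⟨hx1, hx2⟩
    obtain ⟨e, he, hex⟩ := hVD hx2
    have hex' : a * e * a⁻¹ = x := hex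
    have e2 := elab_comm hB (hB₀B hx1) haB
    have e3 : a⁻¹ * x * a = x := by rw [mul_assoc, e2, inv_mul_cancel_left]
    have e4 : e = x := by
      rw [← e3, ← hex']; group
    have hxx : x * x = 1 := by
      have := hB.2 x (hB₀B hx1); rwa [pow_two] at this
    have e5 : h.diag ⟨e, he⟩ = 1 := by
      show e * (a * e * a⁻¹) = 1
      rw [hex', e4, hxx]
    have e6 : (⟨e, he⟩ : D) = 1 := hinj (by rw [e5, map_one])
    have e7 : e = 1 := congrArg Subtype.val e6
    rw [Subgroup.mem_bot, ← e4, e7]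
  refine ⟨B₀ ⊔ V, sup_le hB₀C hVC, elab_sup (elab_mono hB hB₀B) hVe hVB, ?_⟩
  have hcardE : Nat.card B₀ * Nat.card V ≤ Nat.card ↥(B₀ ⊔ V) := by
    rw [← Nat.card_prod]
    refine Nat.card_le_card_of_injective (fun z : B₀ × V => (⟨(z.1 : G) * z.2, Subgroup.mul_mem_sup z.1.2 z.2.2⟩ : ↥(B₀ ⊔ V))) ?_
    rintro ⟨⟨x, hx⟩, ⟨y, hy⟩⟩ ⟨⟨x', hx'⟩, ⟨y', hy'⟩⟩ hxy
    have e1 : x * y = x' * y' := congrArg Subtype.val hxy
    have e2 : x'⁻¹ * x = y' * y⁻¹ := by
      rw [inv_mul_eq_iff_eq_mul, ← mul_assoc, ← e1, mul_inv_cancel_right]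
    have e3 : x'⁻¹ * x ∈ B₀ ⊓ V :=
      Subgroup.mem_inf.2 ⟨B₀.mul_mem (B₀.inv_mem hx') hx, by rw [e2]; exact V.mul_mem hy' (V.inv_mem hy)⟩
    rw [hinf, Subgroup.mem_bot] at e3
    have e4 : x' = x := by rwa [inv_mul_eq_one] at e3
    rw [e3] at e2
    have e5 : y' = y := (mul_inv_eq_one.1 e2.symm)
    subst e4 e5
    rfl
  refine le_trans ?_ hcardE
  rw [hVc]
  obtain ⟨m, hm⟩ := IsPGroup.iff_card.1 (elab_isPGroup hV₀)
  have h4 : 4 ≤ Nat.card V₀ := by
    rw [hm] at hV₀c ⊢
    have : 1 < m := by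
      by_contra hcon
      have : m ≤ 1 := by omega
      interval_cases m <;> norm_num at hV₀c
    calc 4 = 2 ^ 2 := by norm_num
      _ ≤ 2 ^ m := Nat.pow_le_pow_right (by norm_num) this
  calc 2 * Nat.card B ≤ 2 * (2 * Nat.card B₀) := Nat.mul_le_mul_left _ hidx
    _ = Nat.card B₀ * 4 := by ring
    _ ≤ Nat.card B₀ * Nat.card V₀ := Nat.mul_le_mul_left _ h4

end Cfsg.Agent.H10
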