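import Mathlib
import Cfsg.Agent.H10.Tri4
import Cfsg.Agent.H10.Tri5

set_option autoImplicit false
set_option linter.all false
set_option maxHeartbeats 400000

/-!
# H10.Tri6: maximal components (Aschbacher)
-/

open Cfsg
open scoped commutatorElement

namespace Cfsg.Agent.H10

theorem max_component {G : Type*} [Group G] [Finite G] (hO : oddCore G = ⊥) (hB : HasBProperty G)
    (a : G) (ha : orderOf a = 2) (K : Subgroup G) (hKa : K ≤ Subgroup.centralizer ({a} : Set G))
    (hK : IsComponent (K.subgroupOf (Subgroup.centralizer ({a} : Set G))))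
    (hmax : ∀ y : G, orderOf y = 2 → ∀ K' : Subgroup G, K' ≤ Subgroup.centralizer ({y} : Set G) →
      IsComponent (K'.subgroupOf (Subgroup.centralizer ({y} : Set G))) → Nat.card ↥K' ≤ Nat.card ↥K ∧
      (Nat.card ↥K' = Nat.card ↥K → ∀ k : ℕ, PRankLE 2 k ↥(Subgroup.centralizer ({a} : Set G) ⊓ Subgroup.centralizer (K : Set G)) →
        PRankLE 2 k ↥(Subgroup.centralizer ({y} : Set G) ⊓ Subgroup.centralizer (K' : Set G))))
    (hrk : ¬ PRankLE 2 1 ↥K) (B : Subgroup G)
    (hBle : B ≤ Subgroup.centralizer ({a} : Set G) ⊓ Subgroup.centralizer (K : Set G)) (hBel : IsElementaryAbelian 2 B)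
    (hBmax : ∀ B' : Subgroup G, B' ≤ Subgroup.centralizer ({a} : Set G) ⊓ Subgroup.centralizer (K : Set G) →
      IsElementaryAbelian 2 B' → Nat.card ↥B' ≤ Nat.card ↥B) (b : G) (hb : b ∈ B) (hb1 : b ≠ 1) :
    K ≤ Subgroup.centralizer ({b} : Set G) ∧ IsComponent (K.subgroupOf (Subgroup.centralizer ({b} : Set G))) := by
  haveI : Fact (Nat.Prime 2) := ⟨Nat.prime_two⟩
  have hb2 : orderOf b = 2 := orderOf_eq_prime (hBel.2 b hb) hb1
  have hBC : B ≤ Subgroup.centralizer ({a} : Set G) := hBle.trans inf_le_left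
  have hBK : B ≤ Subgroup.centralizer (K : Set G) := hBle.trans inf_le_right
  have haK : a ∈ Subgroup.centralizer (K : Set G) := by
    rw [Subgroup.mem_centralizer_iff]
    intro k hk
    exact (mem_centralizer_singleton.1 (hKa hk)).symm
  have haB : a ∈ B := by
    have hz : IsElementaryAbelian 2 (Subgroup.zpowers a) := by
      refine elab_of_comm ?_ ?_
      · rintro _ ⟨m, rfl⟩ _ ⟨n, rfl⟩
        exact (Commute.refl a).zpow_zpow m n
      · rintro _ ⟨m, rfl⟩
        show (a ^ m) ^ 2 = 1
        rw [← zpow_natCast, ← zpow_mul, mul_comm, zpow_mul, zpow_natCast, ← ha, pow_orderOf_eq_one, one_zpow]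
    have h1 : IsElementaryAbelian 2 (B ⊔ Subgroup.zpowers a) := by
      refine elab_sup hBel hz ?_
      rintro x hx _ ⟨m, rfl⟩
      have := mem_centralizer_singleton.1 (hBC hx)
      exact ((show Commute a x from this).symm.zpow_right m)
    have h2 := hBmax _ (sup_le hBle (by
      rw [Subgroup.zpowers_le]
      exact Subgroup.mem_inf.2 ⟨mem_centralizer_singleton.2 rfl, haK⟩)) h1
    have h3 : B = B ⊔ Subgroup.zpowers a := Subgroup.eq_of_le_of_card_ge le_sup_left h2
    rw [h3]
    exact (le_sup_right : Subgroup.zpowers a ≤ _) (Subgroup.mem_zpowers a)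
  have hab : a * b = b * a := elab_comm hBel haB hb
  have hKb : K ≤ Subgroup.centralizer ({b} : Set G) := by
    intro k hk
    rw [mem_centralizer_singleton]
    exact ((Subgroup.mem_centralizer_iff.1 (hBK hb)) k hk).symm
  refine ⟨hKb, ?_⟩
  have hBb : B ≤ Subgroup.centralizer ({b} : Set G) := by
    intro x hx
    rw [mem_centralizer_singleton]
    exact elab_comm hBel hb hx
  -- work in X
  obtain ⟨a', ha'⟩ : ∃ a' : ↥(Subgroup.centralizer ({b} : Set G)), (a' : G) = a := ⟨⟨a, hBb haB⟩, rfl⟩
  have ha'2 : orderOf a' = 2 := by rw [← Subgroup.orderOf_coe, ha']; exact ha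
  have hCa' : Subgroup.centralizer ({a'} : Set ↥(Subgroup.centralizer ({b} : Set G))) =
      (Subgroup.centralizer ({a} : Set G)).subgroupOf (Subgroup.centralizer ({b} : Set G)) := by
    ext x
    rw [Subgroup.mem_subgroupOf, mem_centralizer_singleton, mem_centralizer_singleton, ← ha']
    exact ⟨fun h => congrArg Subtype.val h, fun h => Subtype.ext h⟩
  have hSK : SubnIn K (Subgroup.centralizer ({a} : Set G)) := ⟨hKa, hK.1⟩
  have hKqs : IsQuasisimple K := qs_of_mulEquiv (Subgroup.subgroupOfEquivOfLe hKa) hK.2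
  have hK' : SubnIn (K.subgroupOf (Subgroup.centralizer ({b} : Set G))) (Subgroup.centralizer ({a'} : Set ↥(Subgroup.centralizer ({b} : Set G)))) := by
    rw [hCa']
    exact SubnIn.subgroupOf hSK
  have hK'qs : IsQuasisimple ↥(K.subgroupOf (Subgroup.centralizer ({b} : Set G))) :=
    qs_of_mulEquiv (Subgroup.subgroupOfEquivOfLe hKb).symm hKqs
  have hK'c : IsComponent ((K.subgroupOf (Subgroup.centralizer ({b} : Set G))).subgroupOf (Subgroup.centralizer ({a'} : Set ↥(Subgroup.centralizer ({b} : Set G))))) :=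
    ⟨hK'.2, qs_of_mulEquiv (Subgroup.subgroupOfEquivOfLe hK'.1).symm hK'qs⟩
  have hcom : ⁅pLayer 2 ↥(Subgroup.centralizer ({b} : Set G)), pPrimeCore 2 ↥(Subgroup.centralizer ({b} : Set G))⁆ = ⊥ := by
    have h1 := hB b hb2
    rw [hO, le_bot_iff, Subgroup.map_eq_bot_iff_of_injective _ (Subgroup.subtype_injective _)] at h1
    exact h1
  have hKl : K.subgroupOf (Subgroup.centralizer ({b} : Set G)) ≤ layer ↥(Subgroup.centralizer ({b} : Set G)) :=
    (comp_inv_le_pLayer ha'2 hK'.1 hK'c).trans (pLayer_le_layer_of_commute hcom)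
  obtain ⟨D, hD, hKD, h⟩ := trichotomy ha'2 hK'.1 hK'c hKl
  have hcK : Nat.card ↥(K.subgroupOf (Subgroup.centralizer ({b} : Set G))) = Nat.card K :=
    Nat.card_congr (Subgroup.subgroupOfEquivOfLe hKb).toEquiv
  have hDmap : (D.map (Subgroup.centralizer ({b} : Set G)).subtype).subgroupOf (Subgroup.centralizer ({b} : Set G)) = D := by
    rw [Subgroup.subgroupOf, Subgroup.comap_map_eq_self_of_injective (Subgroup.subtype_injective _)]
  have hDle : D.map (Subgroup.centralizer ({b} : Set G)).subtype ≤ Subgroup.centralizer ({b} : Set G) := Subgroup.map_subtype_le D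
  have hcD : Nat.card ↥(D.map (Subgroup.centralizer ({b} : Set G)).subtype) = Nat.card D :=
    Nat.card_congr (D.equivMapOfInjective _ (Subgroup.subtype_injective _)).toEquiv.symm
  obtain ⟨hm1, hm2⟩ := hmax b hb2 (D.map (Subgroup.centralizer ({b} : Set G)).subtype) hDle (by rw [hDmap]; exact hD)
  rw [hcD] at hm1 hm2
  rcases h with h | ⟨h, -, -⟩ | ⟨h, hh⟩
  · rw [h]; exact hD
  · exfalso
    have h1 : Nat.card ↥(K.subgroupOf (Subgroup.centralizer ({b} : Set G))) < Nat.card D := by
      by_contra hcon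
      exact h.ne (Subgroup.eq_of_le_of_card_ge h.le (not_lt.1 hcon))
    omega
  · exfalso
    -- the four-group
    unfold PRankLE at hrk
    push Not at hrk
    obtain ⟨V, hV1, hV2, hV3⟩ := hrk
    have hVe : IsElementaryAbelian 2 V := ⟨hV1, hV2⟩
    have hVm : IsElementaryAbelian 2 (V.map K.subtype) := elab_map _ hVe
    have hVmK : V.map K.subtype ≤ K := Subgroup.map_subtype_le V
    have hVc : Nat.card ↥((V.map K.subtype).subgroupOf (Subgroup.centralizer ({b} : Set G))) = Nat.card V := by
      rw [Nat.card_congr (Subgroup.subgroupOfEquivOfLe (hVmK.trans hKb)).toEquiv]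
      exact Nat.card_congr (V.equivMapOfInjective _ (Subgroup.subtype_injective _)).toEquiv.symm
    obtain ⟨E, hE1, hE2, hE3⟩ := swap_big (B := B.subgroupOf (Subgroup.centralizer ({b} : Set G))) h hh (by rw [hcK]; exact hm1) hKD
      (elab_subgroupOf hBel _) (by rw [Subgroup.mem_subgroupOf, ha']; exact haB) (by
        intro x hx
        rw [Subgroup.mem_centralizer_iff]
        intro k hk
        exact Subtype.ext ((Subgroup.mem_centralizer_iff.1 (hBK hx)) k hk))
      (V₀ := (V.map K.subtype).subgroupOf (Subgroup.centralizer ({b} : Set G)))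
      (fun x hx => hVmK hx) (elab_subgroupOf hVm _) (by rw [hVc]; simpa using hV3)
    have hBc : Nat.card ↥(B.subgroupOf (Subgroup.centralizer ({b} : Set G))) = Nat.card B :=
      Nat.card_congr (Subgroup.subgroupOfEquivOfLe hBb).toEquiv
    rw [hBc] at hE3
    obtain ⟨m, hm⟩ := IsPGroup.iff_card.1 (elab_isPGroup hBel)
    have hDK : Nat.card D = Nat.card K := by
      apply le_antisymm hm1
      rw [← hcK, hh]
      exact Nat.card_le_card_of_surjective _ h.diag.rangeRestrict_surjective
    have hr1 : PRankLE 2 m ↥(Subgroup.centralizer ({a} : Set G) ⊓ Subgroup.centralizer (K : Set G)) := by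
      intro A hA1 hA2
      have h1 := hBmax (A.map (Subgroup.centralizer ({a} : Set G) ⊓ Subgroup.centralizer (K : Set G)).subtype) (Subgroup.map_subtype_le A)
        (elab_map _ ⟨hA1, hA2⟩)
      rw [hm] at h1
      rwa [Nat.card_congr (A.equivMapOfInjective _ (Subgroup.subtype_injective _)).toEquiv.symm] at h1
    have hr2 := hm2 hDK m hr1
    have hEm : E.map (Subgroup.centralizer ({b} : Set G)).subtype ≤
        Subgroup.centralizer ({b} : Set G) ⊓ Subgroup.centralizer ((D.map (Subgroup.centralizer ({b} : Set G)).subtype : Subgroup G) : Set G) := by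
      refine le_inf (Subgroup.map_subtype_le E) ?_
      rintro _ ⟨e, he, rfl⟩
      rw [Subgroup.mem_centralizer_iff]
      rintro _ ⟨d, hd, rfl⟩
      exact congrArg Subtype.val ((Subgroup.mem_centralizer_iff.1 (hE1 he)) d hd)
    have h5 := hr2 ((E.map (Subgroup.centralizer ({b} : Set G)).subtype).subgroupOf _)
      (elab_subgroupOf (elab_map _ hE2) _).1 (elab_subgroupOf (elab_map _ hE2) _).2
    rw [Nat.card_congr (Subgroup.subgroupOfEquivOfLe hEm).toEquiv,
      Nat.card_congr (E.equivMapOfInjective _ (Subgroup.subtype_injective _)).toEquiv.symm] at h5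
    have h6 : 0 < Nat.card B := Nat.card_pos
    omega

end Cfsg.Agent.H10
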